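import Cfsg.Agent.Lib.S6Q.Pl
import Cfsg.Agent.Lib.O7.L4
import Cfsg.Agent.Lib.O7.U5
import Cfsg.Agent.Lib.Unitary.Gram

/-!
# Classical groups of dimension four and five, odd `q`

`Cv.no_sl2sl2` (`O7.S4.i1`, `i2`, `O7.L4.j`; for `U₄` two blocks `SU₂ ≅ SL₂(q)`, or `Cv.no_q8q8` with explicit
matrices), `Cv.no_16_5` (diagonal signs and a permutation matrix).
-/

set_option autoImplicit false

namespace Cfsg.Lib.S6Q

open scoped MatrixGroups Matrix commutatorElement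
open Cfsg.Geo Cfsg.Lib.Asch Cfsg.Lib.Linear Cfsg.Lib.Q4 Cfsg.Lib.Symp Module
open Cfsg.Lib.Q4R (Sq HasTv sc dg)

variable {K : Type*} [Field K] [IsAlgClosed K] {X : Type*} [Group X] {Y : Subgroup (G6 K)} {π : Y →* X}
  {E : Type*} [Field E] [Fintype E]

theorem Cv.cl_two (h : Cv Y π) (ho : Odd (Fintype.card E)) (φ : SL(2, E) × SL(2, E) →* X) (h1 : φ (-1, 1) ≠ 1)
    (h2 : φ (-1, -1) = 1) : False := by
  refine h.no_sl2sl2 ho ho (φ.comp (MonoidHom.inl _ _)) (φ.comp (MonoidHom.inr _ _)) h1 ?_ fun a b => ?_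
  · change φ (-1, 1) = φ (1, -1)
    rw [← mul_one (φ (-1, 1)), ← h2, ← map_mul]
    simp
  · exact Commute.map (show Commute ((a, 1) : SL(2, E) × SL(2, E)) (1, b) from Prod.ext (by simp) (by simp)) φ

theorem Cv.cl_sp4 (h : Cv Y π) (ho : Odd (Fintype.card E)) {F : Matrix.symplecticGroup (Fin 2) E →* X}
    (k : F.ker = Subgroup.center _) : False := by
  have h2 := two_ne_zero_iff_odd_card.2 ho
  refine h.cl_two ho (F.comp O7.S4.i12) (fun e => ?_) ?_
  · have e1 : O7.S4.i12 ((-1, 1) : SL(2, E) × SL(2, E)) ∈ Subgroup.center _ := k.le e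
    rcases (mem_center_sp_iff _).1 e1 with e2 | e2
    · have := congrArg (fun g : Matrix.symplecticGroup (Fin 2) E => g.1 (.inl 0) (.inl 0)) e2
      simp [O7.S4.coe_i12] at this
      exact h2 (by linear_combination -this)
    · have := congrArg (fun g : Matrix.symplecticGroup (Fin 2) E => g.1 (.inl 1) (.inl 1)) e2
      simp [O7.S4.coe_i12, negOneSp] at this
      exact h2 (by linear_combination this)
  · rw [MonoidHom.comp_apply, O7.S4.i12_neg]
    exact k.ge ((mem_center_sp_iff _).2 (.inr rfl))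

/-- block diagonal matrices -/
def clB {E : Type*} [Field E] (A B : Matrix (Fin 2) (Fin 2) E) : Matrix (Fin 4) (Fin 4) E :=
  Matrix.reindex finSumFinEquiv finSumFinEquiv (Matrix.fromBlocks A 0 0 B)

theorem clB_mul {E : Type*} [Field E] (A B A' B' : Matrix (Fin 2) (Fin 2) E) :
    clB A B * clB A' B' = clB (A * A') (B * B') := by
  simp only [clB, Matrix.reindex_apply, Matrix.submatrix_mul_equiv, Matrix.fromBlocks_multiply]
  simp

theorem clB_star {E : Type*} [Field E] (σ : E →+* E) (A B : Matrix (Fin 2) (Fin 2) E) :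
    ((clB A B).map σ)ᵀ = clB (A.map σ)ᵀ (B.map σ)ᵀ := by
  ext i j
  fin_cases i <;> fin_cases j <;> simp [clB, finSumFinEquiv, Fin.addCases]

theorem clB_smul {E : Type*} [Field E] (c : E) : clB (c • 1) (c • 1) = c • (1 : Matrix (Fin 4) (Fin 4) E) := by
  ext i j
  fin_cases i <;> fin_cases j <;> simp [clB, finSumFinEquiv, Fin.addCases]

/-- `SU₂ × SU₂ ≤ SU₄` -/
def clU {E : Type*} [Field E] {q : ℕ} {σ : E →+* E} (hσ : Unitary.IsBar q σ) : SU 2 E q × SU 2 E q →* SU 4 E q :=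
  MonoidHom.mk' (fun x => ⟨⟨clB x.1.1.1 x.2.1.1, by
      rw [clB, Matrix.det_reindex_self, Matrix.det_fromBlocks_zero₂₁, x.1.1.2, x.2.1.2, mul_one]⟩,
    hσ.mem_SU_iff.2 (by
      change ((clB x.1.1.1 x.2.1.1).map σ)ᵀ * clB x.1.1.1 x.2.1.1 = 1
      rw [clB_star, clB_mul, hσ.mem_SU_iff.1 x.1.2, hσ.mem_SU_iff.1 x.2.2]
      simpa using clB_smul (1 : E))⟩) fun _ _ => Subtype.ext (Subtype.ext (clB_mul _ _ _ _).symm)

/-- integral orthogonal matrices -/
def clO : Subgroup SL(5, ℤ) where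
  carrier := {g | g.1ᵀ * g.1 = 1}
  one_mem' := by simp
  mul_mem' {a b} ha hb := by
    change (a.1 * b.1)ᵀ * (a.1 * b.1) = 1
    rw [Matrix.transpose_mul, Matrix.mul_assoc, ← Matrix.mul_assoc a.1ᵀ, show a.1ᵀ * a.1 = 1 from ha, Matrix.one_mul]
    exact hb
  inv_mem' {a} ha := by
    have e : (a⁻¹).1 = a.1ᵀ := by
      have e1 : a.1 * (a⁻¹).1 = 1 := congrArg Subtype.val (mul_inv_cancel a)
      rw [← Matrix.one_mul (a⁻¹).1, ← show a.1ᵀ * a.1 = 1 from ha, Matrix.mul_assoc, e1, Matrix.mul_one]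
    change (a⁻¹).1ᵀ * (a⁻¹).1 = 1
    rw [e, Matrix.transpose_transpose]
    exact mul_eq_one_comm.1 ha

/-- the diagonal involutions -/
def clT (s : Fin 16) : clO := ⟨⟨O7.U5.mT s, O7.U5.det_mT s⟩, by
  obtain ⟨-, -, -, -, -, -, -, -, -, -, -, -, h1, h2, -⟩ := O7.U5.rel s
  change (O7.U5.mT s)ᵀ * O7.U5.mT s = 1
  rw [h1, h2]⟩

/-- a five-cycle -/
def clM : Matrix (Fin 5) (Fin 5) ℤ := Matrix.of fun i j => if j = i + 1 then 1 else 0

theorem clM_det : clM.det = 1 := by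
  have : clM = (finRotate 5).permMatrix ℤ := by decide +kernel
  rw [this, Matrix.det_permutation, sign_finRotate]
  simp

/-- a five-cycle -/
def clP : clO := ⟨⟨clM, clM_det⟩, show clMᵀ * clM = 1 by decide +kernel⟩

omit [Fintype E] in
theorem Cv.cl_five (h : Cv Y π) (h2 : (2 : E) ≠ 0) (F : clO →* X)
    (k : ∀ g, F g = 1 → ∃ a : E, ∀ i, ((g.1.1 i i : ℤ) : E) = a) : False := by
  have mul : ∀ {i j l : Fin 16}, O7.U5.mT i * O7.U5.mT j = O7.U5.mT l → clT i * clT j = clT l := fun e =>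
    Subtype.ext (Subtype.ext e)
  have z : F (clT 0) = 1 := by
    rw [show clT 0 = 1 from Subtype.ext (Subtype.ext (show O7.U5.mT 0 = 1 by decide +kernel)), map_one]
  have k1 : ∀ i, F (clT i) = 1 → i = 0 := fun i c => by
    by_contra n
    obtain ⟨a, ha⟩ := k _ c
    obtain ⟨x, y, hx, hy⟩ := (by decide +kernel : ∀ i : Fin 16, i ≠ 0 →
      ∃ x y, O7.U5.mT i x x = -1 ∧ O7.U5.mT i y y = 1) i n
    have e1 : ∀ x, ((O7.U5.mT i x x : ℤ) : E) = a := ha
    have e2 := (e1 x).trans (e1 y).symm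
    rw [hx, hy] at e2
    push_cast at e2
    exact h2 (by linear_combination -e2)
  have sq : ∀ i, F (clT i) * F (clT i) = 1 := fun i => by
    rw [← map_mul, mul (l := 0) (by revert i; decide +kernel), z]
  have ml : ∀ i j : Fin 16, ∃ l, (l = 0 → i = j) ∧ O7.U5.mT i * O7.U5.mT j = O7.U5.mT l := by decide +kernel
  let A : Subgroup X :=
    { carrier := Set.range fun i => F (clT i)
      one_mem' := ⟨0, z⟩
      mul_mem' := by
        rintro _ _ ⟨i, rfl⟩ ⟨j, rfl⟩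
        exact (ml i j).imp fun l e => by rw [← map_mul, mul e.2]
      inv_mem' := by
        rintro _ ⟨i, rfl⟩
        exact ⟨i, (inv_eq_of_mul_eq_one_left (sq i)).symm⟩ }
  have inj : Function.Injective fun i => F (clT i) := fun i j c => by
    obtain ⟨l, h1, h2⟩ := ml i j
    exact h1 (k1 l (by rw [← mul h2, map_mul, show F (clT i) = F (clT j) from c, sq]))
  let f : Fin 16 ≃ A := Equiv.ofInjective _ inj
  have cj : ∀ {i l : Fin 16}, clM * O7.U5.mT i = O7.U5.mT l * clM → F clP * F (clT i) = F (clT l) * F clP :=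
    fun e => by rw [← map_mul, ← map_mul]; exact congrArg F (Subtype.ext (Subtype.ext e))
  have pm : ∀ i : Fin 16, ∃ l, (i = 1 → l ≠ 1) ∧ clM * O7.U5.mT i = O7.U5.mT l * clM := by decide +kernel
  refine h.no_16_5 (E := A) (x := F clP) (by rw [← Nat.card_congr f, Nat.card_fin]) ?_ ?_ ?_ ⟨_, ⟨1, rfl⟩, fun c => ?_⟩
  · rintro _ ⟨i, rfl⟩; exact sq i
  · rw [← map_pow, show clP ^ 5 = 1 from Subtype.ext (Subtype.ext (show clM ^ 5 = 1 by decide +kernel)), map_one]
  · rintro _ ⟨i, rfl⟩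
    obtain ⟨l, -, e⟩ := pm i
    exact ⟨l, (mul_inv_eq_iff_eq_mul.2 (cj e)).symm⟩
  · obtain ⟨l, n, e⟩ := pm 1
    exact n rfl (inj (mul_right_cancel ((cj e).symm.trans c.eq)))

theorem Cv.no_Sp4 (ho : Odd (Fintype.card E)) {π : Y →* PSp 2 E} (h : Cv Y π) : False := by
  exact h.cl_sp4 ho (QuotientGroup.ker_mk' _)

theorem Cv.no_L4 (ho : Odd (Fintype.card E)) {π : Y →* PSL(4, E)} (h : Cv Y π) : False := by
  obtain ⟨F, -, k, -⟩ := O7.L4.exists_F (RingEquiv.refl E) (φ := MonoidHom.id PSL(4, E)) (fun _ _ e => e) rfl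
  exact h.cl_sp4 ho (O7.L4.ker_j k)

theorem Cv.no_U4 {q : ℕ} (hq : Fintype.card E = q ^ 2) (ho : Odd q) {π : Y →* PSU 4 E q} (h : Cv Y π) :
    False := by
  obtain ⟨σ, hσ⟩ := Unitary.exists_isBar hq
  have h2 : (2 : E) ≠ 0 := two_ne_zero_iff_odd_card.2 (by rw [hq]; exact ho.pow)
  have := Fintype.ofFinite (Unitary.fixedField σ)
  have ho' : Odd (Fintype.card (Unitary.fixedField σ)) := by
    rw [← Nat.card_eq_fintype_card, hσ.card_fixedField]; exact ho
  obtain ⟨ψ⟩ := Unitary.nonempty_SU_two_equiv hq hσ.card_fixedField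
  have hψ : (ψ.symm (-1)).1 = -1 := by
    have e : (ψ.symm (-1)).1 * (ψ.symm (-1)).1 = 1 := by
      rw [← Subgroup.coe_mul, ← map_mul, neg_one_mul, neg_neg, map_one]; rfl
    refine (PSL2.eq_one_or_neg_one_of_mul_self h2 e).resolve_left fun e => ?_
    exact PSL2.sl_neg_one_ne_one (two_ne_zero_iff_odd_card.2 ho')
      (ψ.symm.injective ((Subtype.ext e).trans (map_one ψ.symm).symm))
  have hv : ∀ a b, (clU hσ (ψ.symm a, ψ.symm b)).1.1 = clB (ψ.symm a).1.1 (ψ.symm b).1.1 := fun _ _ => rfl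
  refine h.cl_two ho' (((QuotientGroup.mk' _).comp (clU hσ)).comp
    (ψ.symm.toMonoidHom.prodMap ψ.symm.toMonoidHom)) (fun e => ?_) ?_
  · obtain ⟨a, ha⟩ := (Unitary.mem_center_SU hq (by norm_num)).1 ((QuotientGroup.eq_one_iff _).1 e)
    change (clU hσ (ψ.symm (-1), ψ.symm 1)).1.1 = _ at ha
    rw [hv, hψ, map_one] at ha
    have e0 := congrFun₂ ha 0 0
    have e1 := congrFun₂ ha 2 2
    simp [clB, finSumFinEquiv, Fin.addCases] at e0 e1
    exact h2 (by linear_combination e1 - e0)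
  · refine (QuotientGroup.eq_one_iff _).2 ((Unitary.mem_center_SU hq (by norm_num)).2 ⟨-1, ?_⟩)
    change (clU hσ (ψ.symm (-1), ψ.symm (-1))).1.1 = _
    rw [hv, hψ]
    simpa using clB_smul (-1 : E)

theorem Cv.no_L5 (ho : Odd (Fintype.card E)) {π : Y →* PSL(5, E)} (h : Cv Y π) : False := by
  refine h.cl_five (two_ne_zero_iff_odd_card.2 ho) (((QuotientGroup.mk' _).comp
    (Matrix.SpecialLinearGroup.map (Int.castRingHom E))).comp clO.subtype) fun g e => ?_
  obtain ⟨r, -, hr⟩ := Matrix.SpecialLinearGroup.mem_center_iff.1 ((QuotientGroup.eq_one_iff _).1 e)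
  exact ⟨r, fun i => by simpa using (congrFun₂ hr i i).symm⟩

theorem Cv.no_U5 {q : ℕ} (hq : Fintype.card E = q ^ 2) (ho : Odd q) {π : Y →* PSU 5 E q} (h : Cv Y π) :
    False := by
  obtain ⟨σ, hσ⟩ := Unitary.exists_isBar hq
  have h2 : (2 : E) ≠ 0 := two_ne_zero_iff_odd_card.2 (by rw [hq]; exact ho.pow)
  let G : clO →* SU 5 E q := ((Matrix.SpecialLinearGroup.map (Int.castRingHom E)).comp clO.subtype).codRestrict _
    fun g => hσ.mem_SU_iff.2 (by
      change ((O7.U5.cz E g.1.1).map σ)ᵀ * O7.U5.cz E g.1.1 = 1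
      rw [O7.U5.cz_star, ← map_mul, show g.1.1ᵀ * g.1.1 = 1 from g.2, map_one])
  refine h.cl_five h2 ((QuotientGroup.mk' _).comp G) fun g e => ?_
  obtain ⟨a, ha⟩ := (Unitary.mem_center_SU hq (by norm_num)).1 ((QuotientGroup.eq_one_iff _).1 e)
  exact ⟨a, fun i => (congrFun₂ ha i i).trans (by simp)⟩

end Cfsg.Lib.S6Q
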