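import Cfsg.Agent.Lib.S6Q.Def2

/-!
# Projective symplectic representations of degree six in any characteristic
-/

set_option autoImplicit false

namespace Cfsg.Lib.S6Q

open scoped MatrixGroups Matrix
open Cfsg.Geo Cfsg.Lib.Asch Cfsg.Lib.Orth
open Cfsg.Lib.O7 (Q stabS sU)

variable {K : Type*} [Field K] {X X' : Type*} [Group X] [Group X']

/-- A finite subgroup `Y` of `Sp₆(K)` with `Y / Y ∩ ± 1 = X`. -/
structure Cw (Y : Subgroup (G6 K)) (π : Y →* X) : Prop where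
  fin : Finite Y
  sp : Y ≤ Sp K
  neg : -1 ∈ Y
  surj : Function.Surjective π
  ker : ∀ g : Y, π g = 1 ↔ g.1 = 1 ∨ g.1 = -1

theorem Cv.cw {Y : Subgroup (G6 K)} {π : Y →* X} (h : Cv Y π) : Cw Y π :=
  ⟨h.fin, h.sp, h.neg, h.surj, h.ker⟩

namespace Cw

variable {Y : Subgroup (G6 K)} {π : Y →* X} (h : Cw Y π)
include h

theorem finX : Finite X := have := h.fin; .of_surjective _ h.surj

theorem neg_mem {g : G6 K} (hg : g ∈ Y) : -g ∈ Y := by simpa using Y.mul_mem h.neg hg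

theorem comp (e : X ≃* X') : Cw Y (e.toMonoidHom.comp π) :=
  ⟨h.fin, h.sp, h.neg, e.surjective.comp h.surj, fun g => by
    rw [← h.ker]; exact map_eq_one_iff e e.injective⟩

theorem eq_iff {g g' : Y} : π g = π g' ↔ g.1 = g'.1 ∨ g.1 = -g'.1 := by
  rw [← mul_inv_eq_one, ← map_inv, ← map_mul, h.ker, Subgroup.coe_mul, Subgroup.coe_inv,
    mul_inv_eq_one, mul_inv_eq_iff_eq_mul, neg_one_mul]

theorem sub {f : X' →* X} (hf : Function.Injective f) :
    ∃ (Y' : Subgroup (G6 K)) (l : Y' ≤ Y) (π' : Y' →* X'), Cw Y' π' ∧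
      ∀ g, f (π' g) = π (Subgroup.inclusion l g) := by
  let Y' := (f.range.comap π).map Y.subtype
  have l : Y' ≤ Y := Subgroup.map_subtype_le _
  have m : ∀ g : Y', π (Subgroup.inclusion l g) ∈ f.range := fun g => by
    obtain ⟨_, y, hy, rfl⟩ := g
    exact hy
  let φ : Y' →* f.range := (π.comp (Subgroup.inclusion l)).codRestrict _ m
  let π' : Y' →* X' := (MonoidHom.ofInjective hf).symm.toMonoidHom.comp φ
  have k : ∀ g, f (π' g) = π (Subgroup.inclusion l g) := fun g =>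
    congrArg Subtype.val ((MonoidHom.ofInjective hf).apply_symm_apply (φ g))
  have := h.fin
  refine ⟨Y', l, π', ⟨.of_injective _ (Subgroup.inclusion_injective l), l.trans h.sp,
    ⟨⟨-1, h.neg⟩, ?_, rfl⟩, fun x => ?_, fun g => ?_⟩, k⟩
  · exact ⟨1, by rw [map_one]; exact ((h.ker _).2 (.inr rfl)).symm⟩
  · obtain ⟨y, hy⟩ := h.surj (f x)
    exact ⟨⟨y, y, ⟨x, hy.symm⟩, rfl⟩, hf ((k _).trans hy)⟩
  · rw [← map_eq_one_iff f hf, k, h.ker]; rfl

theorem lift {x : X} {n : ℕ} (hn : Odd n) (hx : x ^ n = 1) : ∃ g : Y, π g = x ∧ g.1 ^ n = 1 := by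
  obtain ⟨g, rfl⟩ := h.surj x
  rcases (h.ker (g ^ n)).1 (by rw [map_pow, hx]) with e | e
  · exact ⟨g, rfl, e⟩
  · refine ⟨⟨-g.1, h.neg_mem g.2⟩, h.eq_iff.2 (.inr rfl), ?_⟩
    change (-g.1) ^ n = 1
    rw [hn.neg_pow, ← Subgroup.coe_pow, e, neg_neg]

theorem lift_unique {g g' : Y} {n : ℕ} (hn : Odd n) (e : π g = π g') (hg : g.1 ^ n = 1)
    (hg' : g'.1 ^ n = 1) : g = g' := by
  rcases h.eq_iff.1 e with e | e
  · exact Subtype.ext e
  · have : (-1 : G6 K) = 1 := by rw [e, hn.neg_pow, hg'] at hg; exact hg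
    exact Subtype.ext (by rw [e, ← neg_one_mul, this, one_mul])

/-- Relations `y g y⁻¹ = g'` between elements of odd order lift. -/
theorem conj {g g' y : Y} {n : ℕ} (hn : Odd n) (hg : g.1 ^ n = 1) (hg' : g'.1 ^ n = 1)
    (e : π y * π g * (π y)⁻¹ = π g') : y.1 * g.1 * y.1⁻¹ = g'.1 :=
  congrArg Subtype.val (h.lift_unique (g := y * g * y⁻¹) hn (by rw [map_mul, map_mul, map_inv, e])
    (by change (y.1 * g.1 * y.1⁻¹) ^ n = 1; rw [conj_pow, hg]; simp) hg')

theorem commute {g y : Y} {n : ℕ} (hn : Odd n) (hg : g.1 ^ n = 1) (e : Commute (π y) (π g)) :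
    Commute y.1 g.1 :=
  mul_inv_eq_iff_eq_mul.1 (h.conj hn hg hg (by rw [e.eq, mul_inv_cancel_right]))

/-- Lifts of generators, together with `-1`, generate. -/
theorem irr_of_closure (hi : Irr Y) {s : Set Y} (e : Subgroup.closure (π '' s) = ⊤) :
    Irr (Subgroup.closure (Subtype.val '' s)) := fun Z hZ => hi Z fun g hg v hv => by
  have : π ⟨g, hg⟩ ∈ (Subgroup.closure s).map π := by rw [MonoidHom.map_closure, e]; trivial
  obtain ⟨y, hy, e⟩ := this
  have m : y.1 ∈ Subgroup.closure (Subtype.val '' s) := by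
    rw [← Subgroup.coe_subtype, ← MonoidHom.map_closure]; exact ⟨y, hy, rfl⟩
  rcases h.eq_iff.1 e.symm with e | e
  · change g = _ at e; rw [e]; exact hZ _ m v hv
  · change g = _ at e; rw [e, Units.val_neg, Matrix.neg_mulVec]; exact Z.neg_mem (hZ _ m v hv)

end Cw

/-- The characteristic two case as a `Cw`. -/
theorem Ev0.cw {M : Subgroup (O (Q K))} (h : Ev0 M) (e : M ≃* X) :
    ∃ π : M.map (sp2 h.two) →* X, Cw (M.map (sp2 h.two)) π ∧ Irr (M.map (sp2 h.two)) ∧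
      ∀ g : M, π ⟨sp2 h.two g.1, g.1, g.2, rfl⟩ = e g := by
  let i : M ≃* M.map (sp2 h.two) := M.equivMapOfInjective _ (sp2_inj h.two)
  have k : ∀ g : M, i.symm ⟨sp2 h.two g.1, g.1, g.2, rfl⟩ = g := fun g => i.symm_apply_apply g
  have n : (-1 : G6 K) = 1 := Units.ext (by
    ext a b
    simp only [Units.val_neg, Units.val_one, Matrix.neg_apply]
    linear_combination (-(1 : Matrix I6 I6 K) a b) * h.two)
  have := h.fin
  refine ⟨(i.symm.trans e).toMonoidHom, ⟨.of_equiv _ i.toEquiv, ?_, by rw [n]; exact one_mem _,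
    (i.symm.trans e).surjective, fun g => ?_⟩, fun Z hZ => ?_, fun g => congrArg e (k g)⟩
  · rintro _ ⟨g, -, rfl⟩; exact sp2_mem h.two g
  · rw [n, or_self, OneMemClass.coe_eq_one]; exact map_eq_one_iff _ (i.symm.trans e).injective
  · rcases h.inv (Z.comap pr) (fun g hg v hv => by
      change pr _ ∈ Z
      rw [← sp2_pr h.two]; exact hZ _ ⟨g, hg, rfl⟩ _ hv) with l | l
    · refine .inl (eq_bot_iff.2 fun v hv => ?_)
      rw [← pr_inc v]; exact pr_eq_zero.2 (l (show inc v ∈ Z.comap pr from hv))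
    · exact .inr (eq_top_iff.2 fun v _ => (l.ge (Submodule.mem_top (x := inc v)) :))

end Cfsg.Lib.S6Q
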