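import Cfsg.Agent.Lib.S6Q.DKb

/-!
# Lemma M
-/

set_option autoImplicit false
set_option linter.unusedSimpArgs false

namespace Cfsg.Lib.S6Q

open scoped MatrixGroups Matrix commutatorElement
open QuadraticMap Module Cfsg.Lib.Orth Cfsg.Lib.Asch
open Cfsg.Lib.O7 (V W Q N I7 Spin phi act gam sU dm fx stabS stabV dgV)

variable {K : Type*} [Field K] {M : Subgroup (O (Q K))} {a y b z s s' p : V K} {g t h : O (Q K)}

/-- `[x a + y b, μ] = eich (x a + y b) z · μ a ∧ b`. -/
noncomputable def lmE (a b z : V K) (x y μ : K) : O (Q K) := wd (x • a + y • b) z * wd a (μ • b)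

theorem lm_sing (l : Ln a b) (x y : K) : Q K (x • a + y • b) = 0 := by
  have := l.p
  simp only [B] at this
  simp [Q_add, Q_smul, l.qa, l.qy, polar_smul_left', polar_smul_right', this]

section Two

variable (h2 : (2 : K) = 0)
include h2

theorem lmE_apply (l : Ln a b) (ha : B a z = 0) (hb : B b z = 0) (x y μ : K) (v : V K) :
    (lmE a b z x y μ).1 v = v + (μ * B b v + (B z v + Q K z * (x * B a v + y * B b v)) * x) • a +
      (μ * B a v + (B z v + Q K z * (x * B a v + y * B b v)) * y) • b + (x * B a v + y * B b v) • z := by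
  have e1 : B (x • a + y • b) z = 0 := by simp [B, polar_add_left, polar_smul_left', ha, hb]
  have e2 : B a (μ • b) = 0 := by simp [B, polar_smul_right', l.p]
  have e3 := B_self h2 a
  have e4 := B_self h2 b
  have e5 := l.p
  have e6 := (B_comm b a).trans e5
  have e7 := (B_comm z a).trans ha
  have e8 := (B_comm z b).trans hb
  rw [lmE, O.mul_apply, wd_apply h2 (lm_sing l x y) e1, wd_apply h2 l.qa e2]
  simp only [B] at *
  simp only [polar_add_left, polar_add_right, polar_smul_left', polar_smul_right', e3, e4, e5, e6, e7, e8, Q_smul,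
    l.qy]
  module

theorem lmE_mul (l : Ln a b) (ha : B a z = 0) (hb : B b z = 0) (x y μ x' y' μ' : K) :
    lmE a b z x y μ * lmE a b z x' y' μ' =
      lmE a b z (x + x') (y + y') (μ + μ' + Q K z * (x * y' + y * x')) := O.ext fun v => by
  have e3 := B_self h2 a
  have e4 := B_self h2 b
  have e5 := l.p
  have e6 := (B_comm b a).trans e5
  have e7 := (B_comm z a).trans ha
  have e8 := (B_comm z b).trans hb
  have e9 := B_self h2 z
  rw [O.mul_apply, lmE_apply h2 l ha hb, lmE_apply h2 l ha hb, lmE_apply h2 l ha hb]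
  simp only [B] at *
  simp only [polar_add_right, polar_smul_right', e3, e4, e5, e6, e7, e8, e9, ha, hb]
  match_scalars <;> grind

/-- Conjugation by an element acting with determinant one on the line and trivially on `z` modulo the line. -/
theorem lmE_conj (l : Ln a b) (ha : B a z = 0) (hb : B b z = 0) {m₁ m₂ m₃ m₄ c d : K}
    (ga : g.1 a = m₁ • a + m₂ • b) (gb : g.1 b = m₃ • a + m₄ • b) (e : m₁ * m₄ + m₂ * m₃ = 1)
    (gz : g.1 z = z + (c • a + d • b)) (x y μ : K) : g * lmE a b z x y μ * g⁻¹ =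
      lmE a b z (x * m₁ + y * m₃) (x * m₂ + y * m₄) (μ + (x * m₁ + y * m₃) * d + (x * m₂ + y * m₄) * c) := by
  have e0 : g * lmE a b z x y μ * g⁻¹ = (g * wd (x • a + y • b) z * g⁻¹) * (g * wd a (μ • b) * g⁻¹) := by
    rw [lmE]; group
  have e1 : g.1 (x • a + y • b) = (x * m₁ + y * m₃) • a + (x * m₂ + y * m₄) • b := by
    rw [map_add, map_smul, map_smul, ga, gb]; module
  have e2 : g.1 (μ • b) = (μ * m₃) • a + (μ * m₄) • b := by rw [map_smul, gb]; module
  have e3 := B_self h2 a
  have e4 := B_self h2 b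
  have e5 := l.p
  have e6 := (B_comm b a).trans e5
  have p1 : ∀ x y : K, B (x • a + y • b) z = 0 := fun x y => by
    simp [B, polar_add_left, polar_smul_left', ha, hb]
  have p2 : ∀ x y : K, B (x • a + y • b) (c • a + d • b) = 0 := fun x y => by
    simp only [B] at *
    simp [polar_add_left, polar_smul_left', polar_add_right, polar_smul_right', e3, e4, e5, e6]
  have p3 : ∀ x : K, B a (x • b) = 0 := fun x => by simp [B, polar_smul_right', l.p]
  rw [e0, conj_eich, conj_eich, e1, e2, gz, ga, eich_add (lm_sing l _ _) (p1 _ _) (p2 _ _), lmE, mul_assoc]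
  congr 1
  have bs := l.basis h2
  simp only [wd] at bs ⊢
  rw [bs, bs, ← eich_add l.qa (p3 _) (p3 _), ← add_smul]
  congr 2
  linear_combination μ * e

/-- Conjugation by `a ∧ s`. -/
theorem lmE_step (l : Ln a b) (ha : B a z = 0) (hb : B b z = 0) (m : DL M a s) {x y μ : K}
    (hm : lmE a b z x y μ ∈ M) : lmE a b z (y * B s b) 0 (y * B s z + Q K z * y ^ 2 * B s b) ∈ M := by
  have ga : (wd a s).1 a = (1 : K) • a + (0 : K) • b := by
    rw [m.1.apply h2, (B_comm s a).trans m.1.p, B_self h2]; module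
  have gb : (wd a s).1 b = B s b • a + (1 : K) • b := by rw [m.1.apply h2, l.p]; module
  have gz : (wd a s).1 z = z + (B s z • a + (0 : K) • b) := by rw [m.1.apply h2, ha]; module
  have := M.mul_mem hm (M.mul_mem (M.mul_mem m.2 hm) (M.inv_mem m.2))
  rw [lmE_conj h2 l ha hb ga gb (by ring) gz, lmE_mul h2 l ha hb] at this
  convert this using 2 <;> grind

end Two

/-- `[V, X]` for a generated group `X`. -/
theorem lm_comm {S : Set (O (Q K))} {X : Submodule K (V K)} (hS : ∀ g ∈ S, ∀ v, g.1 v - v ∈ X)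
    (hh : h ∈ Subgroup.closure S) (v : V K) : h.1 v - v ∈ X := by
  induction hh using Subgroup.closure_induction generalizing v with
  | mem g hg => exact hS g hg v
  | one => simp [O.one_apply]
  | mul g k _ _ hg hk =>
    have := X.add_mem (hg (k.1 v)) (hk v)
    rwa [sub_add_sub_cancel] at this
  | inv g _ hg =>
    have := X.neg_mem (hg ((g⁻¹).1 v))
    rwa [O.apply_inv_apply, neg_sub] at this

theorem lm_sqrt (h2 : (2 : K) = 0) {k : Subfield K} (f : Finite k) {x : K} (hx : x ∈ k) : ∃ t ∈ k, t ^ 2 = x := by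
  have inj : Function.Injective fun t : k => t ^ 2 := fun t t' e => by
    have e' : (t : K) ^ 2 = (t' : K) ^ 2 := by exact_mod_cast congrArg Subtype.val e
    have : ((t : K) - t') ^ 2 = 0 := by linear_combination e' + ((t' : K) ^ 2 - t * t') * h2
    exact Subtype.ext (sub_eq_zero.1 (pow_eq_zero_iff two_ne_zero |>.1 this))
  obtain ⟨t, e⟩ := Finite.surjective_of_injective inj ⟨x, hx⟩
  exact ⟨t, t.2, congrArg Subtype.val e⟩

/-- The case `φ ≠ 0` of Lemma M. -/
theorem lm_main (h2 : (2 : K) = 0) (l : Ln a b) {u : V K} (m : DL M a s) (m' : DL M a s') (m'' : DL M b u)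
    (h1 : B a u ≠ 0) (b0 : B s b ≠ 0) (b0' : B s' b ≠ 0) (nb : B s b ≠ B s' b) (ha : B a z = 0) (hb : B b z = 0)
    (q : Q K z ≠ 0) (e : B s b * B s' z = B s' b * B s z) {μ : K} (hm : lmE a b z 1 0 μ ∈ M) (hM : h ∈ M)
    (h3 : h.1 a = (B s' b / B s b) • a) (h4 : h.1 b = (B s' b / B s b)⁻¹ • b) (h5 : h.1 z - z ∈ ln a b) :
    ∃ c : K, c ≠ 0 ∧ wd a (c • b) ∈ M := by
  have ga : (wd b u).1 a = (1 : K) • a + B a u • b := by
    rw [m''.1.apply h2, (B_comm b a).trans l.p, B_comm u a]; module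
  have gb : (wd b u).1 b = (0 : K) • a + (1 : K) • b := by
    rw [m''.1.apply h2, (B_comm u b).trans m''.1.p, B_self h2]; module
  have gz : (wd b u).1 z = z + ((0 : K) • a + B u z • b) := by rw [m''.1.apply h2, hb]; module
  have e1 := M.mul_mem (M.mul_mem m''.2 hm) (M.inv_mem m''.2)
  rw [lmE_conj h2 l ha hb ga gb (by ring) gz] at e1
  obtain ⟨c, d, h6⟩ := Submodule.mem_span_pair.1 h5
  have e2 := M.mul_mem (M.mul_mem hM e1) (M.inv_mem hM)
  rw [lmE_conj h2 l ha hb (m₁ := B s' b / B s b) (m₂ := 0) (m₃ := 0) (m₄ := (B s' b / B s b)⁻¹) (c := c) (d := d)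
    (by rw [h3]; module) (by rw [h4]; module) (by field_simp; ring) (by rw [h6]; abel)] at e2
  have e3 := M.mul_mem (lmE_step h2 l ha hb m e1) (lmE_step h2 l ha hb m' e2)
  rw [lmE_mul h2 l ha hb, lmE] at e3
  have z0 : ∀ x : K, x = 0 → wd (x • a + ((0 : K) + 0) • b) z = 1 := fun x e => by simp [e]
  rw [z0 _ (by field_simp; linear_combination (B a u * B s b) * h2), one_mul] at e3
  refine ⟨_, fun e0 => nb ?_, e3⟩
  have : Q K z * B a u ^ 2 * B s b * (B s b - B s' b) = 0 := by
    field_simp at e0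
    grind
  exact sub_eq_zero.1 ((mul_eq_zero.1 this).resolve_left (mul_ne_zero (mul_ne_zero q (pow_ne_zero 2 h1)) b0))

variable [IsAlgClosed K]

/-- Lemma M.  `β = B s b`, `β' = B s' b`, `κ = B s s'`.  Take `h` of `dk_line` with `t² β = β + β'`, `s'' = t • h s`,
so `a ∧ s'' ∈ M` and `y = s + s' + s'' ∈ M(a)`, `y ⟂ a, b`, `y ∈ ⟨a, b, s, s'⟩`, `y = z + μ b` mod `a` with
`z ∈ ⟨s, s'⟩`.  If `z = 0` then `Q s'' = 0` gives `μ ≠ 0`.  Otherwise compute with the elements `lmE`. -/
theorem lemM (h2 : (2 : K) = 0) [Finite M] (l : Ln a b) {u : V K} (m : DL M a s) (m' : DL M a s') (m'' : DL M b u)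
    (p : B s s' ≠ 0) (h1 : B a u ≠ 0) (k : kap a s b u ≠ 0) (k' : kap a s' b u ≠ 0)
    (n : kap a s b u ≠ kap a s' b u) : ∃ c : K, DL M a (c • b) := by
  suffices H : ∃ c : K, c ≠ 0 ∧ wd a (c • b) ∈ M from H.imp fun c hc => ⟨l.smul hc.1, hc.2⟩
  have kp : ∀ s, kap a s b u = -(B a u * B s b) := fun s => by simp [kap, l.p]
  have b0 : B s b ≠ 0 := fun e => k (by rw [kp, e]; simp)
  have b0' : B s' b ≠ 0 := fun e => k' (by rw [kp, e]; simp)
  have nb : B s b ≠ B s' b := fun e => n (by rw [kp, kp, e])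
  obtain ⟨F, f, m1, m2, hF⟩ := dk_line h2 l m m' m'' b0 b0' nb h1
  have XM : Subgroup.closure {wd a s, wd a s', wd b u} ≤ M := by
    rw [Subgroup.closure_le]; rintro x (rfl | rfl | rfl); exacts [m.2, m'.2, m''.2]
  have hr : B s' b / B s b ∈ F := by
    have := F.div_mem m2 m1
    rwa [mul_div_mul_right _ _ h1] at this
  obtain ⟨t, tF, ht⟩ := lm_sqrt h2 f (F.add_mem F.one_mem hr)
  have ht' : t ^ 2 * B s b = B s b + B s' b := by rw [ht]; field_simp
  have t0 : t ≠ 0 := by rintro rfl; exact nb (by linear_combination -ht' - B s' b * h2)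
  obtain ⟨h, hX, -, ha, hb, -⟩ := hF t tF t0
  obtain ⟨h', hX', -, ha', hb', hz'⟩ := hF _ hr (div_ne_zero b0' b0)
  have sp : h.1 s - s ∈ Submodule.span K {a, b, s, s', u} := by
    refine lm_comm (fun g hg v => ?_) hX s
    have : ∀ x y, Ln x y → x ∈ ({a, b, s, s', u} : Set (V K)) → y ∈ ({a, b, s, s', u} : Set (V K)) →
        (wd x y).1 v - v ∈ Submodule.span K {a, b, s, s', u} := fun x y L hx hy => by
      rw [L.apply h2, add_assoc, add_sub_cancel_left]
      exact add_mem (Submodule.smul_mem _ _ (Submodule.subset_span hx))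
        (Submodule.smul_mem _ _ (Submodule.subset_span hy))
    rcases hg with rfl | rfl | rfl
    exacts [this _ _ m.1 (by simp) (by simp), this _ _ m'.1 (by simp) (by simp), this _ _ m''.1 (by simp) (by simp)]
  simp only [Submodule.mem_span_insert, Submodule.mem_span_singleton] at sp
  obtain ⟨c₁, _, ⟨c₂, _, ⟨c₃, _, ⟨c₄, _, ⟨c₅, rfl⟩, rfl⟩, rfl⟩, rfl⟩, e⟩ := sp
  have e3 := B_self h2 a
  have e4 := B_self h2 b
  have e5 := l.p
  have e6 := (B_comm b a).trans e5
  have e7 := m.1.p
  have e8 := m'.1.p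
  have e9 := (B_comm u b).trans m''.1.p
  have r1 : B (h.1 a) (h.1 s) = 0 := (O.map_polar h a s).trans e7
  have r2 : B (h.1 s) (h.1 b) = B s b := O.map_polar h s b
  have r3 : Q K (h.1 s) = 0 := (O.map_Q h s).trans m.1.qy
  have r4 : wd a (t • h.1 s) ∈ M := by
    have := (m.conj (XM hX))
    have q : B a (h.1 s) = 0 := by
      have := this.1.p
      rw [ha, B, polar_smul_left'] at this
      exact (mul_eq_zero.1 this).resolve_left t0
    rw [wd, ← eich_smul_left l.qa q, ← ha]; exact this.2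
  rw [ha, eq_add_of_sub_eq e] at r1
  rw [hb, eq_add_of_sub_eq e] at r2
  simp only [B] at e3 e4 e5 e6 e7 e8 e9 r1 r2
  simp only [polar_add_left, polar_add_right, polar_smul_left', polar_smul_right', e3, e4, e5, e6, e7, e8, e9] at r1 r2
  have c5 : c₅ = 0 := by
    have : t * B a u * c₅ = 0 := by linear_combination r1
    exact (mul_eq_zero.1 this).resolve_left (mul_ne_zero t0 h1)
  subst c5
  have r5 : (1 + t * (1 + c₃)) * B s b = (1 + t * c₄) * B s' b := by
    field_simp at r2
    simp only [B] at *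
    grind
  have p1 : B a ((1 + t * (1 + c₃)) • s + (1 + t * c₄) • s') = 0 := by
    simp [B, polar_add_right, polar_smul_right', e7, e8]
  have p2 : B b ((1 + t * (1 + c₃)) • s + (1 + t * c₄) • s') = 0 := by
    rw [B_comm]
    simp only [B, polar_add_left, polar_smul_left'] at r5 ⊢
    linear_combination r5 + (1 + t * c₄) * polar (Q K) s' b * h2
  have p3 : B a ((t * c₂) • b) = 0 := by simp [B, polar_smul_right', e5]
  have y1 : wd a ((1 + t * (1 + c₃)) • s + (1 + t * c₄) • s') * wd a ((t * c₂) • b) ∈ M := by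
    have q : B a (t • h.1 s) = 0 := by
      simp [eq_add_of_sub_eq e, B, polar_add_right, polar_smul_right', e3, e5, e7, e8]
    have := (Ma M l.qa).add_mem ((Ma M l.qa).add_mem (x := s) (y := s') ⟨e7, m.2⟩ ⟨e8, m'.2⟩) ⟨q, r4⟩
    rw [← eich_add l.qa p1 p3, ← eich_add_smul_self l.qa
      ((polar_add_right _ _ _ _).trans ((congrArg₂ _ p1 p3).trans (add_zero 0))) (t * c₁)]
    convert this.2 using 2
    rw [eq_add_of_sub_eq e]; module
  by_cases x4 : 1 + t * c₄ = 0
  · have x3 : 1 + t * (1 + c₃) = 0 := by rw [x4, zero_mul] at r5; exact (mul_eq_zero.1 r5).resolve_right b0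
    rw [x3, x4, zero_smul, zero_smul, add_zero, wd, eich_zero, one_mul] at y1
    refine ⟨_, mul_ne_zero t0 ?_, y1⟩
    rintro rfl
    rw [eq_add_of_sub_eq e] at r3
    have e10 := B_self h2 s
    have e11 := B_comm s' s
    simp only [B] at e10 e11 p
    simp only [Q_add, Q_smul, polar_add_left, polar_add_right, polar_smul_left', polar_smul_right', l.qa, l.qy,
      m.1.qy, m'.1.qy, e3, e5, e7, e8, e10, e11] at r3
    exact p (by grind)
  · have x3 : 1 + t * (1 + c₃) ≠ 0 := fun x3 => by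
      rw [x3, zero_mul] at r5; exact b0' ((mul_eq_zero.1 r5.symm).resolve_left x4)
    refine lm_main h2 l m m' m'' h1 b0 b0' nb p1 p2 ?_ ?_ (μ := t * c₂) ?_ (XM hX') ha' hb' (hz' _ p1 p2)
    · simp only [Q_add, Q_smul, polar_smul_left', polar_smul_right', m.1.qy, m'.1.qy, mul_zero, zero_add]
      exact mul_ne_zero x4 (mul_ne_zero x3 p)
    · have e10 := B_self h2 s
      have e11 := B_comm s' s
      have e12 := B_self h2 s'
      simp only [B] at e10 e11 e12 r5 ⊢
      simp only [polar_add_right, polar_smul_right', e10, e11, e12]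
      linear_combination polar (Q K) s s' * r5
    · rwa [lmE, one_smul, zero_smul, add_zero]

end Cfsg.Lib.S6Q
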