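import Cfsg.Agent.Lib.S6Q.Geo2
import Cfsg.Agent.Lib.PSL2.DicksonClosed

/-!
# Dickson's lemma in characteristic two
-/

set_option autoImplicit false

namespace Cfsg.Lib.S6Q

open scoped MatrixGroups Matrix commutatorElement
open QuadraticMap Module Cfsg.Lib.Orth Cfsg.Lib.Asch
open Cfsg.Lib.O7 (V W Q N I7 Spin phi act gam sU dm fx stabS stabV dgV)

variable {K : Type*} [Field K] [IsAlgClosed K] {M : Subgroup (O (Q K))} {a y b z s s' p : V K} {g t h : O (Q K)}

open PSL2 O7 MulAction in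
theorem dk_one (h2 : (2 : K) = 0) {X : Subgroup SL(2, K)} [Finite X] {β γ : K} (b : β ≠ 0)
    (n : β ≠ 1) (c : γ ≠ 0) (m : upper 1 ∈ X) (m' : upper β ∈ X) (l : lwS γ ∈ X) :
    ∃ k : Subfield K, Finite k ∧ (∀ s : SL(2, k), Matrix.SpecialLinearGroup.map k.subtype s ∈ X) ∧
      (∀ x, upper x ∈ X → x ∈ k) ∧ ∀ x, lwS x ∈ X → x ∈ k := by
  have : CharP K 2 := CharTwo.of_one_ne_zero_of_two_eq_zero one_ne_zero h2
  let φ : SL(2, K) →* PGL(2, K) := toP.comp toL
  have hφ : Function.Injective φ := toP_injective.comp (toL_injective h2)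
  have up : ∀ x, φ (upper x) = aff 1 x := toP_toL_upper
  have lw : ∀ x : K, x ≠ 0 → φ (lwS x) • (inf : P1 K) = pt x⁻¹ := fun x hx => by
    rw [show φ (lwS x) = _ from toP_toL' _, pgl_mk_smul, gl_smul_inf_eq_pt]
    simp [hx]
  set H := X.map φ with hH
  have : Finite H := Finite.of_surjective _ (φ.subgroupMap_surjective X)
  have u1 : aff 1 1 ∈ H := up 1 ▸ Subgroup.mem_map_of_mem φ m
  have ub : aff 1 β ∈ H := up β ▸ Subgroup.mem_map_of_mem φ m'
  have hx : H ⊓ unip inf ≠ ⊥ := fun e => by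
    have : aff 1 1 ∈ H ⊓ unip inf := ⟨u1, aff_mem_unip_inf.2 rfl⟩
    rw [e, Subgroup.mem_bot, aff_eq_one_iff] at this
    exact one_ne_zero this.2
  have hy : H ⊓ unip (pt 0) ≠ ⊥ := fun e => by
    have : φ (lwS γ) ∈ H ⊓ unip (pt 0) := ⟨Subgroup.mem_map_of_mem φ l, mem_unip_of_pow_char 2 (k := 1) (by
      rw [show φ (lwS γ) = _ from toP_toL' _, pgl_mk_smul, gl_smul_pt_eq_pt]; simp) (by
      rw [← map_pow, show lwS γ ^ 2 ^ 1 = 1 from ?_, map_one]
      rw [pow_one, _root_.sq]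
      apply sl_ext <;> simp [Matrix.mul_apply, Fin.sum_univ_two, CharTwo.add_self_eq_zero])⟩
    rw [e, Subgroup.mem_bot] at this
    have k := lw γ c
    rw [this, one_smul] at k
    exact inf_ne_pt _ k
  have h0 := mem_orbit_of_inf_unip_ne_bot hx hy
  rcases irregular_count H hx with h | ⟨-, a, a', haa, h⟩ | ⟨h, -⟩ | ⟨h, h'⟩
  · obtain ⟨g, hg⟩ := h0
    exact absurd ((h g g.2).symm.trans hg) (by simp)
  · have nf : ∀ x : K, x ≠ 0 → ¬ (aff 1 x • a = a ∧ aff 1 x • a' = a') := fun x hx e => haa (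
      (eq_of_mem_unip (aff_mem_unip_inf.2 rfl) (fun e => hx (aff_eq_one_iff.1 e).2) e.1).trans
      (eq_of_mem_unip (aff_mem_unip_inf.2 rfl) (fun e => hx (aff_eq_one_iff.1 e).2) e.2).symm)
    have s1 := (h _ u1).resolve_left (nf 1 one_ne_zero)
    have s2 := (h _ ub).resolve_left (nf β b)
    refine (nf (β + 1) (fun e => n (by linear_combination e - h2)) ?_).elim
    have : aff (1 : Kˣ) (β + 1) = aff 1 1 * aff 1 β := by rw [aff_mul]; simp
    rw [this, mul_smul, mul_smul, s2.1, s2.2]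
    exact ⟨s1.2, s1.1⟩
  · rw [ringChar.eq K 2] at h; omega
  have hs := card_eq_card_unip_mul (inf_le_right : H ⊓ stabilizer PGL(2, K) (inf : P1 K) ≤ _)
  rw [inf_assoc, inf_eq_right.2 (unip_le_stabilizer _)] at hs
  obtain ⟨k, hk, -, e⟩ := generic_inf H h0 u1 h (by rw [hs]; rcases h' with h' | h' <;> rw [← h'] <;> nlinarith)
  have e1 : (pslSub k).map (pglMap k.subtype) ≤ H := by
    rcases e with e | e <;> rw [e]
    exact Subgroup.map_le_range _ _
  have e2 : H ≤ (pglMap k.subtype).range := by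
    rcases e with e | e <;> rw [e]
    exact Subgroup.map_le_range _ _
  have e3 : ∀ g ∈ X, ∀ (P : P1 k) (x : K), φ g • PSL2.emb k.subtype P = pt x → x ∈ k := fun g hg P x e => by
    obtain ⟨g', e'⟩ := e2 (Subgroup.mem_map_of_mem φ hg)
    rw [← e', pglMap_smul_emb] at e
    obtain ⟨y, rfl⟩ := (pt_mem_range_emb _ x).1 ⟨_, e⟩
    exact y.2
  refine ⟨k, hk, fun s => (Subgroup.mem_map_iff_mem hφ).1 (e1 ⟨toP (toL s), ⟨_, rfl⟩, by
      rw [show φ _ = _ from toP_toL' _, toP_toL']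
      exact congrArg Matrix.ProjGenLinGroup.mk (Units.ext rfl)⟩),
    fun x hx => e3 _ hx (pt 0) x (by simp [up]), fun x hx => ?_⟩
  rcases eq_or_ne x 0 with rfl | x0
  · exact k.zero_mem
  simpa using k.inv_mem (e3 _ hx inf x⁻¹ (by rw [emb_inf, lw x x0]))

open PSL2 O7 in
/-- `PSL2.irregular_count` at `∞` (no fixed point; no stable pair as `|X ⊓ U| ≥ 4`; the last alternative fails by
parity): the multipliers form a group of order `|U_X| - 1` acting on `U_X`, so `U_X = k β` with `k` a field; the orbit of `∞`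
has `|U_X| + 1` points and contains `0`, so it is `∞, kβ`; `lwS γ` maps `∞` to `γ⁻¹`. -/
theorem dickson (h2 : (2 : K) = 0) {X : Subgroup SL(2, K)} [Finite X] {β β' γ : K} (b : β ≠ 0) (b' : β' ≠ 0)
    (n : β ≠ β') (c : γ ≠ 0) (m : upper β ∈ X) (m' : upper β' ∈ X) (l : lwS γ ∈ X) :
    ∃ k : Subfield K, Finite k ∧ β * γ ∈ k ∧ (∀ x, upper x ∈ X ↔ x * γ ∈ k) ∧ (∀ x, lwS x ∈ X ↔ x * β ∈ k) ∧
      ∀ t : Kˣ, t.1 ∈ k → dS t ∈ X := by
  obtain ⟨r, hr⟩ := IsAlgClosed.exists_eq_mul_self β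
  have r0 : r ≠ 0 := fun e => b (by rw [hr, e, mul_zero])
  let φ := (MulAut.conj (dS (Units.mk0 r r0))).toMonoidHom
  have hφ : Function.Injective φ := (MulAut.conj _).injective
  have inv : (dS (Units.mk0 r r0))⁻¹ = dS (Units.mk0 r r0)⁻¹ := inv_eq_of_mul_eq_one_right (by
    apply sl_ext <;> simp [Matrix.mul_apply, Fin.sum_univ_two, r0])
  have up : ∀ x, φ (upper x) = upper (β * x) := fun x => by
    show dS _ * upper x * (dS _)⁻¹ = _
    rw [inv, hr]
    apply sl_ext <;> simp [Matrix.mul_apply, Fin.sum_univ_two, r0]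
    ring
  have lw : ∀ x, φ (lwS (x * β)) = lwS x := fun x => by
    show dS _ * lwS _ * (dS _)⁻¹ = _
    rw [inv, hr]
    apply sl_ext <;> simp [Matrix.mul_apply, Fin.sum_univ_two, r0]
    field_simp
  have dg : ∀ t : Kˣ, φ (dS t) = dS t := fun t => by
    show dS _ * dS _ * (dS _)⁻¹ = _
    rw [inv]
    apply sl_ext <;> simp [Matrix.mul_apply, Fin.sum_univ_two] <;> field_simp
  have : Finite (X.comap φ) := Finite.of_injective (fun g : X.comap φ => (⟨φ g, g.2⟩ : X))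
    fun _ _ e => Subtype.ext (hφ (congrArg Subtype.val e))
  obtain ⟨k, hk, k1, k2, k3⟩ := dk_one h2 (X := X.comap φ) (β := β⁻¹ * β') (γ := γ * β)
    (mul_ne_zero (inv_ne_zero b) b') (fun e => n (by field_simp at e; exact e.symm)) (mul_ne_zero c b)
    (by rw [Subgroup.mem_comap, up, mul_one]; exact m)
    (by rw [Subgroup.mem_comap, up, mul_inv_cancel_left₀ b]; exact m')
    (by rw [Subgroup.mem_comap, lw]; exact l)
  have bc : γ * β ∈ k := k3 _ (by rw [Subgroup.mem_comap, lw]; exact l)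
  refine ⟨k, hk, mul_comm γ β ▸ bc, fun x => ⟨fun h => ?_, fun h => ?_⟩, fun x => ⟨fun h => ?_, fun h => ?_⟩,
    fun t ht => ?_⟩
  · have := k.mul_mem (k2 (β⁻¹ * x) (by rw [Subgroup.mem_comap, up, mul_inv_cancel_left₀ b]; exact h)) bc
    rwa [show β⁻¹ * x * (γ * β) = x * γ by field_simp] at this
  · have := k1 (upper ⟨_, k.div_mem h bc⟩)
    rwa [Subgroup.mem_comap, show Matrix.SpecialLinearGroup.map k.subtype _ = upper (x * γ / (γ * β)) by
      apply sl_ext <;> simp, up, show β * (x * γ / (γ * β)) = x by field_simp] at this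
  · exact k3 _ (by rw [Subgroup.mem_comap, lw]; exact h)
  · have := k1 (lwS ⟨_, h⟩)
    rwa [Subgroup.mem_comap, show Matrix.SpecialLinearGroup.map k.subtype _ = lwS (x * β) by
      apply sl_ext <;> simp, lw] at this
  · have := k1 (dS (Units.mk0 ⟨_, ht⟩ fun e => t.ne_zero (congrArg Subtype.val e)))
    rwa [Subgroup.mem_comap, show Matrix.SpecialLinearGroup.map k.subtype _ = dS t by
      apply sl_ext <;> simp, dg] at this

end Cfsg.Lib.S6Q
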