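import Cfsg.Agent.Lib.S6Q.DKa

/-!
# Dickson's lemma for two lines
-/

set_option autoImplicit false

namespace Cfsg.Lib.S6Q

open scoped MatrixGroups Matrix commutatorElement
open QuadraticMap Module Cfsg.Lib.Orth Cfsg.Lib.Asch
open Cfsg.Lib.O7 (V W Q N I7 Spin phi act gam sU dm fx stabS stabV dgV)

variable {K : Type*} [Field K] [IsAlgClosed K] {M : Subgroup (O (Q K))} {a y b z s s' p : V K} {g t h : O (Q K)}

section Aux

omit [IsAlgClosed K]

theorem wd_scale (h2 : (2 : K) = 0) (l : Ln a y) (l' : Ln b z) {c : K} (e : wd b z = wd a (c • y)) (x : K) :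
    wd b (x • z) = wd a ((x * c) • y) := O.ext fun v => by
  have k : ∀ {a y : V K}, Ln a y → ∀ c : K, (wd a (c • y)).1 v = v + c • (B y v • a + B a v • y) := fun l c => by
    rw [wd_apply h2 l.qa (by rw [B, polar_smul_right']; exact mul_eq_zero_of_right _ l.p), Q_smul, l.qy, B,
      polar_smul_left']
    module
  have := k l' 1
  rw [one_smul, one_smul, e, k l, add_right_inj] at this
  rw [k l, k l', ← this, smul_smul]

/-- The pairs `(g, A)`: `g` acts on the line as `A` and trivially on `(ln a b)^⊥ / ln a b`. -/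
def dkZ (a b : V K) : Subgroup (O (Q K) × SL(2, K)) where
  carrier := {g | (∀ x : Fin 2 → K, g.1.1 (x 0 • a + x 1 • b) = (g.2.1 *ᵥ x) 0 • a + (g.2.1 *ᵥ x) 1 • b) ∧
    ∀ v, B a v = 0 → B b v = 0 → ∃ x : Fin 2 → K, g.1.1 v - v = x 0 • a + x 1 • b}
  one_mem' := ⟨fun x => by simp, fun v _ _ => ⟨0, by simp⟩⟩
  mul_mem' {g g'} h h' := ⟨fun x => by
    rw [Prod.fst_mul, O.mul_apply, h'.1, h.1, Matrix.mulVec_mulVec]; rfl, fun v v1 v2 => by
    obtain ⟨x, hx⟩ := h.2 v v1 v2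
    obtain ⟨x', hx'⟩ := h'.2 v v1 v2
    refine ⟨g.2.1 *ᵥ x' + x, ?_⟩
    rw [Prod.fst_mul, O.mul_apply, eq_add_of_sub_eq hx', map_add, h.1, add_sub_assoc, hx, Pi.add_apply, Pi.add_apply]
    module⟩
  inv_mem' {g} h := by
    have k : ∀ x : Fin 2 → K, (g.1⁻¹).1 (x 0 • a + x 1 • b) = ((g.2⁻¹).1 *ᵥ x) 0 • a + ((g.2⁻¹).1 *ᵥ x) 1 • b :=
      fun x => by
        rw [O.inv_apply_eq, h.1, Matrix.mulVec_mulVec, ← Matrix.SpecialLinearGroup.coe_mul, mul_inv_cancel]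
        simp
    refine ⟨k, fun v v1 v2 => ?_⟩
    obtain ⟨x, hx⟩ := h.2 v v1 v2
    refine ⟨-((g.2⁻¹).1 *ᵥ x), ?_⟩
    rw [Pi.neg_apply, Pi.neg_apply, neg_smul, neg_smul, ← neg_add, ← k, ← hx, map_sub, O.inv_apply_apply, neg_sub]
    rfl

theorem mem_dkZ {A : SL(2, K)} (h1 : g.1 a = A.1 0 0 • a + A.1 1 0 • b) (h3 : g.1 b = A.1 0 1 • a + A.1 1 1 • b)
    (h4 : ∀ v, B a v = 0 → B b v = 0 → ∃ x : Fin 2 → K, g.1 v - v = x 0 • a + x 1 • b) : (g, A) ∈ dkZ a b :=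
  ⟨fun x => by
    simp only [map_add, map_smul, h1, h3, Matrix.mulVec, dotProduct, Fin.sum_univ_two]
    module, h4⟩

theorem dkZ_inj (l : Ln a b) {g g' : O (Q K) × SL(2, K)} (h : g ∈ dkZ a b) (h' : g' ∈ dkZ a b) (e : g.1 = g'.1) :
    g.2 = g'.2 := by
  have k : ∀ x : Fin 2 → K, _ := fun x => l.li ((g.2.1 *ᵥ x) 0 - (g'.2.1 *ᵥ x) 0) ((g.2.1 *ᵥ x) 1 - (g'.2.1 *ᵥ x) 1) (by
    have := (h.1 x).symm.trans (e ▸ h'.1 x)
    linear_combination (norm := module) this)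
  refine PSL2.sl_ext ?_ ?_ ?_ ?_
  exacts [by simpa [sub_eq_zero] using (k (Pi.single 0 1)).1, by simpa [sub_eq_zero] using (k (Pi.single 1 1)).1,
    by simpa [sub_eq_zero] using (k (Pi.single 0 1)).2, by simpa [sub_eq_zero] using (k (Pi.single 1 1)).2]

end Aux

/-- Opposite root groups (`Ln.dual`, `exists_rho`, `dickson` for `M.comap ρ`). -/
theorem dk_opp (h2 : (2 : K) = 0) [Finite M] (l : DL M a y) (l' : DL M b z) (k : kap a y b z ≠ 0) {c : K}
    (c0 : c ≠ 0) (c1 : c ≠ 1) (hc : wd a (c • y) ∈ M) : ∃ k : Subfield K, Finite k ∧ kap a y b z ∈ k ∧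
      (∀ x, wd a (x • y) ∈ M ↔ x ∈ k) ∧ (∀ x, wd b (x • z) ∈ M ↔ x ∈ k) ∧ ∀ t ∈ k, t ≠ 0 → ∃ h ∈ M,
        (∀ v ∈ ln a y, h.1 v = t • v) ∧ (∀ v ∈ ln b z, h.1 v = t⁻¹ • v) ∧
        ∀ v, B a v = 0 → B y v = 0 → B b v = 0 → B z v = 0 → h.1 v = v := by
  obtain ⟨a', y', l₁, e, p1, p2, p3, p4, w⟩ := l.1.dual h2 l'.1 k
  obtain ⟨ρ, i, ru, rl, r⟩ := exists_rho h2 l.1 l₁ p1 p2 p3 p4
  have : Finite (M.comap ρ) := .of_injective (ρ.subgroupComap M) fun x y e => Subtype.ext (i (congrArg Subtype.val e :))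
  obtain ⟨k', f, m, mu, ml, md⟩ := dickson h2 (X := M.comap ρ) one_ne_zero c0 c1.symm k
    (by rw [Subgroup.mem_comap, ru, one_smul]; exact l.2) (by rwa [Subgroup.mem_comap, ru])
    (by rw [Subgroup.mem_comap, rl, ← w]; exact l'.2)
  rw [one_mul] at m
  have s : ∀ x, x * kap a y b z ∈ k' ↔ x ∈ k' := fun x =>
    ⟨fun h => by simpa [k] using k'.div_mem h m, fun h => k'.mul_mem h m⟩
  refine ⟨k', f, m, fun x => by rw [← ru, ← s]; exact mu x, fun x => ?_, fun t ht t0 => ?_⟩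
  · rw [wd_scale h2 l₁ l'.1 w, ← rl, ← s]
    exact (ml _).trans (by rw [mul_one])
  · obtain ⟨r1, r2, r3, r4, r5⟩ := r (O7.dS (Units.mk0 t t0))
    simp only [O7.coe_dS, Units.val_mk0, Matrix.of_apply, Matrix.cons_val', Matrix.cons_val_zero, Matrix.cons_val_one,
      Matrix.cons_val_fin_one, zero_smul, add_zero, zero_add] at r1 r2 r3 r4
    refine ⟨_, md (Units.mk0 t t0) ht, fun v hv => ?_, fun v hv => ?_, fun v v1 v2 v3 v4 => ?_⟩
    · obtain ⟨α, β, rfl⟩ := Submodule.mem_span_pair.1 hv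
      rw [map_add, map_smul, map_smul, r1, r3, smul_add, smul_comm α, smul_comm β]
    · obtain ⟨α, β, rfl⟩ := Submodule.mem_span_pair.1 (e ▸ hv : v ∈ ln a' y')
      rw [map_add, map_smul, map_smul, r2, r4, smul_add, smul_comm α, smul_comm β]
    · have : ∀ x ∈ ln a' y', B x v = 0 := fun x hx => by
        obtain ⟨α, β, rfl⟩ := Submodule.mem_span_pair.1 (e ▸ hx : x ∈ ln b z)
        rw [B, polar_add_left, polar_smul_left', polar_smul_left']
        exact (congrArg₂ (α * · + β * ·) v3 v4).trans (by simp)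
      exact r5 v v1 v2 (this _ (Submodule.subset_span (by simp))) (this _ (Submodule.subset_span (by simp)))

/-- The action on an invariant line: let `X` be the group of `g ∈ M` that act on `ln a b` with determinant one and
trivially on `(ln a b)^⊥ / ln a b`; apply `dickson` to its image; replace `h` by `h ^ 2 ^ N` to get odd order. -/
theorem dk_line (h2 : (2 : K) = 0) [Finite M] (l : Ln a b) {u : V K} (m : DL M a s) (m' : DL M a s') (m'' : DL M b u)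
    (h0 : B s b ≠ 0) (h0' : B s' b ≠ 0) (n : B s b ≠ B s' b) (h1 : B a u ≠ 0) :
    ∃ k : Subfield K, Finite k ∧ B s b * B a u ∈ k ∧ B s' b * B a u ∈ k ∧ ∀ t ∈ k, t ≠ 0 →
      ∃ h ∈ Subgroup.closure {wd a s, wd a s', wd b u}, Odd (orderOf h) ∧ h.1 a = t • a ∧ h.1 b = t⁻¹ • b ∧
        ∀ v, B a v = 0 → B b v = 0 → h.1 v - v ∈ ln a b := by
  let H : Subgroup (O (Q K)) := Subgroup.closure {wd a s, wd a s', wd b u}
  have hH : H ≤ M := (Subgroup.closure_le _).2 (by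
    rintro _ (rfl | rfl | rfl)
    exacts [m.2, m'.2, m''.2])
  let X := (dkZ a b ⊓ H.prod ⊤).map (MonoidHom.snd _ _)
  have : Finite X := by
    choose g hg using fun A : X => A.2
    refine .of_injective (fun A => (⟨(g A).1, hH (hg A).1.2.1⟩ : M)) fun A A' e => Subtype.ext ?_
    rw [← (hg A).2, ← (hg A').2]
    exact dkZ_inj l (hg A).1.1 (hg A').1.1 (congrArg Subtype.val e)
  have aa : B a a = 0 := B_self h2 a
  have up : ∀ {s}, Ln a s → wd a s ∈ H → PSL2.upper (B s b) ∈ X := fun {s} n h =>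
    ⟨(wd a s, _), ⟨mem_dkZ (by simp [n.apply h2, aa, B_comm s a, n.p]) (by simp [n.apply h2, l.p, add_comm])
      fun v v1 _ => ⟨![B s v, 0], by simp [n.apply h2, v1]⟩, h, trivial⟩, rfl⟩
  obtain ⟨k, f, q, mu, -, md⟩ := dickson h2 (X := X) h0 h0' n h1 (up m.1 (Subgroup.subset_closure (by simp)))
    (up m'.1 (Subgroup.subset_closure (by simp)))
    ⟨(wd b u, _), ⟨mem_dkZ (by simp [m''.1.apply h2, B_comm b a, l.p, B_comm u a])
      (by simp [m''.1.apply h2, B_self h2, B_comm u b, m''.1.p])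
      fun v _ v2 => ⟨![0, B u v], by simp [m''.1.apply h2, v2]⟩, Subgroup.subset_closure (by simp), trivial⟩, rfl⟩
  refine ⟨k, f, q, (mu _).1 (up m'.1 (Subgroup.subset_closure (by simp))), fun t ht t0 => ?_⟩
  obtain ⟨N, o, ho, e⟩ := Nat.exists_eq_two_pow_mul_odd (Nat.card_pos (α := M)).ne'
  have : CharP K 2 := CharTwo.of_one_ne_zero_of_two_eq_zero one_ne_zero h2
  obtain ⟨⟨r, hr⟩, er⟩ := Finite.surjective_of_injective (f := fun x : k => x ^ 2 ^ N) (fun x y e => Subtype.ext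
    (sub_eq_zero.1 (pow_eq_zero_iff (pow_ne_zero N two_ne_zero) |>.1 ((sub_pow_char_pow ..).trans
      (sub_eq_zero.2 (congrArg Subtype.val e :)))))) ⟨t, ht⟩
  replace er : r ^ 2 ^ N = t := congrArg Subtype.val er
  have r0 : r ≠ 0 := fun e => t0 (by rw [← er, e, zero_pow (pow_ne_zero N two_ne_zero)])
  obtain ⟨⟨g, A⟩, ⟨z, hg, -⟩, rfl : A = O7.dS (Units.mk0 r r0)⟩ := md (Units.mk0 r r0) hr
  have d : ∀ n : ℕ, O7.dS (Units.mk0 r r0) ^ n = O7.dS (Units.mk0 r r0 ^ n) := fun n => by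
    induction n with
    | zero => rw [pow_zero, pow_zero, O7.dS_one]
    | succ n ih => rw [pow_succ, ih, O7.dS_mul, pow_succ]
  obtain ⟨z1, z2⟩ := pow_mem z (2 ^ N)
  rw [Prod.pow_mk, d] at z1 z2
  refine ⟨g ^ 2 ^ N, pow_mem hg _, ho.of_dvd_nat (orderOf_dvd_of_pow_eq_one ?_), by simpa [er] using z1 ![1, 0],
    by simpa [er] using z1 ![0, 1], fun v v1 v2 => ?_⟩
  · rw [← pow_mul, ← e]
    exact congrArg Subtype.val (pow_card_eq_one' (x := (⟨g, hH hg⟩ : M)))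
  · obtain ⟨x, hx⟩ := z2 v v1 v2
    exact Submodule.mem_span_pair.2 ⟨_, _, hx.symm⟩

end Cfsg.Lib.S6Q
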