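import Cfsg.Agent.Lib.Q4.Basic
import Cfsg.Agent.Lib.Symp.MaxBase
import Cfsg.Agent.Lib.O7.Spin
import Mathlib.FieldTheory.IsAlgClosed.AlgebraicClosure

/-!
# Residual maximal subgroups of `Sp₆(q)` (S5806, see `docs/S6Q.md`): definitions
-/

set_option autoImplicit false

namespace Cfsg.Lib.S6Q

open scoped MatrixGroups Matrix commutatorElement
open Cfsg.Geo Cfsg.Lib.Asch Cfsg.Lib.Linear Cfsg.Lib.Q4 Cfsg.Lib.Symp Module
open Cfsg.Lib.Q4R (Sq HasTv sc dg)

/-- The index set. -/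
abbrev I6 : Type := Fin 3 ⊕ Fin 3
/-- `GL₆(K)`. -/
abbrev G6 (K : Type*) [Field K] : Type _ := GL I6 K
/-- The alternating form. -/
abbrev om (K : Type*) [Field K] : (I6 → K) → (I6 → K) → K := sympForm 3 K
/-- `Sp₆(K)`. -/
abbrev Sp (K : Type*) [Field K] : Subgroup (G6 K) := spGL 3 K

variable {K : Type*} [Field K]

theorem alt_om : Alt (om K) := alt_sympForm 3

theorem mem_Sp {g : G6 K} : g ∈ Sp K ↔ ∀ u v, om K (g.1 *ᵥ u) (g.1 *ᵥ v) = om K u v := by
  rw [Sp, spGL_eq]; rfl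

theorem mem_Sp' {g : G6 K} : g ∈ Sp K ↔ g.1ᵀ * Matrix.J (Fin 3) K * g.1 = Matrix.J (Fin 3) K := by
  rw [mem_Sp]
  have e : ∀ u v, om K (g.1 *ᵥ u) (g.1 *ᵥ v) = u ⬝ᵥ ((g.1ᵀ * Matrix.J (Fin 3) K * g.1) *ᵥ v) :=
    fun u v => by
      rw [← Matrix.mulVec_mulVec, ← Matrix.mulVec_mulVec, Matrix.dotProduct_mulVec u g.1ᵀ,
        Matrix.vecMul_transpose]; rfl
  refine ⟨fun H => Matrix.ext fun i j => ?_, fun H u v => by rw [e, H]; rfl⟩
  have := H (Pi.single i 1) (Pi.single j 1)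
  rw [e] at this
  simpa [om, sympForm] using this

theorem neg_one_mem : (-1 : G6 K) ∈ Sp K := mem_Sp.2 fun u v => by
  simp [om, sympForm, Matrix.neg_mulVec, Matrix.mulVec_neg]

/-- `dim [V, g]`. -/
noncomputable def rk (g : G6 K) : ℕ := (g.1 - 1).rank

/-- A *unit*: eigenvalues `i, -i, 1, 1, 1, 1`. -/
def Un (g : G6 K) : Prop := rk g = 2 ∧ g ^ 4 = 1 ∧ g ^ 2 ≠ 1

/-- An involution which is `-1` on a plane and `1` on its complement (type I). -/
def TI (t : G6 K) : Prop := t * t = 1 ∧ rk t = 2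

/-- A square root of `-1` (type II). -/
def TII (t : G6 K) : Prop := t * t = -1

/-- The intertwiners `{X | a X = X b}`. -/
def Hm (a b : G6 K) : Submodule K (Matrix I6 I6 K) :=
  LinearMap.ker (LinearMap.mulLeft K a.1 - LinearMap.mulRight K b.1)

theorem mem_Hm {a b : G6 K} {X : Matrix I6 I6 K} : X ∈ Hm a b ↔ a.1 * X = X * b.1 := by
  simp [Hm, sub_eq_zero]

/-- The dimension of the space of intertwiners. -/
noncomputable def hd (a b : G6 K) : ℕ := finrank K (Hm a b)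

/-- The diagonal torus of `Sp₆(K)`. -/
def tor : (Fin 3 → Kˣ) →* G6 K :=
  dg.comp (MonoidHom.mk' (fun μ => Sum.elim μ fun i => (μ i)⁻¹) fun μ ν => by
    ext i; rcases i with i | i <;> simp [mul_comm])

theorem tor_eq (μ : Fin 3 → Kˣ) : (tor μ : G6 K) = dg (Sum.elim μ fun i => (μ i)⁻¹) := rfl

theorem rk_conj (g k : G6 K) : rk (k * g * k⁻¹) = rk g := by
  have : (k * g * k⁻¹).1 - 1 = k.1 * (g.1 - 1) * (k⁻¹).1 := by
    rw [mul_sub, sub_mul, mul_one, ← Units.val_mul k k⁻¹, mul_inv_cancel]; rfl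
  rw [rk, this, Matrix.rank_mul_eq_left_of_isUnit_det _ _ (Matrix.isUnits_det_units _),
    Matrix.rank_mul_eq_right_of_isUnit_det _ _ (Matrix.isUnits_det_units _), rk]

theorem rk_le (g : G6 K) : rk g ≤ 6 := (Matrix.rank_le_card_width _).trans (by simp)

theorem rk_one : rk (1 : G6 K) = 0 := by simp [rk]

/-- The scalars in `Sp₆(K)` are `± 1`. -/
theorem pm_of_scalar {g : G6 K} (h : g ∈ Sp K) (hz : g ∈ scalars I6 K) : g = 1 ∨ g = -1 := by
  obtain ⟨c, hc⟩ := mem_scalars_iff'.1 hz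
  have := mem_Sp.1 h (Pi.single (.inr 0) 1) (Pi.single (.inl 0) 1)
  rw [hc, Matrix.smul_mulVec, Matrix.smul_mulVec, Matrix.one_mulVec, Matrix.one_mulVec,
    alt_om.smul_left, alt_om.smul_right'] at this
  have e : c * c = 1 := by simpa [om, sympForm, Matrix.J] using this
  rcases mul_self_eq_one_iff.1 e with rfl | rfl
  · exact .inl (Units.ext (by simpa using hc))
  · exact .inr (Units.ext (by simpa using hc))

theorem neg_one_scalar : (-1 : G6 K) ∈ scalars I6 K := mem_scalars_iff'.2 ⟨-1, by simp⟩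

/-- `P` together with `-1`. -/
def pm (P : Subgroup (G6 K)) : Subgroup (G6 K) where
  carrier := {g | g ∈ P ∨ -g ∈ P}
  one_mem' := .inl P.one_mem
  mul_mem' := by
    rintro a b (ha | ha) (hb | hb)
    · exact .inl (P.mul_mem ha hb)
    · exact .inr (by simpa using P.mul_mem ha hb)
    · exact .inr (by simpa using P.mul_mem ha hb)
    · exact .inl (by simpa using P.mul_mem ha hb)
  inv_mem' := by
    rintro a (ha | ha)
    · exact .inl (P.inv_mem ha)
    · exact .inr (by simpa using P.inv_mem ha)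

theorem mem_pm {P : Subgroup (G6 K)} {g : G6 K} : g ∈ pm P ↔ g ∈ P ∨ -g ∈ P := Iff.rfl

theorem le_pm (P : Subgroup (G6 K)) : P ≤ pm P := fun _ h => .inl h

theorem neg_mem_pm (P : Subgroup (G6 K)) : -1 ∈ pm P := .inr (by simp)

theorem pm_le {P Y : Subgroup (G6 K)} (h : P ≤ Y) (h1 : -1 ∈ Y) : pm P ≤ Y := by
  rintro g (hg | hg)
  · exact h hg
  · simpa using Y.mul_mem h1 (h hg)

theorem finite_pm (P : Subgroup (G6 K)) [Finite P] : Finite (pm P) := by
  have : ((pm P : Set (G6 K))).Finite := by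
    refine ((Set.toFinite (P : Set (G6 K))).union
      ((Set.toFinite (P : Set (G6 K))).image Neg.neg)).subset ?_
    rintro g (hg | hg)
    · exact .inl hg
    · exact .inr ⟨_, hg, neg_neg g⟩
  exact this

/-- A finite subgroup of `Sp₆(K)`, odd characteristic, with `-1`, without transvections and units. -/
structure Pre (Y : Subgroup (G6 K)) : Prop where
  two : (2 : K) ≠ 0
  fin : Finite Y
  sp : Y ≤ Sp K
  neg : -1 ∈ Y
  ntv : ¬ HasTv Y
  nu : ∀ g ∈ Y, ¬ Un g

theorem Pre.mono {Y Y' : Subgroup (G6 K)} (h : Pre Y) (l : Y' ≤ Y) (n : -1 ∈ Y') : Pre Y' :=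
  ⟨h.two, have := h.fin; .of_injective _ (Subgroup.inclusion_injective l), l.trans h.sp, n,
    fun ⟨g, hg, e⟩ => h.ntv ⟨g, l hg, e⟩, fun g hg => h.nu g (l hg)⟩

theorem Pre.neg_mem {Y : Subgroup (G6 K)} (h : Pre Y) {g : G6 K} (hg : g ∈ Y) : -g ∈ Y := by
  simpa using Y.mul_mem h.neg hg

/-- ... with `Y / ± 1` identified with `X`. -/
structure Cv {X : Type*} [Group X] (Y : Subgroup (G6 K)) (π : Y →* X) : Prop extends Pre Y where
  surj : Function.Surjective π
  ker : ∀ g : Y, π g = 1 ↔ g.1 = 1 ∨ g.1 = -1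

namespace Cv

variable {X X' : Type*} [Group X] [Group X'] {Y : Subgroup (G6 K)} {π : Y →* X} (h : Cv Y π)
include h

theorem finX : Finite X := have := h.fin; .of_surjective _ h.surj

theorem comp (e : X ≃* X') : Cv Y (e.toMonoidHom.comp π) :=
  ⟨h.toPre, e.surjective.comp h.surj, fun g => by rw [← h.ker]; exact map_eq_one_iff e e.injective⟩

theorem eq_iff {g g' : Y} : π g = π g' ↔ g.1 = g'.1 ∨ g.1 = -g'.1 := by
  rw [← mul_inv_eq_one, ← map_inv, ← map_mul, h.ker, Subgroup.coe_mul, Subgroup.coe_inv,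
    mul_inv_eq_one, mul_inv_eq_iff_eq_mul, neg_one_mul]

/-- Subgroups of the abstract group. -/
theorem sub {f : X' →* X} (hf : Function.Injective f) :
    ∃ (Y' : Subgroup (G6 K)) (l : Y' ≤ Y) (π' : Y' →* X'), Cv Y' π' ∧
      ∀ g, f (π' g) = π (Subgroup.inclusion l g) := by
  let Y' := (f.range.comap π).map Y.subtype
  have l : Y' ≤ Y := Subgroup.map_subtype_le _
  have m : ∀ g : Y', π (Subgroup.inclusion l g) ∈ f.range := fun g => by
    obtain ⟨_, y, hy, rfl⟩ := g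
    exact hy
  let φ : Y' →* f.range := (π.comp (Subgroup.inclusion l)).codRestrict _ m
  let π' : Y' →* X' := (MonoidHom.ofInjective hf).symm.toMonoidHom.comp φ
  have k : ∀ g, f (π' g) = π (Subgroup.inclusion l g) := fun g =>
    congrArg Subtype.val ((MonoidHom.ofInjective hf).apply_symm_apply (φ g))
  refine ⟨Y', l, π', ⟨h.mono l ⟨⟨-1, h.neg⟩, ?_, rfl⟩, fun x => ?_, fun g => ?_⟩, k⟩
  · exact ⟨1, by rw [map_one]; exact ((h.ker _).2 (.inr rfl)).symm⟩
  · obtain ⟨y, hy⟩ := h.surj (f x)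
    exact ⟨⟨y, y, ⟨x, hy.symm⟩, rfl⟩, hf ((k _).trans hy)⟩
  · rw [← map_eq_one_iff f hf, k, h.ker]; rfl

/-- Elements of odd order lift to elements of the same order. -/
theorem lift {x : X} {n : ℕ} (hn : Odd n) (hx : x ^ n = 1) : ∃ g : Y, π g = x ∧ g.1 ^ n = 1 := by
  obtain ⟨g, rfl⟩ := h.surj x
  rcases (h.ker (g ^ n)).1 (by rw [map_pow, hx]) with e | e
  · exact ⟨g, rfl, e⟩
  · refine ⟨⟨-g.1, h.neg_mem g.2⟩, h.eq_iff.2 (.inr rfl), ?_⟩
    change (-g.1) ^ n = 1
    rw [hn.neg_pow, ← Subgroup.coe_pow, e, neg_neg]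

theorem neg_ne : (-1 : G6 K) ≠ 1 := fun e => h.two (by
  have := congrArg (fun g : G6 K => g.1 (.inl 0) (.inl 0)) e
  simp only [Units.val_neg, Units.val_one, Matrix.neg_apply, Matrix.one_apply_eq] at this
  linear_combination -this)

/-- Lifts of odd order are unique. -/
theorem lift_unique {g g' : Y} {n : ℕ} (hn : Odd n) (e : π g = π g') (hg : g.1 ^ n = 1)
    (hg' : g'.1 ^ n = 1) : g = g' := by
  rcases h.eq_iff.1 e with e | e
  · exact Subtype.ext e
  · rw [e, hn.neg_pow, hg'] at hg; exact (h.neg_ne hg).elim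

end Cv

section Ext

variable {F : Type*} [Field F] (f : F →+* K)

/-- Extension of scalars. -/
abbrev mp : G6 F →* G6 K := Matrix.GeneralLinearGroup.map f

/-- Extension of scalars. -/
def ext (P : Subgroup (G6 F)) : Subgroup (G6 K) := P.map (mp f)

theorem mp_val (g : G6 F) : (mp f g).1 = g.1.map f := rfl

theorem mp_inj : Function.Injective (mp f) := fun _ _ e =>
  Units.ext (Matrix.map_injective f.injective (congrArg Units.val e))

theorem mp_neg (g : G6 F) : mp f (-g) = -mp f g := Units.ext (by ext i j; simp [mp_val])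

theorem rk_mp (g : G6 F) : rk (mp f g) = rk g := by
  have : (mp f g).1 - 1 = (g.1 - 1).map f := by
    rw [mp_val, Matrix.map_sub _ (map_sub f), Matrix.map_one _ (map_zero f) (map_one f)]
  rw [rk, this, rk, O7.sp_rank]

theorem mp_mem_Sp {g : G6 F} (h : g ∈ Sp F) : mp f g ∈ Sp K := by
  have hJ : (Matrix.J (Fin 3) F).map f = Matrix.J (Fin 3) K := by
    ext i j; rcases i with i | i <;> rcases j with j | j <;> simp [Matrix.J, Matrix.one_apply, apply_ite f]
  rw [mem_Sp', mp_val, ← hJ, ← Matrix.transpose_map, ← Matrix.map_mul, ← Matrix.map_mul, mem_Sp'.1 h]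

theorem sq_ext (P : Subgroup (G6 F)) : Nonempty (Sq P ≃* Sq (ext f P)) := by
  refine ⟨QuotientGroup.congr _ _ (P.equivMapOfInjective _ (mp_inj f)) (Subgroup.ext fun g => ?_)⟩
  refine (Subgroup.mem_map_equiv (f := P.equivMapOfInjective _ (mp_inj f))).trans ?_
  rw [Subgroup.mem_subgroupOf, Subgroup.mem_subgroupOf, ← scal_map_iff f]
  obtain ⟨y, rfl⟩ := (P.equivMapOfInjective _ (mp_inj f)).surjective g
  rw [MulEquiv.symm_apply_apply]
  rfl

theorem env_ext {P : Subgroup (G6 F)} (h : env P = ⊤) : env (ext f P) = ⊤ := by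
  have k : ∀ X ∈ env P, X.map f ∈ env (ext f P) := fun X hX => by
    induction hX using Algebra.adjoin_induction with
    | mem x hx =>
      obtain ⟨g, hg, rfl⟩ := hx
      exact Algebra.subset_adjoin ⟨_, Subgroup.mem_map_of_mem _ hg, rfl⟩
    | algebraMap r =>
      have : (algebraMap F (Matrix I6 I6 F) r).map f = algebraMap K _ (f r) := by
        ext i j
        by_cases e : i = j <;> simp [Matrix.algebraMap_matrix_apply, e]
      rw [this]
      exact Subalgebra.algebraMap_mem _ _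
    | add x y _ _ hx hy => rw [Matrix.map_add _ (map_add f)]; exact add_mem hx hy
    | mul x y _ _ hx hy => rw [Matrix.map_mul]; exact mul_mem hx hy
  refine eq_top_iff.2 fun X _ => ?_
  rw [Matrix.matrix_eq_sum_single X]
  refine sum_mem fun i _ => sum_mem fun j _ => ?_
  have := Subalgebra.smul_mem _ (k (Matrix.single i j 1) (h ▸ trivial)) (X i j)
  rwa [Matrix.map_single, map_one, Matrix.smul_single, smul_eq_mul, mul_one] at this

theorem qs_ext {P : Subgroup (G6 F)} (h : QS P) : QS (ext f P) := by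
  obtain ⟨e⟩ := sq_ext f P
  have := h.simple
  refine ⟨by rw [ext, ← Subgroup.map_commutator, h.perfect], e.symm.isSimpleGroup,
    fun c => h.nonabelian ⟨⟨fun a b => e.injective (by rw [map_mul, map_mul, c.1.1])⟩⟩, env_ext f h.env⟩

theorem finite_ext (P : Subgroup (G6 F)) [Finite P] : Finite (ext f P) :=
  Finite.of_equiv _ (P.equivMapOfInjective _ (mp_inj f)).toEquiv

theorem ext_pm (P : Subgroup (G6 F)) : ext f (pm P) = pm (ext f P) := by
  ext g
  constructor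
  · rintro ⟨y, hy | hy, rfl⟩
    · exact .inl ⟨y, hy, rfl⟩
    · exact .inr ⟨-y, hy, mp_neg f y⟩
  · rintro (⟨y, hy, e⟩ | ⟨y, hy, e⟩)
    · exact ⟨y, .inl hy, e⟩
    · exact ⟨-y, .inr (by simpa using hy), by rw [mp_neg, e, neg_neg]⟩

theorem Pre.ext {Y : Subgroup (G6 F)} (h : Pre Y) : Pre (ext f Y) := by
  have := h.fin
  refine ⟨by rw [← map_ofNat f 2]; exact (map_ne_zero f).2 h.two, finite_ext f Y, ?_,
    ⟨-1, h.neg, by rw [mp_neg, map_one]⟩, fun t => ?_, ?_⟩
  · rintro _ ⟨g, hg, rfl⟩; exact mp_mem_Sp f (h.sp hg)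
  · obtain ⟨_, ⟨g, hg, rfl⟩, e⟩ := hasTv_iff.1 t
    exact h.ntv (hasTv_iff.2 ⟨g, hg, e.of_map f⟩)
  · rintro _ ⟨g, hg, rfl⟩ ⟨a, b, c⟩
    refine h.nu g hg ⟨(rk_mp f g).symm.trans a, mp_inj f (by rw [map_pow, b, map_one]), fun e => c ?_⟩
    rw [← map_pow, e, map_one]

/-- `Cv` goes up to an extension field. -/
theorem Cv.ext {X : Type*} [Group X] {Y : Subgroup (G6 F)} {π : Y →* X} (h : Cv Y π) :
    ∃ π' : S6Q.ext f Y →* X, Cv (S6Q.ext f Y) π' ∧ ∀ g : Y, π' ⟨mp f g.1, g.1, g.2, rfl⟩ = π g := by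
  let e : Y ≃* S6Q.ext f Y := Y.equivMapOfInjective _ (mp_inj f)
  have k : ∀ g : Y, e.symm ⟨mp f g.1, g.1, g.2, rfl⟩ = g := fun g => e.symm_apply_apply g
  refine ⟨π.comp e.symm.toMonoidHom, ⟨h.toPre.ext f, h.surj.comp e.symm.surjective, ?_⟩,
    fun g => congrArg π (k g)⟩
  rintro ⟨_, g, hg, rfl⟩
  refine (congrArg (fun y => π y = 1) (k ⟨g, hg⟩)).to_iff.trans ((h.ker _).trans ?_)
  rw [← (mp_inj f).eq_iff, ← (mp_inj f).eq_iff (b := -1), mp_neg, map_one]

end Ext

variable {F : Type*} [Field F]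

/-- The socle of a residual subgroup of `Sp₆(F)`. -/
structure Core (P : Subgroup (G6 F)) : Prop extends QS P where
  sp : P ≤ Sp F
  ns : NoSub P
  nq : ¬ ∃ Q : (I6 → F) → F, IsNondegenerateQuadraticForm Q ∧ FixesQuadForm (matrixSet P) Q

/-- `H` is a maximal subgroup of `Sp₆(F)` with socle `P`. -/
structure Mx (H P : Subgroup (G6 F)) : Prop where
  max : IsMaximalIn (Sp F) H
  le : P ≤ H
  neg : -1 ∈ H
  norm : ∀ h ∈ H, ∀ x ∈ P, h * x * h⁻¹ ∈ P
  cen : ∀ h ∈ H, (∀ x ∈ P, h * x * h⁻¹ * x⁻¹ ∈ scalars I6 F) → h ∈ scalars I6 F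

theorem Mx.pm_le {H P : Subgroup (G6 F)} (m : Mx H P) : pm P ≤ H := S6Q.pm_le m.le m.neg

/-- The odd case: no transvections, no units, `P / ± 1 = X`. -/
structure Od {X : Type*} [Group X] (P : Subgroup (G6 F)) (π : pm P →* X) : Prop extends Core P where
  cv : Cv (pm P) π

end Cfsg.Lib.S6Q
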