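import Cfsg.Agent.Lib.S6Q.Def
import Cfsg.Agent.Lib.O7.T3

/-!
# `Sp₆(K) = O₇(K)` in characteristic two: definitions (see `docs/S6Q.md`)

`V K` has the form `Q K` with radical `K ∙ sU K`; `eich a y` with `Ln a y` (written `a ∧ y`) are the
involutions of type `a₂`, `eich a (c • sU K)` the transvections.
-/

set_option autoImplicit false

namespace Cfsg.Lib.S6Q

open scoped MatrixGroups Matrix
open QuadraticMap Module Cfsg.Lib.Orth
open Cfsg.Lib.O7 (V W Q N I7 Spin phi act gam sU dm fx stabS stabV)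

variable {K : Type*} [Field K]

/-- The polar form. -/
abbrev B (u v : V K) : K := polar (Q K) u v

/-- `V₇ → V₆`. -/
def pr : V K →ₗ[K] (I6 → K) where
  toFun v i := v (.inr i)
  map_add' _ _ := rfl
  map_smul' _ _ := rfl

/-- A section of `pr`. -/
def inc : (I6 → K) →ₗ[K] V K where
  toFun v := Sum.elim (fun _ => 0) v
  map_add' u v := by ext i; rcases i with i | i <;> simp
  map_smul' c v := by ext i; rcases i with i | i <;> simp

theorem pr_inc (v : I6 → K) : pr (inc v) = v := rfl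

theorem inc_pr (v : V K) : v = inc (pr v) + v (.inl ()) • sU K := by
  ext i; rcases i with i | i <;> simp [inc, pr]

theorem pr_sU : pr (sU K) = 0 := by ext i; simp [pr]

theorem Q_sU : Q K (sU K) = 1 := by simp [qOdd_apply]

theorem pr_eq_zero {v : V K} : pr v = 0 ↔ v ∈ K ∙ sU K := by
  rw [Submodule.mem_span_singleton]
  refine ⟨fun h => ⟨v (.inl ()), ?_⟩, ?_⟩
  · conv_rhs => rw [inc_pr v, h, map_zero, zero_add]
  · rintro ⟨c, rfl⟩; rw [map_smul, pr_sU, smul_zero]

theorem B_comm (u v : V K) : B u v = B v u := polar_comm _ _ _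

section Two

variable (h2 : (2 : K) = 0)
include h2

theorem B_eq (u v : V K) : B u v = om K (pr u) (pr v) := by
  simp [B, polar, qOdd_apply, om, sympForm, Matrix.J, pr, dotProduct, Matrix.mulVec, Fin.sum_univ_three,
    Matrix.one_apply]
  linear_combination (u (.inl ()) * v (.inl ()) + u (.inr (.inl 0)) * v (.inr (.inr 0)) +
    u (.inr (.inl 1)) * v (.inr (.inr 1)) + u (.inr (.inl 2)) * v (.inr (.inr 2))) * h2

theorem B_sU (v : V K) : B (sU K) v = 0 := by rw [B_eq h2, pr_sU]; simp [om, sympForm]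

theorem B_self (v : V K) : B v v = 0 := by rw [B_eq h2]; exact alt_om.alt _

/-- The radical. -/
theorem rad {v : V K} (h : ∀ u, B v u = 0) : v ∈ K ∙ sU K := by
  rw [← pr_eq_zero]
  refine alt_om.nondegenerate.1 _ fun u => ?_
  rw [Symp.Alt.bilin_apply, ← pr_inc u, ← B_eq h2, h]

theorem rad_sing {v : V K} (h : ∀ u, B v u = 0) (q : Q K v = 0) : v = 0 := by
  obtain ⟨c, rfl⟩ := Submodule.mem_span_singleton.1 (rad h2 h)
  rw [Q_smul, Q_sU, mul_one] at q
  rw [pow_eq_zero_iff two_ne_zero |>.1 q, zero_smul]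

theorem fix_sU (g : O (Q K)) : g.1 (sU K) = sU K := by
  obtain ⟨c, e⟩ := Submodule.mem_span_singleton.1 (rad h2 (v := g.1 (sU K)) fun u => by
    rw [B, O.polar_left]; exact B_sU h2 _)
  have := O.map_Q g (sU K)
  rw [← e, Q_smul, Q_sU, mul_one] at this
  have c1 : c = 1 := by
    have : (c - 1) ^ 2 = 0 := by linear_combination this + (1 - c) * h2
    exact sub_eq_zero.1 (pow_eq_zero_iff two_ne_zero |>.1 this)
  rw [← e, c1, one_smul]

theorem pr_inc_pr (g : O (Q K)) (v : V K) : pr (g.1 (inc (pr v))) = pr (g.1 v) := by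
  conv_rhs => rw [inc_pr v, map_add, map_smul, fix_sU h2, map_add, map_smul, pr_sU, smul_zero, add_zero]

/-- The action on `V₆ = V₇ / K ∙ sU K`. -/
noncomputable def sp2 : O (Q K) →* G6 K :=
  MonoidHom.toHomUnits
    { toFun := fun g => LinearMap.toMatrix' (pr ∘ₗ (g.1 : V K →ₗ[K] V K) ∘ₗ inc)
      map_one' := by rw [← LinearMap.toMatrix'_id]; rfl
      map_mul' := fun g g' => by
        rw [← LinearMap.toMatrix'_comp]
        exact congrArg _ (LinearMap.ext fun v => (pr_inc_pr h2 g _).symm) }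

theorem sp2_pr (g : O (Q K)) (v : V K) : (sp2 h2 g).1 *ᵥ pr v = pr (g.1 v) :=
  (LinearMap.toMatrix'_mulVec _ _).trans (pr_inc_pr h2 g v)

theorem sp2_mem (g : O (Q K)) : sp2 h2 g ∈ Sp K := mem_Sp.2 fun u v => by
  rw [← pr_inc u, ← pr_inc v, sp2_pr, sp2_pr, ← B_eq h2, ← B_eq h2]; exact O.map_polar g _ _

theorem sp2_inj : Function.Injective (sp2 h2) := (injective_iff_map_eq_one _).2 fun g e =>
  O.ext fun v => by
    have := sp2_pr h2 g v
    rw [e, Units.val_one, Matrix.one_mulVec, eq_comm, ← sub_eq_zero, ← map_sub, pr_eq_zero] at this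
    obtain ⟨c, hc⟩ := Submodule.mem_span_singleton.1 this
    have q := O.map_Q g v
    rw [eq_add_of_sub_eq hc.symm, Q_add, Q_smul, Q_sU, polar_smul_left'] at q
    have : c ^ 2 = 0 := by
      have b := B_sU h2 v
      linear_combination q - c * b
    rw [pow_eq_zero_iff two_ne_zero |>.1 this, zero_smul] at hc
    exact (sub_eq_zero.1 hc.symm)

end Two

/-- A basis of a totally singular line. -/
structure Ln (a y : V K) : Prop where
  qa : Q K a = 0
  qy : Q K y = 0
  p : B a y = 0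
  li : ∀ s t : K, s • a + t • y = 0 → s = 0 ∧ t = 0

/-- `a ∧ y`. -/
noncomputable abbrev wd (a y : V K) : O (Q K) := eich (Q K) a y

/-- The line of `a ∧ y`. -/
abbrev ln (a y : V K) : Submodule K (V K) := Submodule.span K {a, y}

/-- The determinant of the pairing of two lines. -/
def kap (a y b z : V K) : K := B a b * B y z - B a z * B y b

/-- Involutions of type `a₂` (long root elements of `O₇`). -/
def A2 (g : O (Q K)) : Prop := ∃ a y, Ln a y ∧ g = wd a y

/-- `a ∧ y ∈ M`. -/
def DL (M : Subgroup (O (Q K))) (a y : V K) : Prop := Ln a y ∧ wd a y ∈ M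

/-- `a` lies on two non-perpendicular lines of `M`. -/
def Pol (M : Subgroup (O (Q K))) (a : V K) : Prop := ∃ s s', DL M a s ∧ DL M a s' ∧ B s s' ≠ 0

/-- Any two lines of `M` meet or are opposite. -/
def Dgn (M : Subgroup (O (Q K))) : Prop :=
  ∀ a y b z, DL M a y → DL M b z → ln a y ⊓ ln b z ≠ ⊥ ∨ kap a y b z ≠ 0

/-- `M(a)`: the `y ⟂ a` with `eich a y ∈ M` (it contains `K ∙ a`). -/
def Ma (M : Subgroup (O (Q K))) {a : V K} (ha : Q K a = 0) : AddSubgroup (V K) where
  carrier := {y | B a y = 0 ∧ wd a y ∈ M}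
  add_mem' {y z} hy hz := ⟨by rw [B, polar_add_right]; exact (congrArg₂ _ hy.1 hz.1).trans (add_zero 0),
    by rw [wd, eich_add ha hy.1 hz.1]; exact M.mul_mem hy.2 hz.2⟩
  zero_mem' := ⟨by simp, by simp⟩
  neg_mem' {y} hy := ⟨by rw [B, polar_neg_right]; exact neg_eq_zero.2 hy.1,
    by rw [wd, eich_neg ha hy.1]; exact M.inv_mem hy.2⟩

theorem mem_Ma {M : Subgroup (O (Q K))} {a y : V K} {ha : Q K a = 0} :
    y ∈ Ma M ha ↔ B a y = 0 ∧ wd a y ∈ M := Iff.rfl

/-- A finite simple subgroup of `O₇(K)`, irreducible on `V₆` and fixing no quadratic form there. -/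
structure Ev0 (M : Subgroup (O (Q K))) : Prop where
  two : (2 : K) = 0
  fin : Finite M
  simple : IsSimpleGroup M
  nab : ¬ IsMulCommutative M
  inv : ∀ X : Submodule K (V K), M ≤ stabS X → X ≤ K ∙ sU K ∨ X = ⊤

/-- ... fixing no vector of the spin module, without transvection centred on an `a₂`-line. -/
structure Ev (M : Subgroup (O (Q K))) : Prop extends Ev0 M where
  nfW : ∀ w : W K, (∀ s : Spin K, phi s ∈ M → (act s).1 w = w) → w = 0
  nb : ∀ a y (c : K), DL M a y → wd a (c • sU K) ∈ M → c = 0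

/-- No involution of type `a₂`. -/
def NA (M : Subgroup (O (Q K))) : Prop := ∀ a y, ¬ DL M a y

/-- The embedding attached to an isomorphism `M ≃* X`. -/
abbrev emb {M : Subgroup (O (Q K))} {X : Type*} [Group X] (e : M ≃* X) : X →* O (Q K) := O7.emb e

end Cfsg.Lib.S6Q
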