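import Cfsg.Agent.Lib.S6Q.Tor
import Cfsg.Agent.Lib.O7.SL

/-!
# The fifth symmetric power
-/

set_option autoImplicit false

namespace Cfsg.Lib.S6Q

open scoped MatrixGroups Matrix commutatorElement
open Cfsg.Geo Cfsg.Lib.Asch Cfsg.Lib.Linear Cfsg.Lib.Q4 Cfsg.Lib.Symp Module
open Cfsg.Lib.Q4R (Sq HasTv sc dg)

variable {K L : Type*} [Field K] [Field L]

/-- `S⁵` in the basis `x⁵, x⁴ y, x³ y², y⁵, x y⁴, x² y³`. -/
def syN {R : Type*} [CommRing R] (a b c d : R) : Matrix I6 I6 R :=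
  Matrix.fromBlocks
    !![a ^ 5, a ^ 4 * b, a ^ 3 * b ^ 2;
       5 * a ^ 4 * c, a ^ 4 * d + 4 * a ^ 3 * b * c, 2 * a ^ 3 * b * d + 3 * a ^ 2 * b ^ 2 * c;
       10 * a ^ 3 * c ^ 2, 4 * a ^ 3 * c * d + 6 * a ^ 2 * b * c ^ 2, a ^ 3 * d ^ 2 + 6 * a ^ 2 * b * c * d + 3 * a * b ^ 2 * c ^ 2]
    !![b ^ 5, a * b ^ 4, a ^ 2 * b ^ 3;
       5 * b ^ 4 * d, 4 * a * b ^ 3 * d + b ^ 4 * c, 3 * a ^ 2 * b ^ 2 * d + 2 * a * b ^ 3 * c;
       10 * b ^ 3 * d ^ 2, 6 * a * b ^ 2 * d ^ 2 + 4 * b ^ 3 * c * d, 3 * a ^ 2 * b * d ^ 2 + 6 * a * b ^ 2 * c * d + b ^ 3 * c ^ 2]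
    !![c ^ 5, c ^ 4 * d, c ^ 3 * d ^ 2;
       5 * a * c ^ 4, 4 * a * c ^ 3 * d + b * c ^ 4, 3 * a * c ^ 2 * d ^ 2 + 2 * b * c ^ 3 * d;
       10 * a ^ 2 * c ^ 3, 6 * a ^ 2 * c ^ 2 * d + 4 * a * b * c ^ 3, 3 * a ^ 2 * c * d ^ 2 + 6 * a * b * c ^ 2 * d + b ^ 2 * c ^ 3]
    !![d ^ 5, c * d ^ 4, c ^ 2 * d ^ 3;
       5 * b * d ^ 4, a * d ^ 4 + 4 * b * c * d ^ 3, 2 * a * c * d ^ 3 + 3 * b * c ^ 2 * d ^ 2;
       10 * b ^ 2 * d ^ 3, 4 * a * b * d ^ 3 + 6 * b ^ 2 * c * d ^ 2, a ^ 2 * d ^ 3 + 6 * a * b * c * d ^ 2 + 3 * b ^ 2 * c ^ 2 * d]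

set_option maxHeartbeats 1600000 in
theorem syN_mul {R : Type*} [CommRing R] (a b c d a' b' c' d' : R) : syN a b c d * syN a' b' c' d' =
    syN (a * a' + b * c') (a * b' + b * d') (c * a' + d * c') (c * b' + d * d') := by
  ext i j
  rcases i with i | i <;> rcases j with j | j <;> fin_cases i <;> fin_cases j <;>
    simp [syN, Matrix.mul_apply, Fin.sum_univ_three] <;> ring

theorem syN_diag {R : Type*} [CommRing R] (a d : R) : syN a 0 0 d =
    Matrix.diagonal (Sum.elim ![a ^ 5, a ^ 4 * d, a ^ 3 * d ^ 2] ![d ^ 5, a * d ^ 4, a ^ 2 * d ^ 3]) := by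
  ext i j
  rcases i with i | i <;> rcases j with j | j <;> fin_cases i <;> fin_cases j <;> simp [syN]

/-- The invariant form in the monomial basis. -/
def syO (R : Type*) [CommRing R] : Matrix I6 I6 R :=
  Matrix.fromBlocks 0 !![-10, 0, 0; 0, 2, 0; 0, 0, -1] !![10, 0, 0; 0, -2, 0; 0, 0, 1] 0

set_option maxHeartbeats 1600000 in
theorem syN_form {R : Type*} [CommRing R] (a b c d : R) :
    (syN a b c d)ᵀ * syO R * syN a b c d = (a * d - b * c) ^ 5 • syO R := by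
  ext i j
  rcases i with i | i <;> rcases j with j | j <;> fin_cases i <;> fin_cases j <;>
    simp [syN, syO, Matrix.mul_apply, Fin.sum_univ_three] <;> ring

theorem syN_map {R S : Type*} [CommRing R] [CommRing S] (f : R →+* S) (a b c d : R) :
    (syN a b c d).map f = syN (f a) (f b) (f c) (f d) := by
  ext i j
  rcases i with i | i <;> rcases j with j | j <;> fin_cases i <;> fin_cases j <;> simp [syN, map_ofNat]

/-- The scaling of the basis. -/
def syD (K : Type*) [Field K] : I6 → K := Sum.elim ![1, 1, 1] ![1, -5, 10]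

theorem syD_ne (h : (30 : K) ≠ 0) (i : I6) : syD K i ≠ 0 := by
  have h5 : (5 : K) ≠ 0 := fun e => h (by linear_combination 6 * e)
  have h2 : (2 : K) ≠ 0 := fun e => h (by linear_combination 15 * e)
  have h10 : (10 : K) ≠ 0 := fun e => mul_ne_zero h2 h5 (by linear_combination e)
  rcases i with i | i <;> fin_cases i <;> simp [syD, h5, h10]

/-- `S⁵` in a symplectic basis. -/
def syM (h : (30 : K) ≠ 0) : SL(2, K) →* Matrix I6 I6 K where
  toFun g := Matrix.diagonal (syD K)⁻¹ * syN (g.1 0 0) (g.1 0 1) (g.1 1 0) (g.1 1 1) * Matrix.diagonal (syD K)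
  map_one' := by
    have : syN (1 : K) 0 0 1 = 1 := by
      rw [syN_diag]; ext i j; rcases i with i | i <;> rcases j with j | j <;> fin_cases i <;> fin_cases j <;> simp
    simp [this, syD_ne h]
  map_mul' g k := by
    have : Matrix.diagonal (syD K) * Matrix.diagonal (syD K)⁻¹ = 1 := by simp [syD_ne h]
    simp only [Matrix.mul_assoc]
    rw [← Matrix.mul_assoc (Matrix.diagonal (syD K)), this, Matrix.one_mul, ← Matrix.mul_assoc (syN _ _ _ _), syN_mul]
    simp [Matrix.mul_apply]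

theorem syM_apply (h : (30 : K) ≠ 0) (g : SL(2, K)) (i j : I6) :
    syM h g i j = (syD K i)⁻¹ * syN (g.1 0 0) (g.1 0 1) (g.1 1 0) (g.1 1 1) i j * syD K j := by
  simp [syM]

theorem syM_sp (h : (30 : K) ≠ 0) (g : SL(2, K)) :
    (syM h g)ᵀ * Matrix.J (Fin 3) K * syM h g = Matrix.J (Fin 3) K := by
  have h5 : (5 : K) ≠ 0 := fun e => h (by linear_combination 6 * e)
  have h2 : (2 : K) ≠ 0 := fun e => h (by linear_combination 15 * e)
  have h10 : (10 : K) ≠ 0 := fun e => mul_ne_zero h2 h5 (by linear_combination e)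
  have e1 : Matrix.diagonal (syD K)⁻¹ * Matrix.J (Fin 3) K * Matrix.diagonal (syD K)⁻¹ = (10 : K)⁻¹ • syO K := by
    ext i j
    rcases i with i | i <;> rcases j with j | j <;> fin_cases i <;> fin_cases j <;>
      simp [syD, syO, Matrix.J, h10] <;> field_simp <;> norm_num
  have e2 : Matrix.diagonal (syD K) * ((10 : K)⁻¹ • syO K) * Matrix.diagonal (syD K) = Matrix.J (Fin 3) K := by
    rw [← e1]
    simp only [← Matrix.mul_assoc]
    simp [Matrix.mul_assoc, syD_ne h]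
  have e3 := syN_form (g.1 0 0) (g.1 0 1) (g.1 1 0) (g.1 1 1)
  rw [← Matrix.det_fin_two, g.2, one_pow, one_smul] at e3
  have e4 : syM h g = Matrix.diagonal (syD K)⁻¹ * syN (g.1 0 0) (g.1 0 1) (g.1 1 0) (g.1 1 1) *
    Matrix.diagonal (syD K) := rfl
  rw [e4]
  generalize syN (g.1 0 0) (g.1 0 1) (g.1 1 0) (g.1 1 1) = N at e3 ⊢
  calc _ = Matrix.diagonal (syD K) * (Nᵀ * (Matrix.diagonal (syD K)⁻¹ * Matrix.J (Fin 3) K *
        Matrix.diagonal (syD K)⁻¹) * N) * Matrix.diagonal (syD K) := by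
        simp only [Matrix.transpose_mul, Matrix.diagonal_transpose, Matrix.mul_assoc]
    _ = _ := by rw [e1, Matrix.mul_smul, Matrix.smul_mul, e3, e2]

/-- `S⁵` in a symplectic basis `x⁵, x⁴ y, x³ y², c₀ y⁵, c₁ x y⁴, c₂ x² y³` (any explicit construction will do; define the matrix
with `5⁻¹`, `10⁻¹`). -/
theorem exists_sy5 (h : (30 : K) ≠ 0) (f : K →+* L) : ∃ (ρ : SL(2, K) →* G6 K) (ρ' : SL(2, L) →* G6 L),
    (∀ g, ρ g ∈ Sp K) ∧ ρ (-1) = -1 ∧ ρ (PSL2.upper 1) ≠ 1 ∧ (∀ g, mp f (ρ g) = ρ' (Matrix.SpecialLinearGroup.map f g)) ∧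
      ∀ x : Lˣ, ρ' (O7.dS x) = tor ![x ^ 5, x ^ 3, x] := by
  have h' : (30 : L) ≠ 0 := by simpa [map_ofNat] using (map_ne_zero f).2 h
  refine ⟨(syM h).toHomUnits, (syM h').toHomUnits, fun g => mem_Sp'.2 (syM_sp h g), Units.ext ?_, fun e => ?_,
    fun g => Units.ext ?_, fun x => Units.ext ?_⟩
  · ext i j
    have := syD_ne h j
    rw [MonoidHom.coe_toHomUnits, syM_apply]
    simp only [Matrix.SpecialLinearGroup.coe_neg, Matrix.SpecialLinearGroup.coe_one, Matrix.neg_apply,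
      Matrix.one_apply_eq, Matrix.one_apply_ne (zero_ne_one' (Fin 2)), Matrix.one_apply_ne (one_ne_zero' (Fin 2)), neg_zero, syN_diag]
    rcases i with i | i <;> rcases j with j | j <;> fin_cases i <;> fin_cases j <;> simp at this ⊢ <;> field_simp <;> norm_num
  · have := congrArg (fun g : G6 K => g.1 (.inl 0) (.inr 0)) e
    simp only [MonoidHom.coe_toHomUnits, syM_apply] at this
    simp [PSL2.upper, syN, syD] at this
  · ext i j
    have e : ∀ i, f (syD K i) = syD L i := fun i => by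
      rcases i with i | i <;> fin_cases i <;> simp [syD, map_ofNat]
    rw [mp_val, MonoidHom.coe_toHomUnits, MonoidHom.coe_toHomUnits, Matrix.map_apply, syM_apply, syM_apply, map_mul,
      map_mul, map_inv₀, e, e, ← Matrix.map_apply (f := f), syN_map]
    rfl
  · ext i j
    have := syD_ne h' j
    have x0 := x.ne_zero
    rw [MonoidHom.coe_toHomUnits, syM_apply, tor_eq, Q4R.dg_val]
    simp only [O7.dS, Matrix.of_apply, Matrix.cons_val', Matrix.cons_val_zero, Matrix.cons_val_one, Matrix.cons_val_fin_one,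
      syN_diag]
    rcases i with i | i <;> rcases j with j | j <;> fin_cases i <;> fin_cases j <;> simp at this ⊢ <;> field_simp

end Cfsg.Lib.S6Q
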