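import Cfsg.Agent.Lib.S6Q.T4
import Cfsg.Agent.Lib.S6Q.Sy5
import Cfsg.Agent.Lib.Alt.Aut
import Cfsg.Agent.Lib.PSL2.Sub
import Cfsg.Agent.Lib.Small.Triangle

/-!
# The ending `A₅`
-/

set_option autoImplicit false
set_option linter.unusedSectionVars false

namespace Cfsg.Lib.S6Q

open scoped MatrixGroups Matrix commutatorElement
open Cfsg.Geo Cfsg.Lib.Asch Cfsg.Lib.Linear Cfsg.Lib.Q4 Cfsg.Lib.Symp Module
open Cfsg.Lib.Q4R (Sq HasTv sc dg)

theorem ea5_irr {K : Type*} [Field K] {Q : Subgroup (G6 K)} (h : Irr (pm Q)) : Irr Q := fun Z hZ => h Z fun g hg v hv => by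
  rcases hg with hg | hg
  · exact hZ g hg v hv
  · simpa [Matrix.neg_mulVec] using neg_mem (hZ _ hg v hv)

theorem ea5_ext {F K : Type*} [Field F] [Field K] (f : F →+* K) (a b : G6 F) :
    ext f (pm (Subgroup.closure {a, b})) = pm (Subgroup.closure {mp f a, mp f b}) := by
  rw [ext_pm, ext, MonoidHom.map_closure, Set.image_pair]

theorem ea5_diag {K : Type*} [Field K] {g : SL(2, K)} {x : Kˣ} (hx : (x : K) ≠ (x : K)⁻¹)
    (t : g.1.trace = x + (x : K)⁻¹) : ∃ c : SL(2, K), g = c * O7.dS x * c⁻¹ := by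
  have d := g.2
  rw [Matrix.det_fin_two] at d
  rw [Matrix.trace_fin_two] at t
  have x0 := mul_inv_cancel₀ x.ne_zero
  have key : ∀ y z : K, y * z = 1 → g.1 0 0 + g.1 1 1 = y + z →
      ∃ v : Fin 2 → K, v ≠ 0 ∧ g.1 0 0 * v 0 + g.1 0 1 * v 1 = y * v 0 ∧ g.1 1 0 * v 0 + g.1 1 1 * v 1 = y * v 1 := by
    intro y z e t
    obtain ⟨v, v0, hv⟩ := Matrix.exists_mulVec_eq_zero_iff.2 (show (g.1 - y • (1 : Matrix (Fin 2) (Fin 2) K)).det = 0 by
      rw [Matrix.det_fin_two]; simp; linear_combination d - y * t - e)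
    have h0 := congrFun hv 0
    have h1 := congrFun hv 1
    simp [Matrix.mulVec, dotProduct] at h0 h1
    exact ⟨v, v0, by linear_combination h0, by linear_combination h1⟩
  obtain ⟨v, v0, v1, v2⟩ := key _ _ x0 t
  obtain ⟨w, w0, w1, w2⟩ := key _ _ (mul_comm (x : K) _ ▸ x0) (t.trans (add_comm _ _))
  have n := sub_ne_zero.2 hx
  have dn : v 0 * w 1 - w 0 * v 1 ≠ 0 := fun e => by
    have a : ∀ i j, v i * w j = 0 := by
      have a00 : v 0 * w 0 = 0 := (mul_eq_zero.1 (show ((x : K) - (x : K)⁻¹) * (v 0 * w 0) = 0 by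
        linear_combination v 0 * w1 - w 0 * v1 - g.1 0 1 * e)).resolve_left n
      have a11 : v 1 * w 1 = 0 := (mul_eq_zero.1 (show ((x : K) - (x : K)⁻¹) * (v 1 * w 1) = 0 by
        linear_combination v 1 * w2 - w 1 * v2 + g.1 1 0 * e)).resolve_left n
      have a01 : v 0 * w 1 = 0 := (mul_eq_zero.1 (show ((x : K) - (x : K)⁻¹) * (v 0 * w 1) = 0 by
        linear_combination v 0 * w2 - w 0 * v2 - (g.1 1 1 - x) * e)).resolve_left n
      have a10 : v 1 * w 0 = 0 := by linear_combination a01 - e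
      intro i j; fin_cases i <;> fin_cases j <;> assumption
    obtain ⟨i, hi⟩ := Function.ne_iff.1 v0
    obtain ⟨j, hj⟩ := Function.ne_iff.1 w0
    exact mul_ne_zero hi hj (a i j)
  have dn' := mul_inv_cancel₀ dn
  refine ⟨⟨!![v 0, w 0 * (v 0 * w 1 - w 0 * v 1)⁻¹; v 1, w 1 * (v 0 * w 1 - w 0 * v 1)⁻¹], by
    rw [Matrix.det_fin_two_of]; linear_combination dn'⟩, eq_mul_inv_iff_mul_eq.2 (Subtype.ext ?_)⟩
  change g.1 * _ = _ * (O7.dS x).1
  ext i j
  fin_cases i <;> fin_cases j <;> simp [O7.dS, Matrix.mul_apply, Fin.sum_univ_two]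
  · linear_combination v1
  · linear_combination (v 0 * w 1 - w 0 * v 1)⁻¹ * w1
  · linear_combination v2
  · linear_combination (v 0 * w 1 - w 0 * v 1)⁻¹ * w2

theorem ea5_hd {K : Type*} [Field K] (x : Kˣ) : hd (tor ![x ^ 5, x ^ 3, x] : G6 K) (tor ![x ^ 5, x ^ 3, x]) =
    (Finset.univ.filter fun ij : I6 × I6 => Sum.elim ![5, 3, 1] ![-5, -3, -1] ij.1 ≡
      Sum.elim ![5, 3, 1] ![-5, -3, -1] ij.2 [ZMOD orderOf x]).card := by
  have e : ∀ i : I6, Sum.elim ![x ^ 5, x ^ 3, x] (fun i => (![x ^ 5, x ^ 3, x] i)⁻¹) i =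
      x ^ (Sum.elim ![5, 3, 1] ![-5, -3, -1] i : ℤ) := by
    rintro (i | i) <;> fin_cases i <;> simp [zpow_ofNat]
  rw [tor_eq, hd_dg]
  congr 1
  ext ij
  simp only [Finset.mem_filter, e, zpow_eq_zpow_iff_modEq]

theorem ea5_model {K L : Type*} [Field K] [Field L] [IsAlgClosed L] {f : K →+* L} {ρ : SL(2, K) →* G6 K}
    {ρ' : SL(2, L) →* G6 L} (e : ∀ g, mp f (ρ g) = ρ' (Matrix.SpecialLinearGroup.map f g))
    (e' : ∀ x : Lˣ, ρ' (O7.dS x) = tor ![x ^ 5, x ^ 3, x]) {r : ℕ} (hr : r.Prime) (g : SL(2, K))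
    (h : ∀ x : L, x ≠ 0 → x + x⁻¹ = f g.1.trace → x ^ r = 1 ∧ x ≠ 1 ∧ x ≠ x⁻¹) :
    mp f (ρ g) ^ r = 1 ∧ hd (mp f (ρ g)) (mp f (ρ g)) = (Finset.univ.filter fun ij : I6 × I6 =>
      Sum.elim ![5, 3, 1] ![-5, -3, -1] ij.1 ≡ Sum.elim ![5, 3, 1] ![-5, -3, -1] ij.2 [ZMOD r]).card := by
  have := Fact.mk hr
  obtain ⟨x, hx⟩ := IsAlgClosed.exists_root (Polynomial.C 1 * Polynomial.X ^ 2 + Polynomial.C (-f g.1.trace) * Polynomial.X +
    Polynomial.C 1) (by rw [Polynomial.degree_quadratic one_ne_zero]; decide)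
  simp only [Polynomial.IsRoot.def, Polynomial.eval_add, Polynomial.eval_mul, Polynomial.eval_C, Polynomial.eval_pow,
    Polynomial.eval_X] at hx
  have x0 : x ≠ 0 := by rintro rfl; simp at hx
  have t : x + x⁻¹ = f g.1.trace := by field_simp; linear_combination hx
  obtain ⟨h1, h2, h3⟩ := h x x0 t
  obtain ⟨c, hc⟩ := ea5_diag (g := Matrix.SpecialLinearGroup.map f g) (x := Units.mk0 x x0) h3
    (by rw [Units.val_mk0, t, Matrix.trace_fin_two, Matrix.trace_fin_two, map_add]; rfl)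
  have o : orderOf (Units.mk0 x x0) = r := orderOf_eq_prime (Units.ext (by simpa using h1)) fun e => h2 (congrArg Units.val e)
  rw [e, hc, map_mul, map_mul, map_inv, hd_conj, e', ea5_hd, o, conj_pow, ← map_pow]
  refine ⟨?_, rfl⟩
  have : (![Units.mk0 x x0 ^ 5, Units.mk0 x x0 ^ 3, Units.mk0 x x0] : Fin 3 → Lˣ) ^ r = 1 := by
    have u : Units.mk0 x x0 ^ r = 1 := o ▸ pow_orderOf_eq_one _
    have u' : ∀ k : ℕ, (Units.mk0 x x0 ^ k) ^ r = 1 := fun k => by rw [pow_right_comm, u, one_pow]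
    ext1 i
    fin_cases i <;> simp [u, u']
  rw [this, map_one, mul_one, mul_inv_cancel]

variable {F : Type*} [Field F] [Fintype F] (p : ℕ) [Fact p.Prime] [CharP F p] {H P : Subgroup (G6 F)}

variable {π : pm P →* alternatingGroup (Fin 5)}

theorem ea5_five {K : Type*} [Field K] [CharP K p] (h5 : p ≠ 5) : (5 : K) ≠ 0 := fun e =>
  h5 ((Nat.prime_dvd_prime_iff_eq Fact.out Nat.prime_five).1 ((CharP.cast_eq_zero_iff K p 5).1 (by exact_mod_cast e)))

/-- Lift a `(2, 3, 5)` triple: `b³ = 1`, `c⁵ = 1`, `a = c b⁻¹`.  Over the closure `scott_gl`, `hd_three`, `hd_five`, `TI.hd`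
(`20 + 12 + 8 > 38`) give `a² = -1` and equality. -/
theorem Od.a5_triple (h : Od P π) (h5 : p ≠ 5) : ∃ a b : G6 F, pm (Subgroup.closure {a, b}) = pm P ∧ a * a = -1 ∧ b ^ 3 = 1 ∧
    (a * b) ^ 5 = 1 ∧ hd b b ≤ 12 ∧ hd (a * b) (a * b) ≤ 8 ∧ ∀ t : pm P, π t * π t = 1 → π t ≠ 1 → t.1 * t.1 = -1 := by
  obtain ⟨x3, y5, -⟩ := Small.altFive_rels
  obtain ⟨b, hb, b3⟩ := h.cv.lift (x := Small.altFiveX⁻¹) (n := 3) (by decide) (by rw [inv_pow, x3, inv_one])
  obtain ⟨c, hc, c5⟩ := h.cv.lift (n := 5) (by decide) y5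
  have ha : π (c * b⁻¹) = Small.altFiveY * Small.altFiveX := by rw [map_mul, map_inv, hb, hc, inv_inv]
  have r : Small.altFiveY * Small.altFiveX * (Small.altFiveY * Small.altFiveX) = 1 ∧ Small.altFiveY * Small.altFiveX ≠ 1 := by
    decide +kernel
  have cj : ∀ t : Equiv.Perm (Fin 5), Equiv.Perm.sign t = 1 → t * t = 1 → t ≠ 1 → ∃ s : Equiv.Perm (Fin 5),
      Equiv.Perm.sign s = 1 ∧ s * (Small.altFiveY * Small.altFiveX).1 * s⁻¹ = t := by decide +kernel
  generalize hA : c * b⁻¹ = a at ha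
  have ab : a.1 * b.1 = c.1 := by rw [← hA]; simp
  have g : pm (Subgroup.closure {a.1, b.1}) = pm P := by
    refine le_antisymm (pm_le ((Subgroup.closure_le _).2 ?_) (neg_mem_pm P)) fun g hg => ?_
    · rintro _ (rfl | rfl)
      exacts [a.2, b.2]
    · have e : (Subgroup.closure {a, b}).map π = ⊤ := by
        rw [eq_top_iff, ← Small.closure_altFive, Subgroup.closure_le]
        have ma : a ∈ Subgroup.closure {a, b} := Subgroup.subset_closure (by simp)
        have mb : b ∈ Subgroup.closure {a, b} := Subgroup.subset_closure (by simp)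
        rintro _ (rfl | rfl)
        · exact ⟨b⁻¹, inv_mem mb, by rw [map_inv, hb, inv_inv]⟩
        · exact ⟨a * b, mul_mem ma mb, by rw [map_mul, ha, hb, mul_inv_cancel_right]⟩
      obtain ⟨y, hy, e⟩ : π ⟨g, hg⟩ ∈ (Subgroup.closure {a, b}).map π := e ▸ trivial
      have m : y.1 ∈ Subgroup.closure {a.1, b.1} := by
        have := Subgroup.mem_map_of_mem (pm P).subtype hy
        rwa [MonoidHom.map_closure, Set.image_pair] at this
      rcases h.cv.eq_iff.1 e with e | e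
      · exact .inl ((show y.1 = g from e) ▸ m)
      · exact .inr (e ▸ m)
  let f := algebraMap F (AlgebraicClosure F)
  have two : (2 : AlgebraicClosure F) ≠ 0 := (h.cv.toPre.ext f).two
  have i := h.irr f
  rw [← g, ea5_ext] at i
  have s := scott_gl (ea5_irr i)
  rw [← map_mul, ab] at s
  have h3 := hd_three (b := mp f b.1) (by rw [← map_pow, b3, map_one])
  have h5' := hd_five (c := mp f c.1) (ea5_five p h5) (by rw [← map_pow, c5, map_one])
  have sa := mp_mem_Sp f (h.cv.sp a.2)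
  have a2 : a.1 * a.1 = -1 := by
    refine ((h.cv.ker (a * a)).1 (by rw [map_mul, ha, r.1])).resolve_left fun e => ?_
    have n := mt (h.cv.ker a).2 (ha ▸ r.2)
    rcases ti_or two sa (by rw [← map_mul]; exact (congrArg (mp f) e).trans (map_one _)) with q | q | q | q
    · exact n (.inl (mp_inj f (q.trans (map_one _).symm)))
    · exact n (.inr (mp_inj f (by rw [q, mp_neg, map_one])))
    · have := q.hd two q; omega
    · have := q.hd two q; rw [hd_neg] at this; omega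
  have t : TII (mp f a.1) := by rw [TII, ← map_mul, a2, mp_neg, map_one]
  have := t.hd two sa sa t
  rw [hd_mp] at h3 h5'
  rw [this, hd_mp, hd_mp] at s
  refine ⟨a, b, g, a2, b3, ab ▸ c5, by omega, by rw [ab]; omega, fun t t2 t1 => ?_⟩
  obtain ⟨s, hs, e⟩ := cj (π t).1 (π t).2 (congrArg Subtype.val t2) fun e => t1 (Subtype.ext e)
  obtain ⟨y, hy⟩ := h.cv.surj ⟨s, hs⟩
  have : π t = π (y * a * y⁻¹) := by rw [map_mul, map_mul, map_inv, hy, ha]; exact Subtype.ext e.symm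
  have k : y.1 * a.1 * y.1⁻¹ * (y.1 * a.1 * y.1⁻¹) = -1 := by rw [conj_mul, a2]; simp
  rcases h.cv.eq_iff.1 this with e | e
  · rw [e]; exact k
  · rw [e, neg_mul_neg]; exact k

omit [Fintype F] [CharP F p] in
theorem Od.a5_rigid (h : Od P π) (h5 : p ≠ 5) {a b : G6 F} (g : pm (Subgroup.closure {a, b}) = pm P) (a2 : a * a = -1)
    (b3 : b ^ 3 = 1) (c5 : (a * b) ^ 5 = 1) (hb : hd b b ≤ 12) (hc : hd (a * b) (a * b) ≤ 8) {K : Type*} [Field K]
    [IsAlgClosed K] [CharP K p] (f : F →+* K) {a' b' : G6 K} (sa : a' ∈ Sp K) (sb : b' ∈ Sp K) (a2' : a' * a' = -1)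
    (b3' : b' ^ 3 = 1) (c5' : (a' * b') ^ 5 = 1) (hb' : hd b' b' ≤ 12) (hc' : hd (a' * b') (a' * b') ≤ 8) :
    ∃ k : G6 K, mp f a = k * a' * k⁻¹ ∧ mp f b = k * b' * k⁻¹ := by
  have two : (2 : K) ≠ 0 := (h.cv.toPre.ext f).two
  have ma := mp_mem_Sp f (h.cv.sp (g ▸ le_pm _ (Subgroup.subset_closure (by simp)) : a ∈ pm P))
  have mb := mp_mem_Sp f (h.cv.sp (g ▸ le_pm _ (Subgroup.subset_closure (by simp)) : b ∈ pm P))
  have i := h.irr f
  rw [← g, ea5_ext] at i
  refine rigid (ea5_irr i) ?_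
  have h1 := TII.hd two ma sa (by rw [TII, ← map_mul, a2, mp_neg, map_one]) a2'
  have h2 := hd_three' (a := mp f b) (by rw [← map_pow, b3, map_one]) b3' (by rwa [hd_mp]) hb'
  have h3 := hd_five' (ea5_five p h5) (mul_mem ma mb) (mul_mem sa sb) (by rw [← map_mul, ← map_pow, c5, map_one]) c5'
    (by rwa [← map_mul, hd_mp]) hc'
  omega

/-- `rigid` (`18 + 12 + 8 > 36`) against the Frobenius twist, `tr_fix`, `Core.card_eq`. -/
theorem Od.a5_card (h : Od P π) (h5 : p ≠ 5) : Fintype.card F = p := by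
  obtain ⟨a, b, g, a2, b3, c5, hb, hc, -⟩ := h.a5_triple p h5
  let f := algebraMap F (AlgebraicClosure F)
  let σ := frobenius (AlgebraicClosure F) p
  have ma : a ∈ Sp F := h.cv.sp (g ▸ le_pm _ (Subgroup.subset_closure (by simp)))
  have mb : b ∈ Sp F := h.cv.sp (g ▸ le_pm _ (Subgroup.subset_closure (by simp)))
  obtain ⟨k, ka, kb⟩ := h.a5_rigid p h5 g a2 b3 c5 hb hc f (a' := mp σ (mp f a)) (b' := mp σ (mp f b))
    (mp_mem_Sp _ (mp_mem_Sp _ ma)) (mp_mem_Sp _ (mp_mem_Sp _ mb))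
    (by rw [← map_mul, ← map_mul, a2, mp_neg, mp_neg, map_one, map_one]) (by rw [← map_pow, ← map_pow, b3, map_one, map_one])
    (by rw [← map_mul, ← map_mul, ← map_pow, ← map_pow, c5, map_one, map_one]) (by rwa [hd_mp, hd_mp])
    (by rwa [← map_mul, ← map_mul, hd_mp, hd_mp])
  refine h.toCore.card_eq p fun x hx => f.injective ?_
  have := tr_fix σ (k := k) (s := {mp f a, mp f b}) (by rintro _ (rfl | rfl); exacts [ka, kb]) (mp f x)
    (by rw [← ea5_ext, g]; exact ⟨x, le_pm P hx, rfl⟩)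
  rwa [tr_map, frobenius_def, ← map_pow] at this

/-- `Alt.conjNormal_bijective`: an odd permutation times an even one is a `4`-cycle; `Od.sq_eq`, `no_eight`. -/
theorem Od.a5_le (h : Od P π) (m : Mx H P) (h5 : p ≠ 5) (h8 : p % 8 = 3 ∨ p % 8 = 5) : H ≤ pm P := by
  intro n hn
  obtain ⟨φ, e, nr, inn⟩ := h.exists_aut m hn
  obtain ⟨s, rfl⟩ := (Alt.conjNormal_bijective (α := Fin 5) (by simp) (by simp)).2 φ
  rcases Int.units_eq_one_or (Equiv.Perm.sign s) with hs | hs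
  · exact inn ⟨⟨s, hs⟩, fun x => rfl⟩
  exfalso
  obtain ⟨-, -, -, -, -, -, -, -, ti⟩ := h.a5_triple p h5
  let w : Equiv.Perm (Fin 5) := Equiv.swap 0 1 * Equiv.swap 1 2 * Equiv.swap 2 3
  have r : Equiv.Perm.sign w = -1 ∧ w * w * (w * w) = 1 ∧ w * w ≠ 1 := by decide +kernel
  obtain ⟨y, hy⟩ := h.cv.surj ⟨s⁻¹ * w, by simp [hs, r.1]⟩
  obtain ⟨t, ht⟩ := h.cv.surj ⟨w * w, by simp [r.1]⟩
  have t2 := ti t (by rw [ht]; exact Subtype.ext r.2.1) (by rw [ht]; exact fun e => r.2.2 (congrArg Subtype.val e))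
  have hn' : n * y.1 ∈ H := mul_mem hn (m.pm_le y.2)
  have q := h.sq_eq m hn' (φ := MulAut.conjNormal w) (y := t) (fun g hg => by
    have := e (y * g * y⁻¹) (nr _ (y * g * y⁻¹).2)
    rw [map_mul, map_mul, map_inv, hy] at this
    refine Eq.trans ?_ (this.trans (congrArg π (Subtype.ext (by simp [mul_assoc]))))
    exact Subtype.ext (by simp [mul_assoc, hy])) fun x => by rw [ht]; exact Subtype.ext (by simp [mul_assoc])
  refine no_eight (by rw [h.a5_card p h5]; exact h8) (m.max.1.le hn') ?_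
  rw [show 4 = 2 * 2 from rfl, pow_mul, sq, sq]
  rcases q with q | q <;> rw [q]
  · exact t2
  · rw [neg_mul_neg]; exact t2

/-- For `p ≡ ± 1 (mod 5)` there are `a₀, b₀ ∈ SL₂(p)` with traces `0, -1` and `tr (a₀ b₀) = τ`, `τ² + τ = 1` (a conic
`(x + 1 / 2)² + (y - τ / 2)² = const`); `rigid` against `S⁵`, `Od.card_eq_of_model` with `L = S⁵(SL₂(p))`, `p ∣ |L| ∣ p (p² - 1)`. -/
theorem Od.a5_not (h : Od P π) (m : Mx H P) (hH : H ≤ pm P) (h5 : p % 5 = 1 ∨ p % 5 = 4) : False := by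
  have p5 : p ≠ 5 := by omega
  have hp : p.Prime := Fact.out
  have cF : Nat.card F = p := by rw [Nat.card_eq_fintype_card, h.a5_card p p5]
  obtain ⟨a, b, g, a2, b3, c5, hb, hc, -⟩ := h.a5_triple p p5
  let K := AlgebraicClosure F
  let f := algebraMap F K
  have three : ∀ (E : Type _) [Field E] [CharP E p], (3 : E) ≠ 0 := fun E _ _ e => by
    have := (Nat.prime_dvd_prime_iff_eq hp Nat.prime_three).1 ((CharP.cast_eq_zero_iff E p 3).1 (by exact_mod_cast e))
    omega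
  obtain ⟨ρ, ρ', sp, neg, up, e, e'⟩ := exists_sy5 (K := F) (L := K) (fun e =>
    mul_ne_zero (mul_ne_zero h.cv.two (three F)) (ea5_five p p5) (by linear_combination e)) f
  obtain ⟨τ, hτ⟩ := PSL2.exists_golden_of_dvd (F := F) (by
    rw [cF, Nat.prime_five.dvd_mul, ← Nat.modEq_iff_dvd' (Nat.one_le_pow _ _ hp.pos), Nat.ModEq, Nat.pow_mod]
    rcases h5 with e | e <;> rw [e] <;> simp)
  obtain ⟨A, B, tA, tB, tC⟩ := PSL2.exists_sl_traces (F := F) (β := -1) (γ := -τ) fun e => absurd e h.cv.two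
  have A2 : A * A = -1 := by
    have d := A.2
    rw [Matrix.det_fin_two] at d
    rw [Matrix.trace_fin_two] at tA
    refine Subtype.ext ?_
    change A.1 * A.1 = -1
    ext i j
    fin_cases i <;> fin_cases j <;> simp [Matrix.mul_apply, Fin.sum_univ_two]
    · linear_combination A.1 0 0 * tA - d
    · linear_combination A.1 0 1 * tA
    · linear_combination A.1 1 0 * tA
    · linear_combination A.1 1 1 * tA - d
  obtain ⟨B3, hB⟩ := ea5_model e e' Nat.prime_three B fun x x0 t => by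
    rw [tB, map_neg, map_one] at t
    have i := mul_inv_cancel₀ x0
    have q : x ^ 2 + x + 1 = 0 := by linear_combination x * t - i
    have x1 : x ≠ 1 := fun e => three K (by rw [e] at q; linear_combination q)
    exact ⟨by linear_combination (x - 1) * q, x1, fun e => x1 (by linear_combination (x - 1) * q - (x * x) * e - x * i)⟩
  obtain ⟨C5, hC⟩ := ea5_model e e' Nat.prime_five (A * B) fun x x0 t => by
    rw [tC, map_neg] at t
    have i := mul_inv_cancel₀ x0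
    have k : f τ ^ 2 = f τ + 1 := by rw [← map_pow, hτ, map_add, map_one]
    have q : x ^ 4 + x ^ 3 + x ^ 2 + x + 1 = 0 := by
      linear_combination (x ^ 2 + 1 - f τ * x + x) * (x * t - i) + x ^ 2 * k
    have x1 : x ≠ 1 := fun e => ea5_five (K := K) p p5 (by rw [e] at q; linear_combination q)
    refine ⟨by linear_combination (x - 1) * q, x1, fun e => x1 ?_⟩
    have : x * x = 1 := by rw [← i, ← e]
    linear_combination (x - 1) * q - (x ^ 3 + x) * this
  obtain ⟨k, ka, kb⟩ := h.a5_rigid p p5 g a2 b3 c5 hb hc f (a' := mp f (ρ A)) (b' := mp f (ρ B)) (mp_mem_Sp _ (sp A))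
    (mp_mem_Sp _ (sp B)) (by rw [← map_mul, ← map_mul, A2, neg, mp_neg, map_one]) B3 (by rwa [← map_mul, ← map_mul])
    (by rw [hB]; decide) (by rw [← map_mul, ← map_mul, hC]; decide)
  have dv : Nat.card ρ.range ∣ p * (p ^ 2 - 1) := by
    rw [← cF, ← PSL2.card_SL2]; exact Subgroup.card_range_dvd ρ
  have c := h.card_eq_of_model m hH f ![a, b] ![ρ A, ρ B] (by rw [← g]; simp [Set.pair_comm]) (L := ρ.range)
    (by rintro _ ⟨g, rfl⟩; exact sp g) ⟨-1, neg⟩ (fun i => by fin_cases i <;> simp) (k := k)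
    (fun i => by fin_cases i; exacts [ka, kb]) fun d => by
      rw [cF] at d
      have d1 : p * p ∣ p * (p ^ 2 - 1) := (Dvd.intro (p ^ 4) (by ring)).trans (d.trans dv)
      have d2 := Nat.dvd_sub (dvd_pow_self p two_ne_zero) (Nat.dvd_of_mul_dvd_mul_left hp.pos d1)
      rw [Nat.sub_sub_self (Nat.one_le_pow _ _ hp.pos)] at d2
      exact hp.one_lt.ne' (Nat.dvd_one.1 d2)
  have o : orderOf (ρ (PSL2.upper 1)) = p := orderOf_eq_prime (by
    have : ∀ n : ℕ, PSL2.upper (1 : F) ^ n = PSL2.upper (n : F) := fun n => by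
      induction n with
      | zero => simp [PSL2.upper_zero]
      | succ n ih => rw [pow_succ, ih, PSL2.upper_mul, Nat.cast_succ]
    rw [← map_pow, this, CharP.cast_eq_zero, PSL2.upper_zero, map_one]) up
  have d := Subgroup.orderOf_dvd_natCard ρ.range ⟨PSL2.upper 1, rfl⟩
  rw [o, c, nat_card_alternatingGroup] at d
  have d' : p ∣ 120 := by simpa [Nat.factorial] using d
  have : p ∣ 2 ^ 3 * 3 * 5 := d'
  rcases (hp.dvd_mul.1 this) with d | d
  · rcases hp.dvd_mul.1 d with d | d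
    · have := (Nat.prime_dvd_prime_iff_eq hp Nat.prime_two).1 (hp.dvd_of_dvd_pow d); omega
    · have := (Nat.prime_dvd_prime_iff_eq hp Nat.prime_three).1 d; omega
  · exact p5 ((Nat.prime_dvd_prime_iff_eq hp Nat.prime_five).1 d)

theorem Od.a5 (h : Od P π) (m : Mx H P) (h5 : p ≠ 5) : Fintype.card F = p ∧
    (p % 40 = 3 ∨ p % 40 = 37 ∨ p % 40 = 13 ∨ p % 40 = 27 ∨ p % 8 = 1 ∨ p % 8 = 7) := by
  have hp : p.Prime := Fact.out
  have p2 : p ≠ 2 := by rintro rfl; exact h.cv.two (by exact_mod_cast CharP.cast_eq_zero F 2)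
  have o := Nat.odd_iff.1 (hp.odd_of_ne_two p2)
  have p5 : p % 5 ≠ 0 := fun e => h5 ((Nat.prime_dvd_prime_iff_eq Nat.prime_five hp).1 (Nat.dvd_of_mod_eq_zero e)).symm
  refine ⟨h.a5_card p h5, ?_⟩
  by_cases h8 : p % 8 = 3 ∨ p % 8 = 5
  · have : ¬ _ := h.a5_not p m (h.a5_le p m h5 h8)
    omega
  · omega

end Cfsg.Lib.S6Q
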