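import Cfsg.Agent.Lib.S6Q.T3b

/-!
# `SL₂(3)` in `X` (lemmas `ti_of_comm`, `Cv.q8`, `Cv.no_q8q8` of `S6Q/T3`)
-/

set_option autoImplicit false

namespace Cfsg.Lib.S6Q

open scoped MatrixGroups Matrix commutatorElement
open Cfsg.Geo Cfsg.Lib.Asch Cfsg.Lib.Linear Cfsg.Lib.Q4 Cfsg.Lib.Symp Module
open Cfsg.Lib.Q4R (Sq HasTv sc dg)

variable {K : Type*} [Field K] {X : Type*} [Group X] {Y : Subgroup (G6 K)} {π : Y →* X}

/-- The centraliser of a matrix. -/
def t3cz (P : Matrix I6 I6 K) : Subgroup (G6 K) where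
  carrier := {x | Commute x.1 P}
  one_mem' := Commute.one_left _
  mul_mem' ha hb := Commute.mul_left ha hb
  inv_mem' ha := Commute.units_inv_left ha

/-- The part of `x` on the image of the idempotent `P`. -/
noncomputable def t3pt {P : Matrix I6 I6 K} (h : P * P = P) : t3cz P →* G6 K :=
  MonoidHom.toHomUnits
    { toFun := fun x => x.1.1 * P + (1 - P)
      map_one' := by simp
      map_mul' := fun x y => by
        have c : y.1.1 * P = P * y.1.1 := y.2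
        have e : P * (y.1.1 * P) = y.1.1 * P := by rw [c, ← mul_assoc, h]
        simp only [Subgroup.coe_mul, Units.val_mul, add_mul, mul_add, mul_sub, sub_mul, mul_assoc, h, e, one_mul,
          mul_one]
        abel }

theorem t3pt_val {P : Matrix I6 I6 K} (h : P * P = P) (x : t3cz P) : (t3pt h x).1 = x.1.1 * P + (1 - P) := rfl

theorem t3pt_mem {P : Matrix I6 I6 K} (h : P * P = P) (hP : Pᵀ * Matrix.J (Fin 3) K = Matrix.J (Fin 3) K * P)
    {x : t3cz P} (hx : x.1 ∈ Sp K) : t3pt h x ∈ Sp K := by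
  have c : x.1.1 * P = P * x.1.1 := x.2
  have e := mem_Sp'.1 hx
  rw [mem_Sp', t3pt_val]
  set J := Matrix.J (Fin 3) K
  have a1 : (x.1.1 * P)ᵀ * J * (x.1.1 * P) = J * P := by
    calc _ = Pᵀ * (x.1.1ᵀ * J * x.1.1) * P := by simp only [Matrix.transpose_mul, mul_assoc]
      _ = _ := by rw [e, hP, mul_assoc, h]
  have a2 : (x.1.1 * P)ᵀ * J * (1 - P) = 0 := by
    rw [c, Matrix.transpose_mul, mul_assoc x.1.1ᵀ, hP, mul_assoc, mul_assoc, mul_sub, mul_one, h, sub_self,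
      mul_zero, mul_zero]
  have a3 : (1 - P)ᵀ * J = J * (1 - P) := by
    rw [Matrix.transpose_sub, Matrix.transpose_one, sub_mul, hP, mul_sub, one_mul, mul_one]
  rw [Matrix.transpose_add, add_mul, add_mul, mul_add, mul_add, a1, a2, a3, c, mul_assoc J, mul_assoc J,
    ← mul_assoc (1 - P), sub_mul, sub_mul 1 P (1 - P), mul_sub P, h]
  simp [mul_sub]

variable [IsAlgClosed K]

omit [IsAlgClosed K] in
theorem t3c_sgn {g k : G6 K} {μ : Fin 3 → Kˣ} (e : k * g * k⁻¹ = tor μ) (g2 : g * g = 1)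
    (i : Fin 3) : μ i = 1 ∨ μ i = -1 := by
  have : μ ^ 2 = 1 := tor_inj (by rw [map_pow, ← e, conj_pow, sq, g2, map_one, mul_one, mul_inv_cancel])
  have := congrArg Units.val (congrFun this i)
  rw [Pi.pow_apply, Units.val_pow_eq_pow_val, Pi.one_apply, Units.val_one, sq_eq_one_iff] at this
  exact this.imp Units.ext Units.ext

/-- Three commuting involutions and `-1` are dependent. -/
theorem t3c_dep (h2 : (2 : K) ≠ 0) {z s t : G6 K} (hz : z ∈ Sp K) (hs : s ∈ Sp K) (ht : t ∈ Sp K)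
    (z2 : z * z = 1) (s2 : s * s = 1) (t2 : t * t = 1) (c1 : Commute z s) (c2 : Commute z t) (c3 : Commute s t) :
    (z = 1 ∨ z = -1) ∨ ∃ x ∈ ({s, t, s * t} : Set (G6 K)), (x = 1 ∨ x = -1) ∨ x = z ∨ x = -z := by
  obtain ⟨k, -, hk⟩ := tw_main (A := ![z, s, t]) (fun a => by fin_cases a <;> assumption)
    (fun i j => by fin_cases i <;> fin_cases j <;> first | exact Commute.refl _ | assumption | exact Commute.symm ‹_›)
    fun i => ⟨2, by exact_mod_cast h2, by rw [sq]; fin_cases i <;> assumption⟩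
  let T : (Fin 3 → Bool) → G6 K := fun m => k⁻¹ * tor (fun i => cond (m i) (-1) 1) * k
  have ex : ∀ {g : G6 K}, g * g = 1 → (∃ μ, k * g * k⁻¹ = tor μ) → ∃ m, g = T m := fun {g} g2 ⟨μ, e⟩ => by
    have : ∀ i, ∃ b, μ i = cond b (-1) 1 := fun i =>
      (t3c_sgn e g2 i).elim (fun q => ⟨false, q⟩) fun q => ⟨true, q⟩
    choose m hm using this
    exact ⟨m, by simp only [T, ← hm, ← e]; group⟩
  have mul : ∀ m n, T (fun i => xor (m i) (n i)) = T m * T n := fun m n => by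
    have : (fun i => cond (xor (m i) (n i)) (-1) 1 : Fin 3 → Kˣ) =
        (fun i => cond (m i) (-1) 1) * fun i => cond (n i) (-1) 1 := funext fun i => by
      rw [Pi.mul_apply]; cases m i <;> cases n i <;> simp
    simp only [T, this, map_mul]; group
  have cst : ∀ e, T (fun _ => e) = 1 ∨ T (fun _ => e) = -1 := fun e => by
    cases e
    · exact .inl (by change k⁻¹ * tor 1 * k = 1; simp)
    · exact .inr (by change k⁻¹ * tor (fun _ => -1) * k = -1; simp [tor_neg_one])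
  obtain ⟨m, rfl⟩ := ex z2 (hk 0)
  obtain ⟨n, rfl⟩ := ex s2 (hk 1)
  obtain ⟨r, rfl⟩ := ex t2 (hk 2)
  have d : ∀ m n r : Fin 3 → Bool, (∃ e, m = fun _ => e) ∨ ∃ x, (x = n ∨ x = r ∨ x = fun i => xor (n i) (r i)) ∧
      ∃ e, x = (fun _ => e) ∨ x = fun i => xor e (m i) := by decide +kernel
  rcases d m n r with ⟨e, rfl⟩ | ⟨x, hx, e, q⟩
  · exact .inl (cst e)
  refine .inr ⟨T x, by rcases hx with rfl | rfl | rfl <;> simp [mul], ?_⟩
  rcases q with rfl | rfl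
  · exact .inl (cst e)
  · rw [mul (fun _ => e) m]
    rcases cst e with q | q <;> simp [q]

omit [IsAlgClosed K] in
/-- The group theoretic part of `q8`. -/
theorem Cv.q8_aux (h : Cv Y π) {a b y : Y} (y3 : π y ^ 3 = 1) (ya : π y * π a * (π y)⁻¹ = π b)
    (yb : π y * π b * (π y)⁻¹ = π a * π b) (e : π a * π a = π b * π b) (e' : ⁅π a, π b⁆ = π a * π a)
    (h4 : π a ^ 4 = 1) : ⁅a.1, b.1⁆ * ⁅a.1, b.1⁆ = 1 ∧ a.1 * a.1 = ⁅a.1, b.1⁆ ∧ b.1 * b.1 = ⁅a.1, b.1⁆ ∧
      Commute y.1 ⁅a.1, b.1⁆ ∧ ∃ a' : G6 K, (a' = a.1 ∨ a' = -a.1) ∧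
        y.1 * (y.1 * a' * y.1⁻¹) * y.1⁻¹ = a' * (y.1 * a' * y.1⁻¹) := by
  have k1 : y.1 * a.1 * y.1⁻¹ = b.1 ∨ y.1 * a.1 * y.1⁻¹ = -b.1 :=
    h.eq_iff.1 (show π (y * a * y⁻¹) = π b by simpa using ya)
  have k2 : y.1 * b.1 * y.1⁻¹ = a.1 * b.1 ∨ y.1 * b.1 * y.1⁻¹ = -(a.1 * b.1) :=
    h.eq_iff.1 (show π (y * b * y⁻¹) = π (a * b) by simpa using yb)
  have k3 : ⁅a.1, b.1⁆ = a.1 * a.1 ∨ ⁅a.1, b.1⁆ = -(a.1 * a.1) :=
    h.eq_iff.1 (show π ⁅a, b⁆ = π (a * a) by rw [map_commutatorElement, e', map_mul])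
  have k4 : y.1 ^ 3 = 1 ∨ y.1 ^ 3 = -1 := (h.ker (y ^ 3)).1 (by rw [map_pow, y3])
  have k5 : a.1 ^ 4 = 1 ∨ a.1 ^ 4 = -1 := (h.ker (a ^ 4)).1 (by rw [map_pow, h4])
  generalize a.1 = A, b.1 = B, y.1 = y at *
  set z := ⁅A, B⁆ with hz
  have y1 : y * z * y⁻¹ = z⁻¹ := by
    have : y * z * y⁻¹ = ⁅y * A * y⁻¹, y * B * y⁻¹⁆ := by rw [hz]; group
    rw [this, hz]
    rcases k1 with q | q <;> rcases k2 with q' | q' <;> rw [q, q'] <;>
      simp only [commutatorElement_def, inv_neg, mul_neg, neg_mul, neg_neg] <;> group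
  have zz : z * z = A ^ 4 := by rcases k3 with q | q <;> rw [q] <;> simp [pow_succ, mul_assoc]
  have z2 : z * z = 1 := by
    rw [zz]
    refine k5.resolve_right fun q => h.neg_ne ?_
    have i : z⁻¹ = -z := inv_eq_of_mul_eq_one_right (by rw [mul_neg, zz, q, neg_neg])
    rw [i] at y1
    have : y ^ 3 * z * (y ^ 3)⁻¹ = -z := by
      calc _ = y * (y * (y * z * y⁻¹) * y⁻¹) * y⁻¹ := by rw [pow_three]; group
        _ = _ := by simp only [y1, mul_neg, neg_mul, neg_neg]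
    have q : z = -z := by rcases k4 with q | q <;> simpa [q] using this
    exact mul_right_cancel (b := z) (by rw [neg_one_mul, one_mul, ← q])
  have yz : Commute y z := by
    rw [inv_eq_of_mul_eq_one_right z2] at y1
    exact mul_inv_eq_iff_eq_mul.1 y1
  have yA : y * (A * A) * y⁻¹ = A * A := by
    have := mul_inv_eq_iff_eq_mul.2 yz.eq
    rcases k3 with q | q <;> rw [q] at this
    · exact this
    · simpa using this
  have BB : B * B = A * A := by
    rw [← yA, show y * (A * A) * y⁻¹ = (y * A * y⁻¹) * (y * A * y⁻¹) by group]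
    rcases k1 with q | q <;> simp [q]
  have CC : A * B * (A * B) = A * A := by
    rw [← yA, ← BB, show y * (B * B) * y⁻¹ = (y * B * y⁻¹) * (y * B * y⁻¹) by group]
    rcases k2 with q | q <;> simp [q]
  have AA : A * A = z := by
    have c : A * B * A = A * A * B⁻¹ := by rw [← CC]; group
    have c' : A * (A * A) * A = 1 := by rw [← z2, zz]; simp [pow_succ, mul_assoc]
    calc A * A = A * A * B⁻¹ * (A * A)⁻¹ * B * (B⁻¹ * (A * A) * B) := by group
      _ = A * B * A * (A * A)⁻¹ * B * (B⁻¹ * (B * B) * B) := by rw [c, BB]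
      _ = z * (B * B * (B * B)) := by rw [hz]; group
      _ = z := by rw [BB, ← mul_assoc (A * A), mul_assoc A A A, c', mul_one]
  refine ⟨z2, AA, BB.trans AA, yz, ?_⟩
  rcases k2 with q' | q'
  · refine ⟨A, .inl rfl, ?_⟩
    rcases k1 with q | q <;> simp [q, q']
  · refine ⟨-A, .inr rfl, ?_⟩
    rcases k1 with q | q <;> simp [q, q']

theorem t3c_ti (h2 : (2 : K) ≠ 0) {t : G6 K} (ht : t ∈ Sp K) (h : t * t = 1) :
    rk t + rk (-t) = 6 ∧ Even (rk t) := by
  classical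
  refine ⟨?_, even_rk ht (n := 2) (by rw [sq, h]) (by exact_mod_cast h2)⟩
  obtain ⟨k, -, μ, -, e⟩ := exists_conj_tor ht (n := 2) (by rw [sq, h]) (by exact_mod_cast h2)
  have e' : k * -t * k⁻¹ = tor ((fun _ => -1) * μ) := by rw [map_mul, tor_neg_one, ← e]; simp
  have n : (-1 : Kˣ) ≠ 1 := fun e => h2 (by
    have := congrArg Units.val e
    rw [Units.val_neg, Units.val_one] at this
    linear_combination -this)
  rw [← rk_conj t k, ← rk_conj (-t) k, e, e', rk_tor, rk_tor]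
  have k : ∀ i, (if μ i ≠ 1 then 1 else 0) + (if -1 * μ i ≠ 1 then 1 else 0) = 1 := fun i => by
    rcases t3c_sgn e h i with q | q <;> simp [q, n]
  have k0 := k 0
  have k1 := k 1
  have k2 := k 2
  simp only [Finset.card_filter, Fin.sum_univ_three, Pi.mul_apply]
  omega

theorem Cv.q8' (h : Cv Y π) {a b y : Y} (y3 : π y ^ 3 = 1) (ya : π y * π a * (π y)⁻¹ = π b)
    (yb : π y * π b * (π y)⁻¹ = π a * π b) (e : π a * π a = π b * π b) (e' : ⁅π a, π b⁆ = π a * π a)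
    (h4 : π a ^ 4 = 1) (h1 : π a * π a ≠ 1) : TI (-⁅a.1, b.1⁆) ∧ a.1 * a.1 = ⁅a.1, b.1⁆ ∧
      ∃ ε : K, ∀ v, ⁅a.1, b.1⁆.1 *ᵥ v = v → a.1.1 *ᵥ v = ε • v := by
  obtain ⟨z2, AA, -, yz, A, hA, r⟩ := h.q8_aux y3 ya yb e e' h4
  have h2 := h.two
  have nz : ¬ (⁅a.1, b.1⁆ = 1 ∨ ⁅a.1, b.1⁆ = -1) := fun q => h1 (by rw [← map_mul]; exact (h.ker _).2 (by rwa [← AA] at q))
  have zs : ⁅a.1, b.1⁆ ∈ Sp K := AA ▸ h.sp (a * a).2
  set z := ⁅a.1, b.1⁆
  have AY : A ∈ Y := by rcases hA with rfl | rfl; exacts [a.2, h.neg_mem a.2]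
  have A2 : A * A = z := by rcases hA with rfl | rfl <;> simp [AA]
  have z2' : z.1 * z.1 = 1 := congrArg Units.val z2
  set P : Matrix I6 I6 K := (2 : K)⁻¹ • (1 + z.1) with hP
  have zP : z.1 * P = P := by rw [hP, mul_smul_comm, mul_add, z2', mul_one, add_comm]
  have PP : P * P = P := by
    conv_lhs => enter [1]; rw [hP]
    rw [smul_mul_assoc, add_mul, one_mul, zP, ← two_smul K, smul_smul, inv_mul_cancel₀ h2, one_smul]
  have PJ : Pᵀ * Matrix.J (Fin 3) K = Matrix.J (Fin 3) K * P := by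
    have : z.1ᵀ * Matrix.J (Fin 3) K = Matrix.J (Fin 3) K * z.1 := by
      conv_rhs => rw [← mem_Sp'.1 zs, mul_assoc, z2', mul_one]
    rw [hP, Matrix.transpose_smul, Matrix.transpose_add, Matrix.transpose_one, smul_mul_assoc, mul_smul_comm,
      add_mul, mul_add, this, one_mul, mul_one]
  have cm : ∀ {x : G6 K}, Commute x z → x ∈ t3cz P := fun c =>
    ((Commute.one_right _).add_right (c.map (Units.coeHom _))).smul_right _
  let A' : t3cz P := ⟨A, cm (A2 ▸ (Commute.refl A).mul_right (.refl A))⟩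
  let y' : t3cz P := ⟨y.1, cm yz⟩
  have s2 : t3pt PP A' ^ 2 = 1 := by
    rw [← map_pow]
    exact Units.ext (by rw [t3pt_val, Subgroup.coe_pow, sq, A2, zP]; simp)
  have r' : t3pt PP A' * (t3pt PP y' * t3pt PP A' * (t3pt PP y')⁻¹) =
      t3pt PP y' * (t3pt PP y' * t3pt PP A' * (t3pt PP y')⁻¹) * (t3pt PP y')⁻¹ := by
    simp only [← map_inv, ← map_mul]
    exact congrArg _ (Subtype.ext r.symm)
  have cj : ∀ (g k : G6 K), g ^ 2 = 1 → (k * g * k⁻¹) ^ 2 = 1 := fun g k q => by rw [conj_pow, q]; group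
  have iv2 : ∀ {g : G6 K}, g ^ 2 = 1 → g⁻¹ = g := fun g2 => inv_eq_of_mul_eq_one_right (by rw [← sq, g2])
  obtain ⟨w, hw⟩ : ∃ w, (1 - P) *ᵥ w ≠ 0 := by
    by_contra! q
    have q := sub_eq_zero.1 (mat_eq_zero_of_mulVec q)
    exact nz (.inl (Units.ext (by rw [← mul_one z.1, q, zP, ← q, Units.val_one])))
  have fx : ∀ x, (t3pt PP x).1 *ᵥ (1 - P) *ᵥ w = (1 - P) *ᵥ w := fun x => by
    rw [Matrix.mulVec_mulVec, t3pt_val, add_mul, mul_assoc, mul_sub P, PP, sub_mul, mul_sub P, PP]; simp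
  have ys := t3pt_mem PP PJ (x := y') (h.sp y.2)
  have As := t3pt_mem PP PJ (x := A') (h.sp AY)
  have s1 : t3pt PP A' = 1 := by
    refine t3b_four h2 As (mul_mem (mul_mem ys As) (inv_mem ys)) s2 (cj _ _ s2) ?_ (rk_conj _ _).symm
      (by rw [r', rk_conj, rk_conj]) hw (fx _) (by rw [← map_inv, ← map_mul, ← map_mul]; exact fx _)
    have := iv2 (cj _ (t3pt PP y') (cj _ (t3pt PP y') s2))
    rw [← r', mul_inv_rev, iv2 s2, iv2 (cj _ _ s2)] at this
    exact this.symm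
  have AP : A.1 * P = P := by
    have := congrArg Units.val s1
    rw [t3pt_val, Units.val_one] at this
    exact (eq_sub_of_add_eq this).trans (sub_sub_cancel _ _)
  have Av : ∀ v, z.1 *ᵥ v = v → A.1 *ᵥ v = v := fun v hv => by
    have : P *ᵥ v = v := by
      rw [hP, Matrix.smul_mulVec, Matrix.add_mulVec, Matrix.one_mulVec, hv, ← two_smul K, smul_smul,
        inv_mul_cancel₀ h2, one_smul]
    rw [← this, Matrix.mulVec_mulVec, AP]
  refine ⟨⟨by simpa using z2, ?_⟩, AA, ?_⟩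
  · obtain ⟨a1, a2⟩ := t3c_ti h2 zs z2
    have n0 : rk z ≠ 0 := fun q => nz (.inl (rk_eq_zero.1 q))
    have n6 : rk (-z) ≠ 0 := fun q => nz (.inr (neg_eq_iff_eq_neg.1 (rk_eq_zero.1 q)))
    have n2 : rk z ≠ 2 := fun q => h.nu A AY ⟨?_, by rw [show 4 = 2 * 2 from rfl, pow_mul, sq A, A2, sq, z2],
      by rw [sq, A2]; exact fun q => nz (.inl q)⟩
    · obtain ⟨c, hc⟩ := a2
      omega
    have l := T2.rk_add_ker A
    have l' := T2.rk_add_ker z
    have : LinearMap.ker (T2.lv A - 1) = LinearMap.ker (T2.lv z - 1) := by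
      ext v
      simp only [LinearMap.mem_ker, LinearMap.sub_apply, T2.lv_apply, End.one_apply, sub_eq_zero]
      exact ⟨fun q => by rw [← A2, Units.val_mul, ← Matrix.mulVec_mulVec, q, q], Av v⟩
    rw [this] at l
    omega
  · rcases hA with rfl | rfl
    · exact ⟨1, fun v hv => by rw [one_smul, Av v hv]⟩
    · refine ⟨-1, fun v hv => ?_⟩
      have := Av v hv
      rw [Units.val_neg, Matrix.neg_mulVec] at this
      rw [neg_one_smul, neg_eq_iff_eq_neg.1 this]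

theorem Cv.no_q8q8' (h : Cv Y π) {a b y u v w : X} (y3 : y ^ 3 = 1) (ya : y * a * y⁻¹ = b)
    (yb : y * b * y⁻¹ = a * b) (e : a * a = b * b) (e' : ⁅a, b⁆ = a * a) (h4 : a ^ 4 = 1) (h1 : a * a ≠ 1)
    (w3 : w ^ 3 = 1) (wu : w * u * w⁻¹ = v) (wv : w * v * w⁻¹ = u * v) (f : u * u = v * v)
    (f' : ⁅u, v⁆ = u * u) (z : u * u = a * a) (c1 : Commute a u) (c2 : Commute a v) (c3 : Commute y u)
    (c4 : Commute y v) (n : ∀ x ∈ ({a * u, b * v, a * u * (b * v)} : Set X), x ≠ 1 ∧ x ≠ a * a) : False := by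
  obtain ⟨a, rfl⟩ := h.surj a
  obtain ⟨b, rfl⟩ := h.surj b
  obtain ⟨u, rfl⟩ := h.surj u
  obtain ⟨v, rfl⟩ := h.surj v
  obtain ⟨w, rfl⟩ := h.surj w
  obtain ⟨y, rfl, hy⟩ := h.lift (n := 3) (by decide) y3
  have u4 : π u ^ 4 = 1 := by
    rw [show 4 = 2 * 2 from rfl, pow_mul] at h4 ⊢
    rwa [sq (π u), z, ← sq]
  obtain ⟨z2, AA, BB, -, A, hA, r⟩ := h.q8_aux y3 ya yb e e' h4
  obtain ⟨-, UU, VV, -⟩ := h.q8_aux w3 wu wv f f' u4
  have t1 := (h.q8' y3 ya yb e e' h4 h1).1.2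
  have t2 := (h.q8' w3 wu wv f f' u4 (z ▸ h1)).1.2
  have zs : ⁅a.1, b.1⁆ ∈ Sp K := AA ▸ h.sp (a * a).2
  have zz : ⁅u.1, v.1⁆ = ⁅a.1, b.1⁆ := by
    have : u.1 * u.1 = a.1 * a.1 ∨ u.1 * u.1 = -(a.1 * a.1) :=
      h.eq_iff.1 (show π (u * u) = π (a * a) by rw [map_mul, map_mul, z])
    rw [UU, AA] at this
    refine this.resolve_right fun q => ?_
    have := (t3c_ti h.two zs z2).1
    rw [q, neg_neg] at t2
    omega
  have k1 : y.1 * a.1 * y.1⁻¹ = b.1 ∨ y.1 * a.1 * y.1⁻¹ = -b.1 :=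
    h.eq_iff.1 (show π (y * a * y⁻¹) = π b by simpa using ya)
  have cm : ∀ g : Y, Commute (π a) (π g) → Commute (π y) (π g) → Commute a.1 g.1 ∧ Commute b.1 g.1 :=
    fun g ca cy => by
      have cy := (h.cw.commute (n := 3) (by decide) hy cy.symm).symm
      have ag : Commute a.1 g.1 := by
        refine (h.eq_iff.1 (show π (a * g) = π (g * a) by rw [map_mul, map_mul, ca.eq])).resolve_right fun q => ?_
        have q : A * g.1 = -(g.1 * A) := by
          have q : a.1 * g.1 = -(g.1 * a.1) := q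
          rcases hA with rfl | rfl <;> simp [q]
        have k : ∀ x : G6 K, x * g.1 = -(g.1 * x) → y.1 * x * y.1⁻¹ * g.1 = -(g.1 * (y.1 * x * y.1⁻¹)) :=
          fun x q => by
            rw [mul_assoc, cy.inv_left.eq, ← mul_assoc, mul_assoc y.1, q, mul_neg, neg_mul, ← mul_assoc, cy.eq]
            simp only [mul_assoc]
        have q1 := k _ q
        have q2 := k _ q1
        rw [r, mul_assoc, q1, mul_neg, ← mul_assoc, q, neg_mul, neg_neg, mul_assoc] at q2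
        exact h.neg_ne (mul_right_cancel (b := g.1 * (A * (y.1 * A * y.1⁻¹))) (by rw [neg_one_mul, one_mul, ← q2]))
      have := (cy.mul_left ag).mul_left cy.inv_left
      refine ⟨ag, ?_⟩
      rcases k1 with q | q <;> rw [q] at this
      exacts [this, by simpa using this.neg_left]
  obtain ⟨au, bu⟩ := cm u c1 c3
  obtain ⟨av, bv⟩ := cm v c2 c4
  rw [zz] at UU VV
  have e1 : a.1 * b.1 = ⁅a.1, b.1⁆ * (b.1 * a.1) := by group
  have e2 : u.1 * v.1 = ⁅a.1, b.1⁆ * (v.1 * u.1) := by rw [← zz]; group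
  generalize ⁅a.1, b.1⁆ = Z at *
  have za : Commute Z a.1 := AA ▸ (Commute.refl _).mul_left (.refl _)
  have zb : Commute Z b.1 := BB ▸ (Commute.refl _).mul_left (.refl _)
  have zu : Commute Z u.1 := UU ▸ (Commute.refl _).mul_left (.refl _)
  have zv : Commute Z v.1 := VV ▸ (Commute.refl _).mul_left (.refl _)
  have := t3c_dep h.two zs (h.sp (a * u).2) (h.sp (b * v).2) z2
    (by change a.1 * u.1 * (a.1 * u.1) = 1; rw [au.symm.mul_mul_mul_comm, AA, UU, z2])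
    (by change b.1 * v.1 * (b.1 * v.1) = 1; rw [bv.symm.mul_mul_mul_comm, BB, VV, z2])
    (za.mul_right zu) (zb.mul_right zv) (by
      change a.1 * u.1 * (b.1 * v.1) = b.1 * v.1 * (a.1 * u.1)
      rw [bu.symm.mul_mul_mul_comm, av.symm.mul_mul_mul_comm, e1, e2,
        (zb.mul_right za).symm.mul_mul_mul_comm, z2, one_mul])
  rcases this with q | ⟨x, hx, q⟩
  · exact h1 (by rw [← map_mul]; exact (h.ker _).2 (by rwa [← AA] at q))
  have : ∃ g : Y, x = g.1 ∧ π g ∈ ({π a * π u, π b * π v, π a * π u * (π b * π v)} : Set X) := by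
    rcases hx with rfl | rfl | rfl
    exacts [⟨a * u, rfl, by simp⟩, ⟨b * v, rfl, by simp⟩, ⟨a * u * (b * v), rfl, by simp⟩]
  obtain ⟨g, rfl, hg⟩ := this
  rcases q with q | q
  · exact (n _ hg).1 ((h.ker g).2 q)
  · exact (n _ hg).2 (by rw [← map_mul]; exact h.eq_iff.2 (by rwa [← AA] at q))

theorem ti_of_comm' (h2 : (2 : K) ≠ 0) {t : G6 K} (ht : t ∈ Sp K) {a b : G6 K} (e : ⁅a, b⁆ = t ∨ ⁅a, b⁆ = -t)
    (ca : Commute a t) (cb : Commute b t) : ¬ TII t := fun h => by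
  classical
  have h : t * t = -1 := h
  obtain ⟨k, -, μ, -, e1⟩ := exists_conj_tor ht (n := 4)
    (by rw [show 4 = 2 * 2 from rfl, pow_mul, sq t, h, neg_one_sq])
    (by rw [show ((4 : ℕ) : K) = 2 ^ 2 by norm_num]; exact pow_ne_zero _ h2)
  have m : ∀ i, (μ i : K) * μ i = -1 := fun i => by
    have : μ * μ = fun _ => -1 := tor_inj (by
      rw [map_mul, ← e1, tor_neg_one, show k * t * k⁻¹ * (k * t * k⁻¹) = k * (t * t) * k⁻¹ by group, h]; simp)
    simpa using congrArg Units.val (congrFun this i)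
  obtain ⟨c, cc⟩ : ∃ c : K, c * c = -1 := ⟨_, m 0⟩
  let d : I6 → K := fun j => t1w μ j
  have dd : ∀ j, d j * d j = -1 := by
    rintro (j | j)
    · exact m j
    · change ((μ j)⁻¹ : Kˣ).1 * ((μ j)⁻¹ : Kˣ).1 = -1
      rw [Units.val_inv_eq_inv_val, ← mul_inv, m, inv_neg, inv_one]
  let P : Matrix I6 I6 K := Matrix.diagonal fun j => (2 : K)⁻¹ * (1 - c * d j)
  have i2 := inv_mul_cancel₀ h2
  have PP : P * P = P := by
    simp only [P, Matrix.diagonal_mul_diagonal]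
    congr 1; ext j
    linear_combination (-(2 : K)⁻¹ * (1 - c * d j)) * i2 + (2 : K)⁻¹ ^ 2 * d j * d j * cc - (2 : K)⁻¹ ^ 2 * dd j
      + 2 * ((2 : K)⁻¹ * (1 - c * d j)) * i2
  have eP : P = (2 : K)⁻¹ • (1 - c • (tor μ).1) := by
    rw [tor_eq, Q4R.dg_val, ← Matrix.diagonal_one, ← Matrix.diagonal_smul, Matrix.diagonal_sub,
      ← Matrix.diagonal_smul]
    rfl
  have cm : ∀ {x : G6 K}, Commute x t → k * x * k⁻¹ ∈ t3cz P := fun {x} c => by
    have : Commute (k * x * k⁻¹) (tor μ) := by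
      rw [← e1]; exact c.map (MulAut.conj k)
    change Commute _ P
    rw [eP]
    exact ((Commute.one_right _).sub_right ((this.map (Units.coeHom _)).smul_right _)).smul_right _
  have D : (t3pt PP ⁅(⟨_, cm ca⟩ : t3cz P), ⟨_, cm cb⟩⁆).1.det = 1 := by
    rw [← Matrix.GeneralLinearGroup.val_det_apply, map_commutatorElement, map_commutatorElement, commutatorElement_eq_one_iff_mul_comm.2 (mul_comm _ _),
      Units.val_one]
  have E : ∃ ε : K, ε * ε = 1 ∧ (⁅(⟨_, cm ca⟩ : t3cz P), ⟨_, cm cb⟩⁆ : t3cz P).1.1 = Matrix.diagonal fun j => ε * d j := by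
    have : (⁅(⟨_, cm ca⟩ : t3cz P), ⟨_, cm cb⟩⁆ : t3cz P).1 = k * ⁅a, b⁆ * k⁻¹ := by
      change ⁅k * a * k⁻¹, k * b * k⁻¹⁆ = _
      group
    rw [this]
    rcases e with e | e <;> rw [e]
    · exact ⟨1, by simp, by rw [e1, tor_eq, Q4R.dg_val]; simp [d]⟩
    · exact ⟨-1, by simp, by rw [mul_neg, neg_mul, e1, Units.val_neg, tor_eq, Q4R.dg_val]; simp [d]⟩
  obtain ⟨ε, ee, E⟩ := E
  rw [t3pt_val, E] at D
  simp only [P, Matrix.diagonal_mul_diagonal, ← Matrix.diagonal_one, Matrix.diagonal_sub, Matrix.diagonal_add,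
    Matrix.det_diagonal, Fintype.prod_sum_type, ← Finset.prod_mul_distrib] at D
  have k : ∀ i : Fin 3, (ε * d (.inl i) * ((2 : K)⁻¹ * (1 - c * d (.inl i))) + (1 - (2 : K)⁻¹ * (1 - c * d (.inl i)))) *
      (ε * d (.inr i) * ((2 : K)⁻¹ * (1 - c * d (.inr i))) + (1 - (2 : K)⁻¹ * (1 - c * d (.inr i)))) = ε * c :=
    fun i => by
      have r : d (.inr i) = -d (.inl i) := by
        change ((μ i)⁻¹ : Kˣ).1 = -(μ i).1
        rw [Units.val_inv_eq_inv_val]
        exact inv_eq_of_mul_eq_one_right (by rw [mul_neg, m, neg_neg])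
      have p1 : (2 : K)⁻¹ * (1 - c * c) = 1 := by rw [cc]; linear_combination i2
      have p2 : (2 : K)⁻¹ * (1 - c * -c) = 0 := by rw [mul_neg, cc]; simp
      rw [r]
      rcases mul_self_eq_mul_self_iff.1 ((dd (.inl i)).trans cc.symm) with q | q <;> rw [q] <;>
        simp only [neg_neg, p1, p2] <;> ring
  simp only [k, Finset.prod_const, Finset.card_univ, Fintype.card_fin] at D
  refine h2 ?_
  linear_combination (-(ε * c) ^ 3 - 1) * D + (ε ^ 6 * (c ^ 4 - c ^ 2 + 1)) * cc - (ε ^ 4 + ε ^ 2 + 1) * ee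

end Cfsg.Lib.S6Q
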