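import Cfsg.Agent.Lib.S6Q.T3
import Cfsg.Agent.Lib.S6Q.T3c
import Cfsg.Agent.Lib.O7.SL
import Cfsg.Agent.Lib.O7.Alt

/-!
# The plane of a central involution of `SL₂(q)`; pure eight-groups
-/

set_option autoImplicit false

namespace Cfsg.Lib.S6Q

open scoped MatrixGroups Matrix commutatorElement
open Cfsg.Geo Cfsg.Lib.Asch Cfsg.Lib.Linear Cfsg.Lib.Q4 Cfsg.Lib.Symp Module
open Cfsg.Lib.Q4R (Sq HasTv sc dg)

variable {K : Type*} [Field K] [IsAlgClosed K] {X : Type*} [Group X] {Y : Subgroup (G6 K)} {π : Y →* X}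
  {E : Type*} [Field E] [Fintype E]

theorem Cv.ti_eq (h : Cv Y π) {s t : Y} (hs : TI s.1) (ht : TI t.1) (e : π s = π t) : s = t :=
  Subtype.ext ((h.eq_iff.1 e).resolve_right fun q => by
    have a := (t3c_ti h.two (h.sp t.2) ht.1).1
    have b := hs.2
    have c := ht.2
    rw [q] at b
    omega)

omit [IsAlgClosed K] in
theorem pl_conj {t : G6 K} (h : TI t) (k : G6 K) : TI (k * t * k⁻¹) :=
  ⟨by rw [show k * t * k⁻¹ * (k * t * k⁻¹) = k * (t * t) * k⁻¹ by group, h.1]; group, (rk_conj t k).trans h.2⟩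

omit [IsAlgClosed K] in
theorem pl_mul (a b : G6 K) (v : I6 → K) : (a * b).1 *ᵥ v = a.1 *ᵥ b.1 *ᵥ v := by
  rw [Units.val_mul, Matrix.mulVec_mulVec]

theorem Cv.ti_ne (h : Cv Y π) {t : Y} (ht : TI t.1) : π t ≠ 1 := fun e => by
  have a := (t3c_ti h.two (h.sp t.2) ht.1).1
  have c := ht.2
  rcases (h.ker t).1 e with q | q <;> rw [q] at a c
  · rw [rk_one] at c; omega
  · rw [neg_neg, rk_one] at a; omega

/-- An element normalising the class `π t` of a type I involution commutes with it (`TI.conj`: `g t g⁻¹ = ± t`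
has type I, and `rk (-t) = 4`). -/
theorem Cv.comm_ti (h : Cv Y π) {g t : Y} (ht : TI t.1) (c : Commute (π g) (π t)) : Commute g.1 t.1 := by
  exact mul_inv_eq_iff_eq_mul.1 (congrArg Subtype.val (h.ti_eq (s := g * t * g⁻¹) (pl_conj ht g.1) ht
    (by rw [map_mul, map_mul, map_inv, c.eq, mul_inv_cancel_right])))

/-- A type I involution is determined by its plane (`V = U ⊕ U^⊥`). -/
theorem TI.ext (h2 : (2 : K) ≠ 0) {s t : G6 K} (hs : TI s) (ht : TI t) (s6 : s ∈ Sp K) (t6 : t ∈ Sp K)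
    (e : ∀ v, s.1 *ᵥ v = -v → t.1 *ᵥ v = -v) : s = t := by
  have sq : ∀ {g : G6 K}, TI g → ∀ v, g.1 *ᵥ (g.1 *ᵥ v - v) = -(g.1 *ᵥ v - v) := fun hg v => by
    rw [Matrix.mulVec_sub, ← pl_mul, hg.1, Units.val_one, Matrix.one_mulVec, neg_sub]
  have r : LinearMap.range (T2.lv s - 1) = LinearMap.range (T2.lv t - 1) := by
    refine Submodule.eq_of_le_of_finrank_eq ?_ (by rw [← T2.rk_eq, ← T2.rk_eq, hs.2, ht.2])
    rintro _ ⟨v, rfl⟩
    refine ⟨(-(2 : K)⁻¹) • (s.1 *ᵥ v - v), ?_⟩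
    change t.1 *ᵥ ((-(2 : K)⁻¹) • (s.1 *ᵥ v - v)) - (-(2 : K)⁻¹) • (s.1 *ᵥ v - v) = s.1 *ᵥ v - v
    rw [Matrix.mulVec_smul, e _ (sq hs v), ← smul_sub, ← neg_add', ← two_smul K, neg_smul, smul_neg, neg_neg,
      smul_smul, inv_mul_cancel₀ h2, one_smul]
  have e1 : t.1 * s.1 = 1 - s.1 + t.1 := mat_ext_mulVec fun v => by
    have := e _ (sq hs v)
    rw [Matrix.mulVec_sub, Matrix.mulVec_mulVec] at this
    rw [Matrix.add_mulVec, Matrix.sub_mulVec, Matrix.one_mulVec, eq_add_of_sub_eq this, neg_sub]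
  have e2 : s.1 * t.1 = 1 - t.1 + s.1 := mat_ext_mulVec fun v => by
    obtain ⟨w, hw⟩ := r.ge ⟨v, rfl⟩
    have hw : s.1 *ᵥ w - w = t.1 *ᵥ v - v := hw
    have := sq hs w
    rw [hw, Matrix.mulVec_sub, Matrix.mulVec_mulVec] at this
    rw [Matrix.add_mulVec, Matrix.sub_mulVec, Matrix.one_mulVec, eq_add_of_sub_eq this, neg_sub]
  have aj : ∀ {g : G6 K}, TI g → g ∈ Sp K → g.1ᵀ * Matrix.J (Fin 3) K = Matrix.J (Fin 3) K * g.1 := fun {g} hg g6 => by
    conv_rhs => rw [← mem_Sp'.1 g6, mul_assoc, ← Units.val_mul, hg.1, Units.val_one, mul_one]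
  have e3 : Matrix.J (Fin 3) K * (s.1 * t.1) = Matrix.J (Fin 3) K * (1 - s.1 + t.1) := by
    have := congrArg (fun M => Mᵀ * Matrix.J (Fin 3) K) e1
    simp only [Matrix.transpose_mul, Matrix.transpose_add, Matrix.transpose_sub, Matrix.transpose_one] at this
    rw [mul_assoc, aj ht t6, ← mul_assoc, aj hs s6, add_mul, sub_mul, aj ht t6, aj hs s6, mul_assoc] at this
    rw [this, mul_add, mul_sub, one_mul, mul_one]
  have e4 := congrArg (Matrix.J (Fin 3) K * ·) e3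
  simp only [← mul_assoc (Matrix.J (Fin 3) K), Matrix.J_squared, neg_mul, one_mul, neg_inj] at e4
  refine Units.ext (smul_right_injective _ h2 ?_)
  change (2 : K) • s.1 = (2 : K) • t.1
  rw [two_smul, two_smul]
  rw [e2] at e4
  linear_combination (norm := abel) e4

theorem pl_q8 (ho : Odd (Fintype.card E)) : ∃ b y : SL(2, E), y ^ 3 = 1 ∧ y * O7.wS E * y⁻¹ = b ∧
    y * b * y⁻¹ = O7.wS E * b ∧ b * b = -1 ∧ O7.wS E * b = -(b * O7.wS E) := by
  have h2 : (2 : E) ≠ 0 := PSL2.two_ne_zero_iff_odd.2 (by rwa [Nat.card_eq_fintype_card])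
  obtain ⟨p, hp⟩ := CharP.exists E
  have : NeZero p := ⟨(CharP.char_is_prime E p).ne_zero⟩
  obtain ⟨x, y, e⟩ := CharP.sq_add_sq E p (-1)
  push_cast at e
  obtain ⟨c, i⟩ : ∃ c : E, c * 2 = 1 := ⟨_, inv_mul_cancel₀ h2⟩
  generalize (x : E) = u, (y : E) = v at e
  clear hp this ho
  obtain ⟨b, hb⟩ : ∃ b : SL(2, E), b.1 = !![u, v; v, -u] :=
    ⟨⟨_, by rw [Matrix.det_fin_two_of]; linear_combination -e⟩, rfl⟩
  obtain ⟨w, hw⟩ : ∃ w : SL(2, E), w.1 = !![-c * (1 + u + v), -c * (1 + v - u); -c * (v - u - 1), -c * (1 - u - v)] :=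
    ⟨⟨_, by rw [Matrix.det_fin_two_of]; grind⟩, rfl⟩
  refine ⟨b, w, (pow_three w).trans ?_, mul_inv_eq_iff_eq_mul.2 ?_, mul_inv_eq_iff_eq_mul.2 ?_, ?_, ?_⟩ <;>
    refine Subtype.ext ?_ <;>
    simp only [Matrix.SpecialLinearGroup.coe_mul, Matrix.SpecialLinearGroup.coe_neg, Matrix.SpecialLinearGroup.coe_one,
      O7.coe_wS, hb, hw] <;> ext i j <;> fin_cases i <;> fin_cases j <;> simp <;> grind

omit [Fintype E] in
theorem pl_normal {N : Subgroup SL(2, E)} [N.Normal] (h : O7.wS E ∈ N) : commutator SL(2, E) ≤ N := by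
  let ψ := QuotientGroup.mk' N
  have w : ψ (O7.wS E) = 1 := (QuotientGroup.eq_one_iff _).2 h
  have k : ∀ s₀, (∀ t, Commute (ψ (PSL2.upper t)) (ψ s₀)) → ∀ s, Commute (ψ s) (ψ s₀) := fun s₀ u s =>
    O7.gen_sl (M := (Submonoid.centralizer {ψ s₀}).comap ψ) (fun t => by
      rintro _ rfl; exact (u t).symm.eq) (by rintro _ rfl; rw [w]; simp) s _ rfl |>.symm
  refine Subgroup.commutator_le.2 fun a _ b _ => (QuotientGroup.eq_one_iff _).1 ?_
  refine (map_commutatorElement ψ a b).trans (commutatorElement_eq_one_iff_commute.2 (k b (fun t => ?_) a))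
  refine (k _ (fun u => Commute.map ?_ ψ) b).symm
  rw [Commute, SemiconjBy, PSL2.upper_mul, PSL2.upper_mul, add_comm]

omit [IsAlgClosed K] in
theorem pl_rel (ho : Odd (Fintype.card E)) (f : SL(2, E) →* X) : ∃ b y : SL(2, E), f y ^ 3 = 1 ∧
    f y * f (O7.wS E) * (f y)⁻¹ = f b ∧ f y * f b * (f y)⁻¹ = f (O7.wS E) * f b ∧
    f (O7.wS E) * f (O7.wS E) = f b * f b ∧ ⁅f (O7.wS E), f b⁆ = f (O7.wS E) * f (O7.wS E) ∧ f (O7.wS E) ^ 4 = 1 ∧
    f (O7.wS E) * f (O7.wS E) = f (-1) ∧ O7.wS E * b = -(b * O7.wS E) := by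
  obtain ⟨b, y, h1, h2, h3, h4, h5⟩ := pl_q8 ho
  refine ⟨b, y, by rw [← map_pow, h1, map_one], by rw [← map_inv, ← map_mul, ← map_mul, h2],
    by rw [← map_inv, ← map_mul, ← map_mul, h3, map_mul], by rw [← map_mul, ← map_mul, h4, O7.wS_sq], ?_, ?_,
    by rw [← map_mul, O7.wS_sq], h5⟩
  · rw [← map_commutatorElement, ← map_mul, O7.wS_sq, commutatorElement_def, h5]; simp
  · rw [← map_pow, show 4 = 2 * 2 from rfl, pow_mul, sq (O7.wS E), O7.wS_sq, neg_one_sq, map_one]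

/-- `SL₂(E) ⊇ Q₈ : 3` (`a² + b² = -1`, see `O7.U4.q8`; `y = (-1 + i + j + k) / 2` up to signs), `Cv.q8` gives
`t = -⁅a, b⁆` and `a` acts as a scalar on the plane `U` of `t`.  The `g ∈ SL₂(E)` whose lifts act on `U` as scalars
(all lifts commute with `t`, `comm_ti`) form a normal subgroup containing `a`; it contains the commutator
subgroup (simplicity of `L₂(E)`, or directly for `|E| = 3`). -/
theorem Cv.sl2 (h : Cv Y π) (ho : Odd (Fintype.card E)) (f : SL(2, E) →* X) (h1 : f (-1) ≠ 1) :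
    ∃ t : Y, π t = f (-1) ∧ TI t.1 ∧ ∀ g : Y, π g ∈ (commutator SL(2, E)).map f →
      ∃ ε : K, ∀ v, t.1.1 *ᵥ v = -v → g.1.1 *ᵥ v = ε • v := by
  obtain ⟨b, y, r1, r2, r3, r4, r5, r6, r7, -⟩ := pl_rel ho f
  obtain ⟨A, hA⟩ := h.surj (f (O7.wS E))
  obtain ⟨B, hB⟩ := h.surj (f b)
  obtain ⟨Z, hZ⟩ := h.surj (f y)
  rw [← hA] at r2 r3 r4 r5 r6 r7
  rw [← hB] at r2 r3 r4 r5
  rw [← hZ] at r1 r2 r3
  obtain ⟨q1, q2, ε, q3⟩ := h.q8' r1 r2 r3 r4 r5 r6 (by rwa [r7])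
  rw [← q2] at q1 q3
  let t : Y := ⟨-(A.1 * A.1), h.neg_mem (A * A).2⟩
  have et : π t = f (-1) := by rw [← r7, ← map_mul]; exact h.eq_iff.2 (.inr rfl)
  let S : Subgroup Y :=
    { carrier := {g | ∃ ε : K, ∀ v, t.1.1 *ᵥ v = -v → g.1.1 *ᵥ v = ε • v}
      one_mem' := ⟨1, fun v _ => by simp⟩
      mul_mem' := by
        rintro g g' ⟨c, hc⟩ ⟨d, hd⟩
        exact ⟨d * c, fun v hv => by
          rw [Subgroup.coe_mul, pl_mul, hd v hv, Matrix.mulVec_smul, hc v hv, smul_smul]⟩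
      inv_mem' := by
        rintro g ⟨c, hc⟩
        refine ⟨c⁻¹, fun v hv => ?_⟩
        have := Asch.inv_mulVec_mulVec g.1 v
        rw [hc v hv, Matrix.mulVec_smul] at this
        by_cases c0 : c = 0
        · rw [c0, zero_smul] at this
          rw [← this]; simp
        · rw [Subgroup.coe_inv, eq_inv_smul_iff₀ c0, this] }
  have : ((S.map π).comap f).Normal := ⟨by
    rintro s ⟨g, ⟨c, hc⟩, e⟩ n
    obtain ⟨m, hm⟩ := h.surj (f n)
    have cm := (h.comm_ti (g := m) (t := t) q1 (by rw [hm, et]; exact (Commute.neg_one_right n).map f)).inv_left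
    refine ⟨m * g * m⁻¹, ⟨c, fun v hv => ?_⟩, by simp [hm, e]⟩
    have : t.1.1 *ᵥ (m.1⁻¹).1 *ᵥ v = -((m.1⁻¹).1 *ᵥ v) := by rw [← pl_mul, ← cm.eq, pl_mul, hv, Matrix.mulVec_neg]
    rw [Subgroup.coe_mul, Subgroup.coe_mul, Subgroup.coe_inv, pl_mul, pl_mul, hc _ this, Matrix.mulVec_smul,
      Asch.mulVec_inv_mulVec]⟩
  have l := pl_normal (N := (S.map π).comap f) ⟨A, ⟨ε, fun v hv => q3 v (by
    change (-(A.1 * A.1)).1 *ᵥ v = -v at hv
    rwa [Units.val_neg, Matrix.neg_mulVec, neg_inj] at hv)⟩, hA⟩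
  refine ⟨t, et, q1, ?_⟩
  rintro g ⟨s, hs, e⟩
  obtain ⟨g', ⟨c, hc⟩, e'⟩ := l hs
  rcases h.eq_iff.1 (e.symm.trans e'.symm) with q | q <;> rw [q]
  · exact ⟨c, hc⟩
  · exact ⟨-c, fun v hv => by rw [Units.val_neg, Matrix.neg_mulVec, hc v hv, neg_smul]⟩

/-- ... elements of odd order fix the plane (`ε² = 1` as the plane is nondegenerate). -/
theorem Cv.sl2_odd (h : Cv Y π) (ho : Odd (Fintype.card E)) (h3 : 3 < Fintype.card E) (f : SL(2, E) →* X)
    {t : Y} (e : π t = f (-1)) (ht : TI t.1) {g : Y} (hg : π g ∈ f.range) {n : ℕ} (hn : Odd n)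
    (o : g.1 ^ n = 1) {v : I6 → K} (hv : t.1.1 *ᵥ v = -v) : g.1.1 *ᵥ v = v := by
  obtain ⟨t', e', ht', k⟩ := h.sl2 ho f (e ▸ h.ti_ne ht)
  obtain rfl := h.ti_eq ht ht' (e.trans e'.symm)
  have top : commutator SL(2, E) = ⊤ := by
    obtain ⟨a, a0, a1⟩ : ∃ a : E, a ≠ 0 ∧ a ^ 2 ≠ 1 := by
      classical
      by_contra! z
      have : (Finset.univ : Finset E) ⊆ {0, 1, -1} := fun a _ => by
        by_cases q : a = 0
        · simp [q]
        · rcases sq_eq_one_iff.1 (z a q) with q | q <;> simp [q]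
      exact ((Finset.card_le_card this).trans Finset.card_le_three).not_gt h3
    exact Matrix.SL2.commutator_eq_top a0 a1
  obtain ⟨ε, hε⟩ := k g (by rwa [top, ← MonoidHom.range_eq_map])
  by_cases v0 : v = 0
  · rw [v0, Matrix.mulVec_zero]
  obtain ⟨x, hx⟩ : ∃ x, om K v x ≠ 0 := by
    by_contra! z
    exact v0 (alt_om.nondegenerate.1 _ fun u => z u)
  have tt : ∀ x, t.1.1 *ᵥ t.1.1 *ᵥ x = x := fun x => by rw [← pl_mul, ht.1, Units.val_one, Matrix.one_mulVec]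
  have u1 : t.1.1 *ᵥ (x - t.1.1 *ᵥ x) = -(x - t.1.1 *ᵥ x) := by rw [Matrix.mulVec_sub, tt, neg_sub]
  have u2 : om K v (x - t.1.1 *ᵥ x) = 2 * om K v x := by
    have := mem_Sp.1 (h.sp t.2) v (t.1.1 *ᵥ x)
    rw [tt, hv] at this
    simp only [om, sympForm, Matrix.mulVec_sub, dotProduct_sub, neg_dotProduct] at this ⊢
    linear_combination this
  have u3 := mem_Sp.1 (h.sp g.2) v (x - t.1.1 *ᵥ x)
  rw [hε _ hv, hε _ u1, alt_om.smul_left, alt_om.smul_right', u2, ← mul_assoc] at u3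
  have e2 : ε * ε = 1 := (mul_eq_right₀ (mul_ne_zero h.two hx)).1 u3
  have pw : ∀ m : ℕ, (g.1 ^ m).1 *ᵥ v = ε ^ m • v := fun m => by
    induction m with
    | zero => simp
    | succ m ih => rw [pow_succ, pl_mul, hε _ hv, Matrix.mulVec_smul, ih, smul_smul, pow_succ']
  have := pw n
  obtain ⟨m, rfl⟩ := hn
  rw [o, Units.val_one, Matrix.one_mulVec, pow_succ, pow_mul, sq, e2, one_pow, one_mul] at this
  rw [hε _ hv, ← this]

/-- `r` permutes the three planes of the four-group (`TI.frame`; the three type I lifts multiply to `-1`), `d`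
fixes the first pointwise and commutes with `r` (`Cw.commute`), so it fixes all three. -/
theorem Cv.tri (h : Cv Y π) (ho : Odd (Fintype.card E)) (h3 : 3 < Fintype.card E) (f : SL(2, E) →* X)
    (h1 : f (-1) ≠ 1) {r d : X} (c : Commute (f (-1)) (r * f (-1) * r⁻¹))
    (e : r * (r * f (-1) * r⁻¹) * r⁻¹ = f (-1) * (r * f (-1) * r⁻¹)) (hd : d ∈ f.range) {n : ℕ} (hn : Odd n)
    (o : d ^ n = 1) (cd : Commute d r) : d = 1 := by
  obtain ⟨t, e', ht, -⟩ := h.sl2 ho f h1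
  obtain ⟨R, rfl⟩ := h.surj r
  obtain ⟨D, rfl, hD⟩ := h.lift hn o
  have fx := fun v => h.sl2_odd ho h3 f e' ht hd hn hD (v := v)
  have cR := h.cw.commute hn hD cd.symm
  have up : ∀ {s : G6 K}, (∀ v, s.1 *ᵥ v = -v → D.1.1 *ᵥ v = v) →
      ∀ v, (R.1 * s * R.1⁻¹).1 *ᵥ v = -v → D.1.1 *ᵥ v = v := fun {s} k v hv => by
    have := k ((R.1⁻¹).1 *ᵥ v) (by
      rw [pl_mul, pl_mul] at hv
      rw [← Asch.inv_mulVec_mulVec R.1 (s.1 *ᵥ _), hv, Matrix.mulVec_neg])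
    rw [← Asch.mulVec_inv_mulVec R.1 v, ← pl_mul, ← cR.eq, pl_mul, this]
  have fx2 := up fx
  have fx3 := up fx2
  have ht2 := pl_conj ht R.1
  have ht3 := pl_conj ht2 R.1
  rw [← e'] at c e
  have cm := h.comm_ti (g := t) (t := R * t * R⁻¹) ht2 (by simpa using c)
  have k : R.1 * (R.1 * t.1 * R.1⁻¹) * R.1⁻¹ = t.1 * (R.1 * t.1 * R.1⁻¹) ∨
      R.1 * (R.1 * t.1 * R.1⁻¹) * R.1⁻¹ = -(t.1 * (R.1 * t.1 * R.1⁻¹)) :=
    h.eq_iff.1 (show π (R * (R * t * R⁻¹) * R⁻¹) = π (t * (R * t * R⁻¹)) by simpa using e)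
  have s6 : R.1 * t.1 * R.1⁻¹ ∈ Sp K := h.sp (R * t * R⁻¹).2
  change Commute t.1 (R.1 * t.1 * R.1⁻¹) at cm
  generalize R.1 * t.1 * R.1⁻¹ = s at *
  rcases k with k | k <;> rw [k] at ht3 fx3
  · obtain ⟨v, hv, z⟩ := exists_fix [t.1, s] (by simp [ht.2, ht2.2])
    exact (h.ti_ne ht ((h.ker t).2 (.inl (t3b_four h.two (h.sp t.2) s6 (by rw [sq, ht.1]) (by rw [sq, ht2.1]) cm
      (ht.2.trans ht2.2.symm) (ht3.2.trans ht.2.symm) hv (z _ (by simp)) (z _ (by simp)))))).elim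
  refine (h.ker D).2 (.inl (Units.ext (mat_ext_mulVec fun v => ?_)))
  have tt : ∀ {g : G6 K}, TI g → ∀ x, g.1 *ᵥ g.1 *ᵥ x = x := fun hg x => by
    rw [← pl_mul, hg.1, Units.val_one, Matrix.one_mulVec]
  have a1 := fx (v - t.1.1 *ᵥ v) (by rw [Matrix.mulVec_sub, tt ht, neg_sub])
  set w := v + t.1.1 *ᵥ v with hw
  have tw : t.1.1 *ᵥ w = w := by rw [hw, Matrix.mulVec_add, tt ht, add_comm]
  have a2 := fx2 (w - s.1 *ᵥ w) (by rw [Matrix.mulVec_sub, tt ht2, neg_sub])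
  have a3 := fx3 (w + s.1 *ᵥ w) (by
    rw [Units.val_neg, Matrix.neg_mulVec, pl_mul, Matrix.mulVec_add s.1, tt ht2, Matrix.mulVec_add, tw, ← pl_mul,
      cm.eq, pl_mul, tw, add_comm])
  have a4 : D.1.1 *ᵥ w = w := smul_right_injective _ h.two (by
    change (2 : K) • _ = (2 : K) • _
    rw [Matrix.mulVec_sub] at a2
    rw [Matrix.mulVec_add] at a3
    rw [two_smul, two_smul]
    linear_combination a2 + a3)
  refine smul_right_injective _ h.two ?_
  change (2 : K) • _ = (2 : K) • _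
  rw [Matrix.mulVec_sub] at a1
  rw [hw, Matrix.mulVec_add] at a4
  rw [two_smul, two_smul, Units.val_one, Matrix.one_mulVec]
  linear_combination a1 + a4

/-- Two commuting `SL₂` with the same central involution (`Cv.no_q8q8`). -/
theorem Cv.no_sl2sl2 {E' : Type*} [Field E'] [Fintype E'] (h : Cv Y π) (ho : Odd (Fintype.card E))
    (ho' : Odd (Fintype.card E')) (f : SL(2, E) →* X) (f' : SL(2, E') →* X) (h1 : f (-1) ≠ 1)
    (e : f (-1) = f' (-1)) (c : ∀ a b, Commute (f a) (f' b)) : False := by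
  obtain ⟨b, y, r1, r2, r3, r4, r5, r6, r7, r8⟩ := pl_rel ho f
  obtain ⟨v, w, s1, s2, s3, s4, s5, -, s7, -⟩ := pl_rel ho' f'
  have k : ∀ (p p' : SL(2, E)) q, p * p' = -(p' * p) → f p * f' q ≠ 1 ∧ f p * f' q ≠ f (O7.wS E) * f (O7.wS E) :=
    fun p p' q a => by
      have : ¬ Commute (f p') (f p * f' q) := fun z => h1 (by
        have z := (z.mul_right (c p' q).inv_right).symm.eq
        rw [mul_inv_cancel_right, ← map_mul, ← map_mul, a, ← neg_one_mul, map_mul] at z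
        exact mul_eq_right.1 z)
      exact ⟨fun z => this (z ▸ Commute.one_right _), fun z => this (by
        rw [z, r7]; exact (Commute.neg_one_right p').map f)⟩
  refine h.no_q8q8' r1 r2 r3 r4 r5 r6 (r7 ▸ h1) s1 s2 s3 s4 s5 (by rw [s7, r7, e]) (c _ _) (c _ _) (c _ _) (c _ _) ?_
  rintro x (rfl | rfl | rfl)
  · exact k _ _ _ r8
  · exact k _ (O7.wS E) _ (by rw [r8, neg_neg])
  · rw [(c b _).symm.mul_mul_mul_comm, ← map_mul, ← map_mul]
    exact k _ (O7.wS E) _ (by rw [mul_assoc, r8, mul_neg, neg_neg])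

/-- The relations of `2³ : 7` lift to central extensions by a group of order at most two. -/
theorem pl_lift {C X : Type*} [Group C] [Group X] {φ : C →* X} (hs : Function.Surjective φ) {z : C}
    (hz : φ z = 1) (zc : ∀ g, Commute z g) (z2 : z * z = 1) (hk : ∀ g g', φ g = φ g' → g = g' ∨ g = z * g')
    {a x : X} (x7 : x ^ 7 = 1) (a2 : a * a = 1) (c : Commute a (x * a * x⁻¹))
    (e : a * (x * a * x⁻¹) = x ^ 3 * a * (x ^ 3)⁻¹) : ∃ A S : C, φ A = a ∧ φ S = x ∧ S ^ 7 = 1 ∧ A * A = 1 ∧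
      Commute A (S * A * S⁻¹) ∧ A * (S * A * S⁻¹) = S ^ 3 * A * (S ^ 3)⁻¹ := by
  have zj : ∀ k g, k * (z * g) * k⁻¹ = z * (k * g * k⁻¹) := fun k g => by
    rw [← mul_assoc, ← (zc k).eq]; simp only [mul_assoc]
  obtain ⟨S, rfl, S7⟩ : ∃ S, φ S = x ∧ S ^ 7 = 1 := by
    obtain ⟨S, rfl⟩ := hs x
    rcases hk (S ^ 7) 1 (by rw [map_pow, x7, map_one]) with q | q
    · exact ⟨S, rfl, q⟩
    · refine ⟨z * S, by rw [map_mul, hz, one_mul], ?_⟩
      rw [(zc S).mul_pow, q, mul_one, ← pow_succ, show 7 + 1 = 2 * 4 from rfl, pow_mul, sq, z2, one_pow]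
  obtain ⟨A, rfl, r⟩ : ∃ A, φ A = a ∧ A * (S * A * S⁻¹) = S ^ 3 * A * (S ^ 3)⁻¹ := by
    obtain ⟨A, rfl⟩ := hs a
    rcases hk (A * (S * A * S⁻¹)) (S ^ 3 * A * (S ^ 3)⁻¹) (by simpa using e) with q | q
    · exact ⟨A, rfl, q⟩
    · refine ⟨z * A, by rw [map_mul, hz, one_mul], ?_⟩
      rw [zj, zj, (zc A).symm.mul_mul_mul_comm, z2, one_mul, q]
  have cj : ∀ k : C, k * A * k⁻¹ * (k * A * k⁻¹) = k * (A * A) * k⁻¹ := fun k => by group
  have A2 : A * A = 1 := by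
    refine (hk (A * A) 1 (by rw [map_mul, a2, map_one])).elim id fun q => ?_
    rw [mul_one] at q
    have sq : ∀ k : C, k * A * k⁻¹ * (k * A * k⁻¹) = z := fun k => by
      rw [cj, q, ← (zc k).eq, mul_inv_cancel_right]
    set B := S * A * S⁻¹ with hB
    have b2 : B * B = z := sq S
    have d2 : A * B * (A * B) = z := by rw [r]; exact sq _
    rcases hk (B * A) (A * B) (by simpa [hB] using c.eq.symm) with p | p
    · rw [mul_assoc, ← mul_assoc B, p, mul_assoc, b2, ← mul_assoc, q, z2] at d2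
      rw [q, d2]
    -- `c₁ c₀ = z c₀ c₁`
    have p1 : S * B * S⁻¹ * B = z * (B * (S * B * S⁻¹)) := by
      have := congrArg (fun g => S * g * S⁻¹) p
      simp only [zj] at this
      calc _ = S * (B * A) * S⁻¹ := by rw [hB]; group
        _ = _ := by rw [this, hB]; group
    have p2 : S * (S * B * S⁻¹) * S⁻¹ * (S * B * S⁻¹) = z * (S * B * S⁻¹ * (S * (S * B * S⁻¹) * S⁻¹)) := by
      have := congrArg (fun g => S * g * S⁻¹) p1
      simp only [zj] at this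
      calc _ = S * (S * B * S⁻¹ * B) * S⁻¹ := by group
        _ = _ := by rw [this]; group
    have r3 : S * (S * B * S⁻¹) * S⁻¹ = A * B := by rw [r, hB, pow_three]; group
    have p3 : A * (S * B * S⁻¹) = z * (S * B * S⁻¹ * A) := by
      have : B * (A * B) = z * (A * B * B) := by rw [← mul_assoc, p, mul_assoc]
      rw [← r3] at this
      have := congrArg (fun g => S⁻¹ * g * S⁻¹⁻¹) this
      simp only [zj] at this
      calc _ = S⁻¹ * (B * (S * (S * B * S⁻¹) * S⁻¹)) * S⁻¹⁻¹ := by rw [hB]; group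
        _ = _ := by rw [this, hB]; group
    rw [r3] at p2
    generalize S * B * S⁻¹ = D at p1 p2 p3
    have : A * B * D = D * (A * B) := by
      have p4 : B * D = z * (D * B) := by rw [p1, ← mul_assoc, z2, one_mul]
      rw [mul_assoc, p4, ← mul_assoc, ← (zc A).eq, mul_assoc, ← mul_assoc A, p3, mul_assoc z, ← mul_assoc z z, z2,
        one_mul, mul_assoc]
    rw [this] at p2
    rw [q, left_eq_mul.1 (show D * (A * B) = D * (A * B) * z by rw [← (zc _).eq]; exact p2)]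
  refine ⟨A, S, rfl, rfl, S7, A2, ?_, r⟩
  have i : ∀ k : C, (k * A * k⁻¹)⁻¹ = k * A * k⁻¹ := fun k =>
    inv_eq_of_mul_eq_one_right (by rw [cj, A2]; group)
  have := i (S ^ 3)
  rw [← r, mul_inv_rev, i, inv_eq_of_mul_eq_one_right A2] at this
  exact this.symm

/-- `2³ : 7` given by generators: `a_i = x ^ i a x ^ (-i)`, `a₀ a₁ = a₃`, `a₀² = 1`, `a₀ a₁ = a₁ a₀`. -/
theorem Cv.no_87 (h : Cv Y π) {a x : X} (x7 : x ^ 7 = 1) (a2 : a * a = 1) (a1 : a ≠ 1)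
    (c : Commute a (x * a * x⁻¹)) (e : a * (x * a * x⁻¹) = x ^ 3 * a * (x ^ 3)⁻¹) : False := by
  obtain ⟨A, S, rfl, rfl, -, A2, cm, r⟩ := pl_lift h.surj (z := ⟨-1, h.neg⟩) ((h.ker _).2 (.inr rfl))
    (fun g => Subtype.ext (Commute.neg_one_left g.1).eq) (Subtype.ext (by simp))
    (fun g g' q => (h.eq_iff.1 q).imp Subtype.ext fun q => Subtype.ext (by simpa using q)) x7 a2 c e
  have cj : ∀ k : Y, k * A * k⁻¹ * (k * A * k⁻¹) = 1 := fun k => by
    rw [show k * A * k⁻¹ * (k * A * k⁻¹) = k * (A * A) * k⁻¹ by group, A2]; group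
  have c12 : Commute (S * A * S⁻¹) (S ^ 2 * A * (S ^ 2)⁻¹) := by
    have := cm.map (MulAut.conj S)
    simp only [MulAut.conj_apply] at this
    rwa [show S * (S * A * S⁻¹) * S⁻¹ = S ^ 2 * A * (S ^ 2)⁻¹ by rw [sq]; group] at this
  have c02 : Commute A (S ^ 2 * A * (S ^ 2)⁻¹) := by
    have : Commute (S * A * S⁻¹) (S ^ 3 * A * (S ^ 3)⁻¹) := r ▸ cm.symm.mul_right (.refl _)
    have := this.map (MulAut.conj S⁻¹)
    simp only [MulAut.conj_apply] at this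
    rwa [show S⁻¹ * (S * A * S⁻¹) * S⁻¹⁻¹ = A by group,
      show S⁻¹ * (S ^ 3 * A * (S ^ 3)⁻¹) * S⁻¹⁻¹ = S ^ 2 * A * (S ^ 2)⁻¹ by group] at this
  have r4 : S * A * S⁻¹ * (S ^ 2 * A * (S ^ 2)⁻¹) = S ^ 4 * A * (S ^ 4)⁻¹ := by
    calc _ = S * (A * (S * A * S⁻¹)) * S⁻¹ := by rw [sq]; group
      _ = _ := by rw [r]; group
  have nc : ¬ Commute (π S) (π A) := fun q => a1 (by
    rw [q.eq, mul_inv_cancel_right, (q.pow_left 3).eq, mul_inv_cancel_right] at e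
    exact mul_eq_left.1 e)
  have fin : ∀ j, j = 1 ∨ j = 2 ∨ j = 4 → ¬ ((((S ^ j * A * (S ^ j)⁻¹ : Y) : G6 K) = 1 ∨
      ((S ^ j * A * (S ^ j)⁻¹ : Y) : G6 K) = -1) ∨ ((S ^ j * A * (S ^ j)⁻¹ : Y) : G6 K) = A.1 ∨
      ((S ^ j * A * (S ^ j)⁻¹ : Y) : G6 K) = -A.1) := by
    rintro j hj (q | q)
    · exact a1 (by simpa [mul_inv_eq_iff_eq_mul] using (h.ker _).2 q)
    · have q := h.eq_iff.2 q
      rw [map_mul, map_mul, map_inv, map_pow, mul_inv_eq_iff_eq_mul] at q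
      have q : Commute (π S ^ j) (π A) := q
      have x8 : π S ^ 8 = π S := by rw [pow_succ, x7, one_mul]
      refine nc ?_
      rw [← x8]
      rcases hj with rfl | rfl | rfl
      · simpa [← pow_mul] using q.pow_left 8
      · simpa [← pow_mul] using q.pow_left 4
      · simpa [← pow_mul] using q.pow_left 2
  rcases t3c_dep h.two (h.sp A.2) (h.sp (S * A * S⁻¹).2) (h.sp (S ^ 2 * A * (S ^ 2)⁻¹).2) (congrArg Subtype.val A2)
    (congrArg Subtype.val (cj _)) (congrArg Subtype.val (cj _)) (cm.map Y.subtype) (c02.map Y.subtype)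
    (c12.map Y.subtype) with q | ⟨_, rfl | rfl | rfl, q⟩
  · exact a1 ((h.ker _).2 q)
  · exact fin 1 (by simp) (by rwa [pow_one])
  · exact fin 2 (by simp) q
  · exact fin 4 (by simp) (by rwa [← r4])

theorem pl_alt {n : ℕ} (hn : 8 ≤ n) : ∃ a x : alternatingGroup (Fin n), x ^ 7 = 1 ∧ a * a = 1 ∧ a ≠ 1 ∧
    Commute a (x * a * x⁻¹) ∧ a * (x * a * x⁻¹) = x ^ 3 * a * (x ^ 3)⁻¹ := by
  obtain ⟨θ, hθ⟩ := O7.alt_emb hn
  obtain ⟨a, x, h1, h2, h3, h4, h5⟩ : ∃ a x : alternatingGroup (Fin 8), x ^ 7 = 1 ∧ a * a = 1 ∧ a ≠ 1 ∧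
      a * (x * a * x⁻¹) = x * a * x⁻¹ * a ∧ a * (x * a * x⁻¹) = x ^ 3 * a * (x ^ 3)⁻¹ :=
    ⟨O7.altMk ![1, 0, 3, 2, 5, 4, 7, 6] ![1, 0, 3, 2, 5, 4, 7, 6],
      O7.altMk ![0, 2, 4, 6, 3, 1, 7, 5] ![0, 5, 1, 4, 2, 7, 3, 6], by decide +kernel⟩
  exact ⟨θ a, θ x, by rw [← map_pow, h1, map_one], by rw [← map_mul, h2, map_one],
    fun e => h3 (hθ (e.trans (map_one θ).symm)), by simpa using (show Commute _ _ from h4).map θ, by simpa using congrArg θ h5⟩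

/-- `A₈ ⊇ 2³ : 7`, also in a double cover `C → A_n` with kernel `⟨z⟩`: lift `x` to order seven; the lifts of the
`a_i` have the same square `z ^ ε`; `ε = 1` would make the commutator form equal to `1` on all pairs `a_i ≠ a_j`,
not bilinear; so the preimage is elementary abelian, and replacing `a` by `a z` repairs the relation. -/
theorem Cv.no_cover (h : Cv Y π) {C : Type*} [Group C] {f : C →* X} (hf : Function.Injective f) {n : ℕ}
    (hn : 8 ≤ n) (e : IsNonsplitDoubleCover C (alternatingGroup (Fin n))) : False := by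
  obtain ⟨a, x, h1, h2, h3, h4, h5⟩ := pl_alt hn
  obtain ⟨c2, ⟨i⟩, -⟩ := e
  obtain ⟨z, -, hz⟩ := (Nat.card_eq_two_iff' (1 : Subgroup.center C)).1 c2
  have z2 : z * z = 1 := by rw [← sq, ← c2, pow_card_eq_one']
  obtain ⟨A, S, rfl, rfl, S7, A2, cm, r⟩ := pl_lift (φ := i.toMonoidHom.comp (QuotientGroup.mk' _))
    (i.surjective.comp (QuotientGroup.mk'_surjective _)) (z := z.1)
    (by simp [(QuotientGroup.eq_one_iff _).2 z.2]) (fun g => (Subgroup.mem_center_iff.1 z.2 g).symm)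
    (congrArg Subtype.val z2) (fun g g' q => by
      have m : g * g'⁻¹ ∈ Subgroup.center C := by
        rw [← QuotientGroup.eq_one_iff, QuotientGroup.mk_mul, QuotientGroup.mk_inv, mul_inv_eq_one]
        exact i.injective q
      by_cases o : (⟨_, m⟩ : Subgroup.center C) = 1
      · exact .inl (mul_inv_eq_one.1 (congrArg Subtype.val o))
      · exact .inr (mul_inv_eq_iff_eq_mul.1 (congrArg Subtype.val (hz _ o)))) h1 h2 h4 h5
  refine h.no_87 (a := f A) (x := f S) (by rw [← map_pow, S7, map_one]) (by rw [← map_mul, A2, map_one])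
    (fun q => h3 (by rw [hf (q.trans (map_one f).symm), map_one])) (by simpa using cm.map f)
    (by simpa using congrArg f r)

theorem Cv.no_alt {n : ℕ} (hn : 8 ≤ n) {π : Y →* alternatingGroup (Fin n)} (h : Cv Y π) : False := by
  obtain ⟨a, x, h1, h2, h3, h4, h5⟩ := pl_alt hn
  exact h.no_87 h1 h2 h3 h4 h5

end Cfsg.Lib.S6Q
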