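import Cfsg.Agent.Lib.S6Q.T4
import Cfsg.Agent.Lib.S6Q.Pl
import Cfsg.Agent.Lib.D3.L27
import Cfsg.Agent.Lib.ClsI.A

/-!
# The ending `A₇`
-/

set_option autoImplicit false

namespace Cfsg.Lib.S6Q

open scoped MatrixGroups Matrix commutatorElement
open Cfsg.Geo Cfsg.Lib.Asch Cfsg.Lib.Linear Cfsg.Lib.Q4 Cfsg.Lib.Symp Module
open Cfsg.Lib.Q4R (Sq HasTv sc dg)

section

variable {K : Type*} [Field K] [IsAlgClosed K] {X : Type*} [Group X] {Y : Subgroup (G6 K)} {π : Y →* X}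

theorem Cv.ea7_perp (h : Cv Y π) {s t : Y} (hs : TI s.1) (ht : TI t.1) (c : Commute (π s) (π t)) (n : π s ≠ π t) :
    s.1.1 * t.1.1 = s.1.1 + t.1.1 - 1 := by
  obtain ⟨k, -, e, e'⟩ := hs.frame h.two ht (h.sp s.2) (h.sp t.2) (h.comm_ti ht c) fun e => n (congrArg π (Subtype.ext e))
  have : (tor ![-1, 1, 1] : G6 K).1 * (tor ![1, -1, 1] : G6 K).1 = (tor ![-1, 1, 1] : G6 K).1 + (tor ![1, -1, 1] : G6 K).1 - 1 := by
    have d : ∀ μ, (tor μ : G6 K).1 = Matrix.diagonal fun i => ((Sum.elim μ (fun i => (μ i)⁻¹) i : Kˣ) : K) := fun _ => rfl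
    rw [d, d, Matrix.diagonal_mul_diagonal, Matrix.diagonal_add, ← Matrix.diagonal_one, Matrix.diagonal_sub]
    congr 1
    funext i
    rcases i with i | i <;> fin_cases i <;> simp
  rw [← e, ← e'] at this
  have k1 : (k⁻¹).1 * k.1 = 1 := k.inv_mul
  have := congrArg (fun x => (k⁻¹).1 * x * k.1) this
  simpa only [Units.val_mul, mul_add, add_mul, mul_sub, sub_mul, mul_assoc, k1, mul_one, ← mul_assoc (k⁻¹).1 k.1,
    one_mul] using this

theorem Cv.ea7_fix (h : Cv Y π) {s c z : Y} (hs : TI s.1) (hc : TI c.1) (z3 : z.1 ^ 3 = 1) (c1 : Commute (π c) (π s))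
    (n : π c ≠ π s) (c2 : Commute (π z) (π s)) (e : π c * π z * (π c)⁻¹ = (π z)⁻¹) :
    z.1.1 * (1 - s.1.1) = 1 - s.1.1 := by
  have a1 : c.1.1 * (1 - s.1.1) = 1 - s.1.1 := by rw [mul_sub, h.ea7_perp hc hs c1 n, mul_one]; abel
  have a2 : z.1.1 * (1 - s.1.1) = (1 - s.1.1) * z.1.1 := by
    rw [mul_sub, sub_mul, mul_one, one_mul, ← Units.val_mul, (h.comm_ti hs c2).eq, Units.val_mul]
  have a3 : c * z * c⁻¹ = z⁻¹ := h.lift_unique (n := 3) (by decide) (by simpa using e)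
    (by rw [Subgroup.coe_mul, Subgroup.coe_mul, Subgroup.coe_inv, conj_pow, z3, mul_one, mul_inv_cancel])
    (by rw [Subgroup.coe_inv, inv_pow, z3, inv_one])
  have a4 : z.1.1 * (c.1.1 * z.1.1) = c.1.1 := by
    have : z * (c * z) = c := by rw [mul_inv_eq_iff_eq_mul.1 a3, mul_inv_cancel_left]
    exact congrArg (fun g : Y => g.1.1) this
  have a5 : z.1.1 * (z.1.1 * (1 - s.1.1)) = 1 - s.1.1 := by
    conv_lhs => rw [a2, ← a1, mul_assoc c.1.1, ← a2, ← mul_assoc c.1.1, ← mul_assoc, a4, a1]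
  have a6 : z.1.1 * (z.1.1 * z.1.1) = 1 := by rw [← Units.val_mul, ← Units.val_mul, ← pow_three, z3, Units.val_one]
  conv_lhs => rw [← a5, ← mul_assoc, ← mul_assoc, mul_assoc z.1.1 z.1.1, a6, one_mul]

end

/-- Two commuting involutions, one centralising and one inverting `ζ`. -/
abbrev EA7 {X : Type*} [Group X] (ζ x c : X) : Prop :=
  (x * x = 1 ∧ x ≠ 1) ∧ (c * c = 1 ∧ c ≠ 1) ∧ c * x = x * c ∧ c ≠ x ∧ ζ * x = x * ζ ∧ c * ζ * c⁻¹ = ζ⁻¹

theorem ea7_ex : ∃ a b ζ c d f : alternatingGroup (Fin 7), (ζ ^ 3 = 1 ∧ ζ ≠ 1 ∧ a * b = b * a ∧ a ≠ b ∧ a ≠ a * b) ∧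
    EA7 ζ a c ∧ EA7 ζ b d ∧ EA7 ζ (a * b) f :=
  ⟨O7.altMk ![1, 0, 3, 2, 4, 5, 6] ![1, 0, 3, 2, 4, 5, 6], O7.altMk ![2, 3, 0, 1, 4, 5, 6] ![2, 3, 0, 1, 4, 5, 6],
    O7.altMk ![0, 1, 2, 3, 5, 6, 4] ![0, 1, 2, 3, 6, 4, 5], O7.altMk ![1, 0, 2, 3, 5, 4, 6] ![1, 0, 2, 3, 5, 4, 6],
    O7.altMk ![2, 1, 0, 3, 5, 4, 6] ![2, 1, 0, 3, 5, 4, 6], O7.altMk ![3, 1, 2, 0, 5, 4, 6] ![3, 1, 2, 0, 5, 4, 6],
    by decide +kernel, by decide +kernel, by decide +kernel, by decide +kernel⟩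

theorem ea7_seven {x : alternatingGroup (Fin 7)} (h : x ^ 7 = 1) : IsConj x (x ^ 9) := by
  rcases eq_or_ne x 1 with rfl | n
  · rw [one_pow]
  haveI : Fact (Nat.Prime 7) := ⟨by norm_num⟩
  have o : orderOf x.1 = 7 := by rw [Subgroup.orderOf_coe, orderOf_eq_prime h n]
  have o' : orderOf (x.1 ^ 3) = 7 := by rw [orderOf_pow, o]; rfl
  have c : ∀ σ : Equiv.Perm (Fin 7), orderOf σ = 7 → σ.IsCycle := fun σ e =>
    Equiv.Perm.isCycle_of_prime_order' (by rw [e]; norm_num) (by rw [e]; simp)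
  obtain ⟨σ, e⟩ := isConj_iff.1 ((c _ o).isConj (c _ o') (by rw [← (c _ o).orderOf, ← (c _ o').orderOf, o, o']))
  refine isConj_iff.2 ⟨⟨σ * σ, by simp [Equiv.Perm.mem_alternatingGroup]⟩, Subtype.ext ?_⟩
  change σ * σ * x.1 * (σ * σ)⁻¹ = x.1 ^ 9
  rw [show σ * σ * x.1 * (σ * σ)⁻¹ = σ * (σ * x.1 * σ⁻¹) * σ⁻¹ by group, e, ← conj_pow, e, ← pow_mul]

/-- If the involutions lift to `± TI`: the lifts `T₁, T₂, T₃` of `(12)(34)`, ... form a frame (`TI.frame`) permuted by `(123)`.  The lift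
`z` of `(567)` commutes with them and is inverted by the lift of `(12)(56)`, which is trivial on the plane of `T₁`.  So `z = 1` on
each plane. -/
theorem Cv.a7_tii {K : Type*} [Field K] [IsAlgClosed K] {Y : Subgroup (G6 K)} {π : Y →* alternatingGroup (Fin 7)} (h : Cv Y π)
    (t : Y) (e : π t * π t = 1) (n : π t ≠ 1) : t.1 * t.1 = -1 := by
  refine (h.pm_sq e).resolve_left fun q => ?_
  have L : ∀ x : alternatingGroup (Fin 7), x * x = 1 ∧ x ≠ 1 → ∃ T : Y, π T = x ∧ TI T.1 := fun x hx => by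
    obtain ⟨k, rfl⟩ := isConj_iff.1 (ClsI.conj_a7 e n hx.1 hx.2)
    obtain ⟨k, rfl⟩ := h.surj k
    rcases ti_or h.two (h.sp t.2) q with r | r | r | r
    · exact absurd ((h.ker t).2 (.inl r)) n
    · exact absurd ((h.ker t).2 (.inr r)) n
    · exact ⟨k * t * k⁻¹, by rw [map_mul, map_mul, map_inv], pl_conj r k.1⟩
    · obtain ⟨t', e1, e2⟩ : ∃ t' : Y, π t' = π t ∧ t'.1 = -t.1 :=
        ⟨⟨-t.1, h.neg_mem t.2⟩, h.eq_iff.2 (.inr rfl), rfl⟩
      exact ⟨k * t' * k⁻¹, by rw [map_mul, map_mul, map_inv, e1], pl_conj (e2 ▸ r) k.1⟩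
  obtain ⟨a, b, ζ, c, d, f, ⟨y3, z1, ab, n1, n2⟩, H1, H2, H3⟩ := ea7_ex
  obtain ⟨z, rfl, z3⟩ := h.lift (by decide) y3
  have M : ∀ {x c}, EA7 (π z) x c → ∃ T : Y, π T = x ∧ TI T.1 ∧ z.1.1 * (1 - T.1.1) = 1 - T.1.1 :=
    fun ⟨h1, h2, h3, h4, h5, h6⟩ => by
      obtain ⟨s, rfl, hs⟩ := L _ h1
      obtain ⟨c, rfl, hc⟩ := L _ h2
      exact ⟨s, rfl, hs, h.ea7_fix hs hc z3 h3 h4 h5 h6⟩
  obtain ⟨s, rfl, hs, e1⟩ := M H1
  obtain ⟨t, rfl, ht, e2⟩ := M H2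
  obtain ⟨u, e, hu, e3⟩ := M H3
  have p1 := h.ea7_perp hs ht ab n1
  have p2 := h.ea7_perp hs hu (by rw [e]; exact (Commute.refl _).mul_right ab) (by rwa [e])
  have two : ∀ A : Matrix I6 I6 K, A + A = 1 + 1 → A = 1 := fun A r =>
    smul_right_injective _ h.two (by simpa only [two_smul] using r)
  rcases h.eq_iff.1 (e.trans (map_mul π s t).symm) with r | r
  · rw [r, Subgroup.coe_mul, Units.val_mul, ← mul_assoc, ← Units.val_mul, hs.1, Units.val_one, one_mul, p1] at p2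
    refine h.ti_ne hs ((h.ker s).2 (.inl (Units.ext (two _ ?_))))
    rw [← sub_eq_zero, ← sub_eq_zero.2 p2.symm]
    abel
  · rw [r, Subgroup.coe_mul, Units.val_neg, Units.val_mul, p1] at e3
    refine z1 ((h.ker z).2 (.inl (Units.ext (two _ ?_))))
    have : (1 + 1 : Matrix I6 I6 K) = (1 - s.1.1) + (1 - t.1.1) + (1 - -(s.1.1 + t.1.1 - 1)) := by abel
    conv_rhs => rw [this, ← e1, ← e2, ← e3, ← mul_add, ← mul_add, ← this, mul_add, mul_one]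

/-- `p = 3` (`Cv.three_of_A6`); `g ^ 9 ∼ g ^ (± 1)` for `3'`-elements (orders `1, 2, 4, 5, 7` in `A₇`; `exists_reg`, `tr_pow_char`,
`tr_inv`), `Core.card_two`; `no_eight` for `(1234)(56)`. -/
theorem Od.a7 {F : Type*} [Field F] [Fintype F] {P : Subgroup (G6 F)} {π : pm P →* alternatingGroup (Fin 7)} (h : Od P π) :
    Fintype.card F = 9 := by
  obtain ⟨π', h', hπ⟩ := h.cv.ext (algebraMap F (AlgebraicClosure F))
  obtain ⟨θ, hθ⟩ := O7.alt_emb (show 6 ≤ 7 by decide)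
  haveI : CharP F 3 := (CharP.charP_iff_prime_eq_zero Nat.prime_three).2
    ((algebraMap F (AlgebraicClosure F)).injective (by rw [Nat.cast_ofNat, map_ofNat, map_zero, h'.three_of_A6 hθ]))
  have sq : ∀ (y : pm P) (n : ℕ), π y ^ n = 1 → y.1 ^ n = 1 ∨ y.1 ^ n = -1 := fun y n e =>
    (h.cv.ker (y ^ n)).1 (by rwa [map_pow])
  have sq' : ∀ (y : pm P) (n : ℕ), π y ^ n = 1 → y.1 ^ (n * 2) = 1 := fun y n e => by
    rcases sq y n e with r | r <;> simp [pow_mul, r]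
  refine (h.toCore.card_two 3 fun g hg => ?_).resolve_left fun h3 => ?_
  · obtain ⟨m, c, e⟩ := exists_reg 3 (isOfFinOrder_of_finite g)
    obtain ⟨y, hy⟩ : ∃ y : pm P, y.1 = g ^ m := ⟨⟨_, le_pm P (pow_mem hg m)⟩, rfl⟩
    rw [← hy] at c e
    rw [← e, ← tr_pow_char 3]
    change Q4.tr (y.1 ^ 9) = _
    rcases D3.ex_A7 (π y) with r | r | r
    · rw [← tr_inv (h.cv.sp y.2), eq_inv_of_mul_eq_one_left ((pow_succ y.1 9).symm.trans (sq' y 5 r))]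
    · obtain ⟨k, e⟩ := isConj_iff.1 (ea7_seven r)
      obtain ⟨k, rfl⟩ := h.cv.surj k
      rcases (h.cv.eq_iff (g := k * y * k⁻¹) (g' := y ^ 9)).1 (by simpa using e) with q | q
      · exact (congrArg Q4.tr q).symm.trans (tr_conj y.1 k.1)
      · have q : k.1 * y.1 * k.1⁻¹ = -y.1 ^ 9 := q
        have := congrArg (· ^ 7) q
        simp only [conj_pow, Odd.neg_pow (by decide : Odd 7), ← pow_mul, mul_comm 9 7] at this
        rcases sq y 7 r with r | r <;> simp only [pow_mul, r] at this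
        · exact absurd (by simpa using this.symm) h.cv.neg_ne
        · exact absurd (by simpa [Odd.neg_one_pow (by decide : Odd 9)] using this) h.cv.neg_ne
    · have : y.1 ^ 8 = 1 := orderOf_dvd_iff_pow_eq_one.1
        (c.dvd_of_dvd_mul_right (orderOf_dvd_of_pow_eq_one (n := 8 * 3) (sq' y 12 r)))
      rw [pow_succ, this, one_mul]
  · obtain ⟨x, x4, x2⟩ : ∃ x : alternatingGroup (Fin 7), x * x * (x * x) = 1 ∧ x * x ≠ 1 :=
      ⟨O7.altMk ![1, 2, 3, 0, 5, 4, 6] ![3, 0, 1, 2, 5, 4, 6], by decide +kernel⟩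
    obtain ⟨g, rfl⟩ := h.cv.surj x
    rw [← map_mul, ← hπ] at x4 x2
    refine no_eight (.inl (by rw [h3])) (h.cv.sp g.2) (mp_inj (algebraMap F (AlgebraicClosure F)) ?_)
    rw [mp_neg, map_one, ← h'.a7_tii _ x4 x2, ← map_mul, Subgroup.coe_mul, ← pow_two, ← pow_two, ← pow_mul]

end Cfsg.Lib.S6Q
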