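import Cfsg.Agent.Lib.S6Q.Rf2a

/-!
# Quaternionic reflections: uniqueness and existence
-/

set_option autoImplicit false

namespace Cfsg.Lib.S6Q

open scoped MatrixGroups Matrix commutatorElement
open Cfsg.Geo Cfsg.Lib.Asch Cfsg.Lib.Linear Cfsg.Lib.Q4 Cfsg.Lib.Symp Module
open Cfsg.Lib.Q4R (Sq HasTv sc dg)

variable {K : Type*} [Field K] {f f' f₁ f₂ f₃ g₁ g₂ g₃ : Fm K} {J J' z I I' y δ : M2 K} {s : K}
  {t t' n A B C D R E A' B' C' D' R' E' : G6 K}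

theorem rc_cj {k : G6 K} {c : K} (hk : k ∈ Sp K) (d : δ.det = 1) (e : t.1 = rf c f) (e' : t'.1 = rf c f')
    (h : k.1 * f' = f * δ) : t = k * t' * k⁻¹ :=
  Units.ext (by rw [Units.val_mul, Units.val_mul, e', rf_conj c hk, h, rf_mul c d, e])

theorem Tr3.rc_mul (h : Tr3 f₁ f₂ f₃) (d : δ.det = 1) : Tr3 (f₁ * δ) (f₂ * δ) (f₃ * δ) := by
  have k : ∀ {f f' : Fm K}, ad f * f' = 0 → ad (f * δ) * (f' * δ) = 0 := fun e => by
    rw [ad_mul, Matrix.mul_assoc, ← Matrix.mul_assoc (ad _), e, Matrix.zero_mul, Matrix.mul_zero]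
  exact ⟨h.h₁.mul d, h.h₂.mul d, h.h₃.mul d, k h.h₁₂, k h.h₁₃, k h.h₂₃⟩

theorem Tr3.rc_ad (h : Tr3 f₁ f₂ f₃) (a b c a' b' c' : M2 K) :
    ad (f₁ * a + f₂ * b + f₃ * c) * (f₁ * a' + f₂ * b' + f₃ * c') =
      a.adjugate * a' + b.adjugate * b' + c.adjugate * c' := by
  have sw : ∀ {f f' : Fm K}, ad f * f' = 0 → ad f' * f = 0 := fun e => by rw [ad_swap, e, Matrix.adjugate_zero]
  have h1 : ad f₁ * f₁ = 1 := h.h₁
  have h2 : ad f₂ * f₂ = 1 := h.h₂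
  have h3 : ad f₃ * f₃ = 1 := h.h₃
  simp only [ad_add, ad_mul, Matrix.add_mul, Matrix.mul_add, Matrix.mul_assoc, ← Matrix.mul_assoc (ad _), h1, h2, h3,
    h.h₁₂, h.h₁₃, h.h₂₃, sw h.h₁₂, sw h.h₁₃, sw h.h₂₃, Matrix.zero_mul, Matrix.mul_zero, Matrix.one_mul, add_zero,
    zero_add]

theorem Tr3.rc_self (h : Tr3 f₁ f₂ f₃) (a b c : M2 K) :
    ad (f₁ * a + f₂ * b + f₃ * c) * (f₁ * a + f₂ * b + f₃ * c) = (a.det + b.det + c.det) • 1 := by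
  simp only [h.rc_ad, Matrix.adjugate_mul, add_smul]

theorem Tr3.rc_rf (h : Tr3 f₁ f₂ f₃) (h2 : (2 : K) ≠ 0) {r : K} (a b c : M2 K) (e : f = f₁ * a + f₂ * b + f₃ * c)
    (d : r * (a.det + b.det + c.det) = 2) : ∃ t, (t ∈ Sp K ∧ TI t) ∧ t.1 = rf r f := by
  obtain ⟨t, h1, h2, h3⟩ := exists_rf h2 (f := f) (c := r) (by rw [e, h.rc_self, smul_smul, d, two_smul, two_smul])
  exact ⟨t, ⟨h1, h2⟩, h3⟩

theorem rc_mul (c : K) : rf c (f * δ) = rf (c * δ.det) f := by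
  rw [rf, rf, ad_mul, Matrix.mul_assoc, ← Matrix.mul_assoc δ, Matrix.mul_adjugate, Matrix.smul_mul, Matrix.one_mul,
    Matrix.mul_smul, smul_smul]

theorem rc_det (a : K) (x : M2 K) : (a • (1 : M2 K) + x).det = a ^ 2 + a * x.trace + x.det := by
  simp [Matrix.det_fin_two, Matrix.trace_fin_two]; ring

theorem Qz.rc_half (h : Qz J z) : ((2 : K)⁻¹ • (1 : M2 K)).det + ((2 : K)⁻¹ • (1 : M2 K)).det + z.det = 1 := by
  have := h.two
  simp only [Matrix.det_smul, Matrix.det_one, Fintype.card_fin]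
  field_simp
  linear_combination 2 * h.dz

theorem rc_root : (2 : K)⁻¹ • (f₁ + f₂) + f₃ * z = f₁ * ((2 : K)⁻¹ • (1 : M2 K)) + f₂ * ((2 : K)⁻¹ • (1 : M2 K)) + f₃ * z := by
  simp

theorem NF.conj [IsAlgClosed K] (h : NF f₁ f₂ f₃ J z A B C D R) (h' : NF g₁ g₂ g₃ I y A' B' C' D' R') (h3 : (3 : K) ≠ 0) :
    ∃ k : G6 K, ∀ i, ![A, B, C, D, R] i = k * ![A', B', C', D', R'] i * k⁻¹ := by
  obtain ⟨δ, d, e1, e2⟩ := h.q.conj h'.q h3
  obtain ⟨k, hk, k1, k2, k3⟩ := (h.tr.rc_mul d).exists_sp h'.tr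
  refine ⟨k, fun i => ?_⟩
  fin_cases i
  · exact rc_cj hk d h.a h'.a k1
  · exact rc_cj hk d h.b h'.b (by rw [Matrix.mul_add, Matrix.add_mul, k1, k2])
  · exact rc_cj hk d h.c h'.c (by rw [Matrix.mul_add, Matrix.add_mul, k3, k2])
  · exact rc_cj hk d h.d h'.d (by
      rw [Matrix.mul_add, Matrix.add_mul, ← Matrix.mul_assoc, k1, k2, Matrix.mul_assoc, Matrix.mul_assoc, e1])
  · exact rc_cj hk d h.r h'.r (by
      rw [Matrix.mul_add, Matrix.add_mul, Matrix.mul_smul, Matrix.smul_mul, Matrix.mul_add, Matrix.add_mul,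
        ← Matrix.mul_assoc, k1, k2, k3, Matrix.mul_assoc, Matrix.mul_assoc, e2])

theorem NF'.conj [IsAlgClosed K] (h : NF' f₁ f₂ f₃ J z J' s A B C D R E) (h' : NF' g₁ g₂ g₃ I y I' s A' B' C' D' R' E') :
    ∃ k : G6 K, ∀ i, ![A, B, C, D, R, E] i = k * ![A', B', C', D', R', E'] i * k⁻¹ := by
  obtain ⟨δ, d, e1, e2, e3⟩ := h.q'.conj h'.q'
  obtain ⟨k, hk, k1, k2, k3⟩ := (h.tr.rc_mul d).exists_sp h'.tr
  refine ⟨k, fun i => ?_⟩
  fin_cases i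
  · exact rc_cj hk d h.a h'.a k1
  · exact rc_cj hk d h.b h'.b (by rw [Matrix.mul_add, Matrix.add_mul, k1, k2])
  · exact rc_cj hk d h.c h'.c (by rw [Matrix.mul_add, Matrix.add_mul, k3, k2])
  · exact rc_cj hk d h.d h'.d (by
      rw [Matrix.mul_add, Matrix.add_mul, ← Matrix.mul_assoc, k1, k2, Matrix.mul_assoc, Matrix.mul_assoc, e1])
  · exact rc_cj hk d h.r h'.r (by
      rw [Matrix.mul_add, Matrix.add_mul, Matrix.mul_smul, Matrix.smul_mul, Matrix.mul_add, Matrix.add_mul,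
        ← Matrix.mul_assoc, k1, k2, k3, Matrix.mul_assoc, Matrix.mul_assoc, e2])
  · exact rc_cj hk d h.e h'.e (by
      rw [Matrix.mul_add, Matrix.add_mul, ← Matrix.mul_assoc, k1, k2, Matrix.mul_assoc, Matrix.mul_assoc, e3])

/-- The span of `f₁ v, f₂ v, f₃ v` is invariant (`Qz.eig`). -/
theorem NF.three [IsAlgClosed K] (h : NF f₁ f₂ f₃ J z A B C D R) (hi : Irr (Subgroup.closure (Set.range ![A, B, C, D, R]))) :
    (3 : K) ≠ 0 := by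
  intro h3
  obtain ⟨v, v0, ⟨c, hc⟩, c', hc'⟩ := h.q.eig h3
  let L := Submodule.span K {v}
  let W := (L.comap (ad f₁).mulVecLin ⊓ L.comap (ad f₂).mulVecLin) ⊓ L.comap (ad f₃).mulVecLin
  have mW : ∀ x, x ∈ W ↔ (ad f₁ *ᵥ x ∈ L ∧ ad f₂ *ᵥ x ∈ L) ∧ ad f₃ *ᵥ x ∈ L := fun _ => Iff.rfl
  have st : ∀ a : M2 K, (∃ c : K, a *ᵥ v = c • v) → ∀ w ∈ L, a *ᵥ w ∈ L ∧ a.adjugate *ᵥ w ∈ L := fun a ⟨c, e⟩ w hw => by
    have : a *ᵥ w ∈ L := by
      obtain ⟨x, rfl⟩ := Submodule.mem_span_singleton.1 hw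
      rw [Matrix.mulVec_smul, e]
      exact L.smul_mem _ (L.smul_mem _ (Submodule.mem_span_singleton_self v))
    refine ⟨this, ?_⟩
    rw [eq_sub_of_add_eq' (un0_tr a), Matrix.sub_mulVec, Matrix.smul_mulVec, Matrix.one_mulVec]
    exact L.sub_mem (L.smul_mem _ hw) this
  have co : ∀ a b d : M2 K, ad f₁ * (f₁ * a + f₂ * b + f₃ * d) = a ∧ ad f₂ * (f₁ * a + f₂ * b + f₃ * d) = b ∧
      ad f₃ * (f₁ * a + f₂ * b + f₃ * d) = d := fun a b d =>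
    ⟨by simpa using h.tr.rc_ad 1 0 0 a b d, by simpa using h.tr.rc_ad 0 1 0 a b d, by simpa using h.tr.rc_ad 0 0 1 a b d⟩
  have inv : ∀ {t : G6 K} {r : K} {f : Fm K} (a b d : M2 K), t.1 = rf r f → f = f₁ * a + f₂ * b + f₃ * d →
      (∃ c : K, a *ᵥ v = c • v) → (∃ c : K, b *ᵥ v = c • v) → (∃ c : K, d *ᵥ v = c • v) → ∀ x ∈ W, t.1 *ᵥ x ∈ W := by
    rintro t r f a b d e rfl ha hb hd x hx
    rw [e, rf, Matrix.sub_mulVec, Matrix.one_mulVec, Matrix.smul_mulVec, ← Matrix.mulVec_mulVec]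
    refine W.sub_mem hx (W.smul_mem _ ?_)
    have : ad (f₁ * a + f₂ * b + f₃ * d) *ᵥ x ∈ L := by
      simp only [ad_add, ad_mul, Matrix.add_mulVec, ← Matrix.mulVec_mulVec]
      exact L.add_mem (L.add_mem (st a ha _ hx.1.1).2 (st b hb _ hx.1.2).2) (st d hd _ hx.2).2
    generalize ad (f₁ * a + f₂ * b + f₃ * d) *ᵥ x = w at this
    simp only [mW, Matrix.mulVec_mulVec, co]
    exact ⟨⟨(st a ha _ this).1, (st b hb _ this).1⟩, (st d hd _ this).1⟩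
  have s0 : ∃ c : K, (0 : M2 K) *ᵥ v = c • v := ⟨0, by simp⟩
  have s1 : ∃ c : K, (1 : M2 K) *ᵥ v = c • v := ⟨1, by simp⟩
  have s2 : ∃ c : K, ((2 : K)⁻¹ • (1 : M2 K)) *ᵥ v = c • v := ⟨2⁻¹, by simp [Matrix.smul_mulVec]⟩
  have m1 : ∀ w, f₁ *ᵥ w ∈ W ↔ w ∈ L := fun w => by
    have := co 1 0 0
    simp only [Matrix.mul_one, Matrix.mul_zero, add_zero] at this
    simp only [mW, Matrix.mulVec_mulVec, this, Matrix.one_mulVec, Matrix.zero_mulVec, L.zero_mem, and_true]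
  rcases T2.irr_sub hi (W := W) (by
    rintro _ ⟨i, rfl⟩
    fin_cases i
    · exact inv 1 0 0 h.a (by simp) s1 s0 s0
    · exact inv 1 1 0 h.b (by simp) s1 s1 s0
    · exact inv 0 1 1 h.c (by simp) s0 s1 s1
    · exact inv 1 J 0 h.d (by simp) s1 ⟨c, hc⟩ s0
    · exact inv _ _ z h.r rc_root s2 s2 ⟨c', hc'⟩) with e | e
  · have := (m1 v).2 (Submodule.mem_span_singleton_self v)
    rw [e, Submodule.mem_bot] at this
    exact v0 (by rw [← Matrix.one_mulVec v, ← h.tr.h₁, ← Matrix.mulVec_mulVec, this, Matrix.mulVec_zero])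
  · have := finrank_span_singleton (K := K) v0
    rw [show Submodule.span K {v} = ⊤ from eq_top_iff.2 fun w _ => (m1 w).1 (e ▸ trivial)] at this
    simp at this

theorem NF'.five (h : NF' f₁ f₂ f₃ J z J' s A B C D R E) : (C * E * C * R) ^ 5 = 1 ∧ C * E * C * R ≠ 1 := by
  have h2 := h.q.two
  obtain ⟨c6, c2⟩ : C ∈ Sp K ∧ TI C := by
    obtain ⟨_, c, e⟩ := h.tr.rc_rf h2 (r := 1) (f := f₂ + f₃) 0 1 1 (by simp) (by simp [one_add_one_eq_two])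
    rwa [← Units.ext (e.trans h.c.symm)]
  have e1 : (C * E * C).1 = rf 1 (f₁ * (1 : M2 K) + f₂ * (0 : M2 K) + f₃ * -J') := by
    have := h.tr.rc_ad 0 1 1 1 J' 0
    simp only [Matrix.mul_one, Matrix.mul_zero, add_zero, zero_add, Matrix.adjugate_zero, Matrix.adjugate_one,
      Matrix.one_mul] at this
    conv_lhs => rw [Units.val_mul, Units.val_mul, h.e]; arg 2; rw [eq_inv_of_mul_eq_one_left c2.1]
    rw [rf_conj 1 c6, h.c, rf_apply, this]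
    congr 1
    simp only [Matrix.mul_one, Matrix.mul_zero, add_zero, one_smul, Matrix.add_mul, Matrix.mul_neg]
    abel
  have d : ((2 : K)⁻¹ • ((1 : K) • (1 : M2 K) + J')).det = 2⁻¹ := by
    rw [Matrix.det_smul, rc_det, h.q'.pu'.1, h.q'.pu'.2, Fintype.card_fin]
    field_simp
    norm_num
  have fr : Fr ((2 : K)⁻¹ • (f₁ + f₂) + f₃ * z) := by rw [Fr, rc_root, h.tr.rc_self, h.q.rc_half, one_smul]
  refine ⟨rf_five (f := (f₁ * (1 : M2 K) + f₂ * (0 : M2 K) + f₃ * -J') * ((2 : K)⁻¹ • ((1 : K) • (1 : M2 K) + J'))) ?_ fr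
    (by rw [rc_mul, d, mul_inv_cancel₀ h2, e1]) h.r ?_, fun e => ?_⟩
  · rw [Fr, ad_mul, Matrix.mul_assoc, ← Matrix.mul_assoc (ad _), h.tr.rc_self, Matrix.smul_mul, Matrix.one_mul,
      Matrix.mul_smul, Matrix.adjugate_mul, d, smul_smul, Matrix.det_neg, h.q'.pu'.2]
    simp [one_add_one_eq_two, h2]
  · rw [ad_mul, Matrix.mul_assoc, Matrix.det_mul, un0_det, d, rc_root, h.tr.rc_ad, Matrix.adjugate_zero, Matrix.zero_mul,
      add_zero, Matrix.adjugate_one, Matrix.one_mul, rc_det, un0_neg, Matrix.neg_mul, Matrix.trace_neg, Matrix.det_neg,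
      Matrix.det_mul, un0_det, h.q'.pu'.2, Fintype.card_fin, eq_div_of_mul_eq h2 ((mul_comm _ _).trans h.q'.t₃),
      eq_div_of_mul_eq h2 ((mul_comm _ _).trans h.q.dz)]
    field_simp
    linear_combination 16 * h.q'.sq
  · have a1 := h.tr.rc_ad 1 0 (-J') 0 1 0
    have a2 := h.tr.rc_ad ((2 : K)⁻¹ • 1) ((2 : K)⁻¹ • 1) z 0 1 0
    rw [← rc_root] at a2
    simp only [Matrix.mul_one, Matrix.mul_zero, add_zero, zero_add, Matrix.adjugate_zero] at a1 a2 e1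
    have a3 : R.1 * ((C * E * C).1 * f₂) = f₂ := by
      rw [← Matrix.mul_assoc, ← Units.val_mul, mul_eq_one_comm.1 e, Units.val_one, Matrix.one_mul]
    rw [e1, rf_apply, a1, Matrix.mul_zero, smul_zero, sub_zero, h.r, rf_apply, a2, sub_eq_self] at a3
    have a4 : (2 : K)⁻¹ • (f₁ + f₂) + f₃ * z = 0 := by simpa [h2, Matrix.adjugate_smul, -smul_add] using a3
    rw [Fr, a4, Matrix.mul_zero] at fr
    exact zero_ne_one fr

theorem exists_nf' [Finite K] (h2 : (2 : K) ≠ 0) (hs : s ^ 2 = 5) : ∃ f₁ f₂ f₃ J z J' A B C D R E,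
    NF' f₁ f₂ f₃ J z J' s A B C D R E ∧ ∀ g ∈ [A, B, C, D, R, E], g ∈ Sp K ∧ TI g := by
  obtain ⟨f₁, f₂, f₃, h⟩ := exists_tr3 (K := K)
  obtain ⟨J, z, J', q⟩ := exists_qz h2 hs
  obtain ⟨A, a, a'⟩ := h.rc_rf h2 (r := 2) (f := f₁) 1 0 0 (by simp) (by simp)
  obtain ⟨B, b, b'⟩ := h.rc_rf h2 (r := 1) (f := f₁ + f₂) 1 1 0 (by simp) (by simp [one_add_one_eq_two])
  obtain ⟨C, c, c'⟩ := h.rc_rf h2 (r := 1) (f := f₂ + f₃) 0 1 1 (by simp) (by simp [one_add_one_eq_two])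
  obtain ⟨D, d, d'⟩ := h.rc_rf h2 (r := 1) (f := f₁ + f₂ * J) 1 J 0 (by simp) (by simp [q.pu.2, one_add_one_eq_two])
  obtain ⟨R, r, r'⟩ := h.rc_rf h2 (r := 2) _ _ z rc_root (by rw [q.toQz.rc_half, mul_one])
  obtain ⟨E, e, e'⟩ := h.rc_rf h2 (r := 1) (f := f₁ + f₂ * J') 1 J' 0 (by simp) (by simp [q.pu'.2, one_add_one_eq_two])
  exact ⟨f₁, f₂, f₃, J, z, J', A, B, C, D, R, E, ⟨⟨h, q.toQz, a', b', c', d', r'⟩, q, e'⟩, by
    simp only [List.forall_mem_cons, List.not_mem_nil, IsEmpty.forall_iff, implies_true, and_true]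
    exact ⟨a, b, c, d, r, e⟩⟩

end Cfsg.Lib.S6Q
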