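import Cfsg.Agent.Lib.S6Q.Rf2b
import Cfsg.Agent.Lib.S6Q.Rf2c

/-!
# Quaternionic reflections: normal forms
-/

set_option autoImplicit false

namespace Cfsg.Lib.S6Q

open scoped MatrixGroups Matrix commutatorElement
open Cfsg.Geo Cfsg.Lib.Asch Cfsg.Lib.Linear Cfsg.Lib.Q4 Cfsg.Lib.Symp Module
open Cfsg.Lib.Q4R (Sq HasTv sc dg)

variable {K : Type*} [Field K] {f f' f₁ f₂ f₃ g₁ g₂ g₃ : Fm K} {J J' z I I' y δ : M2 K} {s : K}
  {t t' n A B C D R E A' B' C' D' R' E' : G6 K}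

theorem r2_neg : ad (-f) = -ad f := by rw [← neg_one_smul K, ad_smul, neg_one_smul]

theorem r2_sub : ad (f - f') = ad f - ad f' := by rw [sub_eq_add_neg, ad_add, r2_neg, sub_eq_add_neg]

theorem r2_fr (h : Fr f) : Fr (-f) := by rwa [Fr, r2_neg, Matrix.neg_mul, Matrix.mul_neg, neg_neg]

theorem r2_rf (c : K) : rf c (-f) = rf c f := by rw [← neg_one_smul K, rf_smul]; simp

theorem r2_inv (h : TI t) : t⁻¹ = t := inv_eq_of_mul_eq_one_right h.1

theorem r2_conj (h : t ∈ Sp K ∧ TI t) {c : K} (e : t'.1 = rf c f) : (t * t' * t).1 = rf c (t.1 * f) := by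
  rw [← rf_conj c h.1, r2_inv h.2, ← e, Units.val_mul, Units.val_mul]

theorem r2_sq (h : TI t) (f : Fm K) : t.1 * (t.1 * f) = f := by
  rw [← Matrix.mul_assoc, ← Units.val_mul, h.1, Units.val_one, Matrix.one_mul]

theorem r2_det (x y : M2 K) : (x - y).det = x.det + y.det - (x.adjugate * y).trace := by
  simp [Matrix.det_fin_two, Matrix.adjugate_fin_two, Matrix.trace_fin_two, Matrix.vecMul, dotProduct]; ring

theorem r2_pu (d : J.det = 1) (e : J * J = -1) : Pu J := ⟨by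
  have := congrFun (congrFun e 0) 0
  have := congrFun (congrFun e 0) 1
  have := congrFun (congrFun e 1) 1
  simp only [Matrix.det_fin_two, Matrix.trace_fin_two, Matrix.mul_apply, Fin.sum_univ_two, Matrix.neg_apply,
    Matrix.one_apply_eq, Matrix.one_apply_ne (show (0 : Fin 2) ≠ 1 by decide)] at *
  grind, d⟩

theorem Tr3.tab (h : Tr3 f₁ f₂ f₃) : (ad f₁ * f₁ = 1 ∧ ad f₂ * f₂ = 1 ∧ ad f₃ * f₃ = 1 ∧ ad f₁ * f₂ = 0 ∧ ad f₁ * f₃ = 0 ∧
    ad f₂ * f₃ = 0 ∧ ad f₂ * f₁ = 0 ∧ ad f₃ * f₁ = 0 ∧ ad f₃ * f₂ = 0) ∧ ∀ x : M2 K, ad f₁ * (f₁ * x) = x ∧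
    ad f₂ * (f₂ * x) = x ∧ ad f₃ * (f₃ * x) = x ∧ ad f₁ * (f₂ * x) = 0 ∧ ad f₁ * (f₃ * x) = 0 ∧ ad f₂ * (f₃ * x) = 0 ∧
    ad f₂ * (f₁ * x) = 0 ∧ ad f₃ * (f₁ * x) = 0 ∧ ad f₃ * (f₂ * x) = 0 := by
  have k : ∀ {f f' : Fm K}, ad f * f' = 0 → ad f' * f = 0 := fun o => by rw [ad_swap, o, Matrix.adjugate_zero]
  have t : ad f₁ * f₁ = 1 ∧ ad f₂ * f₂ = 1 ∧ ad f₃ * f₃ = 1 ∧ ad f₁ * f₂ = 0 ∧ ad f₁ * f₃ = 0 ∧
      ad f₂ * f₃ = 0 ∧ ad f₂ * f₁ = 0 ∧ ad f₃ * f₁ = 0 ∧ ad f₃ * f₂ = 0 :=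
    ⟨h.1, h.2, h.3, h.4, h.5, h.6, k h.4, k h.5, k h.6⟩
  exact ⟨t, fun x => by simp [← Matrix.mul_assoc, t]⟩

/-- Normalise with the table of a triple of frames. -/
local macro "frm " T:term:max l:(Lean.Parser.Tactic.location)? : tactic => `(tactic| simp only [rf_apply, ad_add, r2_sub, r2_neg, ad_smul, ad_mul, Matrix.mul_add,
  Matrix.add_mul, Matrix.mul_sub, Matrix.sub_mul, Matrix.mul_neg, Matrix.neg_mul, Matrix.mul_smul, Matrix.smul_mul,
  Matrix.mul_assoc, ($T).tab.1, ($T).tab.2, Matrix.mul_one, Matrix.mul_zero, Matrix.one_mul, smul_zero, add_zero, zero_add,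
  sub_zero, zero_sub, neg_zero, one_smul, neg_neg, smul_add, smul_neg] $[$l]?)

theorem r2_perp [IsAlgClosed K] (h2 : (2 : K) ≠ 0) (h : Fr f) (h' : Fr f') (e : A.1 = rf 2 f) (e' : B.1 = rf 2 f') (a : TI A) (b : TI B)
    (c : TI C) (k : A * B = -C) : ad f * f' = 0 := by
  have k' : B * A = -C := by rw [← r2_inv a, ← r2_inv b, ← mul_inv_rev, k, inv_neg, r2_inv c]
  refine rf_two h h' e e' h2 (k.trans k'.symm) fun n => ?_
  have := rf_tr h h' e e'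
  rw [Fr.of_rf h2 h h' (e.symm.trans (n ▸ e')) |>.elim fun δ d => show (ad f * f').det = 1 by
    rw [d.2, ← Matrix.mul_assoc, show ad f * f = 1 from h, Matrix.one_mul, d.1], k] at this
  have t : tr (-C) = -tr C := Matrix.trace_neg _
  rw [t, c.tr h2] at this
  exact pow_ne_zero 3 h2 (by linear_combination -this)

theorem r2_root [IsAlgClosed K] (h2 : (2 : K) ≠ 0) (b : B ∈ Sp K ∧ TI B) (h : Fr f) (e : B.1 * f = -f') (o : ad f * f' = 0) :
    B.1 = rf 1 (f + f') := by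
  obtain ⟨g, hg, eg⟩ := b.2.exists_fr h2 b.1
  have e1 : f + f' = (2 : K) • (g * (ad g * f)) := by rw [← neg_neg f', ← e, eg, rf_apply]; abel
  have e2 := congrArg (ad f * ·) e1
  simp only [Matrix.mul_add, o, show ad f * f = 1 from h, add_zero, Matrix.mul_smul, ← Matrix.mul_assoc] at e2
  rw [ad_swap (f' := f), Matrix.mul_assoc, Matrix.adjugate_mul, smul_smul] at e2
  have e3 : 2 * (ad g * f).det = 1 := by simpa using (congrFun (congrFun e2 0) 0).symm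
  rw [e1, eg, rf, rf, ad_smul, ad_mul, Matrix.smul_mul, Matrix.mul_smul, Matrix.mul_assoc, ← Matrix.mul_assoc (ad g * f),
    Matrix.mul_adjugate, Matrix.smul_mul, Matrix.one_mul, Matrix.mul_smul, smul_smul, smul_smul, smul_smul]
  congr 2
  linear_combination -2 * e3

theorem r2_half [IsAlgClosed K] (h2 : (2 : K) ≠ 0) (e : t.1 = rf 1 f) (o : ad f * f = (2 : K) • 1) :
    ∃ p : K, 2 * p ^ 2 = 1 ∧ Fr (p • f) ∧ t.1 = rf 2 (p • f) := by
  obtain ⟨p, hp⟩ := IsAlgClosed.exists_pow_nat_eq (2 : K)⁻¹ two_pos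
  have : 2 * p ^ 2 = 1 := by rw [hp, mul_inv_cancel₀ h2]
  refine ⟨p, this, ?_, by rw [rf_smul, this, e]⟩
  rw [Fr, ad_smul, Matrix.smul_mul, Matrix.mul_smul, o, smul_smul, smul_smul, show p * p * 2 = 1 by linear_combination this,
    one_smul]

theorem Qz.fr (q : Qz J z) (h : Tr3 f₁ f₂ f₃) : Fr ((2 : K)⁻¹ • (f₁ + f₂) + f₃ * z) := by
  have := q.two
  have := q.dz
  rw [Fr]
  frm h
  rw [Matrix.adjugate_mul]
  match_scalars
  grind

/-- The trace of a product with `R`. -/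
theorem r2_tr [IsAlgClosed K] (h2 : (2 : K) ≠ 0) (h : Tr3 f₁ f₂ f₃) (d : 2 * z.det = 1)
    (g : Fr ((2 : K)⁻¹ • (f₁ + f₂) + f₃ * z)) (r : R.1 = rf 2 ((2 : K)⁻¹ • (f₁ + f₂) + f₃ * z)) (dI : I.det = 1)
    (dI' : I'.det = 1) (e : t.1 = rf 1 (f₁ * I - f₃ * I')) : tr (t * R) = 1 - 2 * (I * (I'.adjugate * z)).trace ∧
      ((t * R) ^ 3 = 1 → 2 * (I * (I'.adjugate * z)).trace = 1) := by
  obtain ⟨p, hp, a, b⟩ := r2_half h2 e (by frm h; simp [Matrix.adjugate_mul, dI, dI', two_smul])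
  have k : 4 * (ad (p • (f₁ * I - f₃ * I')) * ((2 : K)⁻¹ • (f₁ + f₂) + f₃ * z)).det =
      2⁻¹ * (3 - 2 * (I * (I'.adjugate * z)).trace) := by
    rw [ad_smul, Matrix.smul_mul, Matrix.det_smul]
    frm h
    rw [← sub_eq_add_neg, r2_det]
    simp only [Matrix.det_smul, Matrix.adjugate_smul, Matrix.adjugate_adjugate', Matrix.det_adjugate, Matrix.det_mul, dI,
      dI', Fintype.card_fin, Matrix.smul_mul, Matrix.trace_smul, smul_eq_mul]
    grind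
  refine ⟨by rw [rf_tr a g b r]; grind, fun o => ?_⟩
  have := rf_three a g b r o fun n => by
    have := congrArg (fun x : Matrix I6 I6 K => ad f₁ * (x * f₂)) (e.symm.trans (n ▸ r))
    revert this
    rw [rf_apply, rf_apply, ad_swap (f' := _ + _)]
    frm h
    simp [Matrix.adjugate_smul, h2]
  grind

theorem NF.act (h : NF f₁ f₂ f₃ J z A B C D R) : (A.1 * f₁ = -f₁ ∧ A.1 * f₂ = f₂) ∧ (B.1 * f₁ = -f₂ ∧ B.1 * f₂ = -f₁ ∧
    B.1 * f₃ = f₃) ∧ (C.1 * f₁ = f₁ ∧ C.1 * f₂ = -f₃) ∧ D.1 * f₁ = -(f₂ * J) ∧ D.1 * f₂ = f₁ * J ∧ D.1 * f₃ = f₃ := by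
  rw [h.a, h.b, h.c, h.d]
  frm h.tr
  simp [h.q.pu.adj, h.q.pu.sq, two_smul]

/-- A reflection conjugating `A` to `B A B`. -/
theorem r2_third [IsAlgClosed K] (h2 : (2 : K) ≠ 0) (h : Tr3 f₁ f₂ f₃) (a : A.1 = rf 2 f₁) (b : B ∈ Sp K ∧ TI B)
    (b1 : B.1 * f₁ = -f₂) (c : t.1 = rf 2 f₃) (d : D ∈ Sp K ∧ TI D) (da : D * A * D = B * A * B) (bd : (B * D) ^ 2 = -t) :
    ∃ J : M2 K, Pu J ∧ D.1 = rf 1 (f₁ + f₂ * J) := by
  obtain ⟨J, dJ, e⟩ := Fr.of_rf h2 h.h₂ (r2_fr (h.h₁.conj d.1)) (by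
    rw [r2_rf, ← r2_conj d a, da, r2_conj b a, b1, r2_rf])
  have d1 : D.1 * f₁ = -(f₂ * J) := neg_eq_iff_eq_neg.1 e
  have b2 : B.1 * f₂ = -f₁ := by rw [← r2_sq b.2 f₁, b1, Matrix.mul_neg, neg_neg]
  refine ⟨J, r2_pu dJ ?_, r2_root h2 d h.h₁ d1 (h.tab.2 J).2.2.2.1⟩
  have k : (B * D).1 * f₁ = f₁ * J := by
    rw [Units.val_mul, Matrix.mul_assoc, d1, Matrix.mul_neg, ← Matrix.mul_assoc, b2, Matrix.neg_mul, neg_neg]
  have := congrArg (fun x : G6 K => ad f₁ * (x.1 * f₁)) bd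
  simp only [pow_two, Units.val_mul (B * D), Matrix.mul_assoc, k] at this
  rw [← Matrix.mul_assoc (B * D).1, k, Units.val_neg, c] at this
  revert this
  frm h
  exact id

/-- `f₂ = - B f₁`, `f₃ = - C f₂`; the root of `B` is `f₁ - B f₁`; `D f₁ = - f₂ J` (`Fr.of_rf`), `det (1 + J) = 2` (`rf_four`).  The frame of
`R` is `f₁ x + f₂ y + f₃ z`, `4 det x = 1`, so we may take `x = 1 / 2`; it is perpendicular to `f₁ - f₂`.  `C B C`, `C D C` have the roots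
`f₁ - f₃`, `f₁ - f₃ J`, and `det (1 / 2 - u* z) / 2 = 3 / 8 - tr (u* z) / 4`. -/
theorem Sy.nf [IsAlgClosed K] (h : Sy A B C D R) : ∃ f₁ f₂ f₃ J z, NF f₁ f₂ f₃ J z A B C D R := by
  have h2 := h.two
  have a := h.sp A (by simp)
  have b := h.sp B (by simp)
  have c := h.sp C (by simp)
  have d := h.sp D (by simp)
  have r := h.sp R (by simp)
  obtain ⟨f₁, g₁, e₁⟩ := a.2.exists_fr h2 a.1
  have g₂ := r2_fr (g₁.conj b.1)
  have g₃ := r2_fr (g₂.conj c.1)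
  have e₂ := (r2_conj b e₁).trans (r2_rf 2).symm
  have e₃ := (r2_conj c e₂).trans (r2_rf 2).symm
  have t₂ : TI (B * A * B) := by simpa [r2_inv b.2] using a.2.conj B
  have t₃ : TI (C * (B * A * B) * C) := by simpa [r2_inv c.2] using t₂.conj C
  have ab : A * (B * A * B) = -(C * (B * A * B) * C) := by simpa only [mul_assoc] using h.ab
  have ba : B * A * B * A = -(C * (B * A * B) * C) := by
    rw [← inv_inj, mul_inv_rev, r2_inv a.2, r2_inv t₂, ab, inv_neg, r2_inv t₃]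
  have T : Tr3 f₁ _ _ := ⟨g₁, g₂, g₃, r2_perp h2 g₁ g₂ e₁ e₂ a.2 t₂ t₃ ab, r2_perp h2 g₁ g₃ e₁ e₃ a.2 t₃ t₂ (by
    rw [← neg_eq_iff_eq_neg, ← mul_neg, ← ab, ← mul_assoc, a.2.1, one_mul]), r2_perp h2 g₂ g₃ e₂ e₃ t₂ t₃ a.2 (by
    rw [← neg_eq_iff_eq_neg, ← mul_neg, ← ba, ← mul_assoc, t₂.1, one_mul])⟩
  obtain ⟨f₂, b1⟩ : ∃ f₂, B.1 * f₁ = -f₂ := ⟨_, (neg_neg _).symm⟩
  simp only [b1, neg_neg] at T e₂ e₃
  obtain ⟨f₃, c2⟩ : ∃ f₃, C.1 * f₂ = -f₃ := ⟨_, (neg_neg _).symm⟩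
  simp only [c2, neg_neg] at T e₃
  have eb := r2_root h2 b g₁ b1 T.h₁₂
  have ec := r2_root h2 c T.h₂ c2 T.h₂₃
  obtain ⟨J, pJ, ed⟩ := r2_third h2 T e₁ b b1 e₃ d h.da (by simpa only [mul_assoc] using h.bd)
  obtain ⟨g, hg, er⟩ := r.2.exists_fr h2 r.1
  have x4 := rf_three g₁ hg e₁ er h.ar fun n => by
    have k : B * A * B = A := by
      have := h.ra.eq
      rw [← n, ← mul_assoc, ← mul_assoc, a.2.1, mul_assoc _ A, a.2.1, one_mul, mul_one] at this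
      rw [this, mul_assoc, b.2.1, mul_one]
    obtain ⟨δ, dδ, e⟩ := Fr.of_rf h2 g₁ T.h₂ (e₁.symm.trans (k ▸ e₂))
    have := T.h₁₂
    rw [e, (T.tab.2 δ).1] at this
    simp [this] at dδ
  have dδ : ((2 : K) • (ad f₁ * g).adjugate).det = 1 := by
    simp only [Matrix.det_smul, Matrix.det_adjugate, Fintype.card_fin]; linear_combination x4
  have x1 : ad f₁ * (g * ((2 : K) • (ad f₁ * g).adjugate)) = (2 : K)⁻¹ • 1 := by
    rw [← Matrix.mul_assoc, Matrix.mul_smul, Matrix.mul_adjugate, smul_smul]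
    congr 1
    grind
  rw [← rf_mul 2 dδ] at er
  replace hg := hg.mul dδ
  generalize g * ((2 : K) • (ad f₁ * g).adjugate) = g at x1 er hg
  have ea := r2_conj a eb
  rw [show A.1 * (f₁ + f₂) = f₂ - f₁ by rw [e₁]; frm T; module] at ea
  obtain ⟨p, hp, k1, k2⟩ := r2_half h2 ea (by frm T; simp [two_smul])
  have x2 := rf_two k1 hg k2 er h2 h.ra.symm fun n => by
    have := congrArg (fun x : Matrix I6 I6 K => ad f₁ * (x * f₁)) (ea.symm.trans (n ▸ er))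
    revert this
    rw [rf_apply, rf_apply, ad_swap (f' := g), x1]
    frm T
    rw [Matrix.adjugate_smul, Matrix.adjugate_one, Matrix.mul_smul, Matrix.mul_one, Matrix.mul_smul, x1]
    intro e
    have := congrFun (congrFun e 0) 0
    simp at this
    grind
  rw [ad_smul, Matrix.smul_mul, r2_sub, Matrix.sub_mul, x1, smul_eq_zero, sub_eq_zero] at x2
  replace x2 := x2.resolve_left fun e => by simp [e] at hp
  have eg : g = (2 : K)⁻¹ • (f₁ + f₂) + f₃ * (ad f₃ * g) := by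
    conv_lhs => rw [← Matrix.one_mul g, ← T.sum]
    simp only [Matrix.add_mul, Matrix.mul_assoc, x1, x2, Matrix.mul_smul, Matrix.mul_one, smul_add]
  generalize ad f₃ * g = z at eg
  subst eg
  have dz : 2 * z.det = 1 := by
    have := hg
    revert this
    rw [Fr]
    frm T
    rw [Matrix.adjugate_mul]
    intro e
    have := congrFun (congrFun e 0) 0
    simp at this
    grind
  have c1 : C.1 * f₁ = f₁ := by rw [ec]; frm T
  have q1 := (r2_tr h2 T dz hg er (I := 1) (I' := 1) (t := C * B * C) (by simp) (by simp) (by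
    rw [r2_conj c eb, Matrix.mul_add, c1, c2, Matrix.mul_one, Matrix.mul_one, sub_eq_add_neg])).2 h.br
  have q2 := (r2_tr h2 T dz hg er (I := 1) (I' := J) (t := C * D * C) (by simp) pJ.2 (by
    rw [r2_conj c ed, Matrix.mul_add, c1, ← Matrix.mul_assoc C.1, c2, Matrix.mul_one, Matrix.neg_mul, sub_eq_add_neg])).2 h.cr
  exact ⟨f₁, f₂, f₃, J, z, T, ⟨h2, pJ, by simpa using q1, by simpa using q2, dz⟩, e₁, eb, ec, ed, er⟩

/-- `C E C` has the root `f₁ - f₃ J'`; `B D` is `diag (J, J⁻¹, 1)`, so `B D C E C D B` has the root `f₁ - f₃ J' J⁻¹`, i.e. `f₁ - f₃ J J'`. -/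
theorem Sy'.nf [IsAlgClosed K] (h : Sy' A B C D R E) :
    ∃ f₁ f₂ f₃ J z J', NF' f₁ f₂ f₃ J z J' (tr (C * E * C * R) - 1) A B C D R E := by
  obtain ⟨f₁, f₂, f₃, J, z, N⟩ := h.toSy.nf
  have h2 := h.two
  have b := h.sp B (by simp)
  have c := h.sp C (by simp)
  have d := h.sp D (by simp)
  obtain ⟨-, ⟨b1, b2, b3⟩, ⟨c1, c2⟩, d1, d2, d3⟩ := N.act
  have e₃ : (C * (B * A * B) * C).1 = rf 2 f₃ := by rw [r2_conj c (r2_conj b N.a), b1, Matrix.mul_neg, c2, neg_neg]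
  obtain ⟨J', pJ, ee⟩ := r2_third h2 N.tr N.a b b1 e₃ h.spe h.ea (by simpa only [mul_assoc] using h.be)
  have k : (D * E).1 * f₁ = f₁ * -(J * J') := by
    rw [Units.val_mul, Matrix.mul_assoc, show E.1 * f₁ = -(f₂ * J') by rw [ee]; frm N.tr; exact sub_add_cancel_left f₁ _, Matrix.mul_neg,
      ← Matrix.mul_assoc, d2, Matrix.mul_assoc, Matrix.mul_neg]
  have an : J * J' * (J * J') = -1 := by
    have := congrArg (fun x : G6 K => ad f₁ * (x.1 * f₁))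
      (show D * E * (D * E) = -(C * (B * A * B) * C) by simpa only [mul_assoc, pow_two] using h.de)
    simp only [Units.val_mul (D * E), Matrix.mul_assoc, k] at this
    rw [← Matrix.mul_assoc (D * E).1, k, Units.val_neg, e₃] at this
    revert this
    frm N.tr
    exact id
  have an' := (N.q.pu.anti_iff pJ).2 (r2_pu (by simp [N.q.pu.2, pJ.2]) an).1
  have ec : (C * E * C).1 = rf 1 (f₁ * (1 : M2 K) - f₃ * J') := by
    rw [r2_conj c ee, Matrix.mul_add, c1, ← Matrix.mul_assoc C.1, c2, Matrix.mul_one, Matrix.neg_mul, sub_eq_add_neg]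
  have q3 := (r2_tr h2 N.tr N.q.dz (N.q.fr N.tr) N.r (by simp) pJ.2 ec).1
  have q4 := (r2_tr h2 N.tr N.q.dz (N.q.fr N.tr) N.r N.q.pu.2 pJ.2 (t := B * (D * (C * E * C) * D) * B) (by
    rw [r2_conj b (r2_conj d ec)]
    simp only [Matrix.mul_sub, Matrix.mul_neg, Matrix.neg_mul, ← Matrix.mul_assoc, Matrix.mul_one, d1, d3, b2, b3,
      neg_neg])).2 (by simpa only [mul_assoc] using h.er)
  refine ⟨f₁, f₂, f₃, J, z, J', N, ⟨N.q, pJ, an', by rw [q3, one_mul]; ring, ?_⟩, ee⟩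
  rw [← q4, (N.q.pu.mul pJ an').adj, pJ.adj, ← mul_assoc, mul_neg]

/-- `n f_i = f_i δ`; `B D B A B` is `diag (J, J, 1)`. -/
theorem NF.sqrt3 (h : NF f₁ f₂ f₃ J z A B C D R) (h3 : (3 : K) ≠ 0) (hn : n ∈ Sp K) (a : n * A * n⁻¹ = A) (b : n * B * n⁻¹ = B)
    (c : n * C * n⁻¹ = C) (d : n * D * n⁻¹ = A * D * A) (r : n * R * n⁻¹ = B * D * B * A * B * R * (B * D * B * A * B)⁻¹) :
    (n.1 * (1 - R.1) * (1 - (C * B * A * B * C).1) * (1 - (C * B * C).1)).trace ^ 2 = 3 := by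
  have h2 := h.q.two
  have T := h.tr
  obtain ⟨⟨a1, a2⟩, ⟨b1, b2, b3⟩, ⟨c1, c2⟩, d1, d2, d3⟩ := h.act
  have sp : ∀ {t : G6 K} {u : Fm K}, t.1 = rf 1 u → ad u * u = (2 : K) • 1 → t ∈ Sp K ∧ TI t := fun {t u} e o => by
    obtain ⟨t', x, y, e'⟩ := exists_rf h2 (c := 1) (f := u) (by rw [o, one_smul, two_smul, two_smul])
    exact (Units.ext (e'.trans e.symm) : t' = t) ▸ ⟨x, y⟩
  have sa : A ∈ Sp K ∧ TI A := by
    obtain ⟨t', x, y, e'⟩ := exists_rf h2 (c := 2) (f := f₁) (by rw [T.tab.1.1, two_smul, two_smul])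
    exact (Units.ext (e'.trans h.a.symm) : t' = A) ▸ ⟨x, y⟩
  have sb := sp h.b (by frm T; rw [two_smul])
  have sc := sp h.c (by frm T; rw [two_smul])
  have sd := sp h.d (by frm T; rw [Matrix.adjugate_mul, h.q.pu.2, one_smul, two_smul])
  have cj : ∀ {n t t' : G6 K} {c : K} {u : Fm K}, n ∈ Sp K → t.1 = rf c u → n * t * n⁻¹ = t' → t'.1 = rf c (n.1 * u) :=
    fun hn e e' => by rw [← rf_conj _ hn, ← e, ← e', Units.val_mul, Units.val_mul]
  have cm : ∀ {t t' : G6 K} (u : Fm K), n * t * n⁻¹ = t' → n.1 * (t.1 * u) = t'.1 * (n.1 * u) := fun u e => by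
    rw [← Matrix.mul_assoc, ← Matrix.mul_assoc, ← Units.val_mul, ← Units.val_mul, ← e, inv_mul_cancel_right]
  obtain ⟨δ, dδ, n1⟩ := Fr.of_rf h2 T.h₁ (T.h₁.conj hn) (h.a.symm.trans (cj hn h.a a))
  have n2 : n.1 * f₂ = f₂ * δ := neg_injective (by
    rw [← Matrix.mul_neg, ← b1, cm _ b, n1, ← Matrix.mul_assoc, b1, Matrix.neg_mul])
  have n3 : n.1 * f₃ = f₃ * δ := neg_injective (by
    rw [← Matrix.mul_neg, ← c2, cm _ c, n2, ← Matrix.mul_assoc, c2, Matrix.neg_mul])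
  have as : ∀ {t : G6 K} {u v : Fm K}, t.1 * u = v → ∀ x : M2 K, t.1 * (u * x) = v * x := fun e x => by
    rw [← Matrix.mul_assoc, e]
  have e1 : δ * J = -(J * δ) := by
    have := congrArg (ad f₂ * ·) (cm f₁ d)
    simp only [Units.val_mul, Matrix.mul_assoc, Matrix.mul_neg, Matrix.neg_mul, d1, n1, as n2, as a1, as a2, as d1,
      neg_neg, T.tab.2] at this
    exact neg_eq_iff_eq_neg.1 this
  have g := h.q.fr T
  have sw : B * D * B * A * B ∈ Sp K := mul_mem (mul_mem (mul_mem (mul_mem sb.1 sd.1) sb.1) sa.1) sb.1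
  obtain ⟨ε, -, e⟩ := Fr.of_rf h2 (g.conj sw) (g.conj hn) ((cj sw h.r rfl).symm.trans (cj hn h.r r))
  simp only [Units.val_mul, Matrix.mul_assoc, Matrix.mul_neg, Matrix.neg_mul, Matrix.mul_add, Matrix.add_mul,
    Matrix.mul_smul, Matrix.smul_mul, n1, n2, as n3, a1, a2, b1, b2, d1, d2, as b1, as b2, as b3, as d3, neg_neg,
    as (show A.1 * f₃ = f₃ by rw [h.a]; frm T)] at e
  have e2 := congrArg (ad f₁ * ·) e
  have e3 := congrArg (ad f₃ * ·) e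
  frm T at e2 e3
  replace e2 := smul_right_injective _ (inv_ne_zero h2) e2
  have q := h.q.sqrt3 h3 dδ e1 (by
    rw [e3, e2, mul_assoc, ← mul_assoc J, h.q.pu.sq, neg_mul, one_mul, mul_neg, neg_neg])
  have t0 : δ.trace = 0 := by
    have := congrArg (fun x => (x * J).trace) e1
    simp only [mul_assoc, h.q.pu.sq, neg_mul, Matrix.trace_neg, mul_neg, mul_one] at this
    rw [Matrix.trace_mul_comm J, mul_assoc, h.q.pu.sq, mul_neg, mul_one, Matrix.trace_neg] at this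
    exact (mul_eq_zero.1 (by linear_combination -this : 2 * δ.trace = 0)).resolve_left h2
  have e₃ : (C * B * A * B * C).1 = rf 2 f₃ := by
    rw [show C * B * A * B * C = C * (B * A * B) * C by simp only [mul_assoc], r2_conj sc (r2_conj sb h.a), b1,
      Matrix.mul_neg, c2, neg_neg]
  rw [e₃, r2_conj sc h.b, h.r, Matrix.mul_add, c1, c2, rf, rf, rf, sub_sub_cancel, sub_sub_cancel, sub_sub_cancel, one_smul,
    ← Matrix.mul_assoc, Matrix.trace_mul_comm, ← q]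
  frm T
  simp only [as n1, as n2, as n3]
  frm T
  simp only [Matrix.mul_adjugate, Matrix.mul_smul, Matrix.mul_one, Matrix.trace_neg, Matrix.trace_add, Matrix.trace_smul,
    t0, smul_eq_mul, mul_zero, neg_zero, add_zero, neg_sq, mul_inv_cancel_left₀ h2]

end Cfsg.Lib.S6Q
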