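import Cfsg.Agent.Lib.S6Q.Rf
import Cfsg.Agent.Lib.J2.Basic

/-!
# Generators of `J₂`
-/

set_option autoImplicit false

namespace Cfsg.Lib.S6Q

open scoped MatrixGroups Matrix commutatorElement
open Cfsg.Geo Cfsg.Lib.Asch Cfsg.Lib.Linear Cfsg.Lib.Q4 Cfsg.Lib.Symp Module
open Cfsg.Lib.Q4R (Sq HasTv sc dg)

section Aux

open Cfsg.Spor Cfsg.Lib.Leech Cfsg.Lib.Calc Cfsg.Lib.F2 Cfsg.Lib.J2

/-- The matrices of the six reflections. -/
def sjL : List ℕ :=
  [0x80000040000020000010000008000004000002000001000000800000400000200080100000080031c4000002000001009ec0800000400000201b2010ee200854a004c9e0025feb61,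
  0x80000009f00069f00078200041f000a7c000c9e000d720001d400049b00049d000cbf0005cf8867d2486806b7efee58c7cf40cb7c01e69f42a7534c26820083dc40e5cf0847e5921,
  0x8000000c000064c0006ba00008000048000035a0003e60000840000880007340008810009d4360d72c60e6e960e6ea6042c98044c040d98b400a2b30550348ccaa0404e222b10301,
  0x800000ae3000ce3000ee2000e6300027c000dfe000296000f50000ee7000ee1000fe3000a9f3e6a9ffe6c72b7ef3ceece2a6128d401e87d42aa9fbf679f402b5305ae3dfee0c9693,
  0xb5b9200a217d4305afadbd22d6b8850c580a3fe12215d9829cf826e3bc09f7bc573df122e351af08f9a46bfa039cdc886bf8831c381cebb851c239150000089c782ae3fc036bf802,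
  0x80000094b000f4b00013e000dcb000cf8000ca600054a0009d4000d4f000d4900055b0008bd8864eedf8d9eb7eba2eecba2f6c10001ef99f4a788f7a84e0d06e9fe88110023f4615]

theorem sj_slp : slpHas 24 rL [1028, 5120, 6147, 4096, 7, 8192, 8, 9216, 12, 13312, 12301, 14336, 12, 13312, 18, 19456, 17, 18432,
    21, 22528, 20, 21504, 25, 26624, 22555, 28672, 26, 27648, 29727, 32768, 34, 35840, 35, 36864] sjL = true := by decide +kernel

theorem sj_slp' : slpHas 24 sjL [1028, 5120, 2051, 4096, 6153, 10240, 10, 11264, 8204, 13312, 15, 16384] rL = true := by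
  decide +kernel

/-- The matrix of a word. -/
noncomputable def sjW (w : List ℕ) : ℕ :=
  List.rec (motive := fun _ => ℕ) (idM 24) (fun i _ ih => forceN ih fun Y => mmul 24 (nth (idM 24) sjL i) Y) w

theorem sjW_spec {γ : ℕ → hj} (h : ∀ i, LRep 24 code2 (γ i : Co1) (nth (idM 24) sjL i)) (w : List ℕ) :
    LRep 24 code2 ((w.map γ).prod : hj).1 (sjW w) := by
  induction w with
  | nil => exact LRep.one code2_lt
  | cons i w ih =>
    change LRep 24 code2 _ (forceN (sjW w) fun Y => mmul 24 (nth (idM 24) sjL i) Y)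
    rw [forceN_eq, List.map_cons, List.prod_cons]
    exact (h i).mul ih

/-- The relations, in the order of `Sx'`. -/
def sjR : List (List ℕ × List ℕ) := [([0, 0], []), ([1, 1], []), ([2, 2], []), ([3, 3], []), ([4, 4], []),
  ([0, 4, 0, 4, 0, 4], []), ([3, 4, 3, 4, 3, 4], []), ([3, 2, 3, 2, 3, 2], []), ([1, 2, 1, 2, 1, 2], []),
  ([0, 1, 0, 1], [2, 1, 0, 1, 2]), ([3, 0, 3], [1, 0, 1]), ([1, 3, 1, 3], [2, 1, 0, 1, 2]), ([4, 0, 1, 0], [0, 1, 0, 4]),
  ([2, 1, 2, 4, 2, 1, 2, 4, 2, 1, 2, 4], []), ([2, 3, 2, 4, 2, 3, 2, 4, 2, 3, 2, 4], []), ([5, 5], []), ([5, 2, 5, 2, 5, 2], []),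
  ([5, 0, 5], [1, 0, 1]), ([1, 5, 1, 5], [2, 1, 0, 1, 2]), ([3, 5, 3, 5], [2, 1, 0, 1, 2]),
  ([1, 3, 2, 5, 2, 3, 1, 4, 1, 3, 2, 5, 2, 3, 1, 4, 1, 3, 2, 5, 2, 3, 1, 4], [])]

theorem sjR_ok : (sjR.all fun t => Nat.beq (sjW t.1) (sjW t.2)) = true := by decide +kernel

end Aux

open Cfsg.Spor Cfsg.Lib.Leech Cfsg.Lib.Calc Cfsg.Lib.F2 Cfsg.Lib.J2 in
/-- In `J2.hj` (coded matrices, `Lib/J2/Data`): find six of the `315` reflections with the relations (`a` = the first of `J2.rL`;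
the roots are those of `S6Q.NF'`), write them as words in `rL` and the members of `rL` as words in them (`slpHas`; `cL` is generated
by `rL`, `slp_c`), and check the relations on the codes. -/
theorem exists_sxJ {X : Type*} [Group X] (h : Spor.IsoJ2 X) : ∃ a b c d r e : X, Sx' a b c d r e ∧
    Subgroup.closure (Set.range ![a, b, c, d, r, e]) = ⊤ := by
  obtain ⟨φ⟩ := h
  let ψ : hj ≃* X := (φ.trans eJ).symm
  have g : ∀ i, Good 24 code2 hj (nth (idM 24) sjL i) := fun i =>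
    (nth_mem _ _ i).elim (fun e => e.symm ▸ Good.one code2_lt _) (good_of_slpHas code2_lt good_r sj_slp _)
  choose γ₀ m hγ using g
  let γ : ℕ → hj := fun i => ⟨γ₀ i, m i⟩
  obtain ⟨δ, hδ⟩ : ∃ δ : ℕ → X, ∀ i, δ i = ψ (γ i) := ⟨_, fun _ => rfl⟩
  have R : ∀ t ∈ sjR, (t.1.map δ).prod = (t.2.map δ).prod := fun t ht => by
    have e := beq_iff.1 (List.all_eq_true.1 sjR_ok t ht)
    have := congrArg ψ (Subtype.ext ((sjW_spec (γ := γ) hγ t.1).eq_of_ker coded1 ker1 (e ▸ sjW_spec (γ := γ) hγ t.2)))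
    rwa [map_list_prod, map_list_prod, List.map_map, List.map_map, show ψ ∘ γ = δ from (funext hδ).symm] at this
  simp only [sjR, List.forall_mem_cons, List.map_cons, List.map_nil, List.prod_cons, List.prod_nil, mul_one] at R
  obtain ⟨r1, r2, r3, r4, r5, r6, r7, r8, r9, r10, r11, r12, r13, r14, r15, r16, r17, r18, r19, r20, r21, -⟩ := R
  refine ⟨δ 0, δ 1, δ 2, δ 3, δ 4, δ 5, ⟨⟨fun e => ?_, r1, r2, r3, r4, r5, ?_, ?_, ?_, ?_, ?_, ?_, ?_, ?_, ?_, ?_⟩,
    r16, ?_, ?_, ?_, ?_, ?_⟩, ?_⟩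
  · rw [hδ, map_eq_one_iff _ ψ.injective] at e
    exact (hγ 0).ne' sur1 (LRep.one code2_lt) (by decide +kernel) (congrArg Subtype.val e)
  iterate 7 simp only [pow_succ, pow_zero, one_mul, mul_assoc]; assumption
  · exact show _ = _ by simp only [mul_assoc]; assumption
  iterate 7 simp only [pow_succ, pow_zero, one_mul, mul_assoc]; assumption
  let f : X →* Co1 := hj.subtype.comp ψ.symm.toMonoidHom
  let H := (Subgroup.closure (Set.range ![δ 0, δ 1, δ 2, δ 3, δ 4, δ 5])).map f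
  have k : ∀ i : Fin 6, Good 24 code2 H (nth (idM 24) sjL i) := fun i =>
    ⟨γ₀ i, ⟨δ i, Subgroup.subset_closure ⟨i, by fin_cases i <;> rfl⟩, by simp [f, hδ, γ]⟩, hγ i⟩
  have k1 : ∀ C ∈ rL, Good 24 code2 H C := good_of_slpHas code2_lt (fun C hC => by
    simp only [sjL, List.mem_cons, List.not_mem_nil, or_false] at hC
    rcases hC with rfl | rfl | rfl | rfl | rfl | rfl
    exacts [k 0, k 1, k 2, k 3, k 4, k 5]) sj_slp'
  have k2 : hj ≤ H := coded1.genL_le (ker1_le _) (good_append le_rfl k1 (good_of_slpHas code2_lt k1 slp_c))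
  refine eq_top_iff.2 fun x _ => ?_
  obtain ⟨y, hy, e⟩ := k2 (ψ.symm x).2
  rwa [← ψ.symm.injective (Subtype.ext e)]

end Cfsg.Lib.S6Q
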