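import Cfsg.Agent.Lib.S6Q.T4
import Cfsg.Agent.Lib.S6Q.Rf2
import Cfsg.Agent.Lib.S6Q.SyJ

/-!
# The ending `J₂`
-/

set_option autoImplicit false

namespace Cfsg.Lib.S6Q

open scoped MatrixGroups Matrix commutatorElement
open Cfsg.Geo Cfsg.Lib.Asch Cfsg.Lib.Linear Cfsg.Lib.Q4 Cfsg.Lib.Symp Module
open Cfsg.Lib.Q4R (Sq HasTv sc dg)

theorem Cv.ej_le {K X ι : Type*} [Field K] [Group X] {Y : Subgroup (G6 K)} {π : Y →* X} (h : Cv Y π) (g : ι → Y)
    (e : Subgroup.closure (Set.range fun i => π (g i)) = ⊤) : Y ≤ pm (Subgroup.closure (Set.range fun i => (g i).1)) := by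
  intro y hy
  have : π ⟨y, hy⟩ ∈ (Subgroup.closure (Set.range g)).map π := by
    rw [MonoidHom.map_closure, ← Set.range_comp]; exact e ▸ Subgroup.mem_top _
  obtain ⟨z, hz, e⟩ := this
  have : z.1 ∈ Subgroup.closure (Set.range fun i => (g i).1) := by
    have := Subgroup.mem_map_of_mem Y.subtype hz
    rwa [MonoidHom.map_closure, ← Set.range_comp] at this
  rcases h.eq_iff.1 e with r | r <;> rw [r] at this
  exacts [.inl this, .inr this]

theorem ej_five {p : ℕ} [Fact p.Prime] (h2 : p ≠ 2) :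
    IsSquare ((5 : ℤ) : ZMod p) ↔ p % 5 = 0 ∨ p % 5 = 1 ∨ p % 5 = 4 := by
  have k : ∀ r < 5, IsSquare ((r : ℕ) : ZMod 5) ↔ r = 0 ∨ r = 1 ∨ r = 4 := by decide
  haveI : Fact (Nat.Prime 5) := ⟨Nat.prime_five⟩
  rw [show ((5 : ℤ) : ZMod p) = (5 : ℕ) by norm_num, ← ZMod.exists_sq_eq_prime_iff_of_mod_four_eq_one (p := 5) rfl h2,
    ← ZMod.natCast_mod]
  exact k _ (Nat.mod_lt _ (by norm_num))

variable {F : Type*} [Field F] [Fintype F] (p : ℕ) [Fact p.Prime] [CharP F p] {H P : Subgroup (G6 F)}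

/-- `exists_sxJ`, `Cv.ext`, `Cv.exists_sy'`, `Sy'.nf` with `s = tr (C E C R) - 1 ∈ F`, `s² = 5`; `NF'.map`, `NF'.conj`, `tr_fix`,
`Core.card_quad`, quadratic reciprocity. -/
theorem Od.j2 {X : Type*} [Group X] (hX : Spor.IsoJ2 X) {π : pm P →* X} (h : Od P π) :
    (Fintype.card F = p ∧ (p % 5 = 0 ∨ p % 5 = 1 ∨ p % 5 = 4)) ∨ (Fintype.card F = p ^ 2 ∧ p ≠ 2 ∧ (p % 5 = 2 ∨ p % 5 = 3)) := by
  let f := algebraMap F (AlgebraicClosure F)
  obtain ⟨π', h', -⟩ := h.cv.ext f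
  obtain ⟨a, b, c, d, r, e, x, top⟩ := exists_sxJ hX
  obtain ⟨A, B, C, D, R, E, rfl, rfl, rfl, rfl, rfl, rfl, y⟩ := h'.exists_sy' x
  obtain ⟨f₁, f₂, f₃, J, z, J', nf⟩ := y.nf
  obtain ⟨g, -, hg⟩ := (C * E * C * R).2
  have e : Q4.tr (C.1 * E.1 * C.1 * R.1) - 1 = f (Q4.tr g - 1) := by
    rw [map_sub, map_one, ← tr_map]; exact congrArg (Q4.tr · - 1) hg.symm
  rw [e] at nf
  have p2 : p ≠ 2 := by
    rintro rfl
    exact h.cv.two (CharP.cast_eq_zero F 2)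
  have le := h'.ej_le ![A, B, C, D, R, E] (by
    rw [← top]; congr 2; funext i; fin_cases i <;> rfl)
  have := h.toCore.card_quad p (d := 5) (s := Q4.tr g - 1)
    (f.injective (by rw [map_pow, nf.q'.sq, map_intCast, Int.cast_ofNat])) fun n hn u hu => by
      let σ := iterateFrobenius (AlgebraicClosure F) p n
      have nf' := nf.map σ
      rw [show σ (f (Q4.tr g - 1)) = f (Q4.tr g - 1) by rw [iterateFrobenius_def, ← map_pow, hn]] at nf'
      obtain ⟨k, hk⟩ := nf.conj nf'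
      have := tr_fix σ (k := k) (by
        rintro _ ⟨i, rfl⟩
        have := hk i
        fin_cases i <;> exact this) _ (le ⟨u, le_pm P hu, rfl⟩)
      rw [tr_map, iterateFrobenius_def, ← map_pow] at this
      exact f.injective this
  rw [ej_five p2] at this
  exact this.imp_right fun t => ⟨t.1, p2, by omega⟩

end Cfsg.Lib.S6Q
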