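import Cfsg.Agent.Lib.S6Q.T4
import Mathlib.NumberTheory.LegendreSymbol.AddCharacter
import Mathlib.NumberTheory.LegendreSymbol.QuadraticReciprocity

/-!
# The ending `L₂(13)`
-/

set_option autoImplicit false

namespace Cfsg.Lib.S6Q

open scoped MatrixGroups Matrix commutatorElement
open Cfsg.Geo Cfsg.Lib.Asch Cfsg.Lib.Linear Cfsg.Lib.Q4 Cfsg.Lib.Symp Module
open Cfsg.Lib.Q4R (Sq HasTv sc dg)

variable {F : Type*} [Field F] [Fintype F] (p : ℕ) [Fact p.Prime] [CharP F p] {H P : Subgroup (G6 F)}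

instance factThirteen : Fact (Nat.Prime 13) := ⟨by norm_num⟩

section Aux

open PSL2 O7

theorem l13_form : ∀ A B C : ZMod 13, B * B - 4 * A * C ≠ 0 → ∃ x y : ZMod 13, A * x * x + B * x * y + C * y * y = 1 := by
  decide +kernel

theorem l13_sq : ∀ c : ZMod 13, c = 0 ∨ ∃ a : ZMod 13, a ≠ 0 ∧ (c = a ^ 2 * 1 ∨ c = a ^ 2 * 2) := by
  decide +kernel

/-- The nonzero squares. -/
def l13m : I6 → ZMod 13 := Sum.elim ![1, 3, 9] ![12, 10, 4]

theorem l13m_inj : ∀ i j, l13m i - l13m j = 0 ↔ i = j := by decide +kernel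

theorem l13m_ne : ∀ i j, 7 * l13m i - l13m j ≠ 0 := by decide +kernel

theorem l13_conj' {E : Type*} [Field E] (g : SL(2, E)) {t x y : E} (h : g 0 0 + g 1 1 = -t)
    (e : -g 1 0 * x * x + (g 0 0 - g 1 1) * x * y + g 0 1 * y * y = 1) : IsConj (wS E * upper t) g := by
  have d := sl_det g
  obtain ⟨k, hk⟩ : ∃ k : SL(2, E), k.1 = !![x, -(g 0 0 * x + g 0 1 * y); y, -(g 1 0 * x + g 1 1 * y)] :=
    ⟨⟨_, by rw [Matrix.det_fin_two_of]; linear_combination e⟩, rfl⟩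
  refine isConj_iff.2 ⟨k, mul_inv_eq_iff_eq_mul.2 ?_⟩
  apply sl_ext <;> simp [hk, Matrix.mul_apply, Fin.sum_univ_two]
  · linear_combination -x * d + (g 0 0 * x + g 0 1 * y) * h
  · linear_combination -y * d + (g 1 0 * x + g 1 1 * y) * h

/-- Elements of the same trace `≠ ± 2` are conjugate. -/
theorem l13_conj (g : SL(2, ZMod 13)) {t : ZMod 13} (h : g 0 0 + g 1 1 = -t) (h1 : t ≠ 2) (h2 : t ≠ -2) :
    IsConj (wS _ * upper t) g := by
  have d := sl_det g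
  obtain ⟨x, y, e⟩ := l13_form (-g 1 0) (g 0 0 - g 1 1) (g 0 1) fun e =>
    mul_ne_zero (sub_ne_zero.2 h1) (sub_ne_zero.2 h2) (by
      linear_combination e + 4 * d - (g 0 0 + g 1 1 - t) * h)
  exact l13_conj' g h e

/-- Elements of trace `2` are unipotent. -/
theorem l13_unip {E : Type*} [Field E] (g : SL(2, E)) (h : g 0 0 + g 1 1 = 2) : ∃ c, IsConj (upper c) g := by
  have d := sl_det g
  by_cases r : g 1 0 = 0
  · have e : g 0 0 = 1 := by
      have : (g 0 0 - 1) ^ 2 = 0 := by linear_combination -d + g 0 0 * h - g 0 1 * r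
      exact sub_eq_zero.1 (pow_eq_zero_iff two_ne_zero |>.1 this)
    refine ⟨g 0 1, ?_⟩
    rw [show upper (g 0 1) = g from sl_ext (by simp [e]) (by simp) (by simp [r]) (by simp; linear_combination e - h)]
  · obtain ⟨k, hk⟩ : ∃ k : SL(2, E), k.1 = !![g 0 0 - 1, -(g 1 0)⁻¹; g 1 0, 0] :=
      ⟨⟨_, by rw [Matrix.det_fin_two_of]; field_simp; ring⟩, rfl⟩
    refine ⟨-(g 1 0)⁻¹, isConj_iff.2 ⟨k, mul_inv_eq_iff_eq_mul.2 ?_⟩⟩
    apply sl_ext <;> simp [hk, Matrix.mul_apply, Fin.sum_univ_two]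
    · linear_combination d - g 0 0 * h
    · ring
    · linear_combination -g 1 0 * h

variable {K : Type*} [Field K] {ρ : SL(2, ZMod 13) →* G6 K}

theorem l13_tr_conj {a b : SL(2, ZMod 13)} (h : IsConj a b) : tr (ρ b) = tr (ρ a) := by
  obtain ⟨c, rfl⟩ := isConj_iff.1 h
  rw [map_mul, map_mul, map_inv, tr_conj]

theorem l13_tr_sq {a : ZMod 13} (h : a ≠ 0) (t : ZMod 13) : tr (ρ (upper (a ^ 2 * t))) = tr (ρ (upper t)) :=
  l13_tr_conj (isConj_iff.2 ⟨dS (Units.mk0 a h), mul_inv_eq_iff_eq_mul.2 (dS_upper _ t)⟩)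

theorem l13_diag [IsAlgClosed K] (h13 : (13 : K) ≠ 0) (s : ∀ g, ρ g ∈ Sp K) (u : ρ (upper 1) ≠ 1) :
    ∃ (e : AddChar (ZMod 13) K) (l : G6 K), e.IsPrimitive ∧
      ∀ g c, tr (ρ (g * upper c)) = ∑ i, (l * ρ g * l⁻¹).1 i i * e (c * l13m i) := by
  obtain ⟨l, -, ζ, hζ, -, e⟩ := six_wt (r := 13) (k := 4) (x := ρ (dS (Units.mk0 2 (by decide)))) (s (upper 1)) (by norm_num)
    (by exact_mod_cast h13) (by rw [← map_pow, upper_pow, show ((13 : ℕ) : ZMod 13) * 1 = 0 by decide, upper_zero, map_one]) u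
    (by rw [← map_pow, upper_pow, ← map_mul, dS_upper, map_mul, mul_inv_cancel_right]; rfl) (by decide)
  have hz : IsPrimitiveRoot (ζ : K) 13 := IsPrimitiveRoot.coe_units_iff.2 hζ
  let χ := AddChar.zmodChar 13 ((IsPrimitiveRoot.iff_def _ 13).mp hz).left
  have q : ∀ n : ℕ, ((ζ ^ n : Kˣ) : K) = χ n := fun n => (Units.val_pow_eq_pow_val _ _).trans (AddChar.zmodChar_apply' _ n).symm
  refine ⟨χ, l, AddChar.zmodChar_primitive_of_primitive_root 13 hz, fun g c => ?_⟩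
  have e1 : l * ρ (upper c) * l⁻¹ = (l * ρ (upper 1) * l⁻¹) ^ c.val := by
    rw [conj_pow, ← map_pow, upper_pow, ZMod.natCast_zmod_val, mul_one]
  rw [← tr_conj _ l, map_mul, ← conj_mul, e1, e, tor_eq, ← map_pow, Q4.tr, Units.val_mul, Q4R.dg_val, Matrix.trace]
  refine Finset.sum_congr rfl fun i _ => ?_
  rw [Matrix.diag_apply, Matrix.mul_diagonal, Pi.pow_apply, Units.val_pow_eq_pow_val, ← ZMod.natCast_zmod_val c, ← nsmul_eq_mul,
    AddChar.map_nsmul_eq_pow, ZMod.natCast_zmod_val]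
  congr 2
  have q1 : (ζ : K) = χ 1 := by simpa using q 1
  rcases i with i | i <;> fin_cases i <;>
    simp only [Sum.elim_inl, Sum.elim_inr, Units.val_inv_eq_inv_val, Fin.zero_eta, Fin.mk_one, Fin.reduceFinMk, Matrix.cons_val,
      q, q1, ← AddChar.map_neg_eq_inv] <;> rfl

/-- Fourier inversion. -/
theorem l13_four {e : AddChar (ZMod 13) K} (he : e.IsPrimitive) (α β : I6 → K) (D : ZMod 13 → K)
    (hD : ∀ t, D t = ∑ i, α i * e (t * l13m i) - ∑ i, β i * e (t * 7 * l13m i)) (h : ∀ t, t ≠ 2 → t ≠ -2 → D t = 0)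
    (t : ZMod 13) : 13 * ∑ i, α i * e (t * l13m i) =
      D 2 * ∑ i, e ((t - 2) * l13m i) + D (-2) * ∑ i, e ((t + 2) * l13m i) := by
  have k : ∀ j, 13 * α j = D 2 * e (2 * -l13m j) + D (-2) * e (-2 * -l13m j) := fun j => by
    rw [← Finset.sum_pair (f := fun t => D t * e (t * -l13m j)) (by decide : (2 : ZMod 13) ≠ -2),
      Finset.sum_subset (Finset.subset_univ _) fun t _ ht => by
        rw [h t (fun q => ht (by simp [q])) (fun q => ht (by simp [q])), zero_mul]]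
    simp only [hD, sub_mul, Finset.sum_mul, mul_assoc, ← e.map_add_eq_mul, ← mul_add, ← sub_eq_add_neg, Finset.sum_sub_distrib]
    rw [Finset.sum_comm, Finset.sum_comm (f := fun t i => β i * _)]
    simp only [← Finset.mul_sum, AddChar.sum_mulShift _ he, l13m_inj, l13m_ne]
    simp [mul_comm]
  rw [Finset.mul_sum, Finset.mul_sum, Finset.mul_sum, ← Finset.sum_add_distrib]
  refine Finset.sum_congr rfl fun i _ => ?_
  rw [← mul_assoc, k, add_mul, mul_assoc, mul_assoc, ← e.map_add_eq_mul, ← e.map_add_eq_mul]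
  congr 3 <;> ring

theorem l13_eta {e : AddChar (ZMod 13) K} (he : e.IsPrimitive) :
    ∑ i, e (2 * l13m i) = -1 - ∑ i, e (1 * l13m i) ∧ (2 * ∑ i, e (1 * l13m i) + 1) ^ 2 = 13 := by
  have q : ∀ x : ZMod 13, e x = e 1 ^ x.val := fun x => by
    rw [← AddChar.map_nsmul_eq_pow, nsmul_eq_mul, ZMod.natCast_zmod_val, mul_one]
  have h0 : e 1 ^ 13 = 1 := by
    rw [← AddChar.map_nsmul_eq_pow, show 13 • (1 : ZMod 13) = 0 by decide, e.map_zero_eq_one]
  have h1 : ∑ i ∈ Finset.range 13, e 1 ^ i = 0 := by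
    have := AddChar.sum_mulShift 1 he
    rw [if_neg one_ne_zero, Nat.cast_zero] at this
    simp only [mul_one] at this
    rw [← this, Finset.sum_range]
    exact Finset.sum_congr rfl fun i _ => (q i).symm
  have e1 : ∑ i, e (1 * l13m i) = e 1 ^ 1 + e 1 ^ 3 + e 1 ^ 9 + (e 1 ^ 12 + e 1 ^ 10 + e 1 ^ 4) := by
    rw [Fintype.sum_sum_type, Fin.sum_univ_three, Fin.sum_univ_three]
    simp only [q (_ * _)]
    rfl
  have e2 : ∑ i, e (2 * l13m i) = e 1 ^ 2 + e 1 ^ 6 + e 1 ^ 5 + (e 1 ^ 11 + e 1 ^ 7 + e 1 ^ 8) := by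
    rw [Fintype.sum_sum_type, Fin.sum_univ_three, Fin.sum_univ_three]
    simp only [q (_ * _)]
    rfl
  rw [e1, e2]
  generalize e 1 = z at h0 h1
  simp only [Finset.sum_range_succ, Finset.range_zero, Finset.sum_empty] at h1
  exact ⟨by linear_combination h1, by
    linear_combination 12 * h1 + 4 * (6 + 2 * z + 2 * z ^ 2 + 2 * z ^ 3 + z ^ 5 + 2 * z ^ 6 + z ^ 7 + 2 * z ^ 8 + 2 * z ^ 9 + z ^ 11) * h0⟩

theorem l13_neg (g : G6 K) : tr (-g) = -tr g := by simp [Q4.tr]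

end Aux

/-- `u = ρ (upper 1) ∼ u⁴`, so (`six_wt`) `u ∼ diag (ζ ^ m)`, `m` the squares; `η = tr u`, `η² + η = 3`, `tr u^c ∈ {6, η, -1 - η}`.
Every noncentral element is conjugate to some `w h(a) u(c)` (of trace `- a c`), and elements of the same trace `≠ ± 2` are conjugate.
Let `ψ_a(t) = tr ρ (w h(a) u(t / a)) = ∑_m α_m ζ ^ (m t / a)`.  For a nonsquare `a`, `D = ψ₁ - ψ_a` vanishes off `± 2`, and Fourier
inversion gives `13 α_m = D(2) ζ ^ (-2 m) + D(-2) ζ ^ (2 m)`, `13 ψ₁(t) = D(2) η_(t - 2) + D(-2) η_(t + 2)`. -/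
theorem l13_tr {K : Type*} [Field K] [IsAlgClosed K] (h2 : (2 : K) ≠ 0) (h13 : (13 : K) ≠ 0) {ρ : SL(2, ZMod 13) →* G6 K}
    (s : ∀ g, ρ g ∈ Sp K) (u : ρ (PSL2.upper 1) ≠ 1) (n : ρ (-1) = 1 ∨ ρ (-1) = -1) :
    (2 * tr (ρ (PSL2.upper 1)) + 1) ^ 2 = 13 ∧ ∀ k : Subfield K, tr (ρ (PSL2.upper 1)) ∈ k → ∀ g, tr (ρ g) ∈ k := by
  obtain ⟨e, l, he, hl⟩ := l13_diag h13 s u
  have hu : ∀ c, tr (ρ (PSL2.upper c)) = ∑ i, e (c * l13m i) := fun c => by simpa using hl 1 c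
  obtain ⟨e2, e1⟩ := l13_eta he
  refine ⟨by rw [hu, e1], fun k hk => ?_⟩
  have k1 : ∀ c, tr (ρ (PSL2.upper c)) ∈ k := fun c => by
    rcases l13_sq c with rfl | ⟨a, ha, rfl | rfl⟩
    · rw [PSL2.upper_zero, map_one, tr_one]; exact natCast_mem k _
    · rwa [l13_tr_sq ha]
    · rw [l13_tr_sq ha, hu, e2, ← hu]; exact sub_mem (neg_mem (one_mem k)) hk
  have k2 : ∀ g : SL(2, ZMod 13), g 0 0 + g 1 1 = 2 → tr (ρ g) ∈ k := fun g hg => by
    obtain ⟨c, hc⟩ := l13_unip g hg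
    rw [l13_tr_conj hc]; exact k1 c
  have k3 : ∀ g : SL(2, ZMod 13), g 0 0 + g 1 1 = -2 → tr (ρ g) ∈ k := fun g hg => by
    have := k2 (-g) (by simp only [Matrix.SpecialLinearGroup.coe_neg, Matrix.neg_apply]; linear_combination -hg)
    rw [← neg_one_mul, map_mul] at this
    rcases n with n | n <;> rw [n] at this
    · rwa [one_mul] at this
    · rwa [neg_one_mul, l13_neg, neg_mem_iff] at this
  let a : (ZMod 13)ˣ := Units.mk0 2 (by decide)
  have t1 : ∀ t : ZMod 13, (O7.wS _ * PSL2.upper t).1 0 0 + (O7.wS _ * PSL2.upper t).1 1 1 = -t := fun t => by simp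
  have t2 : ∀ t : ZMod 13,
      (O7.wS _ * O7.dS a * PSL2.upper (t * 7)).1 0 0 + (O7.wS _ * O7.dS a * PSL2.upper (t * 7)).1 1 1 = -t := fun t => by
    have z : (13 : ZMod 13) = 0 := rfl
    simp [a]
    linear_combination t * z
  let D : ZMod 13 → K := fun t => tr (ρ (O7.wS _ * PSL2.upper t)) - tr (ρ (O7.wS _ * O7.dS a * PSL2.upper (t * 7)))
  have k4 : ∀ t, tr (ρ (O7.wS _ * PSL2.upper t)) ∈ k := fun t => by
    have := l13_four he _ _ D (fun t => by rw [← hl, ← hl]) (fun t p q => sub_eq_zero.2 (l13_tr_conj (l13_conj _ (t2 t) p q)).symm) t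
    rw [← hl, ← hu, ← hu] at this
    rw [eq_div_of_mul_eq h13 ((mul_comm _ _).trans this)]
    refine div_mem (add_mem (mul_mem (sub_mem (k3 _ (t1 _)) (k3 _ (t2 _))) (k1 _))
      (mul_mem (sub_mem (k2 _ ((t1 _).trans (neg_neg _))) (k2 _ ((t2 _).trans (neg_neg _)))) (k1 _))) (ofNat_mem k 13)
  intro g
  by_cases p : -(g 0 0 + g 1 1) = 2
  · exact k3 g (neg_eq_iff_eq_neg.1 p)
  by_cases q : -(g 0 0 + g 1 1) = -2
  · exact k2 g (neg_injective q)
  rw [l13_tr_conj (l13_conj g (neg_neg _).symm p q)]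
  exact k4 _

/-- `Od.exists_sl`, `Core.card_quad` with `d = 13`, quadratic reciprocity. -/
theorem Od.l13 {π : pm P →* PSL(2, ZMod 13)} (h : Od P π) (h13 : p ≠ 13) :
    (Fintype.card F = p ∧ (p % 13 = 1 ∨ p % 13 = 12 ∨ p % 13 = 3 ∨ p % 13 = 10 ∨ p % 13 = 4 ∨ p % 13 = 9)) ∨
      (Fintype.card F = p ^ 2 ∧ p ≠ 2 ∧ (p % 13 = 2 ∨ p % 13 = 11 ∨ p % 13 = 5 ∨ p % 13 = 8 ∨ p % 13 = 6 ∨ p % 13 = 7)) := by
  have hp : p.Prime := Fact.out
  obtain ⟨ρ, hρ, hs⟩ := h.exists_sl (by rw [ZMod.card]; norm_num)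
  let L := AlgebraicClosure F
  let f : F →+* L := algebraMap F L
  haveI : CharP L p := charP_of_injective_ringHom f.injective p
  have p2 : p ≠ 2 := by
    rintro rfl
    exact h.cv.two (CharP.cast_eq_zero F 2)
  have n13 : ¬ 13 ∣ p := fun e => h13 ((Nat.prime_dvd_prime_iff_eq (by norm_num) hp).1 e).symm
  let σ : SL(2, ZMod 13) →* G6 L := (mp f).comp ((pm P).subtype.comp ρ)
  have tσ : ∀ g, tr (σ g) = f (tr (ρ g).1) := fun g => tr_map f _
  obtain ⟨e, k⟩ := l13_tr (ρ := σ) (by rw [← map_ofNat f 2, map_ne_zero]; exact h.cv.two)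
    (fun e => h13 ((Nat.prime_dvd_prime_iff_eq hp (by norm_num)).1 ((CharP.cast_eq_zero_iff L p 13).1 e)))
    (fun g => mp_mem_Sp f (h.cv.sp (ρ g).2)) (fun e => by
      have : PSL2.toL (PSL2.upper (1 : ZMod 13)) = 1 := by
        rw [← hρ, h.cv.ker]; exact .inl (mp_inj f (e.trans (map_one _).symm))
      rcases PSL2.toL_eq_one_iff.1 this with q | q <;>
        simpa using congrArg (fun g : SL(2, ZMod 13) => g 0 1) q)
    (((h.cv.ker (ρ (-1))).1 (by rw [hρ, PSL2.toL_neg, map_one])).imp (fun q => (congrArg (mp f) q).trans (map_one _))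
      fun q => (congrArg (mp f) q).trans (by rw [mp_neg, map_one]))
  have := h.toCore.card_quad p (d := 13) (s := 2 * tr (ρ (PSL2.upper 1)).1 + 1) (f.injective (by
    rw [map_pow, map_add, map_mul, ← tσ, map_ofNat, map_one, e, map_intCast, Int.cast_ofNat])) fun n hn g hg => by
      have q : ∀ s, tr (ρ s).1 ∈ D3.fixF F p n := fun s => by
        have := k ((D3.fixF F p n).map f) ⟨_, by
          have : (2 * tr (ρ (PSL2.upper 1)).1 + 1 - 1) / 2 ∈ D3.fixF F p n :=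
            div_mem (sub_mem hn (one_mem _)) (ofNat_mem _ 2)
          rwa [add_sub_cancel_right, mul_div_cancel_left₀ _ h.cv.two] at this, (tσ _).symm⟩ s
        obtain ⟨y, hy, q⟩ := this
        rwa [← f.injective (q.trans (tσ s))]
      obtain ⟨s, rfl | rfl⟩ := hs g (le_pm P hg)
      · exact q s
      · rw [l13_neg]; exact neg_mem (q s)
  have r : IsSquare ((13 : ℤ) : ZMod p) ↔ IsSquare ((p % 13 : ℕ) : ZMod 13) := by
    rw [ZMod.natCast_mod, ZMod.exists_sq_eq_prime_iff_of_mod_four_eq_one (p := 13) (by norm_num) p2]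
    simp
  rw [r] at this
  have l : p % 13 < 13 := Nat.mod_lt _ (by norm_num)
  have l0 : p % 13 ≠ 0 := fun e => n13 (Nat.dvd_of_mod_eq_zero e)
  generalize p % 13 = m at this l l0
  refine this.imp (.imp_right fun q => ?_) (.imp_right fun q => ⟨p2, ?_⟩) <;> revert q <;> interval_cases m <;>
    first | exact absurd rfl l0 | decide

end Cfsg.Lib.S6Q
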