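import Cfsg.Agent.Lib.O7.SM

/-!
# `SL₂(q)` in the defining characteristic: digits, characters of the field, the monomial basis
-/

set_option autoImplicit false

namespace Cfsg.Lib.S6Q

open Module Matrix Cfsg.Lib.PSL2 Cfsg.Lib.O7
open scoped MatrixGroups

theorem Dg_mk {p r c m : ℕ} (hp : p.Prime) (hc : c ≤ r % p) (hm : m ∈ Dg p (r / p)) : c + p * m ∈ Dg p r := by
  have h1 : c < p := hc.trans_lt (Nat.mod_lt r hp.pos)
  rw [mem_Dg hp, Nat.add_mul_mod_self_left, Nat.mod_eq_of_lt h1, Nat.add_mul_div_left _ _ hp.pos,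
    Nat.div_eq_of_lt h1, zero_add]
  exact ⟨hc, hm⟩

theorem Dg_prime {p l : ℕ} (hp : p.Prime) (hl : (l + 1).Prime) {r : ℕ} (h : (Dg p r).card = l + 1) :
    ∃ k, r = l * p ^ k ∧ ∀ i ≤ l, i * p ^ k ∈ Dg p r := by
  induction r using Nat.strong_induction_on with
  | _ r ih =>
  have := hl.two_le
  have r0 : r ≠ 0 := fun e => by rw [e, card_Dg_zero hp] at h; omega
  have e := Nat.mod_add_div r p
  rw [card_Dg hp] at h
  rcases (Nat.dvd_prime hl).1 (Dvd.intro _ h) with k | k <;> rw [k] at h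
  · obtain ⟨j, hj, hi⟩ := ih _ (Nat.div_lt_self (by omega) hp.one_lt) (by omega)
    refine ⟨j + 1, by rw [← e, hj, show r % p = 0 by omega]; ring, fun i i6 => ?_⟩
    exact (show 0 + p * (i * p ^ j) = i * p ^ (j + 1) by ring) ▸ Dg_mk hp (Nat.zero_le _) (hi i i6)
  · rw [Dg_one hp (r := r / p) (Nat.eq_of_mul_eq_mul_left hl.pos (by omega))] at e
    exact ⟨0, by rw [pow_zero]; omega, fun i i6 => by
      simpa using Dg_mk hp (c := i) (by omega) (zero_mem_Dg hp (r / p))⟩

theorem Dg_six' {p : ℕ} (hp : p.Prime) {r : ℕ} (h : (Dg p r).card = 6) : (7 ≤ p ∧ ∃ k, r = 5 * p ^ k) ∨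
    ∃ a b, a ≠ b ∧ r = p ^ a + 2 * p ^ b ∧ ∀ i ≤ 1, ∀ j ≤ 2, i * p ^ a + j * p ^ b ∈ Dg p r := by
  induction r using Nat.strong_induction_on with
  | _ r ih =>
  have r0 : r ≠ 0 := fun e => by rw [e, card_Dg_zero hp] at h; omega
  have e := Nat.mod_add_div r p
  have l := Nat.mod_lt r hp.pos
  rw [card_Dg hp] at h
  have d : r % p + 1 ∣ 6 := Dvd.intro _ h
  have := Nat.le_of_dvd (by norm_num) d
  obtain k | k | k | k : r % p = 0 ∨ r % p = 1 ∨ r % p = 2 ∨ r % p = 5 := by
    generalize r % p = x at *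
    have : x ≤ 5 := by omega
    interval_cases x <;> simp_all
  all_goals rw [k] at h
  · rcases ih _ (Nat.div_lt_self (by omega) hp.one_lt) (by omega) with ⟨h7, j, hj⟩ | ⟨a, b, ab, hr, hi⟩
    · exact .inl ⟨h7, j + 1, by rw [← e, hj, k]; ring⟩
    · exact .inr ⟨a + 1, b + 1, by omega, by rw [← e, hr, k]; ring, fun i i1 j j2 =>
        (show 0 + p * (i * p ^ a + j * p ^ b) = i * p ^ (a + 1) + j * p ^ (b + 1) by ring) ▸
          Dg_mk hp (Nat.zero_le _) (hi i i1 j j2)⟩
  · obtain ⟨c, hc, hi⟩ := Dg_prime (l := 2) (r := r / p) hp Nat.prime_three (by omega)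
    exact .inr ⟨0, c + 1, by omega, by rw [← e, hc, k]; ring, fun i i1 j j2 =>
      (show i + p * (j * p ^ c) = i * p ^ 0 + j * p ^ (c + 1) by ring) ▸ Dg_mk hp (by omega) (hi j j2)⟩
  · obtain ⟨c, hc, hi⟩ := Dg_prime (l := 1) (r := r / p) hp Nat.prime_two (by omega)
    exact .inr ⟨c + 1, 0, by omega, by rw [← e, hc, k]; ring, fun i i1 j j2 =>
      (show j + p * (i * p ^ c) = i * p ^ (c + 1) + j * p ^ 0 by ring) ▸ Dg_mk hp (by omega) (hi i i1)⟩
  · rw [Dg_one hp (r := r / p) (by omega)] at e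
    have : p ≠ 6 := fun e => absurd (e ▸ hp) (by decide)
    exact .inl ⟨by omega, 0, by rw [pow_zero]; omega⟩

variable {K E U : Type*} [Field K] [Field E] [AddCommGroup U] [Module K U]

open Classical in
/-- Dedekind. -/
theorem l2_ded {n : ℕ} (χ : Fin n → E →* K) (A : Fin n → U) (h : ∀ t, ∑ i, χ i t • A i = 0) (ψ : E →* K) :
    ∑ i, (if χ i = ψ then A i else 0) = 0 := by
  refine (Module.forall_dual_apply_eq_zero_iff K _).1 fun φ => ?_
  have := linearIndependent_iff.1 (linearIndependent_monoidHom E K) (∑ i, Finsupp.single (χ i) (φ (A i))) (by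
    ext t
    simpa [mul_comm] using congrArg φ (h t))
  simpa [Finsupp.single_apply, apply_ite φ] using DFunLike.congr_fun this ψ

theorem l2_five (h : (60 : K) ≠ 0) {α α' : E →+* K} (e : ∀ t, α t ^ 5 = α' t ^ 5) (t : E) : α t = α' t := by
  have k : ∀ t, 20 * α t ^ 3 + 10 * α t = 20 * α' t ^ 3 + 10 * α' t := fun t => by
    have a := e (t + 1)
    have b := e (t - 1)
    simp only [map_add, map_sub, map_one] at a b
    linear_combination a + b - 2 * e t
  have a := k (t + t)
  simp only [map_add] at a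
  exact mul_left_cancel₀ h (by linear_combination 8 * k t - a)

theorem l2_ne (h : (2 : K) ≠ 0) {α α' β' : E →+* K} (n : α'.toMonoidHom ≠ β'.toMonoidHom) :
    α'.toMonoidHom * β'.toMonoidHom ^ 2 ≠ α.toMonoidHom := fun e => by
  replace e : ∀ t, α' t * β' t ^ 2 = α t := fun t => by simpa using DFunLike.congr_fun e t
  have k : ∀ t, α' t + 2 * β' t = 0 := fun t => by
    have a := e (t + 1)
    have b := e (t - 1)
    simp only [map_add, map_sub, map_one] at a b
    exact mul_left_cancel₀ h (by linear_combination a + b - 2 * e t)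
  have k1 := k 1
  simp only [map_one] at k1
  exact n (MonoidHom.ext fun t => show α' t = β' t by linear_combination k t - β' t * k1)

theorem l2_twelve (h : (2 : K) ≠ 0) {α β α' β' : E →+* K} (n : α.toMonoidHom ≠ β.toMonoidHom)
    (e : ∀ t, α t * β t ^ 2 = α' t * β' t ^ 2) (t : E) : α t = α' t := by
  classical
  by_contra k
  have n1 : α'.toMonoidHom ≠ α.toMonoidHom := fun e => k (DFunLike.congr_fun e t).symm
  have := l2_ded ![α.toMonoidHom, β.toMonoidHom, α'.toMonoidHom, β'.toMonoidHom] ![(1 : K), 2, -1, -2] (fun t => by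
    have a := e (t + 1)
    have b := e (t - 1)
    simp only [map_add, map_sub, map_one] at a b
    simp [Fin.sum_univ_succ]
    exact mul_left_cancel₀ h (by linear_combination a + b - 2 * e t)) α.toMonoidHom
  rw [Fin.sum_univ_four] at this
  change (if α.toMonoidHom = α.toMonoidHom then (1 : K) else 0) + (if β.toMonoidHom = α.toMonoidHom then 2 else 0) +
    (if α'.toMonoidHom = α.toMonoidHom then -1 else 0) + (if β'.toMonoidHom = α.toMonoidHom then -2 else 0) = 0 at this
  rw [if_pos rfl, if_neg n.symm, if_neg n1] at this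
  split_ifs at this
  · exact one_ne_zero (α := K) (by linear_combination -this)
  · exact one_ne_zero (α := K) (by linear_combination this)

variable [Fintype E] (p : ℕ) [Fact p.Prime] [CharP K p] [CharP E p] (ι : E →+* K)

/-- `O7.exists_basis` with the embedding into the functions on `E²`. -/
theorem l2_basis [IsAlgClosed K] [FiniteDimensional K U] (R : SL(2, E) →* U ≃ₗ[K] U)
    (hi : ∀ X : Submodule K U, (∀ g, ∀ v ∈ X, R g v ∈ X) → X = ⊥ ∨ X = ⊤) (h1 : 1 < finrank K U) :
    ∃ r, r < Fintype.card E ∧ ∃ (Θ : U →ₗ[K] (Fin 2 → E) → K) (b : Basis (Dg p r) K U), Function.Injective Θ ∧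
      (∀ g u x, Θ (R g u) x = Θ u (x ᵥ* g.1)) ∧ ∀ m x, Θ (b m) x = ι (x 0) ^ (r - m.1) * ι (x 1) ^ m.1 := by
  classical
  have := nontrivial_of_finrank_pos (zero_lt_one.trans h1)
  obtain ⟨ℓ, r, l0, r1, r2, hl, hd⟩ := sm_ell p ι R
  obtain ⟨Θ, hΘ, he, hh⟩ := sm_theta ι R r1 hl hd
  have hj : Function.Injective Θ := LinearMap.ker_eq_bot.1 ((hi _ fun g v hv => funext fun x => by
    rw [he, LinearMap.mem_ker.1 hv]; rfl).resolve_right fun e => l0 (LinearMap.ext fun u => by
      rw [← hΘ, LinearMap.mem_ker.1 (e.ge Submodule.mem_top)]; rfl))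
  obtain ⟨u, hu⟩ := sm_pw p ι R hi h1 r1 hj he hh
  let mon : ℕ → (Fin 2 → E) → K := fun m x => ι (x 0) ^ (r - m) * ι (x 1) ^ m
  have k1 : ∀ g : SL(2, E), Θ (R g u) =
      ∑ m ∈ Finset.range (r + 1), (ι (g 0 0) ^ (r - m) * ι (g 1 0) ^ m * r.choose m) • mon m := fun g => funext fun x => by
    rw [he, hu, Finset.sum_apply]
    simp only [vecMul, dotProduct, Fin.sum_univ_two, map_add, map_mul]
    rw [add_comm, add_pow]
    refine Finset.sum_congr rfl fun m _ => ?_
    simp only [mon, Pi.smul_apply, smul_eq_mul, mul_pow]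
    ring
  have k2 : ∀ m : Dg p r, ∃ b, Θ b = mon m := fun m => by
    refine (Subspace.forall_mem_dualAnnihilator_apply_eq_zero_iff (LinearMap.range Θ) _).1 fun φ hφ => ?_
    have := sm_vdm ι (Finset.range (r + 1)) Function.injective_id (fun i hi => (Finset.mem_range.1 hi).trans_le r2)
      (c := fun m => r.choose m * φ (mon m)) (fun t => by
        rw [← (Submodule.mem_dualAnnihilator φ).1 hφ _ ⟨R (lwS t) u, rfl⟩, k1, map_sum]
        refine Finset.sum_congr rfl fun m _ => ?_
        simp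
        ring) m (Finset.mem_filter.1 m.2).1
    exact (mul_eq_zero.1 this).resolve_left fun e => mem_Dg'.1 m.2 ((CharP.cast_eq_zero_iff K p _).1 e)
  choose b hb using k2
  have li : LinearIndependent K b := LinearIndependent.of_comp Θ (linearIndependent_iff'.2 fun s c e =>
    sm_vdm ι s Subtype.val_injective (fun i _ => (le_of_mem_Dg i.2).trans_lt r2) fun t => by
      simpa [hb, mon] using congrFun e ![1, t])
  have sp : ⊤ ≤ Submodule.span K (Set.range b) := by
    rcases hi (Submodule.span K (Set.range fun g => R g u)) (fun g v hv => by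
      refine (Submodule.span_le (p := (Submodule.span K _).comap (R g : U →ₗ[K] U))).2 ?_ hv
      rintro _ ⟨g', rfl⟩
      exact Submodule.subset_span ⟨g * g', by simp⟩) with e | e
    · have : Θ u = 0 := by
        rw [(Submodule.eq_bot_iff _).1 e u (Submodule.subset_span ⟨1, by simp⟩), map_zero]
      simpa [hu] using congrFun this ![1, 0]
    · rw [← e, Submodule.span_le]
      rintro _ ⟨g, rfl⟩
      rw [SetLike.mem_coe, ← Submodule.comap_map_eq_of_injective hj (Submodule.span _ _), Submodule.mem_comap, k1]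
      refine Submodule.sum_mem _ fun m _ => ?_
      by_cases hm : m ∈ Dg p r
      · exact Submodule.smul_mem _ _ ⟨b ⟨m, hm⟩, Submodule.subset_span ⟨_, rfl⟩, hb _⟩
      · rw [(CharP.cast_eq_zero_iff K p _).2 (not_not.1 (mt mem_Dg'.2 hm)), mul_zero, zero_smul]
        exact zero_mem _
  exact ⟨r, r2, Θ, Basis.mk li sp, hj, he, fun m x => by rw [Basis.mk_apply, hb]⟩

omit [CharP E p] in
theorem l2_frob {a b : ℕ} (n : a ≠ b) (ha : p ^ a < Fintype.card E) (hb : p ^ b < Fintype.card E) :
    ((iterateFrobenius K p a).comp ι).toMonoidHom ≠ ((iterateFrobenius K p b).comp ι).toMonoidHom := fun e => by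
  have := sm_vdm ι (Finset.univ : Finset (Fin 2)) (n := ![p ^ a, p ^ b]) (c := ![1, -1])
    (fun i j h => by
      have := (Nat.pow_right_injective (Fact.out : p.Prime).two_le).ne n
      fin_cases i <;> fin_cases j <;> simp_all)
    (fun i _ => by fin_cases i <;> assumption) (fun t => by
      simpa [iterateFrobenius_def, ← sub_eq_add_neg, sub_eq_zero] using DFunLike.congr_fun e t) 0 (by simp)
  simp at this

end Cfsg.Lib.S6Q
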