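import Cfsg.Agent.Lib.S6Q.T2

/-!
# Traces and fields

Models: `Q5/T3` (`exists_reg`, `trace_pow_char`), `Q4/Basic` (`NoSub.eq_top`, `TrIn.*`), `Sp4O/Tr`.
-/

set_option autoImplicit false

namespace Cfsg.Lib.S6Q

open scoped MatrixGroups Matrix commutatorElement
open Cfsg.Geo Cfsg.Lib.Asch Cfsg.Lib.Linear Cfsg.Lib.Q4 Cfsg.Lib.Symp Module
open Cfsg.Lib.Q4R (Sq HasTv sc dg)

variable {K F : Type*} [Field K] [Field F]

/-- `Σ c_g ρ' g = 0` gives `tr (Σ c_g ρ g · ρ z) = 0` for all `z`, so `Σ c_g ρ g = 0`: there is a surjective algebra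
map `env ρ' → M₆(K)`, `ρ' g ↦ ρ g`; by dimension `env ρ' = ⊤`, and Skolem-Noether applies. -/
theorem equiv_of_trace {Γ : Type*} [Group Γ] (ρ ρ' : Γ →* G6 K) (he : env ρ.range = ⊤)
    (ht : ∀ g, tr (ρ g) = tr (ρ' g)) : ∃ k : G6 K, ∀ g, ρ g = k * ρ' g * k⁻¹ := by
  let L : (Γ →* G6 K) → MonoidAlgebra K Γ →ₐ[K] Matrix I6 I6 K := fun τ =>
    MonoidAlgebra.lift K _ Γ ((Units.coeHom _).comp τ)
  have l1 : ∀ τ g, L τ (.single g 1) = (τ g).1 := fun τ g => by simp [L]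
  have l2 : ∀ a, (L ρ a).trace = (L ρ' a).trace := fun a => by
    induction a using MonoidAlgebra.induction_on with
    | of g => exact (congrArg _ (l1 ρ g)).trans ((ht g).trans (congrArg _ (l1 ρ' g)).symm)
    | add a b ha hb => rw [map_add, map_add, Matrix.trace_add, Matrix.trace_add, ha, hb]
    | smul c a ha => rw [map_smul, map_smul, Matrix.trace_smul, Matrix.trace_smul, ha]
  have s : Function.Surjective (L ρ) := (AlgHom.range_eq_top (L ρ)).1
    (eq_top_iff.2 (he.ge.trans (Algebra.adjoin_le (by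
      rintro _ ⟨_, ⟨g, rfl⟩, rfl⟩; exact ⟨.single g 1, l1 ρ g⟩))))
  have k : ∀ a, L ρ' a = 0 → L ρ a = 0 := fun a z => eq_zero_of_trace_mul _ fun X => by
    obtain ⟨b, rfl⟩ := s X
    rw [← map_mul, l2, map_mul, z, zero_mul, Matrix.trace_zero]
  obtain ⟨θ, hθ⟩ := (((LinearMap.ker (L ρ').toLinearMap).liftQ (L ρ).toLinearMap k).comp
    (L ρ').toLinearMap.quotKerEquivRange.symm.toLinearMap).exists_extend
  have t : ∀ a, θ (L ρ' a) = L ρ a := fun a => (DFunLike.congr_fun hθ ⟨L ρ' a, a, rfl⟩).trans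
    (congrArg ((LinearMap.ker (L ρ').toLinearMap).liftQ (L ρ).toLinearMap k)
      ((L ρ').toLinearMap.quotKerEquivRange_symm_apply_image a ⟨a, rfl⟩))
  have ts : Function.Surjective θ := fun X => (s X).imp' (L ρ') fun a ha => (t a).trans ha
  have ti := LinearMap.injective_iff_surjective.2 ts
  have s' : Function.Surjective (L ρ') := fun X => (s (θ X)).imp fun a ha => ti ((t a).trans ha)
  obtain ⟨P, hP⟩ := exists_cj_of_algEquiv (.ofBijective (AlgHom.ofLinearMap θ (by simpa using t 1)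
    fun X Y => by
      obtain ⟨a, rfl⟩ := s' X
      obtain ⟨b, rfl⟩ := s' Y
      rw [← map_mul, t, t, t, map_mul]) ⟨ti, ts⟩)
  refine ⟨P, fun g => Units.ext ?_⟩
  rw [← cj_coe, ← hP, ← l1, ← l1]
  exact (t _).symm

theorem tr_pow_char (p : ℕ) [Fact p.Prime] [CharP K p] (g : G6 K) (n : ℕ) :
    tr (g ^ p ^ n) = tr g ^ p ^ n := by
  induction n with
  | zero => simp
  | succ n ih => rw [pow_succ, pow_mul, pow_mul, ← ih, Q4.tr, Units.val_pow_eq_pow_val, O7.T3.trace_pow]; rfl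

theorem tr_unip (p : ℕ) [Fact p.Prime] [CharP K p] {s u : G6 K} {n : ℕ} (h : u ^ p ^ n = 1)
    (c : Commute s u) : tr (s * u) = tr s := by
  have e : (s * u) ^ p ^ n = s ^ p ^ n := by rw [c.mul_pow, h, mul_one]
  refine sub_eq_zero.1 (pow_eq_zero_iff (n := p ^ n) (pow_ne_zero n (Fact.out : p.Prime).ne_zero) |>.1 ?_)
  rw [sub_pow_char_pow, ← tr_pow_char, ← tr_pow_char, e, sub_self]

/-- The trace of `g` is the trace of its `p'`-part. -/
theorem exists_reg (p : ℕ) [Fact p.Prime] [CharP K p] {g : G6 K} (hg : IsOfFinOrder g) :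
    ∃ m : ℕ, Nat.Coprime (orderOf (g ^ m)) p ∧ tr (g ^ m) = tr g := by
  have pp : p.Prime := Fact.out
  obtain ⟨n, k, hk, e⟩ := Nat.exists_eq_pow_mul_and_not_dvd hg.orderOf_pos.ne' p pp.ne_one
  have co := (Nat.Prime.coprime_iff_not_dvd pp).2 hk
  obtain ⟨m, m0, m1⟩ := Nat.chineseRemainder (co.pow_left n) 0 1
  have c : Commute (g ^ m)⁻¹ g := ((Commute.refl g).pow_left m).inv_left
  have hu : ((g ^ m)⁻¹ * g) ^ p ^ n = 1 := by
    rw [c.mul_pow, inv_pow, inv_mul_eq_one, ← pow_mul, pow_eq_pow_iff_modEq, e, mul_comm (p ^ n)]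
    simpa using m1.mul_right' (p ^ n)
  have c' : Commute (g ^ m) ((g ^ m)⁻¹ * g) :=
    ((Commute.refl _).inv_right).mul_right ((Commute.refl g).pow_left m)
  refine ⟨m, co.symm.coprime_dvd_left (orderOf_dvd_of_pow_eq_one ?_), ?_⟩
  · rw [← pow_mul, ← orderOf_dvd_iff_pow_eq_one, e]
    exact Nat.mul_dvd_mul_right ((Nat.modEq_zero_iff_dvd).1 m0) k
  · rw [← tr_unip p hu c', mul_inv_cancel_left]

/-- If a field endomorphism acts on the generators as an inner automorphism then it fixes all traces. -/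
theorem tr_fix (σ : K →+* K) {k : G6 K} {s : Set (G6 K)} (h : ∀ g ∈ s, g = k * mp σ g * k⁻¹) :
    ∀ g ∈ pm (Subgroup.closure s), σ (tr g) = tr g := by
  have k1 : ∀ g ∈ Subgroup.closure s, g = k * mp σ g * k⁻¹ := fun g hg => by
    induction hg using Subgroup.closure_induction with
    | mem x hx => exact h x hx
    | one => simp
    | mul x y _ _ hx hy =>
      rw [map_mul]
      calc x * y = (k * mp σ x * k⁻¹) * (k * mp σ y * k⁻¹) := by rw [← hx, ← hy]
        _ = _ := by group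
    | inv x _ hx =>
      rw [map_inv]
      calc x⁻¹ = (k * mp σ x * k⁻¹)⁻¹ := by rw [← hx]
        _ = _ := by group
  have k2 : ∀ g ∈ Subgroup.closure s, σ (tr g) = tr g := fun g hg => by
    rw [← tr_map, ← tr_conj _ k, ← k1 g hg]
  rintro g (hg | hg)
  · exact k2 g hg
  · have e := k2 _ hg
    have n : tr (-g) = -tr g := by simp [Q4.tr]
    rw [n, map_neg] at e
    exact neg_injective e

/-- Conjugacy of an absolutely irreducible group descends: the solutions of `g X = X g'` form an `F`-rational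
linear system with a nonzero solution, and a nonzero solution is invertible. -/
theorem conj_desc (f : F →+* K) {ι : Type*} (g g' : ι → G6 F) (hi : Irr (Subgroup.closure (Set.range g)))
    {k : G6 K} (h : ∀ i, mp f (g i) = k * mp f (g' i) * k⁻¹) : ∃ l : G6 F, ∀ i, g i = l * g' i * l⁻¹ := by
  letI : Algebra F K := f.toAlgebra
  have k0 : ∃ i j, k.1 i j ≠ 0 := by
    by_contra! z
    exact k.ne_zero (Matrix.ext z)
  obtain ⟨i0, j0, k0⟩ := k0
  obtain ⟨lam, hl⟩ : ∃ lam : Module.Dual F K, lam (k.1 i0 j0) ≠ 0 := by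
    by_contra! z
    exact k0 ((Module.forall_dual_apply_eq_zero_iff F _).1 z)
  have l1 : ∀ a x, lam (f a * x) = a * lam x := fun a x => lam.map_smul a x
  set X : Matrix I6 I6 F := k.1.map lam with hX
  have e : ∀ i, (g i).1 * X = X * (g' i).1 := fun i => by
    have e1 : (g i).1.map f * k.1 = k.1 * (g' i).1.map f := by
      rw [← mp_val, ← mp_val, ← Units.val_mul, ← Units.val_mul, h i, inv_mul_cancel_right]
    ext a b
    have := congrArg lam (congrFun (congrFun e1 a) b)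
    simp only [Matrix.mul_apply, map_sum, Matrix.map_apply] at this
    simp only [Matrix.mul_apply, hX, Matrix.map_apply]
    rw [← Finset.sum_congr rfl fun x _ => l1 _ _, this]
    exact Finset.sum_congr rfl fun x _ => by rw [mul_comm, l1, mul_comm]
  have e2 : ∀ x ∈ Subgroup.closure (Set.range g), ∃ y : G6 F, x.1 * X = X * y.1 := fun x hx => by
    induction hx using Subgroup.closure_induction with
    | mem x hx => obtain ⟨i, rfl⟩ := hx; exact ⟨g' i, e i⟩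
    | one => exact ⟨1, by simp⟩
    | mul x y _ _ hx hy =>
      obtain ⟨x', hx⟩ := hx
      obtain ⟨y', hy⟩ := hy
      exact ⟨x' * y', by rw [Units.val_mul, Units.val_mul, mul_assoc, hy, ← mul_assoc, hx, mul_assoc]⟩
    | inv x _ hx =>
      obtain ⟨x', hx⟩ := hx
      refine ⟨x'⁻¹, ?_⟩
      rw [Units.inv_mul_eq_iff_eq_mul, ← mul_assoc, hx, Units.mul_inv_cancel_right]
  have s : LinearMap.range X.mulVecLin = ⊤ := by
    refine (hi _ ?_).resolve_left fun z => hl ?_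
    · rintro x hx _ ⟨v, rfl⟩
      obtain ⟨y, hy⟩ := e2 x hx
      exact ⟨y.1 *ᵥ v, by simp only [Matrix.mulVecLin_apply, Matrix.mulVec_mulVec, hy]⟩
    · have : X = 0 := mat_eq_zero_of_mulVec fun v => z.le ⟨v, rfl⟩
      exact congrFun (congrFun this i0) j0
  have u : IsUnit X := Matrix.mulVec_surjective_iff_isUnit.1 (LinearMap.range_eq_top.1 s)
  obtain ⟨l, hl'⟩ := u
  refine ⟨l, fun i => eq_mul_inv_of_mul_eq (Units.ext ?_)⟩
  rw [Units.val_mul, Units.val_mul, hl', e]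

/-- The invariant alternating form of an absolutely irreducible group is unique up to a scalar: if `P ≤ Sp` and
`P ≤ k Sp k⁻¹` then `k` normalises `Sp`. -/
theorem conj_sp {P : Subgroup (G6 F)} (he : env P = ⊤) (hP : P ≤ Sp F) {k : G6 F}
    (hk : ∀ g ∈ P, k⁻¹ * g * k ∈ Sp F) : ∀ g ∈ Sp F, k * g * k⁻¹ ∈ Sp F := by
  set J := Matrix.J (Fin 3) F with hJ
  have JJ : J * J = -1 := Matrix.J_squared _ _
  have k1 : k.1 * (k⁻¹).1 = 1 := k.mul_inv
  have k2 : (k⁻¹).1 * k.1 = 1 := k.inv_mul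
  have k3 : (k⁻¹).1ᵀ * k.1ᵀ = 1 := by rw [← Matrix.transpose_mul, k1, Matrix.transpose_one]
  have k4 : k.1ᵀ * (k⁻¹).1ᵀ = 1 := by rw [← Matrix.transpose_mul, k2, Matrix.transpose_one]
  set J' := (k⁻¹).1ᵀ * J * (k⁻¹).1 with hJ'
  have h1 : ∀ g ∈ P, g.1ᵀ * J' * g.1 = J' := fun g hg => by
    have := mem_Sp'.1 (hk g hg)
    simp only [Units.val_mul, Matrix.transpose_mul] at this
    calc g.1ᵀ * J' * g.1 = ((k⁻¹).1ᵀ * k.1ᵀ) * (g.1ᵀ * J' * g.1) * (k.1 * (k⁻¹).1) := by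
          rw [k1, k3, one_mul, mul_one]
      _ = (k⁻¹).1ᵀ * (k.1ᵀ * (g.1ᵀ * (k⁻¹).1ᵀ) * J * ((k⁻¹).1 * g.1 * k.1)) * (k⁻¹).1 := by
          simp only [hJ', mul_assoc]
      _ = J' := by rw [this]
  obtain ⟨c, hc⟩ := eq_smul_one_of_commute_adjoin he (J * J') (by
    rintro _ ⟨g, hg, rfl⟩
    have a := mem_Sp'.1 (hP hg)
    have b := h1 g hg
    have a' : g.1 * J * g.1ᵀ = J := by
      have q : (-J * g.1ᵀ * J) * g.1 = 1 := by
        rw [mul_assoc, mul_assoc, ← mul_assoc g.1ᵀ, a, neg_mul, JJ, neg_neg]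
      have q' := mul_eq_one_comm.1 q
      calc g.1 * J * g.1ᵀ = g.1 * J * g.1ᵀ * (-(J * J)) := by rw [JJ, neg_neg, mul_one]
        _ = (g.1 * (-J * g.1ᵀ * J)) * J := by simp only [mul_assoc, mul_neg, neg_mul]
        _ = J := by rw [q', one_mul]
    calc J * J' * g.1 = (g.1 * J * g.1ᵀ) * J' * g.1 := by rw [a']
      _ = g.1 * (J * (g.1ᵀ * J' * g.1)) := by simp only [mul_assoc]
      _ = _ := by rw [b])
  have h2 : J' = (-c) • J := by
    calc J' = -(J * J) * J' := by rw [JJ, neg_neg, one_mul]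
      _ = -(J * (J * J')) := by rw [neg_mul, mul_assoc]
      _ = _ := by rw [hc, mul_smul_comm, mul_one, neg_smul]
  have h3 : J = (-c) • (k.1ᵀ * J * k.1) := by
    calc J = (k.1ᵀ * (k⁻¹).1ᵀ) * J * ((k⁻¹).1 * k.1) := by rw [k2, k4, one_mul, mul_one]
      _ = k.1ᵀ * J' * k.1 := by simp only [hJ', mul_assoc]
      _ = _ := by rw [h2, mul_smul_comm, smul_mul_assoc]
  have c0 : -c ≠ 0 := fun z => by
    rw [z, zero_smul] at h3
    rw [h3, mul_zero] at JJ
    exact one_ne_zero (neg_eq_zero.1 JJ.symm)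
  intro g hg
  rw [mem_Sp']
  refine smul_right_injective _ c0 ?_
  simp only [Units.val_mul, Matrix.transpose_mul]
  calc (-c) • ((k⁻¹).1ᵀ * (g.1ᵀ * k.1ᵀ) * J * (k.1 * g.1 * (k⁻¹).1))
      = (k⁻¹).1ᵀ * (g.1ᵀ * ((-c) • (k.1ᵀ * J * k.1)) * g.1) * (k⁻¹).1 := by
        simp only [mul_smul_comm, smul_mul_assoc, mul_assoc]
    _ = (-c) • J := by rw [← h3, mem_Sp'.1 hg, ← h2]

theorem card_Sp [Finite F] :
    Nat.card (Sp F) = Nat.card F ^ 9 * ∏ i ∈ Finset.range 3, (Nat.card F ^ (2 * (i + 1)) - 1) := by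
  have := card_sp (l := Fin 3) (F := F)
  rw [Fintype.card_fin] at this
  rw [← show 3 ^ 2 = 9 from rfl, ← this]
  refine Nat.card_congr (Equiv.ofBijective
    (fun g => ⟨g.1.1, SymplecticGroup.mem_iff'.2 (mem_Sp'.1 g.2)⟩) ⟨fun a b e => ?_, fun A => ?_⟩)
  · exact Subtype.ext (Units.ext (congrArg Subtype.val e))
  · obtain ⟨u, hu⟩ := (Matrix.isUnit_iff_isUnit_det _).2 (SymplecticGroup.symplectic_det A.2)
    exact ⟨⟨u, mem_Sp'.2 (hu ▸ SymplecticGroup.mem_iff'.1 A.2)⟩, Subtype.ext hu⟩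

/-- A maximal `H` has no proper overgroup of small order: `Sp₆(F)` has an elementary abelian subgroup of order
`|F| ^ 6`. -/
theorem Mx.eq_of_card [Finite F] {H P L : Subgroup (G6 F)} (m : Mx H P) (h1 : H ≤ L) (h2 : L ≤ Sp F)
    (h3 : ¬ Nat.card F ^ 6 ∣ Nat.card L) : L = H := by
  refine (m.max.2 L h1 h2).resolve_right fun e => h3 ?_
  rw [e, card_Sp]
  exact (pow_dvd_pow _ (by norm_num)).mul_right _

variable [Fintype F] (p : ℕ) [Fact p.Prime] [CharP F p] {P : Subgroup (G6 F)}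

theorem Core.card_eq (h : Core P) (ht : ∀ g ∈ P, tr g ^ p = tr g) : Fintype.card F = p := by
  exact D3.card_eq_of_fix_one p (h.ns.eq_top h.env fun g hg => by
    rw [D3.mem_fixF, pow_one]; exact ht g hg)

theorem Core.card_two (h : Core P) (ht : ∀ g ∈ P, tr g ^ p ^ 2 = tr g) :
    Fintype.card F = p ∨ Fintype.card F = p ^ 2 := by
  obtain ⟨k, k0, k2, e⟩ := D3.card_le_of_fix p two_pos (h.ns.eq_top h.env (k := D3.fixF F p 2) ht)
  obtain rfl | rfl : k = 1 ∨ k = 2 := by omega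
  exacts [.inl (e.trans (pow_one p)), .inr e]

/-- The trace field is `F_p(√d)`. -/
theorem Core.card_quad (h : Core P) {d : ℤ} {s : F} (hs : s ^ 2 = d)
    (ht : ∀ n : ℕ, s ^ p ^ n = s → ∀ g ∈ P, tr g ^ p ^ n = tr g) :
    (Fintype.card F = p ∧ IsSquare (d : ZMod p)) ∨ (Fintype.card F = p ^ 2 ∧ ¬ IsSquare (d : ZMod p)) := by
  have one : s ^ p = s → Fintype.card F = p := fun e =>
    h.card_eq p fun g hg => by simpa using ht 1 (by simpa using e) g hg
  have dp : (d : F) ^ p = d := map_intCast (frobenius F p) d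
  by_cases q : IsSquare (d : ZMod p)
  · refine .inl ⟨one ?_, q⟩
    obtain ⟨r, hr⟩ := q
    let φ : ZMod p →+* F := ZMod.castHom (dvd_refl p) F
    have e : s ^ 2 = φ r ^ 2 := by rw [hs, sq, ← map_mul, ← hr, map_intCast]
    have rp : φ r ^ p = φ r := by rw [← map_pow, ZMod.pow_card]
    rcases sq_eq_sq_iff_eq_or_eq_neg.1 e with e | e
    · rw [e, rp]
    · rw [e, neg_pow, neg_one_pow_char, rp, neg_one_mul]
  · have n : s ^ p ≠ s := fun e => q (by
      let ψ := ZMod.ringEquiv F (one e)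
      obtain ⟨r, hr⟩ := ψ.surjective s
      exact ⟨r, ψ.injective (by rw [map_mul, hr, map_intCast, ← hs, sq])⟩)
    refine .inr ⟨D3.card_eq_of_fix_two p (h.ns.eq_top h.env (k := D3.fixF F p 2) (ht 2 ?_)) n, q⟩
    have e : (s ^ p) ^ 2 = s ^ 2 := by rw [← pow_mul, mul_comm, pow_mul, hs, dp]
    have e := (sq_eq_sq_iff_eq_or_eq_neg.1 e).resolve_left n
    rw [sq, pow_mul, e, neg_pow, neg_one_pow_char, e, neg_one_mul, neg_neg]

omit [Fintype F] in
/-- The normaliser acts on `X`; inner automorphisms come from `pm P`. -/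
theorem Od.exists_aut {X : Type*} [Group X] {π : pm P →* X} (h : Od P π) {H : Subgroup (G6 F)} (m : Mx H P)
    {n : G6 F} (hn : n ∈ H) : ∃ φ : MulAut X, (∀ (g : pm P) (hg : n * g.1 * n⁻¹ ∈ pm P),
      φ (π g) = π ⟨_, hg⟩) ∧ (∀ g ∈ pm P, n * g * n⁻¹ ∈ pm P) ∧
      ((∃ t, ∀ x, φ x = t * x * t⁻¹) → n ∈ pm P) := by
  have nm : ∀ n ∈ H, ∀ g ∈ pm P, n * g * n⁻¹ ∈ pm P := by
    rintro n hn g (hg | hg)
    · exact .inl (m.norm n hn g hg)
    · exact .inr (by simpa using m.norm n hn _ hg)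
  have hN : n ∈ Subgroup.normalizer (pm P : Set (G6 F)) := Subgroup.mem_normalizer_iff.2 fun g =>
    ⟨nm n hn g, fun e => by simpa [mul_assoc] using nm _ (inv_mem hn) _ e⟩
  let ψ : MulAut (pm P) := (pm P).normalizerMonoidHom ⟨n, hN⟩
  have h1 : ∀ g, (ψ g).1 = n * g.1 * n⁻¹ := fun g => rfl
  have hk : π.ker.map ψ.toMonoidHom = π.ker := by
    ext x
    rw [Subgroup.mem_map_equiv, MonoidHom.mem_ker, MonoidHom.mem_ker, h.cv.ker, h.cv.ker]
    conv_rhs => rw [← ψ.apply_symm_apply x, h1]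
    refine or_congr ⟨fun e => by simp [e], fun e => by simpa [mul_inv_eq_iff_eq_mul] using e⟩
      ⟨fun e => by simp [e], fun e => ?_⟩
    rw [mul_inv_eq_iff_eq_mul, neg_one_mul, ← mul_neg_one] at e
    exact mul_left_cancel e
  let e := QuotientGroup.quotientKerEquivOfSurjective π h.cv.surj
  have h2 : ∀ g, (e.symm.trans ((QuotientGroup.congr _ _ ψ hk).trans e)) (π g) = π (ψ g) := fun g => by
    have : e.symm (π g) = QuotientGroup.mk g := e.symm_apply_eq.2 rfl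
    simp only [MulEquiv.trans_apply, this]
    rfl
  refine ⟨e.symm.trans ((QuotientGroup.congr _ _ ψ hk).trans e), fun g _ => h2 g, nm n hn, ?_⟩
  rintro ⟨t, ht⟩
  obtain ⟨t, rfl⟩ := h.cv.surj t
  have tH : t.1⁻¹ * n ∈ H := mul_mem (inv_mem (m.pm_le t.2)) hn
  have := m.cen _ tH fun x hx => by
    have := (h.cv.ker (t⁻¹ * ψ ⟨x, le_pm P hx⟩ * t * ⟨x, le_pm P hx⟩⁻¹)).1 (by simp [← h2, ht, mul_assoc])
    have e : t.1⁻¹ * n * x * (t.1⁻¹ * n)⁻¹ * x⁻¹ =
        (t⁻¹ * ψ ⟨x, le_pm P hx⟩ * t * ⟨x, le_pm P hx⟩⁻¹ : pm P).1 := by simp [h1, mul_assoc]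
    rw [e]
    rcases this with e | e <;> rw [e]
    exacts [one_mem _, neg_one_scalar]
  rw [show n = t.1 * (t.1⁻¹ * n) by simp]
  refine mul_mem t.2 ?_
  rcases pm_of_scalar (m.max.1.le tH) this with e | e <;> rw [e]
  exacts [one_mem _, neg_mem_pm P]

omit [Fintype F] in
theorem Od.irr {X : Type*} [Group X] {π : pm P →* X} (h : Od P π) (f : F →+* K) : Irr (ext f (pm P)) := by
  exact irr_of_env (env_ext f (eq_top_iff.2 (h.env.ge.trans (env_mono (le_pm P)))))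

omit [Fintype F] in
theorem Od.equiv {X : Type*} [Group X] {π : pm P →* X} (h : Od P π) : Nonempty (Sq P ≃* X) := by
  refine Cov.equiv (π := π.comp (Subgroup.inclusion (le_pm P))) ⟨h.toQS, fun x => ?_, fun g => ?_⟩
  · obtain ⟨⟨g, hg | hg⟩, rfl⟩ := h.cv.surj x
    · exact ⟨⟨g, hg⟩, rfl⟩
    · exact ⟨⟨-g, hg⟩, h.cv.eq_iff.2 (.inr rfl)⟩
  · refine (h.cv.ker _).trans ⟨?_, pm_of_scalar (h.sp g.2)⟩
    rintro (e | e)
    · exact (show g.1 = 1 from e) ▸ one_mem _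
    · exact (show g.1 = -1 from e) ▸ neg_one_scalar

end Cfsg.Lib.S6Q
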