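import Cfsg.Agent.Lib.S6Q.EL2a
import Cfsg.Agent.Lib.S6Q.T2b

/-!
# The twisted tensor product `2 ⊗ 3` for `SL₂(q)`
-/

set_option autoImplicit false

namespace Cfsg.Lib.S6Q

open Module Matrix Cfsg.Lib.PSL2 Cfsg.Lib.O7
open scoped MatrixGroups Kronecker

variable {K E U : Type*} [Field K] [Field E] [AddCommGroup U] [Module K U]

/-- The symmetric square. -/
def l2s (A : Matrix (Fin 2) (Fin 2) K) : Matrix (Fin 3) (Fin 3) K :=
  !![A 0 0 ^ 2, A 0 0 * A 0 1, A 0 1 ^ 2; 2 * A 0 0 * A 1 0, A 0 0 * A 1 1 + A 0 1 * A 1 0, 2 * A 0 1 * A 1 1;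
    A 1 0 ^ 2, A 1 0 * A 1 1, A 1 1 ^ 2]

theorem l2s_mul (A B : Matrix (Fin 2) (Fin 2) K) : l2s (A * B) = l2s A * l2s B := by
  ext i j
  fin_cases i <;> fin_cases j <;> simp [l2s, mul_apply, Fin.sum_univ_succ] <;> ring

theorem l2s_one : l2s (1 : Matrix (Fin 2) (Fin 2) K) = 1 := by
  ext i j
  fin_cases i <;> fin_cases j <;> simp [l2s]

theorem l2_ded3 (h : (2 : K) ≠ 0) {α β : E →+* K} (n : α.toMonoidHom ≠ β.toMonoidHom) {A B C : U}
    (e : ∀ t, α t • A + β t • B + (α t * β t ^ 2) • C = 0) : A = 0 ∧ B = 0 := by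
  classical
  have k := l2_ded ![α.toMonoidHom, β.toMonoidHom, α.toMonoidHom * β.toMonoidHom ^ 2] ![A, B, C] fun t => by
    simpa [Fin.sum_univ_succ, add_assoc] using e t
  have k1 := k α.toMonoidHom
  have k2 := k β.toMonoidHom
  rw [Fin.sum_univ_three] at k1 k2
  change (if _ = _ then A else 0) + (if _ = _ then B else 0) + (if _ = _ then C else 0) = 0 at k1 k2
  erw [if_pos rfl, if_neg n.symm, if_neg (l2_ne h n)] at k1
  erw [if_neg n, if_pos rfl, if_neg (l2_ne h n)] at k2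
  exact ⟨by simpa using k1, by simpa using k2⟩

theorem l2_ded6 (h : (2 : K) ≠ 0) {α β α' β' : E →+* K} (n : α.toMonoidHom ≠ β.toMonoidHom)
    (n' : α'.toMonoidHom ≠ β'.toMonoidHom) {A B C A' B' C' : U}
    (e : ∀ t, α t • A + β t • B + (α t * β t ^ 2) • C = α' t • A' + β' t • B' + (α' t * β' t ^ 2) • C') :
    A = 0 ∨ A = A' ∨ A = B' := by
  classical
  have k := l2_ded ![α.toMonoidHom, β.toMonoidHom, α.toMonoidHom * β.toMonoidHom ^ 2, α'.toMonoidHom, β'.toMonoidHom,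
    α'.toMonoidHom * β'.toMonoidHom ^ 2] ![A, B, C, -A', -B', -C'] (fun t => by
    rw [← sub_eq_zero.2 (e t)]
    simp [Fin.sum_univ_succ]
    abel) α.toMonoidHom
  rw [Fin.sum_univ_six] at k
  change (if _ = _ then A else 0) + (if _ = _ then B else 0) + (if _ = _ then C else 0) + (if α'.toMonoidHom = _ then -A' else 0) +
    (if β'.toMonoidHom = _ then -B' else 0) + (if _ = _ then -C' else 0) = 0 at k
  erw [if_pos rfl, if_neg n.symm, if_neg (l2_ne h n), if_neg (l2_ne h n')] at k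
  split_ifs at k with a b
  · exact absurd (a.trans b.symm) n'
  · exact .inr (.inl (by simpa [add_neg_eq_zero] using k))
  · exact .inr (.inr (by simpa [add_neg_eq_zero] using k))
  · exact .inl (by simpa using k)

variable [Fintype E] (p : ℕ) [Fact p.Prime] [CharP K p] [CharP E p] (ι : E →+* K)

theorem l2_tensor [IsAlgClosed K] (h2 : p ≠ 2) (R : SL(2, E) →* U ≃ₗ[K] U)
    (hi : ∀ X : Submodule K U, (∀ g, ∀ v ∈ X, R g v ∈ X) → X = ⊥ ∨ X = ⊤) (h6 : finrank K U = 6) :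
    7 ≤ p ∨ ∃ a b, ((iterateFrobenius K p a).comp ι).toMonoidHom ≠ ((iterateFrobenius K p b).comp ι).toMonoidHom ∧
      ∃ B : Basis (Fin 2 × Fin 3) K U, ∀ g, LinearMap.toMatrix B B (R g) =
        g.1.map ((iterateFrobenius K p a).comp ι) ⊗ₖ l2s (g.1.map ((iterateFrobenius K p b).comp ι)) := by
  have hp : p.Prime := Fact.out
  have := Module.finite_of_finrank_pos (R := K) (M := U) (by omega)
  obtain ⟨r, r1, Θ, B, hj, he, hb⟩ := l2_basis p ι R hi (by omega)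
  have c : (Dg p r).card = 6 := by rw [← h6, finrank_eq_card_basis B, Fintype.card_coe]
  obtain ⟨h7, -⟩ | ⟨a, b, ab, hr, hm⟩ := Dg_six' hp c
  · exact .inl h7
  have pa := pow_pos hp.pos a
  have pb := pow_pos hp.pos b
  refine .inr ⟨a, b, l2_frob p ι ab (by omega) (by omega), ?_⟩
  let e : Fin 2 × Fin 3 → Dg p r := fun x => ⟨x.1 * p ^ a + x.2 * p ^ b, hm _ (by omega) _ (by omega)⟩
  have n1 := (Nat.pow_right_injective hp.two_le).ne ab
  have n2 : p ^ a % 2 = 1 := Nat.odd_iff.1 (hp.odd_of_ne_two h2).pow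
  have ei : Function.Bijective e := (Fintype.bijective_iff_injective_and_card e).2 ⟨by
    rintro ⟨i, j⟩ ⟨i', j'⟩ h
    replace h : i.1 * p ^ a + j.1 * p ^ b = i'.1 * p ^ a + j'.1 * p ^ b := congrArg Subtype.val h
    generalize p ^ a = A at *
    generalize p ^ b = B at *
    fin_cases i <;> fin_cases j <;> fin_cases i' <;> fin_cases j' <;> first | rfl | (dsimp only at h; omega), by simp [c]⟩
  let B' := B.reindex (Equiv.ofBijective e ei).symm
  have hb' : ∀ y x, Θ (B' y) x = (ι (x y.1) ^ p ^ a) * ![(ι (x 0) ^ p ^ b) ^ 2, ι (x 0) ^ p ^ b * ι (x 1) ^ p ^ b,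
      (ι (x 1) ^ p ^ b) ^ 2] y.2 := by
    rintro ⟨i, j⟩ x
    rw [Basis.reindex_apply, Equiv.symm_symm, Equiv.ofBijective_apply, hb]
    change _ ^ (r - (i.1 * p ^ a + j.1 * p ^ b)) * _ ^ (i.1 * p ^ a + j.1 * p ^ b) = _
    rw [show r - (i.1 * p ^ a + j.1 * p ^ b) = (1 - i.1) * p ^ a + (2 - j.1) * p ^ b by
      rw [hr]
      generalize p ^ a = A
      generalize p ^ b = B
      fin_cases i <;> fin_cases j <;> dsimp only <;> omega]
    fin_cases i <;> fin_cases j <;> simp [-mul_eq_mul_left_iff, -mul_eq_mul_right_iff] <;> ring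
  refine ⟨B', fun g => (LinearMap.toMatrix B' B').eq_symm_apply.1 (B'.ext fun y => hj (funext fun x => ?_))⟩
  rw [LinearMap.toMatrix_symm, Matrix.toLin_self, LinearEquiv.coe_coe, he, hb', map_sum, Finset.sum_apply]
  obtain ⟨i, j⟩ := y
  simp only [map_smul, Pi.smul_apply, hb', Fintype.sum_prod_type, Fin.sum_univ_succ, vecMul, dotProduct]
  fin_cases i <;> fin_cases j <;> simp [l2s, iterateFrobenius_def, add_pow_char_pow, mul_pow] <;> ring

omit [Fintype E] in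
theorem l2_up (α β : E →+* K) (t : E) : (upper t).1.map α ⊗ₖ l2s ((upper t).1.map β) -
    (upper (-t)).1.map α ⊗ₖ l2s ((upper (-t)).1.map β) = α t • !![0, 2; 0, 0] ⊗ₖ 1 +
      β t • 1 ⊗ₖ !![0, 2, 0; 0, 0, 4; 0, 0, 0] + (α t * β t ^ 2) • !![0, 2; 0, 0] ⊗ₖ !![0, 0, 1; 0, 0, 0; 0, 0, 0] := by
  ext ⟨i, k⟩ ⟨i', k'⟩
  fin_cases i <;> fin_cases k <;> fin_cases i' <;> fin_cases k' <;> simp [l2s] <;> ring

omit [Fintype E] in
theorem l2_desc {F I : Type*} [Field F] (f : F →+* K) (h : (2 : K) ≠ 0) {α β : E →+* F}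
    (n : (f.comp α).toMonoidHom ≠ (f.comp β).toMonoidHom) {X : E → Matrix I I F} {C' D' G' : Matrix I I K}
    (e : ∀ t, (X t).map f = f (α t) • C' + f (β t) • D' + (f (α t) * f (β t) ^ 2) • G') :
    ∃ C D G, (∀ t, X t = α t • C + β t • D + (α t * β t ^ 2) • G) ∧ C.map f = C' ∧ D.map f = D' := by
  let _ := f.toAlgebra
  obtain ⟨l, hl⟩ := (Algebra.linearMap F K).exists_leftInverse_of_injective (LinearMap.ker_eq_bot.2 f.injective)
  replace hl : ∀ x, l (f x) = x := fun x => LinearMap.congr_fun hl x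
  have l1 : ∀ a x, l (f a * x) = a * l x := fun a x => l.map_smul a x
  have e' : ∀ t, X t = α t • C'.map l + β t • D'.map l + (α t * β t ^ 2) • G'.map l := fun t => Matrix.ext fun x y => by
    have := congrArg l (congrFun (congrFun (e t) x) y)
    rw [← map_pow, ← map_mul] at this
    simpa only [map_apply, Matrix.add_apply, Matrix.smul_apply, smul_eq_mul, map_add, hl, l1] using this
  obtain ⟨c, d⟩ := l2_ded3 h n (A := (C'.map l).map f - C') (B := (D'.map l).map f - D') (C := (G'.map l).map f - G') fun t => by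
    rw [smul_sub, smul_sub, smul_sub, sub_add_sub_comm, sub_add_sub_comm, sub_eq_zero]
    refine Eq.trans ?_ (e t)
    rw [e']
    ext x y
    simp
  exact ⟨_, _, _, e', sub_eq_zero.1 c, sub_eq_zero.1 d⟩

open Cfsg.Lib.Asch in
theorem l2_cdg [IsAlgClosed K] {F : Type*} [Field F] [CharP F p] (f : F →+* K) (h2 : p ≠ 2) (j : E →+* F)
    (ρ : SL(2, E) →* G6 F) (hi : ∀ X : Submodule K (I6 → K), (∀ g, ∀ v ∈ X, (mp f (ρ g)).1 *ᵥ v ∈ X) → X = ⊥ ∨ X = ⊤) :
    7 ≤ p ∨ ∃ α β : E →+* F, α.toMonoidHom ≠ β.toMonoidHom ∧ ∃ C D G : Matrix I6 I6 F,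
      (∀ t, (ρ (upper t)).1 - (ρ (upper (-t))).1 = α t • C + β t • D + (α t * β t ^ 2) • G) ∧ C * C = 0 ∧ C ≠ 0 ∧
        D * D ≠ 0 ∧ D * D * D = 0 ∧ ∀ s, Commute (cj (ρ s) C) D := by
  have t2 : (2 : K) ≠ 0 := fun e => h2 ((Nat.prime_dvd_prime_iff_eq Fact.out Nat.prime_two).1
    ((CharP.cast_eq_zero_iff K p 2).1 (by exact_mod_cast e)))
  refine (l2_tensor p (f.comp j) h2 ((Unitary.glEquiv I6 _).toMonoidHom.comp ((mp f).comp ρ)) hi T2.fr6).imp_right ?_
  rintro ⟨a, b, n, B, hB⟩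
  have hf : ∀ a, (iterateFrobenius _ p a).comp (f.comp j) = f.comp ((iterateFrobenius F p a).comp j) := fun a =>
    RingHom.ext fun t => (map_pow f _ _).symm
  rw [hf, hf] at n hB
  generalize (iterateFrobenius F p a).comp j = α at n hB
  generalize (iterateFrobenius F p b).comp j = β at n hB
  obtain ⟨Φ, hΦ⟩ : ∃ Φ : Matrix I6 I6 K ≃ₐ[K]
      Matrix (Fin 2 × Fin 3) (Fin 2 × Fin 3) K,
      ∀ g, Φ ((ρ g).1.map f) = g.1.map (f.comp α) ⊗ₖ l2s (g.1.map (f.comp β)) :=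
    ⟨Matrix.toLinAlgEquiv'.trans (LinearMap.toMatrixAlgEquiv B), fun g => by rw [← hB]; rfl⟩
  let N : Matrix (Fin 2) (Fin 2) K := !![0, 2; 0, 0]
  let M : Matrix (Fin 3) (Fin 3) K := !![0, 2, 0; 0, 0, 4; 0, 0, 0]
  obtain ⟨C', c'⟩ := Φ.surjective (N ⊗ₖ 1)
  obtain ⟨D', d'⟩ := Φ.surjective (1 ⊗ₖ M)
  obtain ⟨G', g'⟩ := Φ.surjective (N ⊗ₖ !![0, 0, 1; 0, 0, 0; 0, 0, 0])
  obtain ⟨C, D, G, e, rfl, rfl⟩ := l2_desc f t2 n (X := fun t => (ρ (upper t)).1 - (ρ (upper (-t))).1) (C' := C') (D' := D')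
    (G' := G') fun t => Φ.injective (by
      rw [Matrix.map_sub _ (map_sub f), map_sub, hΦ, hΦ]
      simp only [map_add, map_smul, c', d', g']
      exact l2_up (f.comp α) (f.comp β) t)
  obtain ⟨ψ, hψ, c, d, hΦ⟩ : ∃ ψ : Matrix I6 I6 F →+* Matrix (Fin 2 × Fin 3) (Fin 2 × Fin 3) K,
      Function.Injective ψ ∧ ψ C = N ⊗ₖ 1 ∧ ψ D = 1 ⊗ₖ M ∧
        ∀ g, ψ (ρ g).1 = g.1.map (f.comp α) ⊗ₖ l2s (g.1.map (f.comp β)) :=
    ⟨Φ.toRingEquiv.toRingHom.comp f.mapMatrix, Φ.injective.comp (Matrix.map_injective f.injective), c', d', hΦ⟩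
  refine ⟨α, β, fun e => n (MonoidHom.ext fun t => congrArg f (DFunLike.congr_fun e t)),
    C, D, G, e, hψ ?_, fun e => t2 ?_, fun e => pow_ne_zero 3 t2 ?_, hψ ?_, fun s => hψ ?_⟩
  · rw [map_mul, c, ← mul_kronecker_mul, map_zero, show N * N = 0 by ext i j; fin_cases i <;> fin_cases j <;> simp [N],
      zero_kronecker]
  · rw [e, map_zero] at c
    simpa [N] using (congrFun (congrFun c (0, 0)) (1, 0)).symm
  · replace e := congrArg ψ e
    rw [map_mul, d, ← mul_kronecker_mul, map_zero] at e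
    have : (2 : K) * 4 = 0 := by simpa [M, -mul_eq_zero] using congrFun (congrFun e (0, 0)) (0, 2)
    linear_combination this
  · rw [map_mul, map_mul, d, ← mul_kronecker_mul, ← mul_kronecker_mul, map_zero,
      show M * M * M = 0 by ext i j; fin_cases i <;> fin_cases j <;> simp [M], kronecker_zero]
  · rw [map_mul, map_mul, cj_def, map_mul, map_mul, ← map_inv, c, d, hΦ, hΦ]
    simp only [← mul_kronecker_mul, mul_one, one_mul]
    rw [← l2s_mul, ← Matrix.map_mul, show s.1 * (s⁻¹).1 = 1 from congrArg Subtype.val (mul_inv_cancel s),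
      Matrix.map_one _ (map_zero _) (map_one _), l2s_one, mul_one, one_mul]

end Cfsg.Lib.S6Q
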