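import Cfsg.Agent.Lib.S6Q.T4
import Cfsg.Agent.Lib.S6Q.EL2a

/-!
# The ending `L₂(q)` in defining characteristic: the two fields are equal
-/

set_option autoImplicit false

namespace Cfsg.Lib.S6Q

open scoped MatrixGroups Matrix commutatorElement
open Cfsg.Geo Cfsg.Lib.Asch Cfsg.Lib.Linear Cfsg.Lib.Q4 Cfsg.Lib.Symp Module
open Cfsg.Lib.Q4R (Sq HasTv sc dg)
open Cfsg.Lib.PSL2 Cfsg.Lib.O7

/-- The action on vectors. -/
noncomputable def l2cR (K : Type*) [Field K] : G6 K →* (I6 → K) ≃ₗ[K] (I6 → K) :=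
  (LinearMap.GeneralLinearGroup.generalLinearEquiv K _).toMonoidHom.comp
    Matrix.GeneralLinearGroup.toLin.toMonoidHom

theorem l2cR_apply {K : Type*} [Field K] (g : G6 K) (v : I6 → K) : l2cR K g v = g.1 *ᵥ v := rfl

variable {F : Type*} [Field F] [Fintype F] (p : ℕ) [Fact p.Prime] [CharP F p] {H P : Subgroup (G6 F)}

variable {E : Type*} [Field E] [Fintype E] [CharP E p] {π : pm P →* PSL(2, E)}

include p in
theorem Od.l2d_card' (h : Od P π) (h5 : 5 ≤ Fintype.card E) : Fintype.card F = Fintype.card E := by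
  classical
  have hp : p.Prime := Fact.out
  obtain ⟨ρ, -, hρ⟩ := h.exists_sl h5
  let K := AlgebraicClosure F
  let f : F →+* K := algebraMap F K
  letI : Algebra (ZMod p) E := ZMod.algebra E p
  letI : Algebra (ZMod p) K := ZMod.algebra K p
  let ι : E →+* K := (IsAlgClosed.lift (R := ZMod p) (S := E) (M := K)).toRingHom
  let R : SL(2, E) →* (I6 → K) ≃ₗ[K] (I6 → K) := (l2cR K).comp ((mp f).comp ((pm P).subtype.comp ρ))
  have hR : ∀ g v, R g v = (mp f (ρ g).1).1 *ᵥ v := fun _ _ => rfl
  obtain ⟨r, hr, Θ, b, hj, he, hb⟩ := l2_basis p ι R (fun X hX => h.irr f X (by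
    rintro _ ⟨g, hg, rfl⟩ v hv
    obtain ⟨s, rfl | rfl⟩ := hρ g hg
    · exact hX s v hv
    · rw [mp_neg, Units.val_neg, Matrix.neg_mulVec]
      exact neg_mem (hX s v hv))) (by rw [T2.fr6]; norm_num)
  have c6 : (Dg p r).card = 6 := by rw [← Fintype.card_coe, ← finrank_eq_card_basis b, T2.fr6]
  have ev : ∀ u t, Θ u ![1, t] = ∑ m, b.repr u m * ι t ^ m.1 := fun u t => by
    conv_lhs => rw [← b.sum_repr u, map_sum, Finset.sum_apply]
    refine Finset.sum_congr rfl fun m _ => ?_
    rw [map_smul, Pi.smul_apply, hb, smul_eq_mul]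
    simp
  have vd : ∀ c : Dg p r → K, (∀ t : E, ∑ m, c m * ι t ^ m.1 = 0) → ∀ m, c m = 0 := fun c hc m =>
    sm_vdm ι Finset.univ Subtype.val_injective (fun i _ => (le_of_mem_Dg i.2).trans_lt hr) hc m (Finset.mem_univ _)
  obtain ⟨n, -, hn⟩ := FiniteField.card E p
  obtain ⟨k, -, hk⟩ := FiniteField.card F p
  have h2 : (2 : K) ≠ 0 := by rw [← map_ofNat f 2]; exact (map_ne_zero f).2 h.cv.two
  refine le_antisymm ?_ ?_
  · have fx : ∀ t : E, ι t ^ p ^ (n : ℕ) = ι t := fun t => by rw [← map_pow, ← hn, FiniteField.pow_card]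
    have co : ∀ g m m', b.repr (R g (b m)) m' ^ p ^ (n : ℕ) = b.repr (R g (b m)) m' := fun g m m' =>
      sub_eq_zero.1 (vd (fun m' => b.repr (R g (b m)) m' ^ p ^ (n : ℕ) - b.repr (R g (b m)) m') (fun t => by
        have e1 : Θ (R g (b m)) ![1, t] ^ p ^ (n : ℕ) = Θ (R g (b m)) ![1, t] := by
          rw [he, hb, mul_pow, pow_right_comm, fx, pow_right_comm, fx]
        rw [ev, sum_pow_char_pow] at e1
        simp only [sub_mul, Finset.sum_sub_distrib]
        rw [← e1, sub_eq_zero]
        exact Finset.sum_congr rfl fun m' _ => by rw [mul_pow, pow_right_comm (ι t), fx]) m')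
    have t1 : ∀ g, tr (ρ g).1 ^ p ^ (n : ℕ) = tr (ρ g).1 := fun g => f.injective (by
      have e1 : f (tr (ρ g).1) = ∑ m, b.repr (R g (b m)) m := by
        rw [← tr_map, Q4.tr, ← Matrix.trace_toLin'_eq, LinearMap.trace_eq_matrix_trace K b, Matrix.trace]
        exact Finset.sum_congr rfl fun m _ => by rw [Matrix.diag_apply, LinearMap.toMatrix_apply]; rfl
      rw [map_pow, e1, sum_pow_char_pow]
      exact Finset.sum_congr rfl fun m _ => co g m m)
    obtain ⟨j, -, j1, j2⟩ := D3.card_le_of_fix p n.2 (h.ns.eq_top h.env (k := D3.fixF F p n) fun g hg => by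
      obtain ⟨s, e | e⟩ := hρ g (le_pm P hg)
      · rw [e]; exact t1 s
      · rw [e, show tr (-(ρ s).1) = -tr (ρ s).1 by simp [Q4.tr]]
        exact neg_mem (show tr (ρ s).1 ∈ D3.fixF F p n from t1 s))
    rw [j2, hn]
    exact Nat.pow_le_pow_right hp.pos j1
  · obtain ⟨v, v0, hv⟩ := sm_fix p (K := F) (fun t : E => T2.lv (ρ (upper t)).1)
      (by simp only [upper_zero, map_one, OneMemClass.coe_one]) fun s t => by
        simp only [← upper_mul, map_mul, Subgroup.coe_mul]
    have mv : ∀ g : G6 F, (mp f g).1 *ᵥ (f ∘ v) = f ∘ (g.1 *ᵥ v) := fun g => funext fun i =>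
      (RingHom.map_mulVec f g.1 v i).symm
    let z : Dg p r := ⟨0, zero_mem_Dg hp r⟩
    have e1 : ∀ m, m ≠ z → b.repr (f ∘ v) m = 0 := fun m hm => by
      have := vd (fun m => b.repr (f ∘ v) m - if m = z then Θ (f ∘ v) ![1, 0] else 0) (fun t => by
        have e2 : R (upper t) (f ∘ v) = f ∘ v := by rw [hR, mv]; exact congrArg _ (hv t)
        have e3 : Θ (f ∘ v) ![1, 0] = Θ (f ∘ v) ![1, t] := by
          have e4 : ![(1 : E), 0] ᵥ* (upper t).1 = ![1, t] := by
            ext i
            fin_cases i <;> simp [Matrix.vecMul, dotProduct]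
          rw [← e4, ← he, e2]
        simp only [sub_mul, Finset.sum_sub_distrib, ← ev, ite_mul, zero_mul, Finset.sum_ite_eq', Finset.mem_univ,
          if_true, z, pow_zero, mul_one, e3, sub_self]) m
      rwa [if_neg hm, sub_zero] at this
    have e2 : f ∘ v = b.repr (f ∘ v) z • b z := by
      conv_lhs => rw [← b.sum_repr (f ∘ v), Finset.sum_eq_single z (fun m _ hm => by rw [e1 m hm, zero_smul])
        (fun e => absurd (Finset.mem_univ _) e)]
    obtain ⟨i, hi⟩ := Function.ne_iff.1 v0
    have e3 : ∀ s : E, (ι s ^ r) ^ p ^ (k : ℕ) = ι s ^ r := fun s => by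
      by_cases s0 : s = 0
      · rcases r.eq_zero_or_pos with r0 | r0
        · rw [r0, pow_zero, one_pow]
        · rw [s0, map_zero, zero_pow r0.ne', zero_pow (pow_pos hp.pos _).ne']
      have e4 : R (dS (Units.mk0 s s0)) (b z) = ι s ^ r • b z := hj (funext fun x => by
        rw [he, map_smul, Pi.smul_apply, hb, hb]
        simp [z, Matrix.vecMul, dotProduct, mul_pow, mul_comm])
      have e5 : R (dS (Units.mk0 s s0)) (f ∘ v) = ι s ^ r • (f ∘ v) := by
        rw [e2, map_smul, e4, smul_comm]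
      rw [hR, mv] at e5
      have e6 : f (((ρ (dS (Units.mk0 s s0))).1.1 *ᵥ v) i / v i) = ι s ^ r := by
        rw [map_div₀, div_eq_iff ((map_ne_zero f).2 hi)]
        exact congrFun e5 i
      rw [← e6, ← map_pow, ← hk, FiniteField.pow_card]
    have key : ∀ a : ℕ, (∀ t, ((iterateFrobenius K p a).comp ι) t =
        ((iterateFrobenius K p k).comp ((iterateFrobenius K p a).comp ι)) t) →
        Fintype.card E ≤ Fintype.card F := fun a ha => by
      obtain ⟨j, -, j1, j2⟩ := D3.card_le_of_fix p k.2 (show D3.fixF E p k = ⊤ from eq_top_iff.2 fun t _ =>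
        ((iterateFrobenius K p a).comp ι).injective (by
          change ((iterateFrobenius K p a).comp ι) (t ^ p ^ (k : ℕ)) = ((iterateFrobenius K p a).comp ι) t
          rw [map_pow]
          exact (ha t).symm))
      rw [j2, hk]
      exact Nat.pow_le_pow_right hp.pos j1
    rcases Dg_six' hp c6 with ⟨h7, a, rfl⟩ | ⟨a, c, ac, rfl, -⟩
    · refine key a (l2_five (fun e => ?_) fun t => ?_)
      · have : p ∣ 60 := (CharP.cast_eq_zero_iff K p 60).1 (by exact_mod_cast e)
        have h3 : p ∣ 2 ^ 2 * 3 * 5 := this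
        rcases (Nat.Prime.dvd_mul hp).1 h3 with h3 | h3
        · rcases (Nat.Prime.dvd_mul hp).1 h3 with h3 | h3
          · have := Nat.le_of_dvd two_pos (hp.dvd_of_dvd_pow h3); omega
          · have := Nat.le_of_dvd three_pos h3; omega
        · have := Nat.le_of_dvd (by norm_num) h3; omega
      · have := e3 t
        simp only [RingHom.comp_apply, iterateFrobenius_def]
        generalize p ^ a = A at this ⊢
        generalize p ^ (k : ℕ) = B at this ⊢
        linear_combination -this
    · refine key a (l2_twelve (β := (iterateFrobenius K p c).comp ι)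
        (β' := (iterateFrobenius K p k).comp ((iterateFrobenius K p c).comp ι)) h2
        (l2_frob p ι ac (by omega) (by omega)) fun t => ?_)
      have := e3 t
      simp only [RingHom.comp_apply, iterateFrobenius_def]
      generalize p ^ a = A at this ⊢
      generalize p ^ c = C at this ⊢
      generalize p ^ (k : ℕ) = B at this ⊢
      linear_combination -this

end Cfsg.Lib.S6Q
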