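import Cfsg.Agent.Lib.S6Q.EL2b
import Cfsg.Agent.Lib.S6Q.EL2c
import Cfsg.Agent.Lib.Asch.AmbInst
import Cfsg.Agent.Lib.Linear.Aut

/-!
# The ending `L₂(q)` in defining characteristic
-/

set_option autoImplicit false

namespace Cfsg.Lib.S6Q

open scoped MatrixGroups Matrix commutatorElement
open Cfsg.Geo Cfsg.Lib.Asch Cfsg.Lib.Linear Cfsg.Lib.Q4 Cfsg.Lib.Symp Module
open Cfsg.Lib.Q4R (Sq HasTv sc dg)
open Cfsg.Lib.PSL2 (upper toL)

variable {F : Type*} [Field F] [Fintype F] (p : ℕ) [Fact p.Prime] [CharP F p] {H P : Subgroup (G6 F)}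

/-- A non-scalar element of `Sp₆(F)` commuting with all `H`-conjugates of a matrix `D`: `D` is scalar. -/
theorem Mx.l2_scal (m : Mx H P) (h : QS P) {D : Matrix I6 I6 F} {x : G6 F} (xs : x ∈ Sp F) (x0 : x ∉ scalars I6 F)
    (c : ∀ n ∈ H, Commute x.1 (cj n D)) : ∃ a : F, D = a • 1 := by
  let N : Subgroup (G6 F) := ⨅ n ∈ H, cenP (cj n D)
  have mN : ∀ g, g ∈ N ↔ ∀ n ∈ H, Commute g.1 (cj n D) := fun g => by simp only [N, Subgroup.mem_iInf]; rfl
  have k : ∀ n ∈ H, ∀ g ∈ N, n * g * n⁻¹ ∈ N := fun n hn g hg => (mN _).2 fun a ha => by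
    have := ((mN g).1 hg (n⁻¹ * a) (mul_mem (inv_mem hn) ha)).map (cjAlg n)
    rwa [show cjAlg n g.1 = _ from cj_coe n g, show cjAlg n (cj _ D) = _ from (cj_mul n _ D).symm, mul_inv_cancel_left] at this
  have hN : H ≤ Subgroup.normalizer (N : Set (G6 F)) := fun n hn => Subgroup.mem_normalizer_iff.2 fun g =>
    ⟨k n hn g, fun hg => by simpa [mul_assoc] using k n⁻¹ (inv_mem hn) _ hg⟩
  have d : ∀ g ∈ N, D * g.1 = g.1 * D := fun g hg => by simpa [cj_def] using ((mN g).1 hg 1 H.one_mem).eq.symm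
  refine eq_smul_one_of_commute_adjoin h.env D ?_
  rintro _ ⟨y, hy, rfl⟩
  by_cases s : Sp F ≤ Subgroup.normalizer (N : Set (G6 F))
  · exact d y (((amb_sp (by norm_num) (by norm_num)).normal s).resolve_left (fun e => x0 (e ⟨(mN x).2 c, xs⟩))
      (m.max.1.le (m.le hy)))
  have xH : x ∈ H := eq_inf_of_max m.max hN s ▸ ⟨Subgroup.le_normalizer ((mN x).2 c), xs⟩
  have := h.simple
  have nn : (N.subgroupOf P).Normal := ⟨fun a ha g => k g (m.le g.2) a ha⟩
  rcases (nn.map _ (QuotientGroup.mk'_surjective ((scalars I6 F).subgroupOf P))).eq_bot_or_eq_top with e | e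
  · refine absurd (m.cen x xH fun z hz => ?_) x0
    have := e.le ⟨⟨x * z * x⁻¹ * z⁻¹, mul_mem (m.norm x xH z hz) (inv_mem hz)⟩, show x * z * x⁻¹ * z⁻¹ ∈ N by
      simpa only [mul_assoc] using mul_mem ((mN x).2 c) (k z (m.le hz) _ (inv_mem ((mN x).2 c))), rfl⟩
    exact (QuotientGroup.eq_one_iff (N := (scalars I6 F).subgroupOf P) _).1 this
  · obtain ⟨z, hz, e⟩ := e.ge (Subgroup.mem_top (QuotientGroup.mk' _ ⟨y, hy⟩))
    obtain ⟨a, ha⟩ := mem_scalars_iff'.1 (show z.1⁻¹ * y ∈ scalars I6 F from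
      (QuotientGroup.eq (s := (scalars I6 F).subgroupOf P)).1 e)
    rw [Units.val_mul, Units.inv_mul_eq_iff_eq_mul] at ha
    change D * y.1 = y.1 * D
    rw [ha, ← mul_assoc, d z hz]
    simp

variable {E : Type*} [Field E] [Fintype E] [CharP E p] {π : pm P →* PSL(2, E)}

omit [Fintype F] [CharP F p] in
/-- Modulo `P` every `n ∈ H` normalises the upper unitriangular group and acts semilinearly on it. -/
theorem Od.l2_aut (h : Od P π) (m : Mx H P) (h2 : p ≠ 2) {ρ : SL(2, E) →* pm P} (hρ : ∀ g, π (ρ g) = toL g) {n : G6 F}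
    (hn : n ∈ H) : ∃ (s : SL(2, E)) (d : E) (σ : E ≃+* E), d ≠ 0 ∧
      ∀ t, ((ρ s).1⁻¹ * n) * (ρ (upper t)).1 * ((ρ s).1⁻¹ * n)⁻¹ = (ρ (upper (d * σ t))).1 := by
  obtain ⟨φ, h1, h3, -⟩ := h.exists_aut m hn
  obtain ⟨g, σ, rfl⟩ := aut_PSL_decomp_two φ
  have d0 : g.1.det ≠ 0 := g.det_ne_zero
  let s : SL(2, E) := ⟨g.1 * !![g.1.det⁻¹, 0; 0, 1], by simp [Matrix.det_fin_two_of, d0]⟩
  have up : ∀ t : E, (ρ (upper t)).1 ^ p = 1 := fun t => by
    rw [← Subgroup.coe_pow, ← map_pow, PSL2.upper_pow, CharP.cast_eq_zero, zero_mul, PSL2.upper_zero, map_one]; rfl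
  refine ⟨s, g.1.det, σ, d0, fun t => ?_⟩
  have e : conjSL g (fieldSL σ (upper t)) = s * upper (g.1.det * σ t) * s⁻¹ := by
    rw [eq_mul_inv_iff_mul_eq]
    refine Subtype.ext ?_
    change g.1 * (upper t).1.map σ * (g⁻¹).1 * (g.1 * _) = g.1 * _ * _
    rw [mul_assoc, Units.inv_mul_cancel_left, mul_assoc, mul_assoc]
    congr 1
    ext i j
    fin_cases i <;> fin_cases j <;> simp [Matrix.mul_apply, d0]
  have e' := h.cv.lift_unique (g := ⟨_, h3 _ (ρ (upper t)).2⟩) (g' := ρ (s * upper (g.1.det * σ t) * s⁻¹))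
    ((Fact.out : p.Prime).odd_of_ne_two h2) (by rw [← h1, hρ, hρ, ← e]; rfl) (by rw [conj_pow, up]; simp)
    (by simp only [map_mul, map_inv, Subgroup.coe_mul, Subgroup.coe_inv]; rw [conj_pow, up]; simp)
  replace e' := congrArg Subtype.val e'
  simp only [map_mul, map_inv, Subgroup.coe_mul, Subgroup.coe_inv] at e'
  rw [← mul_left_cancel_iff (a := (ρ s).1), ← mul_right_cancel_iff (a := (ρ s).1⁻¹), ← e']
  group

/-- The twisted tensor product `2 ⊗ 3` lies in a tensor product subgroup. -/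
theorem Od.l2d_seven (h : Od P π) (m : Mx H P) (h5 : 5 ≤ Fintype.card E) : 7 ≤ p := by
  have t2 := h.cv.two
  have h2 : p ≠ 2 := fun e => t2 (by rw [← Nat.cast_ofNat, ← e, CharP.cast_eq_zero])
  obtain ⟨ρ, hπ, hρ⟩ := h.exists_sl h5
  refine (l2_cdg p (algebraMap F (AlgebraicClosure F)) h2
    (FiniteField.ringEquivOfCardEq (h.l2d_card' p h5).symm).toRingHom ((pm P).subtype.comp ρ) fun X hX => h.irr _ X (by
      rintro _ ⟨g, hg, rfl⟩ v hv
      obtain ⟨s, rfl | rfl⟩ := hρ g hg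
      · exact hX s v hv
      · rw [mp_neg, Units.val_neg, Matrix.neg_mulVec]
        exact neg_mem (hX s v hv))).resolve_right ?_
  rintro ⟨α, β, n, C, D, G, e, c2, c0, d2, d3, cd⟩
  replace e : ∀ t, (ρ (upper t)).1.1 - (ρ (upper (-t))).1.1 = _ := e
  replace cd : ∀ s, Commute (cj (ρ s).1 C) D := cd
  have cJ : Cᵀ * Matrix.J (Fin 3) F + Matrix.J (Fin 3) F * C = 0 :=
    (l2_ded3 t2 n (B := Dᵀ * Matrix.J (Fin 3) F + Matrix.J (Fin 3) F * D)
      (C := Gᵀ * Matrix.J (Fin 3) F + Matrix.J (Fin 3) F * G) fun t => by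
      have k : ∀ t, (ρ (upper t)).1.1ᵀ * Matrix.J (Fin 3) F = Matrix.J (Fin 3) F * (ρ (upper (-t))).1.1 := fun t => by
        conv_rhs => rw [← mem_Sp'.1 (h.cv.sp (ρ (upper t)).2), mul_assoc, ← Units.val_mul, ← Subgroup.coe_mul, ← map_mul,
          PSL2.upper_mul, add_neg_cancel, PSL2.upper_zero, map_one]
        simp
      have : ((ρ (upper t)).1.1 - (ρ (upper (-t))).1.1)ᵀ * Matrix.J (Fin 3) F +
          Matrix.J (Fin 3) F * ((ρ (upper t)).1.1 - (ρ (upper (-t))).1.1) = 0 := by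
        rw [Matrix.transpose_sub, sub_mul, k, k, neg_neg, mul_sub, sub_add_sub_cancel, sub_self]
      rw [← this, e]
      simp only [Matrix.transpose_add, Matrix.transpose_smul, add_mul, mul_add, smul_mul_assoc, mul_smul_comm, smul_add]
      abel).1
  let x : G6 F := ⟨1 + C, 1 - C, by simp [add_mul, mul_sub, c2], by simp [sub_mul, mul_add, c2]⟩
  obtain ⟨a, rfl⟩ := m.l2_scal h.toQS (D := D) (x := x) (mem_Sp'.2 (by
    change (1 + C)ᵀ * _ * (1 + C) = _
    rw [Matrix.transpose_add, Matrix.transpose_one, add_mul, one_mul, eq_neg_of_add_eq_zero_left cJ]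
    simp [mul_add, add_mul, mul_assoc, c2])) (fun hx => by
      obtain ⟨a, ha⟩ := mem_scalars_iff'.1 hx
      replace ha : C = (a - 1) • 1 := by rw [sub_smul, ← ha, one_smul]; exact (add_sub_cancel_left _ _).symm
      rw [ha] at c2 c0
      simp_all) fun g hg => by
    obtain ⟨s, d, σ, d0, k⟩ := h.l2_aut p m h2 hπ (inv_mem hg)
    have n' : (α.comp σ.toRingHom).toMonoidHom ≠ (β.comp σ.toRingHom).toMonoidHom := fun e => n (MonoidHom.ext fun t => by
      simpa using DFunLike.congr_fun e (σ.symm t))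
    obtain ⟨μ, hμ⟩ : ∃ μ : F, cj ((ρ s).1⁻¹ * g⁻¹) C = μ • C := by
      rcases l2_ded6 t2 n n' (A := cj ((ρ s).1⁻¹ * g⁻¹) C) (B := cj ((ρ s).1⁻¹ * g⁻¹) D) (C := cj ((ρ s).1⁻¹ * g⁻¹) G)
        (A' := α d • C) (B' := β d • D) (C' := (α d * β d ^ 2) • G) (fun t => by
          rw [← cj_smul, ← cj_smul, ← cj_smul, ← cj_add, ← cj_add, ← e, cj_def, mul_sub, sub_mul, ← cj_def, ← cj_def,
            cj_coe, cj_coe, k, k, map_neg, mul_neg, e]
          simp only [map_mul, RingHom.comp_apply, RingEquiv.toRingHom_eq_coe, RingHom.coe_coe]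
          module) with a | a | a
      · exact ⟨0, by rw [a, zero_smul]⟩
      · exact ⟨_, a⟩
      · refine absurd ?_ d2
        have := cj_mul_mat ((ρ s).1⁻¹ * g⁻¹) C C
        rw [c2, a, (cj_eq_zero_iff _ _).2 rfl] at this
        simpa [d0] using this.symm
    have c1 : C = μ • cj g (cj (ρ s).1 C) := by
      rw [← cj_smul, ← cj_smul, ← hμ, ← cj_mul, ← cj_mul]
      simp [cj_def]
    refine (Commute.one_left _).add_left ?_
    rw [c1]
    exact ((cd s).map (cjAlg g)).smul_left μ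
  simp_all

theorem Od.l2d (h : Od P π) (m : Mx H P) (h5 : 5 ≤ Fintype.card E) : Nonempty (PSL(2, E) ≃* PSL(2, F)) ∧ 7 ≤ p :=
  ⟨⟨congrPSL (Equiv.refl _) (FiniteField.ringEquivOfCardEq (h.l2d_card' p h5).symm)⟩, h.l2d_seven p m h5⟩

end Cfsg.Lib.S6Q
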