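import Cfsg.Agent.Lib.S6Q.T2b
import Cfsg.Agent.Lib.D3.L27
import Cfsg.Agent.Lib.Pres.Carm
import Cfsg.Agent.Lib.Pres.SL2
import Mathlib.Algebra.QuadraticAlgebra.Basic

/-!
# `SL₂(7) < 2 · A₇ < Sp₆(9)`
-/

set_option autoImplicit false

namespace Cfsg.Lib.S6Q

open scoped MatrixGroups Matrix commutatorElement
open Cfsg.Geo Cfsg.Lib.Asch Cfsg.Lib.Linear Cfsg.Lib.Q4 Cfsg.Lib.Symp Module
open Cfsg.Lib.Q4R (Sq HasTv sc dg)

/-- `𝔽₃ [√2]` -/
abbrev M7R : Type := QuadraticAlgebra (ZMod 3) 2 0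

/-- a matrix from its base-nine code -/
def m7m (a : ℕ) : Matrix I6 I6 M7R := .of fun i j =>
  ⟨(a / 9 ^ (6 * Sum.elim (·.1) (·.1 + 3) i + Sum.elim (·.1) (·.1 + 3) j) : ℕ),
    (a / 9 ^ (6 * Sum.elim (·.1) (·.1 + 3) i + Sum.elim (·.1) (·.1 + 3) j) / 3 : ℕ)⟩

/-- codes of Carmichael generators -/
def m7a : Fin 7 → ℕ := ![372100211400006032852391051555, 5015926127161383579853333880886498,
  20602742568971628476038136143600, 5011815929344784149622287686290727, 10301109612802984354562820263844,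
  2503156028340984047688117509194510, 2503156028340984047688117509194510]

theorem m7a_cube : ∀ i, m7m (m7a i) * (m7m (m7a i) * m7m (m7a i)) = 1 := by decide +kernel

/-- the Carmichael generators -/
def m7x (i : Fin 7) : GL I6 M7R :=
  ⟨m7m (m7a i), m7m (m7a i) * m7m (m7a i), m7a_cube i, by rw [mul_assoc, m7a_cube]⟩

theorem m7x_cube (i : Fin 7) : m7x i ^ 3 = 1 := Units.ext (by rw [pow_three]; exact m7a_cube i)

theorem m7x_sq : ∀ i ≠ 5, i ≠ 6 → ∀ j ≠ 5, j ≠ 6 → i ≠ j → (m7x i * m7x j) ^ 2 = -1 := by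
  have : ∀ i ≠ 5, i ≠ 6 → ∀ j ≠ 5, j ≠ 6 → i ≠ j →
      m7m (m7a i) * m7m (m7a j) * (m7m (m7a i) * m7m (m7a j)) = -1 := by decide +kernel
  exact fun i a b j c d e => Units.ext (by rw [sq]; exact this i a b j c d e)

theorem m7x_sp : ∀ i, (m7x i).1ᵀ * Matrix.J (Fin 3) M7R * (m7x i).1 = Matrix.J (Fin 3) M7R := by
  decide +kernel

theorem m7_rel {u v : GL I6 M7R} (hu : u = m7x 0 * m7x 1 * (m7x 2 * m7x 3) * m7x 4)
    (hv : v = m7x 1 * m7x 0 * (m7x 4 * m7x 3) * m7x 2) : u ^ 7 = 1 ∧ u * v * u = v * u * v ∧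
      u * v * u * (u * v * u) = -1 ∧ u ^ 3 * v ^ 5 * u ^ 3 * v = u ^ 2 * (u ^ 3 * v ^ 5 * u ^ 3) ∧
      u ^ 3 * v ^ 5 * u ^ 3 * (u ^ 3 * v ^ 5 * u ^ 3) = -1 ∧ (u * v * u * u ^ 4).1.trace = ⟨0, 1⟩ ∧ u.1.trace = -1 := by
  have e1 : u.1 = m7m 20796926465809976726895223075623 := by subst hu; decide +kernel
  have e2 : v.1 = m7m 3123466917885863851788260599689307 := by subst hv; decide +kernel
  have u3 : (u ^ 3).1 = m7m 11869100425185128034509446328616254 := by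
    simp only [pow_three, Units.val_mul, e1]; decide +kernel
  have v5 : (v ^ 5).1 = m7m 2029450331617632621170718101306322 := by
    simp only [show v ^ 5 = v * v * (v * v) * v by simp only [pow_succ, pow_zero, one_mul, mul_assoc], Units.val_mul, e2]
    decide +kernel
  have t : (u * v * u).1 = m7m 8745594260331539220255128471501244 := by
    simp only [Units.val_mul, e1, e2]; decide +kernel
  have w : (u ^ 3 * v ^ 5 * u ^ 3).1 = m7m 16255059379716919457002561594899705 := by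
    simp only [Units.val_mul, u3, v5]; decide +kernel
  refine ⟨Units.ext ?_, Units.ext ?_, Units.ext ?_, Units.ext ?_, Units.ext ?_, ?_, ?_⟩
  · rw [show u ^ 7 = u ^ 3 * u * u ^ 3 by rw [← pow_succ, ← pow_add], Units.val_mul, Units.val_mul, u3, e1]; decide +kernel
  · rw [t, Units.val_mul, Units.val_mul, e1, e2]; decide +kernel
  · rw [Units.val_mul, t]; decide +kernel
  · rw [Units.val_mul, Units.val_mul (u ^ 2), w, sq, Units.val_mul, e1, e2]; decide +kernel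
  · rw [Units.val_mul, w]; decide +kernel
  · rw [Units.val_mul, t, pow_succ u 3, Units.val_mul, u3, e1]; decide +kernel
  · rw [e1]; decide +kernel

theorem m7_five {y : GL I6 M7R} (hy : y = -(m7x 1 * m7x 0 * m7x 2)) : y ^ 5 = 1 ∧ y.1.trace = 1 := by
  have e1 : y.1 = m7m 9009945021490196009848357068067329 := by subst hy; decide +kernel
  refine ⟨Units.ext ?_, by rw [e1]; decide +kernel⟩
  simp only [show y ^ 5 = y * y * (y * y) * y by simp only [pow_succ, pow_zero, one_mul, mul_assoc], Units.val_mul, e1]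
  decide +kernel

theorem m7_sl2 {G : Type*} [Group G] {u v z : G} (h7 : u ^ 7 = 1) (hb : u * v * u = v * u * v)
    (ht : u * v * u * (u * v * u) = z) (h1 : u ^ 3 * v ^ 5 * u ^ 3 * v = u ^ 2 * (u ^ 3 * v ^ 5 * u ^ 3))
    (h2 : u ^ 3 * v ^ 5 * u ^ 3 * (u ^ 3 * v ^ 5 * u ^ 3) = z) : ∃ ρ : SL(2, ZMod 7) →* G,
      (∀ M : Subgroup G, u ∈ M → v ∈ M → ∀ g, ρ g ∈ M) ∧ ρ (-1) = z ∧ ρ (D3.m7 0 1 6 3) = u * v * u * u ^ 4 ∧
        ρ (PSL2.upper 1) = u := by
  have hv : u * v * u * u * (u * v * u)⁻¹ = v := by rw [mul_inv_eq_iff_eq_mul, ← mul_assoc, ← mul_assoc, ← hb]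
  have hv' : (u * v * u)⁻¹ * u * (u * v * u) = v := by
    rw [mul_assoc, inv_mul_eq_iff_eq_mul]
    conv_lhs => rw [hb, ← mul_assoc, ← mul_assoc]
  generalize hw : u ^ 3 * v ^ 5 * u ^ 3 = w at *
  have e : w * (u * v * u)⁻¹ * u * (w * (u * v * u)⁻¹)⁻¹ = u ^ 2 := by
    rw [← mul_inv_eq_iff_eq_mul.2 h1]
    conv_rhs => rw [← hv']
    group
  obtain ⟨ρ, r1, r2, -⟩ := Pres.exists_sl2_hom (F := ZMod 7) (ζ := ⟨3, 5, rfl, rfl⟩) (u := u) (v := v) (h := w * (u * v * u)⁻¹)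
    (X := fun a => u ^ a.val) (fun a => by
      obtain ⟨k, hk⟩ : ∃ k : Fin 6, (⟨3, 5, rfl, rfl⟩ : (ZMod 7)ˣ) ^ k.1 = a := by revert a; decide
      exact ⟨k, hk⟩)
    ⟨fun a b => by rw [ZMod.val_add, ← pow_eq_pow_mod _ h7, pow_add], pow_one u, fun a => by
      rw [← conj_pow, e, ← pow_mul, pow_eq_pow_mod _ h7]
      exact congrArg _ (by revert a; decide)⟩ hb (by
      rw [mul_assoc _ _ (_)⁻¹, mul_assoc w, ← mul_inv_rev, ht, ← h2]; group) (by
      have : ((3 : ZMod 7)⁻¹).val = 5 := by decide +kernel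
      simp only [this]
      rw [← conj_pow, hv, inv_mul_cancel_right]
      exact hw)
  have u1 : ρ (Root.xU 1) = u := (r1 1).trans (pow_one u)
  refine ⟨ρ, fun M hu hv g => ?_, ?_, ?_, u1⟩
  · have : (⊤ : Subgroup SL(2, ZMod 7)) ≤ M.comap ρ := by
      rw [← Root.upper_sup_lower, sup_le_iff]
      refine ⟨fun y hy => ?_, fun y hy => ?_⟩
      · obtain ⟨t, rfl⟩ := Root.mem_upper_iff.1 hy
        rw [Subgroup.mem_comap, r1]
        exact pow_mem hu _
      · obtain ⟨t, rfl⟩ := Root.mem_lower_iff.1 hy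
        rw [Subgroup.mem_comap, (by decide +kernel : ∀ t : ZMod 7, Root.xL t = Root.xL (-1) ^ (-t).val) t, map_pow, r2]
        exact pow_mem hv _
    exact this trivial
  · rw [show (-1 : SL(2, ZMod 7)) = Root.xU 1 * Root.xL (-1) * Root.xU 1 * (Root.xU 1 * Root.xL (-1) * Root.xU 1) by
      decide +kernel]
    simp only [map_mul, u1, r2, ht]
  · rw [show D3.m7 0 1 6 3 = Root.xU 1 * Root.xL (-1) * Root.xU 1 * Root.xU 1 ^ 4 by decide +kernel]
    simp only [map_mul, map_pow, u1, r2]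

/-- An explicit model (`s² = 2 = -1`).  `L / ± 1` is a quotient of `A₇` by Carmichael's relations
(`Pres.carmichael_univ` in `GL₆(F) / ± 1`), so `|L| ∣ 5040`; `ρ` comes from `Pres.exists_sl2_hom`. -/
theorem exists_m7 {F : Type*} [Field F] [CharP F 3] {s : F} (hs : s ^ 2 = 2) : ∃ (L : Subgroup (G6 F))
    (ρ : SL(2, ZMod 7) →* G6 F), L ≤ Sp F ∧ -1 ∈ L ∧ (∀ g, ρ g ∈ L) ∧ Nat.card L ∣ 5040 ∧ 5 ∣ Nat.card L ∧ ρ (-1) = -1 ∧
      tr (ρ (D3.m7 0 1 6 3)) = s ∧ ρ (PSL2.upper 1) ≠ 1 := by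
  letI := ZMod.algebra F 3
  let f : M7R →ₐ[ZMod 3] F := QuadraticAlgebra.lift ⟨s, by rw [← sq, hs, zero_smul, add_zero, two_smul, one_add_one_eq_two]⟩
  have fs : f ⟨0, 1⟩ = s := by simp [f]
  let φ : GL I6 M7R →* G6 F := Matrix.GeneralLinearGroup.map f.toRingHom
  have φ1 : ∀ g, (φ g).1 = f.toRingHom.mapMatrix g.1 := fun _ => rfl
  have φn : ∀ g, φ (-g) = -φ g := fun g => Units.ext (by rw [Units.val_neg, φ1, φ1, Units.val_neg, map_neg])
  have φt : ∀ g, tr (φ g) = f g.1.trace := fun g => (AddMonoidHom.map_trace f.toRingHom g.1).symm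
  have t1 : tr (1 : G6 F) = 0 := by
    rw [tr_one, CharP.cast_eq_zero_iff F 3]; decide
  let Z : Subgroup (G6 F) := Subgroup.zpowers (-1)
  haveI : Z.Normal := ⟨fun n hn g => by
    obtain ⟨k, rfl⟩ := Subgroup.mem_zpowers_iff.1 hn
    rwa [← ((Commute.neg_one_left g).zpow_left k).eq, mul_inv_cancel_right]⟩
  let π := QuotientGroup.mk' Z
  have πn : π (-1) = 1 := (QuotientGroup.eq_one_iff _).2 (Subgroup.mem_zpowers _)
  obtain ⟨ψ, hψ, hx⟩ := Pres.carmichael_univ (α := (5 : Fin 7)) (β := 6) (by decide) (fun i => π (φ (m7x i)))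
    (fun i _ _ => by rw [← map_pow, ← map_pow, m7x_cube, map_one, map_one])
    fun i a b j c d e => by rw [← map_mul, ← map_mul, ← map_pow, ← map_pow, m7x_sq i a b j c d e, φn, map_one, πn]
  have hc := Pres.closure_carm_univ (α := (5 : Fin 7)) (β := 6) (by decide)
  let L := hψ.toHom.range.comap π
  have xL : ∀ i ≠ 5, i ≠ 6 → φ (m7x i) ∈ L := fun i a b =>
    ⟨⟨_, hc.le (Subgroup.subset_closure ⟨i, trivial, a, b, rfl⟩)⟩, hx i a b⟩
  have nL : -1 ∈ L := by rw [Subgroup.mem_comap, πn]; exact one_mem _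
  have x0 := xL 0 (by decide) (by decide)
  have x1 := xL 1 (by decide) (by decide)
  have x2 := xL 2 (by decide) (by decide)
  have x3 := xL 3 (by decide) (by decide)
  have x4 := xL 4 (by decide) (by decide)
  obtain ⟨a1, a2, a3, a4, a5, a6, a7⟩ := m7_rel rfl rfl
  obtain ⟨ρ, r1, r2, r3, r4⟩ := m7_sl2 a1 a2 a3 a4 a5
  refine ⟨L, φ.comp ρ, ?_, nL, r1 (L.comap φ) ?_ ?_, ?_, ?_, ?_, ?_, fun e => ?_⟩
  · rintro g ⟨⟨k, hk⟩, e⟩
    have : ψ k ∈ (Sp F).map π := Pres.PHom.mem (hc.symm ▸ hψ) (by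
      rintro _ ⟨i, -, a, b, rfl⟩
      refine hx i a b ▸ Subgroup.mem_map_of_mem _ (mem_Sp'.2 ?_)
      have := congrArg f.toRingHom.mapMatrix (m7x_sp i)
      rw [map_mul, map_mul] at this
      have J : f.toRingHom.mapMatrix (Matrix.J (Fin 3) M7R) = Matrix.J (Fin 3) F := by
        ext (i | i) (j | j) <;> simp [Matrix.J, Matrix.one_apply, apply_ite f]
      rw [J] at this
      exact this) (hc.ge hk)
    rw [show ψ k = π g from e, ← Subgroup.mem_comap, Subgroup.comap_map_eq, QuotientGroup.ker_mk',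
      sup_eq_left.2 (Subgroup.zpowers_le.2 neg_one_mem)] at this
    exact this
  · simp only [Subgroup.mem_comap (f := φ), map_mul]
    exact mul_mem (mul_mem (mul_mem x0 x1) (mul_mem x2 x3)) x4
  · simp only [Subgroup.mem_comap (f := φ), map_mul]
    exact mul_mem (mul_mem (mul_mem x1 x0) (mul_mem x4 x3)) x2
  · refine (QuotientGroup.card_preimage_mk Z hψ.toHom.range).dvd.trans (mul_dvd_mul (b := 2) (d := 2520) ?_ ?_)
    · rw [Nat.card_zpowers]
      exact orderOf_dvd_of_pow_eq_one neg_one_sq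
    · refine (Subgroup.card_range_dvd hψ.toHom).trans (dvd_of_eq ?_)
      rw [nat_card_alternatingGroup]; simp [Nat.factorial]
  · obtain ⟨b1, b2⟩ := m7_five rfl
    haveI : Fact (Nat.Prime 5) := ⟨by decide⟩
    rw [← orderOf_eq_prime (x := φ (-(m7x 1 * m7x 0 * m7x 2))) (p := 5) (by rw [← map_pow, b1, map_one]) fun e => by
      have := φt (-(m7x 1 * m7x 0 * m7x 2))
      rw [e, t1, b2, map_one] at this
      exact zero_ne_one this]
    refine Subgroup.orderOf_dvd_natCard _ ?_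
    rw [φn, ← neg_one_mul, map_mul, map_mul]
    exact mul_mem nL (mul_mem (mul_mem x1 x0) x2)
  · rw [MonoidHom.comp_apply, r2, φn, map_one]
  · rw [MonoidHom.comp_apply, r3, φt, a6, fs]
  · have := φt (ρ (PSL2.upper 1))
    rw [show φ (ρ _) = 1 from e, t1, r4, a7, map_neg, map_one] at this
    exact one_ne_zero (neg_eq_zero.1 this.symm)

end Cfsg.Lib.S6Q
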