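import Cfsg.Agent.Lib.S6Q.T4
import Cfsg.Agent.Lib.S6Q.M7

/-!
# The ending `L₂(7)`
-/

set_option autoImplicit false

namespace Cfsg.Lib.S6Q

open scoped MatrixGroups Matrix commutatorElement
open Cfsg.Geo Cfsg.Lib.Asch Cfsg.Lib.Linear Cfsg.Lib.Q4 Cfsg.Lib.Symp Module
open Cfsg.Lib.Q4R (Sq HasTv sc dg)

variable {F : Type*} [Field F] [Fintype F] (p : ℕ) [Fact p.Prime] [CharP F p] {H P : Subgroup (G6 F)}

variable {π : pm P →* PSL(2, ZMod 7)}

open D3 Cfsg.Lib.PSL2 in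
/-- The classes of `SL₂(7)` up to sign. -/
theorem el7_cl (g : SL(2, ZMod 7)) : ∃ r ∈ [1, upper 1, (upper 1)⁻¹, m7 0 (-1) 1 0, m7 0 1 (-1) (-1), m7 0 1 6 3],
    IsConj g r ∨ IsConj g (-r) := by
  have k1 : ∀ a b c d : ZMod 7, a * d - b * c = 1 → (a = 1 ∧ b = 0 ∧ c = 0 ∧ d = 1) ∨ (a = -1 ∧ b = 0 ∧ c = 0 ∧ d = -1) ∨
      ∃ x y : ZMod 7, ∃ e ∈ [(1 : ZMod 7), -1], x * (e * (c * x + d * y)) - e * (a * x + b * y) * y = 1 := by
    decide +kernel
  have k2 : ∀ e ∈ [(1 : ZMod 7), -1], e * e = 1 := by decide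
  have k3 : ∀ t e : ZMod 7, ∀ h : 0 * t - -e * e = 1, ∃ k ∈ [m7 2 3 3 5, m7 0 1 6 0, m7 1 3 3 3, m7 0 1 6 6, m7 0 1 6 1,
      m7 0 1 6 3, m7 1 1 1 2], ∃ r ∈ [1, upper 1, (upper 1)⁻¹, m7 0 (-1) 1 0, m7 0 1 (-1) (-1), m7 0 1 6 3],
      k * m7 0 (-e) e t h = r * k ∨ k * m7 0 (-e) e t h = -r * k := by
    decide +kernel
  have k4 : ∀ a b c d h, (m7 a b c d h).1 = !![a, b; c, d] := fun _ _ _ _ _ => rfl
  have d := sl_det g
  rcases k1 _ _ _ _ d with ⟨a, b, c, d⟩ | ⟨a, b, c, d⟩ | ⟨x, y, e, he, h⟩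
  · exact ⟨1, by simp, .inl (by rw [show g = 1 from sl_ext a b c d])⟩
  · exact ⟨1, by simp, .inr (by rw [show g = -1 from sl_ext a (by simpa using b) (by simpa using c) d])⟩
  have e2 := k2 e he
  obtain ⟨k, -, r, hr, hk⟩ := k3 (g 0 0 + g 1 1) e (by linear_combination e2)
  have c : IsConj g (m7 0 (-e) e (g 0 0 + g 1 1) (by linear_combination e2)) :=
    (isConj_iff.2 ⟨m7 _ _ _ _ h, mul_inv_eq_of_eq_mul (sl_ext
      (by simp [k4, Matrix.mul_apply, Fin.sum_univ_two]; linear_combination (g 0 0 * x + g 0 1 * y) * e2)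
      (by simp [k4, Matrix.mul_apply, Fin.sum_univ_two]; linear_combination e * x * d)
      (by simp [k4, Matrix.mul_apply, Fin.sum_univ_two]; linear_combination (g 1 0 * x + g 1 1 * y) * e2)
      (by simp [k4, Matrix.mul_apply, Fin.sum_univ_two]; linear_combination e * y * d))⟩).symm
  exact ⟨r, hr, hk.imp (fun e => c.trans (isConj_iff.2 ⟨k, mul_inv_eq_of_eq_mul e⟩))
    fun e => c.trans (isConj_iff.2 ⟨k, mul_inv_eq_of_eq_mul e⟩)⟩

open D3 Cfsg.Lib.PSL2 in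
theorem el7_cl' (x : PSL(2, ZMod 7)) : ∃ r ∈ [1, upper 1, (upper 1)⁻¹, m7 0 (-1) 1 0, m7 0 1 (-1) (-1), m7 0 1 6 3],
    IsConj x (toL r) := by
  obtain ⟨g, rfl⟩ := toL_surjective x
  obtain ⟨r, hr, c | c⟩ := el7_cl g
  exacts [⟨r, hr, toL.map_isConj c⟩, ⟨r, hr, toL_neg r ▸ toL.map_isConj c⟩]

theorem el7_pow {G : Type*} [Group G] {a b : G} (c : IsConj a b) {n : ℕ} (h : a ^ n = 1) : b ^ n = 1 :=
  (isConj_one_right.1 (h ▸ c.pow n))

open D3 Cfsg.Lib.PSL2 in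
theorem el7_two {x : PSL(2, ZMod 7)} (e : x * x = 1) (n : x ≠ 1) : IsConj x (toL (m7 0 (-1) 1 0)) := by
  obtain ⟨r, hr, c⟩ := el7_cl' x
  have e' := el7_pow c (n := 2) (by rw [sq, e])
  rw [← map_pow, toL_eq_one_iff] at e'
  obtain rfl | rfl : r = 1 ∨ r = m7 0 (-1) 1 0 := by
    clear c
    revert r
    decide +kernel
  · exact (n (by simpa using c)).elim
  · exact c

open D3 Cfsg.Lib.PSL2 in
theorem el7_sq {r : SL(2, ZMod 7)} (hr : r = upper 1 ∨ r = (upper 1)⁻¹) : IsConj r (r ^ 2) :=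
  isConj_iff.2 ⟨m7 3 0 0 5, mul_inv_eq_of_eq_mul (by rcases hr with rfl | rfl <;> decide +kernel)⟩

open D3 Cfsg.Lib.PSL2 in
theorem el7_seven {x : PSL(2, ZMod 7)} (e : x ^ 7 = 1) : IsConj x (x ^ 2) := by
  obtain ⟨r, hr, c⟩ := el7_cl' x
  have e' := el7_pow c e
  rw [← map_pow, toL_eq_one_iff] at e'
  have : IsConj (toL r) (toL r ^ 2) := by
    obtain rfl | hr : r = 1 ∨ r = upper 1 ∨ r = (upper 1)⁻¹ := by
      clear c
      revert r
      decide +kernel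
    · simp
    · exact map_pow toL r 2 ▸ toL.map_isConj (el7_sq hr)
  exact c.trans (this.trans (c.pow 2).symm)

theorem el7_neg {K : Type*} [Field K] (g : G6 K) : tr (-g) = -tr g := by simp [Q4.tr]

theorem el7_mp {K L : Type*} [Field K] [Field L] (f : K →+* L) (g : G6 K) : tr (mp f g) = f (tr g) :=
  (AddMonoidHom.map_trace f g.1).symm

omit [Fintype F] in
theorem el7_ne {K : Type*} [Field K] (f : F →+* K) (h7 : p ≠ 7) : (7 : K) ≠ 0 := by
  rw [← map_ofNat f 7, map_ne_zero]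
  exact fun e => h7 ((Nat.prime_dvd_prime_iff_eq Fact.out (by norm_num)).1 ((CharP.cast_eq_zero_iff F p 7).1 e))

omit [Fintype F] in
/-- `scott_sp` for the `(2, 3, 7)` triple `D3.g168`: `13 + 7 + 3 > 21`. -/
theorem Od.l7_tii (h : Od P π) (h7 : p ≠ 7) (t : pm P) (e : π t * π t = 1) (n : π t ≠ 1) : t.1 * t.1 = -1 := by
  refine (h.cv.pm_sq e).resolve_left fun e1 => ?_
  let f := algebraMap F (AlgebraicClosure F)
  obtain ⟨π', c, hc⟩ := h.cv.ext f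
  obtain ⟨x, hx⟩ := isConj_iff.1 (el7_two e n)
  obtain ⟨k, rfl⟩ := c.surj x
  obtain ⟨b, hb, b3⟩ := c.lift (by decide) D3.g168.b3
  obtain ⟨a, ha, a2⟩ : ∃ a : ext f (pm P), π' a = PSL2.toL (D3.m7 0 (-1) 1 0) ∧ a.1 * a.1 = 1 :=
    ⟨k * ⟨mp f t.1, t.1, t.2, rfl⟩ * k⁻¹, by rw [map_mul, map_mul, map_inv, hc, hx], by
      simp only [Subgroup.coe_mul, Subgroup.coe_inv]
      rw [conj_mul, ← map_mul, e1, map_one, mul_one, mul_inv_cancel]⟩
  have hi := c.cw.irr_of_closure (h.irr f) (s := {a, b}) (by rw [Set.image_pair, ha, hb, D3.g168.gen])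
  rw [Set.image_pair] at hi
  have s1 := scott_sp c.two (c.sp a.2) (c.sp b.2) hi
  have s2 : 13 ≤ sd a.1 := by
    have a1 := mt (c.ker a).2 (ha ▸ D3.g168.a1)
    rcases ti_or c.two (c.sp a.2) a2 with e | e | e | e
    exacts [(a1 (.inl e)).elim, (a1 (.inr e)).elim, e.sd c.two, sd_neg (a := a.1) ▸ e.sd c.two]
  have s3 := sd_three c.two (c.sp b.2) b3
  have s4 := sd_ge (c.sp (a * b).2) (n := 7 * 2) (by
    rcases (c.ker ((a * b) ^ 7)).1 (by rw [map_pow, map_mul, ha, hb, D3.g168.u7]) with e | e <;>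
      rw [pow_mul, ← Subgroup.coe_pow, e] <;> simp) (by
    rw [Nat.cast_mul]
    exact mul_ne_zero (el7_ne p f h7) c.two)
  rw [Subgroup.coe_mul] at s4
  omega

omit [Fintype F] in
/-- Elements of `L₂(7)` have order `1, 2, 3, 4, 7`: `tr_int`, `tr_eight`, `tr_seven`. -/
theorem Od.l7_tr (h : Od P π) (h7 : p ≠ 7) {K : Type*} [Field K] (f : F →+* K) {s : K} (hs : s ^ 2 = 2) {g : G6 F} (hg : g ∈ P) :
    (∃ n : ℤ, f (tr g) = n) ∨ ∃ n : ℤ, f (tr g) = n * s := by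
  have c := h.cv
  have s6 := h.sp hg
  have z : ∀ {n : ℤ}, tr g = n → ∃ n : ℤ, f (tr g) = n := fun {n} e => ⟨n, by rw [e, map_intCast]⟩
  let x : pm P := ⟨g, le_pm P hg⟩
  have k : ∀ {n : ℕ}, π x ^ n = 1 → g ^ n = 1 ∨ g ^ n = -1 := fun {n} e => (c.ker (x ^ n)).1 (by rw [map_pow, e])
  rcases D3.ex_L27 (π x) with e | e | e
  · refine .inl ((tr_int s6 (.inr ?_)).elim fun _ => z)
    rcases k e with e | e <;> rw [show 6 = 3 * 2 from rfl, pow_mul, e] <;> simp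
  · rcases k e with e | e
    · exact .inl ((tr_int s6 (.inl e)).elim fun _ => z)
    · rw [← el7_mp]
      rcases tr_eight (by rw [← map_ofNat f 2]; exact (map_ne_zero f).2 c.two) (mp_mem_Sp f s6)
        (by rw [← map_pow, e, mp_neg, map_one]) hs with e | e | e | e
      exacts [.inr ⟨1, by simp [e]⟩, .inr ⟨-1, by simp [e]⟩, .inr ⟨3, by simp [e]⟩, .inr ⟨-3, by simp [e]⟩]
  · obtain ⟨y, hy, y7⟩ := c.lift (by decide) e
    obtain ⟨n, hn⟩ : ∃ n : ℤ, tr y.1 = n := by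
      by_cases y1 : y.1 = 1
      · exact ⟨6, by simp [y1, tr_one]⟩
      obtain ⟨w, hw⟩ := isConj_iff.1 (el7_seven e)
      obtain ⟨w, rfl⟩ := c.surj w
      refine ⟨-1, (tr_seven (el7_ne p (RingHom.id F) h7) (c.sp y.2) y7 y1 (isConj_iff.2 ⟨w.1, ?_⟩)).trans (by simp)⟩
      exact c.cw.conj (g' := y ^ 2) (y := w) (by decide) y7 (by rw [Subgroup.coe_pow, ← pow_mul, mul_comm, pow_mul, y7, one_pow])
        (by rw [map_pow, hy, hw])
    rcases c.eq_iff.1 hy.symm with e | e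
    · exact .inl (z (n := n) (by rw [← hn, ← e]))
    · exact .inl (z (n := -n) (by rw [Int.cast_neg, ← hn, ← el7_neg, ← e]))

theorem el7_tab {K : Type*} [Field K] [CharP K 3] (g : SL(2, ZMod 7)) : ∃ a b : ℤ, ∀ ρ : SL(2, ZMod 7) →* G6 K,
    (∀ g, ρ g ∈ Sp K) → ρ (-1) = -1 → ρ (PSL2.upper 1) ≠ 1 → tr (ρ g) = a + b * tr (ρ (D3.m7 0 1 6 3)) := by
  have h3 : (3 : K) = 0 := CharP.cast_eq_zero K 3
  have t1 : tr (1 : G6 K) = 0 := by
    rw [tr_one]
    simp only [Fintype.card_sum, Fintype.card_fin]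
    push_cast
    linear_combination h3 + h3
  obtain ⟨r, hr, c⟩ := el7_cl g
  suffices ∃ a b : ℤ, ∀ ρ : SL(2, ZMod 7) →* G6 K, (∀ g, ρ g ∈ Sp K) → ρ (-1) = -1 → ρ (PSL2.upper 1) ≠ 1 →
      tr (ρ r) = a + b * tr (ρ (D3.m7 0 1 6 3)) by
    obtain ⟨a, b, e⟩ := this
    rcases c with c | c
    · exact ⟨a, b, fun ρ s n u => by rw [tr_of_isConj (ρ.map_isConj c), e ρ s n u]⟩
    · refine ⟨-a, -b, fun ρ s n u => ?_⟩
      rw [tr_of_isConj (ρ.map_isConj c), ← neg_one_mul r, map_mul, n, neg_one_mul, el7_neg, e ρ s n u]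
      push_cast
      ring
  have k7 : ∀ ρ : SL(2, ZMod 7) →* G6 K, (∀ g, ρ g ∈ Sp K) → ρ (PSL2.upper 1) ≠ 1 → tr (ρ (PSL2.upper 1)) = -1 :=
    fun ρ s u => tr_seven (fun e => one_ne_zero (α := K) (by linear_combination e - 2 * h3)) (s _)
      (by rw [← map_pow, show PSL2.upper (1 : ZMod 7) ^ 7 = 1 by decide +kernel, map_one]) u
      (map_pow ρ _ 2 ▸ ρ.map_isConj (el7_sq (.inl rfl)))
  simp only [List.mem_cons, List.not_mem_nil, or_false] at hr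
  rcases hr with rfl | rfl | rfl | rfl | rfl | rfl
  · exact ⟨0, 0, fun ρ _ _ _ => by simp [t1]⟩
  · exact ⟨-1, 0, fun ρ s _ u => by simp [k7 ρ s u]⟩
  · exact ⟨-1, 0, fun ρ s _ u => by simp [tr_inv (s _), k7 ρ s u]⟩
  · refine ⟨0, 0, fun ρ s n _ => ?_⟩
    have := tr_inv (s (D3.m7 0 (-1) 1 0))
    rw [← map_inv, show (D3.m7 0 (-1) 1 0)⁻¹ = -1 * D3.m7 0 (-1) 1 0 by decide +kernel, map_mul, n, neg_one_mul,
      el7_neg] at this
    push_cast
    linear_combination this + tr (ρ (D3.m7 0 (-1) 1 0)) * h3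
  · refine ⟨0, 0, fun ρ _ _ _ => ?_⟩
    have := tr_unip 3 (s := 1) (u := ρ (D3.m7 0 1 (-1) (-1))) (n := 1)
      (by rw [← map_pow, show D3.m7 0 1 (-1) (-1) ^ 3 ^ 1 = 1 by decide +kernel, map_one]) (Commute.one_left _)
    simpa [t1] using this
  · exact ⟨0, 1, fun ρ _ _ _ => by simp⟩

/-- In characteristic three the traces of `ρ` (with `ρ (-1) = -1`, `ρ (upper 1) ≠ 1`) are determined by that of the element of
trace `3`: `0` on elements of order `1, 2, 3, 4, 6`, `∓ 1` on elements of order `7, 14`; the elements of trace `3` are conjugate. -/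
theorem l7_eq {K : Type*} [Field K] [CharP K 3] {ρ ρ' : SL(2, ZMod 7) →* G6 K} (s : ∀ g, ρ g ∈ Sp K) (s' : ∀ g, ρ' g ∈ Sp K)
    (n : ρ (-1) = -1) (n' : ρ' (-1) = -1) (u : ρ (PSL2.upper 1) ≠ 1) (u' : ρ' (PSL2.upper 1) ≠ 1)
    (e : tr (ρ (D3.m7 0 1 6 3)) = tr (ρ' (D3.m7 0 1 6 3))) (g : SL(2, ZMod 7)) : tr (ρ g) = tr (ρ' g) := by
  obtain ⟨a, b, k⟩ := el7_tab (K := K) g
  rw [k ρ s n u, k ρ' s' n' u', e]

open D3 Cfsg.Lib.PSL2 in
theorem el7_aut (φ : MulAut PSL(2, ZMod 7)) : ∃ s : SL(2, ZMod 7), φ = MulAut.conj (toL s) ∨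
    ∀ x, ((MulAut.conj (toL s))⁻¹ * φ) (((MulAut.conj (toL s))⁻¹ * φ) x) =
      toL (m7 1 1 1 2) * x * (toL (m7 1 1 1 2))⁻¹ := by
  obtain ⟨g, σ, rfl⟩ := aut_PSL_decomp_two φ
  rw [Subsingleton.elim σ 1, map_one, mul_one]
  have key : ∀ (g : GL (Fin 2) (ZMod 7)) (c : ZMod 7), g.1.det = c ^ 2 →
      ∃ s : SL(2, ZMod 7), innDiag g = MulAut.conj (toL s) := fun g c hc => by
    have h0 : c ≠ 0 := by
      rintro rfl
      exact g.det_ne_zero (by simpa using hc)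
    let s : SL(2, ZMod 7) := ⟨c⁻¹ • g.1, by rw [Matrix.det_smul, hc]; simp [h0]⟩
    refine ⟨s, .trans ?_ (innDiag_toGL s)⟩
    rw [← inv_mul_eq_one, ← map_inv, ← map_mul, ← MonoidHom.mem_ker, ker_innDiag,
      Matrix.GeneralLinearGroup.mem_center_iff_val_mem_range_scalar]
    refine ⟨c⁻¹, ?_⟩
    change _ = (g⁻¹).1 * (c⁻¹ • g.1)
    rw [Matrix.mul_smul, Units.inv_mul, Matrix.scalar_apply, Matrix.smul_one_eq_diagonal]
  obtain ⟨c, h | h⟩ := (by decide : ∀ d : ZMod 7, ∃ c, d = c ^ 2 ∨ d * (-1) = c ^ 2) g.1.det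
  · exact (key g c h).imp fun s => .inl
  let D : GL (Fin 2) (ZMod 7) := ⟨!![0, 1; 1, 1], !![-1, 1; 1, 0], by decide, by decide⟩
  obtain ⟨s, hs⟩ := key (g * D⁻¹) c (by rw [Units.val_mul, Matrix.det_mul, ← h]; congr 1)
  refine ⟨s, .inr fun x => ?_⟩
  rw [← hs, ← map_inv, ← map_mul, mul_inv_rev, inv_mul_cancel_right, inv_inv, ← MulAut.mul_apply, ← map_mul,
    show D * D = Matrix.SpecialLinearGroup.toGL (m7 1 1 1 2) by decide +kernel, innDiag_toGL]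
  rfl

omit [Fintype F] in
theorem Od.el7_four (h : Od P π) (h7 : p ≠ 7) {y : pm P} {s : SL(2, ZMod 7)} (e : π y = PSL2.toL s) (s4 : s ^ 4 = -1) :
    y.1 ^ 4 = -1 := by
  have := h.l7_tii p h7 (y ^ 2) (by rw [← map_mul, ← pow_add, map_pow, e, ← map_pow, s4, PSL2.toL_neg, map_one]) (by
    rw [map_pow, e, ← map_pow, Ne, PSL2.toL_eq_one_iff]
    rintro (e | e) <;> rw [show 4 = 2 * 2 from rfl, pow_mul, e] at s4 <;> exact absurd s4 (by decide +kernel))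
  rwa [Subgroup.coe_pow, ← pow_add] at this

/-- `H = ± P`: an outer automorphism is, up to an inner one, conjugation by an element of order eight of `PGL₂(7)`
(`Linear.aut_PSL_decomp_two`), `Od.sq_eq`, `no_sixteen`.  The trace `s` of the element of order eight is not `0` (else `|F| = 3`);
`equiv_of_trace`, `Od.card_eq_of_model`, `5 ∤ 336`. -/
theorem Od.l7_nine (h : Od P π) (m : Mx H P) (h9 : Fintype.card F = 9) : False := by
  have : CharP F 3 := charP_of_card_eq_prime_pow (p := 3) (f := 2) h9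
  have c := h.cv
  have hH : H ≤ pm P := fun n hn => by
    obtain ⟨φ, e1, e2, e3⟩ := h.exists_aut m hn
    obtain ⟨s, hs | hs⟩ := el7_aut φ
    · exact e3 ⟨_, fun x => by rw [hs]; rfl⟩
    obtain ⟨w, hw⟩ := c.surj (PSL2.toL s)
    obtain ⟨y, hy⟩ := c.surj (PSL2.toL (D3.m7 1 1 1 2))
    have hn' := H.mul_mem (H.inv_mem (m.pm_le w.2)) hn
    have y4 := h.el7_four 3 (by decide) hy (by decide +kernel)
    have := h.sq_eq m hn' (y := y) (fun g hg => by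
      rw [MulAut.mul_apply, e1 g (e2 _ g.2), ← hw, ← map_inv, MulAut.conj_apply, ← map_inv, ← map_inv, ← map_mul, ← map_mul]
      exact congrArg π (Subtype.ext (by simp [mul_assoc]))) (hy ▸ hs)
    refine (no_sixteen h9 (m.max.1.le hn') ?_).elim
    rw [show 8 = 2 * 4 from rfl, pow_mul, sq]
    rcases this with e | e <;> rw [e]
    · exact y4
    · rw [Even.neg_pow (by decide), y4]
  obtain ⟨ρ₀, e1, e2⟩ := h.exists_sl (by simp)
  let ρ := (pm P).subtype.comp ρ₀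
  have m4 : ρ (D3.m7 0 1 6 3) ^ 4 = -1 := h.el7_four 3 (by decide) (e1 _) (by decide +kernel)
  have n : ρ (-1) = -1 := by rw [← m4, ← map_pow]; congr 1; decide +kernel
  have u : ρ (PSL2.upper 1) ≠ 1 := fun e => by
    have := (c.ker _).2 (.inl e)
    rw [e1, PSL2.toL_eq_one_iff] at this
    revert this
    decide +kernel
  have sp : ∀ g, ρ g ∈ Sp F := fun g => c.sp (ρ₀ g).2
  have hr : ρ.range = pm P := le_antisymm (by rintro _ ⟨g, rfl⟩; exact (ρ₀ g).2) fun g hg => by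
    obtain ⟨s, e | e⟩ := e2 g hg
    exacts [⟨s, e.symm⟩, ⟨-1 * s, by rw [map_mul, n, neg_one_mul, e]; rfl⟩]
  have h3 : (3 : F) = 0 := CharP.cast_eq_zero F 3
  have hs : tr (ρ (D3.m7 0 1 6 3)) ^ 2 = 2 := by
    obtain ⟨s, hs⟩ := FiniteField.isSquare_neg_one_iff.2 (show Fintype.card F % 4 ≠ 3 by omega)
    have s2 : s ^ 2 = 2 := by linear_combination -hs - h3
    have t0 : tr (ρ (D3.m7 0 1 6 3)) ≠ 0 := fun t0 => by
      have := h.card_eq 3 fun g hg => by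
        obtain ⟨g, rfl⟩ := hr.ge (le_pm P hg)
        obtain ⟨a, b, k⟩ := el7_tab (K := F) g
        rw [k ρ sp n u, t0, mul_zero, add_zero]
        exact map_intCast (frobenius F 3) a
      omega
    rcases tr_eight c.two (sp _) m4 s2 with e | e | e | e
    exacts [by rw [e, s2], by rw [e, neg_sq, s2], (t0 (by rw [e, h3, zero_mul])).elim, (t0 (by simp [e, h3])).elim]
  obtain ⟨L, ρ', l1, l2, l3, l4, l5, n', e', u'⟩ := exists_m7 hs
  obtain ⟨k, hk⟩ := equiv_of_trace ρ ρ' (by rw [hr, eq_top_iff, ← h.env]; exact env_mono (le_pm P))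
    (l7_eq sp (fun g => l1 (l3 g)) n n' u u' e'.symm)
  have := h.card_eq_of_model m hH (RingHom.id F) ρ ρ' (by
    rw [← MonoidHom.coe_range, Subgroup.closure_eq, hr]
    exact le_antisymm (pm_le le_rfl (neg_mem_pm P)) (le_pm _)) l1 l2 l3 (k := k) hk (fun d => by
      have := d.trans l4
      rw [Nat.card_eq_fintype_card, h9] at this
      revert this
      decide)
  rw [this, D3.card_L27] at l5
  revert l5
  decide

/-- `no_eight` for an element of order four of `L₂(7)`; `Core.card_eq`, `Core.card_two`. -/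
theorem Od.l7 (h : Od P π) (m : Mx H P) (h7 : p ≠ 7) :
    (Fintype.card F = p ∧ p ≠ 7 ∧ (p % 16 = 1 ∨ p % 16 = 15 ∨ p % 16 = 7 ∨ p % 16 = 9)) ∨
      (Fintype.card F = p ^ 2 ∧ p ≠ 3 ∧ (p % 16 = 3 ∨ p % 16 = 13 ∨ p % 16 = 5 ∨ p % 16 = 11)) := by
  have c := h.cv
  have pp : p.Prime := Fact.out
  have p2 : p ≠ 2 := by
    rintro rfl
    exact c.two (CharP.cast_eq_zero F 2)
  have po := pp.eq_two_or_odd.resolve_left p2
  obtain ⟨y, hy⟩ := c.surj (PSL2.toL (D3.m7 0 1 6 3))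
  have n8 := fun e => no_eight e (c.sp y.2) (h.el7_four p h7 hy (by decide +kernel))
  have fx : ∀ {K : Type _} [Field K] (f : F →+* K) {s : K} (n : ℕ), s ^ 2 = 2 → s ^ p ^ n = s →
      ∀ g ∈ P, tr g ^ p ^ n = tr g := fun {K} _ f s n hs e g hg => f.injective (by
    have := charP_of_injective_ringHom f.injective p
    have z : ∀ a : ℤ, (a : K) ^ p ^ n = a := map_intCast (iterateFrobenius K p n)
    rcases h.l7_tr p h7 f hs hg with ⟨a, k⟩ | ⟨a, k⟩ <;> rw [map_pow, k]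
    · exact z a
    · rw [mul_pow, z, e])
  by_cases p8 : p % 8 = 1 ∨ p % 8 = 7
  · obtain ⟨r, hr⟩ := (ZMod.exists_sq_eq_two_iff p2).2 p8
    let i := ZMod.castHom (dvd_refl p) F
    refine .inl ⟨h.card_eq p ?_, h7, by omega⟩
    simpa using fx (RingHom.id F) (s := i r) 1 (by rw [← map_pow, sq, ← hr, map_ofNat])
      (by rw [← map_pow, pow_one, ZMod.pow_card])
  obtain ⟨s, hs⟩ := IsAlgClosed.exists_pow_nat_eq (2 : AlgebraicClosure F) two_pos
  have e : s ^ p = s ∨ s ^ p = -s := sq_eq_sq_iff_eq_or_eq_neg.1 (by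
    rw [← pow_mul, mul_comm, pow_mul, hs]
    exact map_ofNat (frobenius _ p) 2)
  rcases h.card_two p (fx (algebraMap F _) 2 hs (by
    rw [sq, pow_mul]
    rcases e with e | e
    · rw [e, e]
    · rw [e, (Nat.odd_iff.2 po).neg_pow, e, neg_neg])) with e | e
  · exact (n8 (by omega)).elim
  · refine .inr ⟨e, ?_, by omega⟩
    rintro rfl
    exact h.l7_nine m e

end Cfsg.Lib.S6Q
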