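import Cfsg.Agent.Lib.S6Q.Rf
import Cfsg.Agent.Lib.S6Q.ModD

/-!
# The `315` reflections
-/

set_option autoImplicit false

namespace Cfsg.Lib.S6Q

open scoped MatrixGroups Matrix commutatorElement
open Cfsg.Geo Cfsg.Lib.Asch Cfsg.Lib.Linear Cfsg.Lib.Q4 Cfsg.Lib.Symp Module
open Cfsg.Lib.Q4R (Sq HasTv sc dg)

variable {K : Type*} [Field K] {f f' f₁ f₂ f₃ g₁ g₂ g₃ : Fm K} {J J' z I I' y δ : M2 K} {s : K}
  {t t' n A B C D R E A' B' C' D' R' E' : G6 K}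

namespace Md

/-- Quaternion coordinates. -/
def qe (J J' : M2 K) (a b c d : K) : M2 K := a • (1 : M2 K) + b • J + c • J' + d • (J * J')

/-- Evaluation. -/
def ev (J J' : M2 K) (s : K) (x : Q8) : M2 K :=
  qe J J' (x.a + x.a' * s) (x.b + x.b' * s) (x.c + x.c' * s) (x.d + x.d' * s)

theorem ev_add (x y : Q8) : ev J J' s (x.add y) = ev J J' s x + ev J J' s y := by
  simp only [ev, qe, Q8.add]; push_cast; module

theorem ev_sm (n : ℤ) (x : Q8) : ev J J' s (x.sm n) = (n : K) • ev J J' s x := by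
  simp only [ev, qe, Q8.sm]; push_cast; module

theorem ev_sc (n : ℤ) : ev J J' s (.sc n) = (n : K) • 1 := by simp [ev, qe, Q8.sc]

theorem rf_mul' (c : K) : rf c (f * δ) = rf (c * δ.det) f := by
  rw [rf, rf, ad_mul, Matrix.mul_assoc, ← Matrix.mul_assoc δ, Matrix.mul_adjugate, Matrix.smul_mul, Matrix.one_mul,
    Matrix.mul_smul, smul_smul]

section
variable (h : Qz' J z J' s)
include h

theorem qe_mul (a b c d e f g k : K) : qe J J' a b c d * qe J J' e f g k = qe J J' (a * e - b * f - c * g - d * k)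
    (a * f + b * e + c * k - d * g) (a * g - b * k + c * e + d * f) (a * k + b * g - c * f + d * e) := by
  have e1 : J' * J = -(J * J') := by rw [h.an, neg_neg]
  have e2 : ∀ x, J * (J * x) = -x := fun x => by rw [← mul_assoc, h.pu.sq, neg_one_mul]
  have e3 : ∀ x, J' * (J * x) = -(J * (J' * x)) := fun x => by rw [← mul_assoc, e1, neg_mul, mul_assoc]
  simp only [qe, mul_add, add_mul, smul_mul_smul_comm, mul_assoc, one_mul, mul_one, e1, e2, e3, h.pu.sq, h.pu'.sq,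
    mul_neg, neg_neg]
  module

theorem qe_tr (a b c d : K) : (qe J J' a b c d).trace = 2 * a := by
  simp [qe, h.pu.1, h.pu'.1, (h.pu.mul h.pu' h.an).1, mul_comm]

theorem qe_adj (a b c d : K) : (qe J J' a b c d).adjugate = qe J J' a (-b) (-c) (-d) := by
  rw [← add_right_inj (qe J J' a b c d), un0_tr, qe_tr h]
  simp only [qe]
  module

theorem z_eq : (4 : K) • z = qe J J' 1 1 (-s) 1 := by
  have k : ∀ {u j : M2 K}, u.trace = 0 → Pu j → (j.adjugate * u).trace = 0 → j * u = -(u * j) := fun {u j} a b c => by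
    have := un0_tr (j.adjugate * u)
    rwa [c, Matrix.adjugate_mul_distrib, un0_adj, eq_neg_of_add_eq_zero_right ((un0_tr u).trans (by rw [a, zero_smul])),
      b.adj, zero_smul, neg_mul, neg_mul, ← neg_add, neg_eq_zero, add_eq_zero_iff_eq_neg] at this
  have q1 : J = qe J J' 0 1 0 0 := by simp [qe]
  have q2 : J' = qe J J' 0 0 1 0 := by simp [qe]
  have q3 : J * J' = qe J J' 0 0 0 1 := by simp [qe]
  have t : ∀ {j a b c d}, j = qe J J' a b c d →
      (j.adjugate * qe J J' 1 1 (-s) 1).trace = 2 * (a + b - c * s + d) := fun e => by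
    rw [e, qe_adj h, qe_mul h, qe_tr h]; ring
  rw [← sub_eq_zero]
  generalize e : (4 : K) • z - _ = u
  have t0 : u.trace = 0 := by
    rw [← e, Matrix.trace_sub, Matrix.trace_smul, qe_tr h, smul_eq_mul]; linear_combination 2 * h.t₁
  have a1 := k t0 h.pu (by
    rw [← e, mul_sub, Matrix.mul_smul, Matrix.trace_sub, Matrix.trace_smul, t q1, smul_eq_mul]
    linear_combination 2 * h.t₂)
  have a2 := k t0 h.pu' (by
    rw [← e, mul_sub, Matrix.mul_smul, Matrix.trace_sub, Matrix.trace_smul, t q2, smul_eq_mul]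
    linear_combination 2 * h.t₃)
  have p := h.pu.mul h.pu' h.an
  have a3 := k t0 p (by
    rw [← e, mul_sub, Matrix.mul_smul, Matrix.trace_sub, Matrix.trace_smul, t q3, smul_eq_mul]
    linear_combination 2 * h.t₄)
  rw [mul_assoc, a2, mul_neg, ← mul_assoc, a1, neg_mul, neg_neg, mul_assoc, ← add_eq_zero_iff_eq_neg,
    ← two_smul K, smul_eq_zero_iff_right h.two] at a3
  simpa [mul_assoc u, p.sq] using congrArg (· * (J * J')) a3

theorem s_sq : s * s = 5 := by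
  have := congrArg Matrix.trace (Matrix.adjugate_mul ((4 : K) • z))
  rw [Matrix.det_smul, z_eq h, qe_adj h, qe_mul h, qe_tr h] at this
  simp only [Matrix.trace_smul, Matrix.trace_one, Fintype.card_fin, smul_eq_mul, Nat.cast_ofNat] at this
  exact mul_left_cancel₀ h.two (by linear_combination this + 16 * h.dz)

theorem ev_mul (x y : Q8) : ev J J' s (x.mul y) = ev J J' s x * ev J J' s y := by
  rw [ev, ev, ev, qe_mul h]
  simp only [Q8.mul]
  push_cast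
  congr 1 <;> rw [← s_sq h] <;> ring

theorem ev_cj (x : Q8) : ev J J' s x.cj = (ev J J' s x).adjugate := by
  rw [ev, ev, qe_adj h]
  simp only [Q8.cj]
  push_cast
  congr 1 <;> ring

end

/-- The root with the given coordinates. -/
def vc (f₁ f₂ f₃ : Fm K) (J J' : M2 K) (s : K) (x₁ x₂ x₃ : Q8) : Fm K :=
  f₁ * ev J J' s x₁ + f₂ * ev J J' s x₂ + f₃ * ev J J' s x₃

/-- The root with the given code. -/
def rt (f₁ f₂ f₃ : Fm K) (J J' : M2 K) (s : K) (x : ℕ) : Fm K := vc f₁ f₂ f₃ J J' s (co x 0) (co x 1) (co x 2)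

variable (h : Qz' J z J' s) (T : Tr3 f₁ f₂ f₃)
include h T

theorem ad_vc (x₁ x₂ x₃ y₁ y₂ y₃ : Q8) : ad (vc f₁ f₂ f₃ J J' s x₁ x₂ x₃) * vc f₁ f₂ f₃ J J' s y₁ y₂ y₃ =
    ev J J' s (ip x₁ x₂ x₃ y₁ y₂ y₃) := by
  have a : ∀ {f f' : Fm K} {d : M2 K}, ad f * f' = d → ∀ x : M2 K, ad f * (f' * x) = d * x := fun e x => by
    rw [← Matrix.mul_assoc, e]
  have b : ∀ {f f' : Fm K}, ad f * f' = 0 → ad f' * f = 0 := fun e => by rw [ad_swap, e, Matrix.adjugate_zero]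
  simp only [vc, ip, ev_add, ev_mul h, ev_cj h, ad_add, ad_mul, Matrix.add_mul, Matrix.mul_add, Matrix.mul_assoc,
    a T.h₁, a T.h₂, a T.h₃, a T.h₁₂, a T.h₁₃, a T.h₂₃, a (b T.h₁₂), a (b T.h₁₃), a (b T.h₂₃), one_mul, zero_mul,
    mul_zero, add_zero, zero_add]

theorem step {r x y : ℕ} (c : chk r x y = true) : ∃ δ : M2 K, δ.det = 1 ∧
    rf 8⁻¹ (rt f₁ f₂ f₃ J J' s r) * rt f₁ f₂ f₃ J J' s x = rt f₁ f₂ f₃ J J' s y * δ := by
  simp only [chk, fQ_eq, Bool.and_eq_true, decide_eq_true_eq] at c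
  generalize ip (co y 0) _ _ _ _ _ = d at c
  obtain ⟨⟨⟨c1, c2⟩, c3⟩, c4⟩ := c
  have p : ∀ n : ℕ, (2 : K) ^ n ≠ 0 := fun n => pow_ne_zero n h.two
  have h8 : (8 : K) ≠ 0 := by simpa [show (2 : K) ^ 3 = 8 by norm_num] using p 3
  have h9 : (512 : K) ≠ 0 := by simpa [show (2 : K) ^ 9 = 512 by norm_num] using p 9
  refine ⟨(512 : K)⁻¹ • ev J J' s d, ?_, ?_⟩
  · have := congrFun (congrFun (congrArg (ev J J' s) c4) 0) 0
    rw [ev_mul h, ev_cj h, Matrix.adjugate_mul, ev_sc] at this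
    simp only [Matrix.smul_apply, Matrix.one_apply_eq, smul_eq_mul, mul_one, Int.cast_ofNat] at this
    rw [Matrix.det_smul, this, Fintype.card_fin]
    field_simp
    norm_num
  · replace c1 := congrArg (ev J J' s) c1
    replace c2 := congrArg (ev J J' s) c2
    replace c3 := congrArg (ev J J' s) c3
    rw [rf_apply, rt, rt, rt, ad_vc h T]
    simp only [ev_mul h, ev_sm, ev_add] at c1 c2 c3
    simp only [vc, Matrix.mul_smul, Matrix.add_mul, Matrix.mul_assoc, c1, c2, c3, Matrix.mul_add]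
    push_cast
    match_scalars <;> field_simp <;> norm_num

end Md

open Md in
/-- The roots `f₁ x₁ + f₂ x₂ + f₃ x₃`, `8 x_i ∈ ℤ[s]⟨1, J, J', J J'⟩`: a list of `315` triples of integral quaternions over `ℤ[√5]`,
with a table giving for each generator and root the image root; kernel check in `ModD`. -/
theorem NF'.fin (h : NF' f₁ f₂ f₃ J z J' s A B C D R E) : ∃ S : Set (G6 K), S.Finite ∧ S.ncard ≤ 315 ∧ A ∈ S ∧
    ∀ g ∈ [A, B, C, D, R, E], ∀ x ∈ S, g * x * g⁻¹ ∈ S := by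
  classical
  have q := h.q'
  have p : ∀ n : ℕ, (2 : K) ^ n ≠ 0 := fun n => pow_ne_zero n q.two
  have h8 : (8 : K) ≠ 0 := by simpa [show (2 : K) ^ 3 = 8 by norm_num] using p 3
  have h5 : (32 : K) ≠ 0 := by simpa [show (2 : K) ^ 5 = 32 by norm_num] using p 5
  let φ : ℕ → Matrix I6 I6 K := fun x => rf 32⁻¹ (rt f₁ f₂ f₃ J J' s x)
  have fin := (rts.toFinset.image φ).finite_toSet
  have gen : ∀ {g : G6 K} (k : ℕ) (x₁ x₂ x₃ : Q8), k < 6 → (co (gns.getD k 0) 0 = x₁ ∧ co (gns.getD k 0) 1 = x₂ ∧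
      co (gns.getD k 0) 2 = x₃ ∧ ip x₁ x₂ x₃ x₁ x₂ x₃ = .sc 16) → g.1 = rf 8⁻¹ (vc f₁ f₂ f₃ J J' s x₁ x₂ x₃) →
      ∀ x : G6 K, x.1 ∈ rts.toFinset.image φ → (g * x * g⁻¹).1 ∈ rts.toFinset.image φ := by
    rintro g k _ _ _ hk ⟨rfl, rfl, rfl, e⟩ hg x hx
    obtain ⟨u, hu, -, e'⟩ := exists_rf q.two (c := 8⁻¹) (f := rt f₁ f₂ f₃ J J' s (gns.getD k 0)) (by
      rw [rt, ad_vc q h.tr, e, ev_sc, smul_smul, ← Nat.cast_smul_eq_nsmul K]
      congr 1
      field_simp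
      norm_num)
    obtain rfl : g = u := Units.ext (hg.trans e'.symm)
    obtain ⟨a, ha, e⟩ := Finset.mem_image.1 hx
    obtain ⟨b, hb, c⟩ := key hk (List.mem_toFinset.1 ha)
    obtain ⟨δ, d, c⟩ := step q h.tr c
    exact Finset.mem_image.2 ⟨b, List.mem_toFinset.2 hb, by
      rw [Units.val_mul, Units.val_mul, ← e, rf_conj _ hu, e', c, rf_mul _ d]⟩
  have du : (ev J J' s ⟨2, 0, 2, 0, 0, 0, 0, 0⟩).det = 8 := by
    have := congrFun (congrFun (congrArg (ev J J' s) (show Q8.mul (.cj ⟨2, 0, 2, 0, 0, 0, 0, 0⟩)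
      ⟨2, 0, 2, 0, 0, 0, 0, 0⟩ = .sc 8 by decide)) 0) 0
    rw [ev_mul q, ev_cj q, Matrix.adjugate_mul, ev_sc] at this
    simpa using this
  have k : ∀ f : Fm K, rf 1 f = rf 8⁻¹ (f * ev J J' s ⟨2, 0, 2, 0, 0, 0, 0, 0⟩) := fun f => by
    rw [rf_mul', du, inv_mul_cancel₀ h8]
  have k' : ∀ f : Fm K, rf 2 f = rf 8⁻¹ ((4 : K) • f) := fun f => by
    rw [rf_smul]; congr 1; field_simp; norm_num
  have z0 : ev J J' s (.sc 0) = 0 := by simp [ev_sc]
  have j1 : ev J J' s ⟨0, 0, 1, 0, 0, 0, 0, 0⟩ = J := by simp [ev, qe]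
  have j2 : ev J J' s ⟨0, 0, 0, 0, 1, 0, 0, 0⟩ = J' := by simp [ev, qe]
  refine ⟨Units.val ⁻¹' (rts.toFinset.image φ : Set _), fin.preimage Units.val_injective.injOn,
    (Set.ncard_le_ncard_of_injOn Units.val (fun _ h => h) Units.val_injective.injOn fin).trans ?_, ?_, ?_⟩
  · rw [Set.ncard_coe_finset, ← len]
    exact Finset.card_image_le.trans (List.toFinset_card_le _)
  · obtain ⟨x, hx, a, b, c⟩ : ∃ x ∈ rts, co x 0 = .sc 8 ∧ co x 1 = .sc 0 ∧ co x 2 = .sc 0 := by decide +kernel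
    refine Finset.mem_image.2 ⟨x, List.mem_toFinset.2 hx, ?_⟩
    simp only [h.a, φ, rt, a, b, c, vc, ev_sc, Int.cast_zero, zero_smul, Matrix.mul_zero, add_zero, Matrix.mul_smul, Matrix.mul_one, rf_smul]
    congr 1
    field_simp
    norm_num
  · simp only [List.mem_cons, List.not_mem_nil, or_false, forall_eq_or_imp, forall_eq]
    refine ⟨gen 0 (.sc 4) (.sc 0) (.sc 0) (by decide) (by decide +kernel) ?_,
      gen 1 ⟨2, 0, 2, 0, 0, 0, 0, 0⟩ ⟨2, 0, 2, 0, 0, 0, 0, 0⟩ (.sc 0) (by decide) (by decide +kernel) ?_,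
      gen 2 (.sc 0) ⟨2, 0, 2, 0, 0, 0, 0, 0⟩ ⟨2, 0, 2, 0, 0, 0, 0, 0⟩ (by decide) (by decide +kernel) ?_,
      gen 3 ⟨2, 0, 2, 0, 0, 0, 0, 0⟩ (.mul ⟨0, 0, 1, 0, 0, 0, 0, 0⟩ ⟨2, 0, 2, 0, 0, 0, 0, 0⟩) (.sc 0) (by decide)
        (by decide +kernel) ?_,
      gen 4 (.sc 2) (.sc 2) ⟨1, 0, 1, 0, 0, -1, 1, 0⟩ (by decide) (by decide +kernel) ?_,
      gen 5 ⟨2, 0, 2, 0, 0, 0, 0, 0⟩ (.mul ⟨0, 0, 0, 0, 1, 0, 0, 0⟩ ⟨2, 0, 2, 0, 0, 0, 0, 0⟩) (.sc 0) (by decide)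
        (by decide +kernel) ?_⟩
    · rw [h.a, k']; simp [vc, ev_sc]
    · rw [h.b, k]; simp [vc, z0, Matrix.add_mul]
    · rw [h.c, k]; simp [vc, z0, Matrix.add_mul]
    · rw [h.d, k]; simp [vc, z0, Matrix.add_mul, ev_mul q, j1, Matrix.mul_assoc]
    · rw [h.r, k', smul_add, ← Matrix.mul_smul, z_eq q, smul_smul, show (4 : K) * 2⁻¹ = 2 by field_simp [q.two]; norm_num]
      simp only [vc, ev_sc]
      simp [ev]
    · rw [h.e, k]; simp [vc, z0, Matrix.add_mul, ev_mul q, j2, Matrix.mul_assoc]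

end Cfsg.Lib.S6Q
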