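import Cfsg.Agent.Lib.S6Q.Rf
import Cfsg.Agent.Lib.O7.U32
import Cfsg.Agent.Lib.Unitary.Aut
import Cfsg.Agent.Lib.Unitary.U3
import Mathlib.Algebra.QuadraticAlgebra.Basic

/-!
# Generators of `U₃(3)`
-/

set_option autoImplicit false

namespace Cfsg.Lib.S6Q

open scoped MatrixGroups Matrix commutatorElement
open Cfsg.Geo Cfsg.Lib.Asch Cfsg.Lib.Linear Cfsg.Lib.Q4 Cfsg.Lib.Symp Module
open Cfsg.Lib.Q4R (Sq HasTv sc dg)
open Cfsg.Lib.Unitary Cfsg.Lib.O7.U3

/-- `𝔽₃ [i]` -/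
abbrev U9 : Type := QuadraticAlgebra (ZMod 3) (-1) 0

/-- `SU₃(3)` -/
def u9S : Submonoid (Matrix (Fin 3) (Fin 3) U9) where
  carrier := {M | M.det = 1 ∧ (M.map (starRingEnd U9))ᵀ * M = 1}
  one_mem' := ⟨Matrix.det_one, by simp⟩
  mul_mem' {M N} h k := ⟨by rw [Matrix.det_mul, h.1, k.1, one_mul], by
    rw [Matrix.map_mul, Matrix.transpose_mul, mul_assoc, ← mul_assoc _ M, h.2, one_mul, k.2]⟩

/-- the generators -/
def u9m : Fin 5 → Matrix (Fin 3) (Fin 3) U9 :=
  ![!![1, 0, 0; 0, -1, 0; 0, 0, -1], !![0, 1, 0; 1, 0, 0; 0, 0, -1], !![-1, 0, 0; 0, 0, 1; 0, 1, 0],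
    !![0, ⟨0, -1⟩, 0; ⟨0, 1⟩, 0, 0; 0, 0, -1], !![1, -1, ⟨1, -1⟩; -1, 1, ⟨1, -1⟩; ⟨1, 1⟩, ⟨1, 1⟩, 0]]

theorem u9_mem (k : Fin 5) : u9m k ∈ u9S := by
  have : ∀ k, (u9m k).det = 1 ∧ ((u9m k).map star)ᵀ * u9m k = 1 := by
    simp only [Matrix.det_fin_three]; decide +kernel
  exact this k

/-- the generators -/
def u9g (k : Fin 5) : u9S := ⟨u9m k, u9_mem k⟩

/-- the map to `SU₃(3)` -/
def u9f {E : Type*} [Field E] {σ : E →+* E} (b : IsBar 3 σ) (f : U9 →+* E) (hf : ∀ x, σ (f x) = f (star x)) :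
    u9S →* SU 3 E 3 where
  toFun M := mkU b (M.1.map f) (by rw [← RingHom.mapMatrix_apply, ← RingHom.map_det, M.2.1, map_one]) (by
    have := congrArg (·.map f) M.2.2
    simp only [Matrix.map_mul, Matrix.map_one _ (map_zero f) (map_one f)] at this
    rw [← this]
    congr 1
    ext i j
    exact hf _)
  map_one' := sux (Matrix.map_one _ (map_zero f) (map_one f))
  map_mul' _ _ := sux Matrix.map_mul

/-- Over `F₉ = F₃(i)`: `a = diag (1, -1, -1)`, `b = (0 1 0; 1 0 0; 0 0 -1)`, `c = (-1 0 0; 0 0 1; 0 1 0)`, `d = (0 -i 0; i 0 0; 0 0 -1)`,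
`r = (1, -1, 1 - i; -1, 1, 1 - i; 1 + i, 1 + i, 0)`.  Generation (`O7.U3.gen`, `gen3`): `up (su i 0) = b c b d c b`,
`up (su (1 + i) (1 + i)) = b c d r d a r c d`, `rr = c b a`.  Automorphisms: `Unitary.aut_PSU_decomp`, `PGU₃(3) = U₃(3)`; the field
automorphism acts as stated. -/
theorem exists_sxU {E : Type*} [Field E] [Fintype E] (hE : Fintype.card E = 9) : ∃ a b c d r : PSU 3 E 3, Sx a b c d r ∧
    Subgroup.closure (Set.range ![a, b, c, d, r]) = ⊤ ∧ ¬ 5 ∣ Nat.card (PSU 3 E 3) ∧ ∀ φ : MulAut (PSU 3 E 3),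
      (∃ t, ∀ x, φ x = t * x * t⁻¹) ∨ ∃ t, t * φ a * t⁻¹ = a ∧ t * φ b * t⁻¹ = b ∧ t * φ c * t⁻¹ = c ∧ t * φ d * t⁻¹ = a * d * a ∧
        t * φ r * t⁻¹ = b * d * b * a * b * r * (b * d * b * a * b)⁻¹ := by
  have hE' : Fintype.card E = 3 ^ 2 := hE
  obtain ⟨σ, b⟩ := exists_isBar hE'
  have h3 : (3 : E) = 0 := b.cast_q
  have : CharP E 3 := (CharP.charP_iff_prime_eq_zero Nat.prime_three).2 h3
  let := ZMod.algebra E 3
  obtain ⟨i, i0, si⟩ := b.exists_skew
  have hi : i ^ 2 = -1 := mul_left_cancel₀ i0 (by rw [b.eq] at si; linear_combination si)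
  let f : U9 →ₐ[ZMod 3] E := QuadraticAlgebra.lift ⟨i, by rw [← sq, hi]; simp⟩
  have fe : ∀ x : U9, f x = algebraMap _ E x.re + algebraMap _ E x.im * i := fun x => by
    change x.re • (1 : E) + x.im • i = _
    rw [Algebra.smul_def, Algebra.smul_def, mul_one]
  have fm : ∀ τ : E →+* E, (τ i = i → ∀ x, τ (f x) = f x) ∧ (τ i = -i → ∀ x, τ (f x) = f (star x)) := fun τ => by
    have : ∀ y : ZMod 3, τ (algebraMap _ E y) = algebraMap _ E y := fun y => by
      rw [← ZMod.natCast_zmod_val y, map_natCast, map_natCast]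
    refine ⟨fun e x => by rw [fe, map_add, map_mul, this, this, e], fun e x => ?_⟩
    rw [fe, fe, map_add, map_mul, this, this, e]
    simp
  let ψ := u9f b f.toRingHom ((fm σ).2 si)
  let Φ : u9S →* PSU 3 E 3 := (QuotientGroup.mk' _).comp ψ
  have one : ∀ {M : u9S}, M.1 = 1 → Φ M = 1 := fun e => by rw [show _ = (1 : u9S) from Subtype.ext e, map_one]
  have eq : ∀ {M N : u9S}, M.1 = N.1 → Φ M = Φ N := fun e => by rw [Subtype.ext e]
  have gn : Subgroup.closure (Set.range ![Φ (u9g 0), Φ (u9g 1), Φ (u9g 2), Φ (u9g 3), Φ (u9g 4)]) = ⊤ := by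
    set L := Subgroup.closure (Set.range ![Φ (u9g 0), Φ (u9g 1), Φ (u9g 2), Φ (u9g 3), Φ (u9g 4)])
    have m : ∀ k, ψ (u9g k) ∈ L.comap (QuotientGroup.mk' _) := fun k =>
      Subgroup.subset_closure ⟨k, by fin_cases k <;> rfl⟩
    have v : ∀ {M : u9S} {N : Matrix (Fin 3) (Fin 3) U9}, M.1 = N → (ψ M).1.1 = N.map f := fun e => e ▸ rfl
    have ha : i * σ i + 0 * σ 0 = 1 := by simp [si, ← pow_two, hi]
    have hy : (1 + i) * σ (1 + i) + (1 + i) * σ (1 + i) = 1 := by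
      rw [map_add, map_one, si]; linear_combination -2 * hi + h3
    have f1 : f ⟨0, 1⟩ = i := by simp [fe]
    have f2 : f ⟨0, -1⟩ = -i := by rw [← f1, ← map_neg]; congr 1
    have f3 : f ⟨1, 1⟩ = 1 + i := by simp [fe]
    have f4 : f ⟨1, -1⟩ = 1 - i := by rw [← f1, ← map_one f, ← map_sub]; congr 1
    have f5 : f ⟨-1, 1⟩ = -(1 - i) := by rw [← f4, ← map_neg]; congr 1
    have e1 : up b (su b i 0 ha) = ψ (u9g 1 * u9g 2 * u9g 1 * u9g 3 * u9g 2 * u9g 1) := sux (by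
      rw [v (N := !![1, 0, 0; 0, ⟨0, 1⟩, 0; 0, 0, ⟨0, -1⟩]) (by decide +kernel)]
      ext j k
      fin_cases j <;> fin_cases k <;> simp [up_val, su_val, f1, f2, si])
    have e2 : up b (su b _ _ hy) = ψ (u9g 1 * u9g 2 * u9g 3 * u9g 4 * u9g 3 * u9g 0 * u9g 4 * u9g 2 * u9g 3) := sux (by
      rw [v (N := !![1, 0, 0; 0, ⟨1, 1⟩, ⟨1, 1⟩; 0, ⟨-1, 1⟩, ⟨1, -1⟩]) (by decide +kernel)]
      ext j k
      fin_cases j <;> fin_cases k <;> simp [up_val, su_val, f3, f4, f5, si, sub_eq_add_neg])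
    have e3 : rr b = ψ (u9g 2 * u9g 1 * u9g 0) := sux (by
      rw [v (N := !![0, 1, 0; 0, 0, 1; 1, 0, 0]) (by decide +kernel)]
      ext j k
      fin_cases j <;> fin_cases k <;> simp [rr_val])
    refine eq_top_iff.2 fun x _ => ?_
    induction x using QuotientGroup.induction_on with | H x =>
    refine gen b (M := L.comap (QuotientGroup.mk' _)) (by norm_num) ?_ ?_ x
    · rintro _ ⟨g, rfl⟩
      refine gen3 b hi si (S := (L.comap (QuotientGroup.mk' _)).comap (up b)) (h := ha) (h' := hy) ?_ ?_ g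
      · rw [Subgroup.mem_comap, e1]
        simp only [map_mul]
        repeat (first | (with_reducible exact m _) | refine mul_mem ?_ (m _))
      · rw [Subgroup.mem_comap, e2]
        simp only [map_mul]
        repeat (first | (with_reducible exact m _) | refine mul_mem ?_ (m _))
    · rw [e3]
      simp only [map_mul]
      repeat (first | (with_reducible exact m _) | refine mul_mem ?_ (m _))
  refine ⟨Φ (u9g 0), Φ (u9g 1), Φ (u9g 2), Φ (u9g 3), Φ (u9g 4), ?_, gn, ?_, fun φ => ?_⟩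
  · refine ⟨fun e => ?_, ?_, ?_, ?_, ?_, ?_, ?_, ?_, ?_, ?_, ?_, ?_, ?_, ?_, ?_, ?_⟩
    · obtain ⟨s, hs⟩ := (mem_center_SU hE' (by norm_num)).1 ((QuotientGroup.eq_one_iff _).1 e)
      have e0 : f 1 = s := (congrFun (congrFun hs 0) 0).trans (by simp)
      have e1 : f (-1) = s := (congrFun (congrFun hs 1) 1).trans (by simp)
      rw [map_neg, ← e0, map_one] at e1
      exact one_ne_zero (α := E) (by linear_combination h3 + e1)
    all_goals simp only [Commute, SemiconjBy, ← map_mul, ← map_pow]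
    all_goals first | exact one (by decide +kernel) | exact eq (by decide +kernel)
  · have := b.card_PSU_three
    norm_num at this
    rw [this]; norm_num
  obtain ⟨g, τ, rfl⟩ := aut_PSU_decomp hE' le_rfl (by norm_num) φ
  obtain ⟨t, ht⟩ : ∃ t : PSU 3 E 3, Unitary.diagAut g = MulAut.conj t := by
    have u := b.mem_GU_iff.1 g.2
    have d : g.1.1.det * σ g.1.1.det = 1 := by
      have := congrArg Matrix.det u
      rwa [Matrix.det_mul, Matrix.det_transpose, ← RingHom.mapMatrix_apply, ← RingHom.map_det, Matrix.det_one,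
        mul_comm] at this
    let s := mkU b (g.1.1.det • g.1.1) (by rw [Matrix.det_smul, ← d, b.eq, mul_comm]; rfl) (by
      rw [Matrix.map_smul' _ _ _ (map_mul σ), Matrix.transpose_smul, smul_mul_smul, u, mul_comm, d, one_smul])
    refine ⟨s, MulEquiv.ext fun x => ?_⟩
    induction x using QuotientGroup.induction_on with | H x =>
    rw [Unitary.diagAut_mk, MulAut.conj_apply, ← QuotientGroup.mk_inv, ← QuotientGroup.mk_mul, ← QuotientGroup.mk_mul]
    congr 1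
    refine eq_mul_inv_iff_mul_eq.2 (sux ?_)
    rw [mul_val, mul_val, diagSU_coe]
    change _ * (_ • _) = (_ • _) * _
    rw [Matrix.mul_smul, Matrix.smul_mul, Units.inv_mul_cancel_right]
  have fa : ∀ {M N : u9S}, M.1.map (τ ∘ f) = N.1.map f → Unitary.fieldAut τ (Φ M) = Φ N := fun e =>
    congrArg (QuotientGroup.mk' _) (sux e)
  rcases sq_eq_sq_iff_eq_or_eq_neg.1 (show τ i ^ 2 = i ^ 2 by rw [← map_pow, hi, map_neg, map_one]) with e | e
  · refine .inl ⟨t, fun x => ?_⟩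
    have : (Unitary.fieldAut τ : MulAut (PSU 3 E 3)).toMonoidHom = MonoidHom.id _ := MonoidHom.eq_of_eqOn_dense gn (by
      rintro _ ⟨k, rfl⟩
      fin_cases k <;> exact fa (by congr 1; exact funext ((fm τ).1 e)))
    rw [ht, MulAut.mul_apply, show Unitary.fieldAut τ x = x from DFunLike.congr_fun this x, MulAut.conj_apply]
  · have fb : ∀ {M N : u9S}, M.1.map star = N.1 →
        t⁻¹ * (Unitary.diagAut g * Unitary.fieldAut τ : MulAut (PSU 3 E 3)) (Φ M) * t⁻¹⁻¹ = Φ N := fun {M N} h => by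
      rw [ht, MulAut.mul_apply, MulAut.conj_apply, fa (N := N) (by
        rw [← h, Matrix.map_map]; congr 1; exact funext ((fm τ).2 e))]
      group
    refine .inr ⟨t⁻¹, fb (by decide +kernel), fb (by decide +kernel), fb (by decide +kernel), ?_, ?_⟩
    · rw [← map_mul, ← map_mul]; exact fb (by decide +kernel)
    · rw [fb (N := u9g 1 * u9g 3 * u9g 1 * u9g 0 * u9g 1 * u9g 4 * (u9g 1 * u9g 0 * u9g 1 * u9g 3 * u9g 1))
        (by decide +kernel), eq_mul_inv_iff_mul_eq]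
      simp only [← map_mul]
      exact eq (by decide +kernel)

end Cfsg.Lib.S6Q
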