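import Cfsg.Agent.Lib.S6Q.T4
import Cfsg.Agent.Lib.S6Q.Rf2
import Cfsg.Agent.Lib.S6Q.SyU
import Cfsg.Agent.Lib.S6Q.Mod

/-!
# The ending `U₃(3)`
-/

set_option autoImplicit false

namespace Cfsg.Lib.S6Q

open scoped MatrixGroups Matrix commutatorElement
open Cfsg.Geo Cfsg.Lib.Asch Cfsg.Lib.Linear Cfsg.Lib.Q4 Cfsg.Lib.Symp Module
open Cfsg.Lib.Q4R (Sq HasTv sc dg)

variable {F : Type*} [Field F] [Fintype F] (p : ℕ) [Fact p.Prime] [CharP F p] {H P : Subgroup (G6 F)}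

variable {E : Type*} [Field E] [Fintype E] {π : pm P →* PSU 3 E 3}

omit [Fintype F] in
theorem Od.u33_data {X : Type*} [Group X] {π : pm P →* X} (h : Od P π) {K : Type*} [Field K] [IsAlgClosed K] (f : F →+* K)
    {a b c d r : X} (x : Sx a b c d r) (hg : Subgroup.closure (Set.range ![a, b, c, d, r]) = ⊤) :
    ∃ g : Fin 5 → pm P, (∀ i, π (g i) = ![a, b, c, d, r] i) ∧ (∀ i, TI (g i).1) ∧
      pm (Subgroup.closure (Set.range fun i => (g i).1)) = pm P ∧ (3 : K) ≠ 0 ∧ ∃ f₁ f₂ f₃ J z,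
        NF f₁ f₂ f₃ J z (mp f (g 0)) (mp f (g 1)) (mp f (g 2)) (mp f (g 3)) (mp f (g 4)) := by
  obtain ⟨π', c', hc⟩ := h.cv.ext f
  obtain ⟨⟨_, A, hA, rfl⟩, ⟨_, B, hB, rfl⟩, ⟨_, C, hC, rfl⟩, ⟨_, D, hD, rfl⟩, ⟨_, R, hR, rfl⟩, eA, eB, eC, eD, eR, s⟩ :=
    c'.exists_sy x
  let g : Fin 5 → pm P := ![⟨A, hA⟩, ⟨B, hB⟩, ⟨C, hC⟩, ⟨D, hD⟩, ⟨R, hR⟩]
  have e : ∀ i, π (g i) = ![a, b, c, d, r] i := fun i => by
    rw [← hc]
    fin_cases i <;> assumption
  obtain ⟨f₁, f₂, f₃, J, z, n⟩ := s.nf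
  refine ⟨g, e, fun i => ?_, le_antisymm (pm_le ((Subgroup.closure_le _).2 ?_) (neg_mem_pm P)) fun y hy => ?_, n.three ?_,
    _, _, _, _, _, n⟩
  · have : TI (mp f (g i).1) := (s.sp _ (by fin_cases i <;> simp [g])).2
    exact ⟨mp_inj f (by rw [map_mul, this.1, map_one]), rk_mp f _ ▸ this.2⟩
  · rintro _ ⟨i, rfl⟩
    exact (g i).2
  · obtain ⟨w, hw, e'⟩ : π ⟨y, hy⟩ ∈ (Subgroup.closure (Set.range g)).map π := by
      rw [MonoidHom.map_closure, ← Set.range_comp, show π ∘ g = _ from funext e, hg]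
      trivial
    have : w.1 ∈ Subgroup.closure (Set.range fun i => (g i).1) := by
      have := Subgroup.mem_map_of_mem (pm P).subtype hw
      rwa [MonoidHom.map_closure, ← Set.range_comp] at this
    rcases h.cv.eq_iff.1 e' with e' | e'
    exacts [.inl (by rwa [e'] at this), .inr (by rwa [e'] at this)]
  · have := c'.cw.irr_of_closure (h.irr f) (s := Set.range fun i => ⟨mp f (g i).1, (g i).1, (g i).2, rfl⟩) (by
      rw [← Set.range_comp, ← hg]
      exact congrArg _ (congrArg _ (funext fun i => (hc _).trans (e i))))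
    rw [← Set.range_comp] at this
    convert this using 3
    ext i : 1
    fin_cases i <;> rfl

/-- `NF.three`; `NF.map`, `NF.conj`, `tr_fix`, `Core.card_eq`. -/
theorem Od.u33_card (hE : Fintype.card E = 9) (h : Od P π) : p ≠ 3 ∧ Fintype.card F = p := by
  let f := algebraMap F (AlgebraicClosure F)
  obtain ⟨a, b, c, d, r, x, hg, -⟩ := exists_sxU hE
  obtain ⟨g, -, -, gen, h3, f₁, f₂, f₃, J, z, n⟩ := h.u33_data f x hg
  refine ⟨by rintro rfl; exact h3 (CharP.cast_eq_zero _ 3), h.card_eq p fun y hy => f.injective ?_⟩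
  obtain ⟨k, hk⟩ := n.conj (n.map (frobenius _ p)) h3
  have := tr_fix (frobenius _ p) (k := k) (s := mp f '' Set.range fun i => (g i).1) (by
    rintro _ ⟨_, ⟨i, rfl⟩, rfl⟩
    have := hk i
    fin_cases i <;> exact this) (mp f y) (by
    rw [← MonoidHom.map_closure, ← ext, ← ext_pm, gen]
    exact ⟨y, le_pm P hy, rfl⟩)
  rwa [tr_map, frobenius_def, ← map_pow] at this

omit [Fintype F] in
theorem Cv.u33_ti {X : Type*} [Group X] {Y : Subgroup (G6 F)} {π : Y →* X} (h : Cv Y π) {u v : Y} (hu : TI u.1) (hv : TI v.1)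
    (e : π u = π v) : u = v := by
  let f := algebraMap F (AlgebraicClosure F)
  obtain ⟨π', c', hc⟩ := h.ext f
  have tm : ∀ {u : G6 F}, TI u → TI (mp f u) := fun hu => ⟨by rw [← map_mul, hu.1, map_one], (rk_mp f _).trans hu.2⟩
  exact Subtype.ext (mp_inj f (congrArg Subtype.val (c'.ti_eq (tm hu) (tm hv) ((hc u).trans (e.trans (hc v).symm)))))

omit [Fintype F] in
theorem Od.u33_aut {X : Type*} [Group X] {π : pm P →* X} (h : Od P π) (m : Mx H P) {a b c d r : X} (x : Sx a b c d r)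
    (hg : Subgroup.closure (Set.range ![a, b, c, d, r]) = ⊤) (au : ∀ φ : MulAut X, (∃ t, ∀ x, φ x = t * x * t⁻¹) ∨
      ∃ t, t * φ a * t⁻¹ = a ∧ t * φ b * t⁻¹ = b ∧ t * φ c * t⁻¹ = c ∧ t * φ d * t⁻¹ = a * d * a ∧
        t * φ r * t⁻¹ = b * d * b * a * b * r * (b * d * b * a * b)⁻¹) : H ≤ pm P ∨ IsSquare (3 : F) := by
  refine or_iff_not_imp_left.2 fun hH => ?_
  obtain ⟨n, hn, n1⟩ := SetLike.not_le_iff_exists.1 hH
  let f := algebraMap F (AlgebraicClosure F)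
  obtain ⟨g, e, ti, -, h3, f₁, f₂, f₃, J, z, nf⟩ := h.u33_data f x hg
  obtain ⟨φ, e1, e2, e3⟩ := h.exists_aut m hn
  obtain ⟨t, ta, tb, tc, td, tr⟩ := (au φ).resolve_left (mt e3 n1)
  obtain ⟨w, rfl⟩ := h.cv.surj t
  have key : ∀ i (v : pm P), TI v.1 → π w * φ (![a, b, c, d, r] i) * (π w)⁻¹ = π v →
      mp f (w.1 * n) * mp f (g i) * (mp f (w.1 * n))⁻¹ = mp f v := fun i v hv k => by
    rw [← e, e1 _ (e2 _ (g i).2), ← map_inv, ← map_mul, ← map_mul] at k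
    rw [← map_inv, ← map_mul, ← map_mul, ← h.cv.u33_ti (pl_conj (pl_conj (ti i) n) w.1) hv k]
    simp only [Subgroup.coe_mul, Subgroup.coe_inv, mul_assoc, mul_inv_rev]
  have a2 : (g 0).1⁻¹ = (g 0).1 := inv_eq_of_mul_eq_one_right (ti 0).1
  have k3 := key 3 (g 0 * g 3 * g 0) (by simpa only [Subgroup.coe_mul, a2] using pl_conj (ti 3) (g 0).1)
    (by simp only [map_mul, e]; exact td)
  have k4 := key 4 (g 1 * g 3 * g 1 * g 0 * g 1 * g 4 * (g 1 * g 3 * g 1 * g 0 * g 1)⁻¹)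
    (by simpa only [Subgroup.coe_mul, Subgroup.coe_inv] using pl_conj (ti 4) _) (by simp only [map_mul, map_inv, e]; exact tr)
  have := nf.sqrt3 h3 (mp_mem_Sp f (m.max.1.le (H.mul_mem (m.pm_le w.2) hn))) (key 0 _ (ti 0) (ta.trans (e 0).symm))
    (key 1 _ (ti 1) (tb.trans (e 1).symm)) (key 2 _ (ti 2) (tc.trans (e 2).symm))
    (by simpa only [Subgroup.coe_mul, map_mul] using k3)
    (by simpa only [Subgroup.coe_mul, Subgroup.coe_inv, map_mul, map_inv] using k4)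
  refine ⟨((w.1 * n).1 * (1 - (g 4).1.1) * (1 - ((g 2).1 * (g 1).1 * (g 0).1 * (g 1).1 * (g 2).1).1) *
    (1 - ((g 2).1 * (g 1).1 * (g 2).1).1)).trace, f.injective ?_⟩
  rw [← sq, map_pow, AddMonoidHom.map_trace, map_ofNat, ← this]
  simp only [← map_mul, mp_val, Matrix.map_mul, Matrix.map_sub _ (map_sub f), Matrix.map_one _ (map_zero f) (map_one f)]

omit [Fintype F] in
/-- `Od.exists_aut`, `Cv.ti_eq`, `NF.sqrt3`. -/
theorem Od.u33_le (hE : Fintype.card E = 9) (h : Od P π) (m : Mx H P) : H ≤ pm P ∨ IsSquare (3 : F) :=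
  let ⟨_, _, _, _, _, x, hg, _, au⟩ := exists_sxU hE
  h.u33_aut m x hg au

/-- Conjugate the model `exists_nf'` by `l` (`NF.conj`, `conj_desc`, `conj_sp`); `NF'.fin`, `Mx.mem_of_ti` (`315 < 5⁴`) put
`l C E C R l⁻¹` (of order five) into `H`. -/
theorem Od.u33_not (hE : Fintype.card E = 9) (h : Od P π) (m : Mx H P) (hH : H ≤ pm P) : ¬ IsSquare (5 : F) := by
  rintro ⟨s, hs⟩
  obtain ⟨p, _⟩ := CharP.exists F
  have := Fact.mk (CharP.char_is_prime F p)
  have q := h.u33_card p hE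
  let f := algebraMap F (AlgebraicClosure F)
  obtain ⟨a, b, c, d, r, x, hg, h5, -⟩ := exists_sxU hE
  obtain ⟨g, -, ti, gen, h3, f₁, f₂, f₃, J, z, nf⟩ := h.u33_data f x hg
  obtain ⟨g₁, g₂, g₃, I, y, I', A, B, C, D, R, E', nf', sp⟩ := exists_nf' h.cv.two (s := s) (by rw [sq, hs])
  obtain ⟨k, hk⟩ := nf.conj (nf'.toNF.map f) h3
  have he : env (pm P) = ⊤ := eq_top_iff.2 (h.env.ge.trans (env_mono (le_pm P)))
  obtain ⟨l, hl⟩ := conj_desc f (fun i => (g i).1) ![A, B, C, D, R] (fun W hW => irr_of_env he W fun x hx v hv => by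
    rcases gen.ge hx with hx | hx
    · exact hW x hx v hv
    · simpa [Matrix.neg_mulVec] using hW _ hx v hv) (k := k) fun i => by
      have := hk i
      fin_cases i <;> exact this
  obtain ⟨S, fS, cS, aS, hS⟩ := nf'.fin
  have : Finite S := fS
  let L := Subgroup.normalizer S ⊓ Sp F
  have mL : ∀ u ∈ [A, B, C, D, R, E'], u ∈ L := fun u hu => ⟨Subgroup.mem_normalizer_fintype (hS u hu), (sp u hu).1⟩
  have l1 : pm P ≤ L.map (MulAut.conj l).toMonoidHom := gen ▸ pm_le ((Subgroup.closure_le _).2 (by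
    rintro _ ⟨i, rfl⟩
    exact ⟨_, mL _ (by fin_cases i <;> simp), (hl i).symm⟩))
    ⟨-1, ⟨Subgroup.mem_normalizer_fintype fun n hn => by simpa using hn, h.cv.sp (neg_mem_pm P)⟩, by simp⟩
  have l2 : ∀ u ∈ L.map (MulAut.conj l).toMonoidHom, ∀ d ∈ MulAut.conj l '' S, u * d * u⁻¹ ∈ MulAut.conj l '' S := by
    rintro _ ⟨u, hu, rfl⟩ _ ⟨d, hd, rfl⟩
    exact ⟨_, (hu.1 d).1 hd, by simp [mul_assoc]⟩
  have xL : C * E' * C * R ∈ L :=
    mul_mem (mul_mem (mul_mem (mL _ (by simp)) (mL _ (by simp))) (mL _ (by simp))) (mL _ (by simp))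
  have p5 : 5 ≤ p := (Fact.out : p.Prime).five_le_of_ne_two_of_ne_three
    (by rintro rfl; exact h.cv.two (CharP.cast_eq_zero F 2)) q.1
  have xH := hH (m.mem_of_ti h.cv.two (fS.image (MulAut.conj l)) (by
    have := Set.ncard_image_le (f := MulAut.conj l) fS
    have := Nat.pow_le_pow_left p5 4
    rw [q.2]
    omega) ⟨A, aS, (hl 0).symm⟩ (h.cv.sp (g 0).2) (ti 0) (fun u hu => l2 u (l1 (hH hu))) (conj_sp he h.cv.sp (fun y hy => by
      obtain ⟨y, hy', rfl⟩ := l1 hy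
      simpa [mul_assoc] using hy'.2) _ xL.2) (l2 _ ⟨_, xL, rfl⟩))
  have o5 : (l * (C * E' * C * R) * l⁻¹) ^ 5 = 1 := by rw [conj_pow, nf'.five.1, mul_one, mul_inv_cancel]
  have := Fact.mk Nat.prime_five
  refine h5 (orderOf_eq_prime (x := π ⟨_, xH⟩) (p := 5) (by rw [← map_pow]; exact (h.cv.ker _).2 (.inl o5)) (fun e => ?_) ▸
    orderOf_dvd_natCard _)
  rcases (h.cv.ker _).1 e with e | e
  · exact nf'.five.2 (by simpa using e)
  · rw [show l * (C * E' * C * R) * l⁻¹ = -1 from e] at o5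
    exact h.cv.neg_ne (by simpa [Odd.neg_pow (show Odd 5 by decide)] using o5)

theorem Od.u33 (hE : Fintype.card E = 9) (h : Od P π) (m : Mx H P) : Fintype.card F = p ∧
    (p % 60 = 7 ∨ p % 60 = 53 ∨ p % 60 = 17 ∨ p % 60 = 43 ∨ p % 12 = 1 ∨ p % 12 = 11) := by
  obtain ⟨p3, q⟩ := h.u33_card p hE
  have pp : p.Prime := Fact.out
  have p2 : p ≠ 2 := by
    rintro rfl
    exact h.cv.two (CharP.cast_eq_zero F 2)
  have po := pp.eq_two_or_odd.resolve_left p2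
  have d3 : p % 3 ≠ 0 := fun e => p3 ((Nat.prime_dvd_prime_iff_eq Nat.prime_three pp).1 (Nat.dvd_of_mod_eq_zero e)).symm
  let i := ZMod.ringEquiv F q
  have k5 : ∀ r < 5, ¬ IsSquare ((r : ℕ) : ZMod 5) → r = 2 ∨ r = 3 := by decide
  have k60 : ∀ r < 60, r % 2 = 1 ∧ r % 3 ≠ 0 ∧ (r % 5 = 2 ∨ r % 5 = 3) →
      r = 7 ∨ r = 53 ∨ r = 17 ∨ r = 43 ∨ r % 12 = 1 ∨ r % 12 = 11 := by decide
  have := Fact.mk Nat.prime_five
  refine ⟨q, ?_⟩
  rcases h.u33_le hE m with hH | s3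
  · have n5 : ¬ IsSquare (p : ZMod 5) := fun e => h.u33_not hE m hH (by
      simpa [map_ofNat] using ((ZMod.exists_sq_eq_prime_iff_of_mod_four_eq_one (p := 5) (by norm_num) p2).1 e).map i)
    rw [← ZMod.natCast_mod] at n5
    have := k5 _ (by omega) n5
    have := k60 (p % 60) (by omega) (by omega)
    omega
  · have s3 : IsSquare ((3 : ℕ) : ZMod p) := by simpa [map_ofNat] using s3.map i.symm
    have k : IsSquare (p : ZMod 3) ↔ p % 3 = 1 := by
      rw [← ZMod.natCast_mod]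
      have := Nat.mod_lt p (show 0 < 3 by norm_num)
      generalize p % 3 = r at *
      interval_cases r
      exacts [(d3 rfl).elim, by decide, by decide]
    rcases (by omega : p % 4 = 1 ∨ p % 4 = 3) with e | e
    · have := k.1 ((ZMod.exists_sq_eq_prime_iff_of_mod_four_eq_one e (by norm_num)).1 s3)
      omega
    · have := mt k.2 ((ZMod.exists_sq_eq_prime_iff_of_mod_four_eq_three e (by norm_num) p3).1 s3)
      omega

end Cfsg.Lib.S6Q
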