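import Cfsg.Agent.Lib.S6Q.Pl
import Cfsg.Agent.Lib.O7.Ev
import Cfsg.Agent.Lib.O7.F3

/-!
# Groups of Lie type in characteristic two (`K` of odd characteristic)

`Cv.no_pure8`; data as in `O7/Ev` (`ev_sqrt`, `ev_upper`).
-/

set_option autoImplicit false

namespace Cfsg.Lib.S6Q

open scoped MatrixGroups Matrix commutatorElement
open Cfsg.Geo Cfsg.Lib.Asch Cfsg.Lib.Linear Cfsg.Lib.Q4 Cfsg.Lib.Symp Module
open Cfsg.Lib.Q4R (Sq HasTv sc dg)

variable {K : Type*} [Field K] [IsAlgClosed K] {X : Type*} [Group X] {Y : Subgroup (G6 K)} {π : Y →* X}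
  {E : Type*} [Field E] [Fintype E]

theorem Cv.evn_pure (h : Cv Y π) {A : Type*} [AddGroup A] [Finite A] (u : A → X) (hu : ∀ a b, u (a + b) = u a * u b)
    (i : ∀ a, u a = 1 → a = 0) (two : ∀ a : A, a + a = 0) (cj : ∀ a b, a ≠ 0 → b ≠ 0 → IsConj (u a) (u b))
    (h8 : 2 ^ 3 ∣ Nat.card A) : False := by
  let φ : Multiplicative A →* X := MonoidHom.mk' (fun a => u a.toAdd) fun a b => hu _ _
  have hi : Function.Injective φ := (injective_iff_map_eq_one _).2 i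
  haveI : Fact (Nat.Prime 2) := Nat.fact_prime_two
  obtain ⟨D, hD⟩ := Sylow.exists_subgroup_card_pow_prime (G := Multiplicative A) 2 h8
  refine h.no_pure8 (E := D.map φ) ((Subgroup.card_map_of_injective hi).trans hD) ?_ ?_
  · rintro _ ⟨a, -, rfl⟩
    rw [← map_mul, show a * a = 1 from two a.toAdd, map_one]
  · rintro _ ⟨a, -, rfl⟩ _ ⟨b, -, rfl⟩ ha hb
    exact cj _ _ (fun e => ha (by rw [show a = 1 from e, map_one])) fun e => hb (by rw [show b = 1 from e, map_one])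

theorem Cv.no_L2e (hE : Fintype.card E = 8 ∨ Fintype.card E = 16) {π : Y →* PSL(2, E)} (h : Cv Y π) : False := by
  have t : (2 : E) = 0 := hE.elim (O7.ev_two (n := 3)) (O7.ev_two (n := 4))
  refine h.evn_pure (fun a => PSL2.toL (PSL2.upper a)) (fun a b => by rw [← map_mul, PSL2.upper_mul])
    (fun a e => by
      simpa using congrArg (fun s : SL(2, E) => s.1 0 1) ((map_eq_one_iff _ (PSL2.toL_injective t)).1 e))
    (fun a => by rw [← two_mul, t, zero_mul]) (fun a b ha hb => ?_)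
    (by rw [Nat.card_eq_fintype_card]; rcases hE with e | e <;> rw [e] <;> norm_num)
  obtain ⟨c, hc⟩ := O7.ev_sqrt t (div_ne_zero hb ha)
  exact PSL2.toL.map_isConj (isConj_iff.2 ⟨O7.dS c, by
    rw [O7.dS_upper, mul_inv_cancel_right, hc, div_mul_cancel₀ _ ha]⟩)

theorem Cv.no_L34 (hE : Fintype.card E = 4) {π : Y →* PSL(3, E)} (h : Cv Y π) : False := by
  have t := O7.ev_two (n := 2) hE
  let u (x : E × E) : SL(3, E) := ⟨!![1, 0, x.1; 0, 1, x.2; 0, 0, 1], by simp [Matrix.det_fin_three]⟩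
  let ρ : SL(3, E) →* PSL(3, E) := QuotientGroup.mk' _
  have cj : ∀ x, x ≠ 0 → IsConj (u (1, 0)) (u x) := fun ⟨a, b⟩ hx => by
    obtain ⟨p, q, hd⟩ : ∃ p q, a * q - p * b = 1 := by
      by_cases z : a = 0
      · exact ⟨-b⁻¹, 0, by simp [inv_mul_cancel₀ (fun e => hx (Prod.ext z e) : b ≠ 0)]⟩
      · exact ⟨0, a⁻¹, by simp [z]⟩
    refine isConj_iff.2 ⟨⟨!![a, p, 0; b, q, 0; 0, 0, 1], by simpa [Matrix.det_fin_three] using hd⟩,
      mul_inv_eq_iff_eq_mul.2 (Subtype.ext ?_)⟩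
    change !![a, p, 0; b, q, 0; 0, 0, 1] * !![1, 0, 1; 0, 1, 0; 0, 0, 1] =
      !![1, 0, a; 0, 1, b; 0, 0, 1] * !![a, p, 0; b, q, 0; 0, 0, 1]
    simp
  exact h.evn_pure (fun x => ρ (u x))
    (fun x y => by rw [← map_mul]; exact congrArg ρ (Subtype.ext (by
      simp only [Matrix.SpecialLinearGroup.coe_mul]; simp [u, add_comm])))
    (fun x hx => by
      obtain ⟨r, -, hr⟩ := Matrix.SpecialLinearGroup.mem_center_iff.1 ((QuotientGroup.eq_one_iff _).1 hx)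
      exact Prod.ext (by simpa [u] using (congrFun (congrFun hr 0) 2).symm)
        (by simpa [u] using (congrFun (congrFun hr 1) 2).symm))
    (fun x => by ext <;> simp [← two_mul, t]) (fun x y hx hy => ρ.map_isConj ((cj x hx).symm.trans (cj y hy)))
    (by rw [Nat.card_prod, Nat.card_eq_fintype_card, hE]; norm_num)

theorem Cv.no_Sz8 (hE : Fintype.card E = 2 ^ (2 * 1 + 1)) {π : Y →* Lie.Sz E (2 ^ (1 + 1))} (h : Cv Y π) :
    False := by
  have t := O7.ev_two hE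
  let m := (Sz.titsOfCard hE).modelGL (Lie.Sz E (2 ^ (1 + 1))) (Sz.Tits.mem_lieSz _ (Sz.titsOfCard_σ hE))
  have cj : ∀ b, b ≠ 0 → IsConj (m.u 0 1) (m.u 0 b) := fun b hb => by
    obtain ⟨x, hx⟩ := Finite.injective_iff_surjective.1
      (fun _ _ e => m.toTits.σ_mul_sq_inj e : Function.Injective fun x : E => m.σ x * x ^ 2) b
    have x0 : x ≠ 0 := fun z => hb (by simp [← hx, z])
    exact isConj_iff.2 ⟨m.h (.mk0 x x0), by rw [m.h_conj_u, mul_zero, mul_one]; exact congrArg _ hx⟩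
  exact h.evn_pure (m.u 0) (fun a b => by simp [m.u_mul_u]) (fun a h => (m.u_eq_one.1 h).2)
    (fun a => by rw [← two_mul, t, zero_mul]) (fun x y hx hy => (cj x hx).symm.trans (cj y hy))
    (by rw [Nat.card_eq_fintype_card, hE])

theorem evn_sgn {G : Type*} [Group G] [HasDistribNeg G] {a b t : G} (ha : a * t = t * a ∨ a * t = -(t * a))
    (hb : b * t = t * b ∨ b * t = -(t * b)) : Commute ⁅a, b⁆ t := by
  have k : ∀ {a : G}, (a * t = t * a ∨ a * t = -(t * a)) →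
      ((∀ x, a * (t * x) = t * (a * x)) ∧ ∀ x, a⁻¹ * (t * x) = t * (a⁻¹ * x)) ∨
        (∀ x, a * (t * x) = -(t * (a * x))) ∧ ∀ x, a⁻¹ * (t * x) = -(t * (a⁻¹ * x)) := fun {a} h =>
    h.imp (fun e => ⟨(e : Commute a t).left_comm, (e : Commute a t).inv_left.left_comm⟩) fun e =>
      ⟨fun x => by rw [← mul_assoc, e, neg_mul, mul_assoc], fun x => by
        rw [inv_mul_eq_iff_eq_mul, mul_neg, ← mul_assoc, e, neg_mul, neg_neg, mul_assoc, mul_inv_cancel_left]⟩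
  have : a * (b * (a⁻¹ * (b⁻¹ * (t * 1)))) = t * (a * (b * (a⁻¹ * (b⁻¹ * 1)))) := by
    rcases k ha with ⟨a1, a2⟩ | ⟨a1, a2⟩ <;> rcases k hb with ⟨b1, b2⟩ | ⟨b1, b2⟩ <;>
      simp only [a1, a2, b1, b2, mul_neg, neg_neg]
  simpa only [Commute, SemiconjBy, commutatorElement_def, mul_assoc, mul_one] using this

section Blk

omit [IsAlgClosed K]

variable (K) in
/-- The centraliser of the frame. -/
def evB : Subgroup (G6 K) := Sp K ⊓ Subgroup.centralizer {tor ![-1, 1, 1], tor ![1, -1, 1]}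

theorem ev_sum (i : Fin 3) {f : I6 → K} (hf : ∀ j : I6, j.elim id id ≠ i → f j = 0) :
    ∑ j, f j = f (.inl i) + f (.inr i) := by
  rw [Fintype.sum_sum_type, Fintype.sum_eq_single i fun j e => hf (.inl j) e,
    Fintype.sum_eq_single i fun j e => hf (.inr j) e]

variable (h2 : (2 : K) ≠ 0)
include h2

theorem evB_zero (g : evB K) {i j : I6} (h : i.elim id id ≠ j.elim id id) : g.1.1 i j = 0 := by
  by_contra n
  have k : ∀ μ : Fin 3 → Kˣ, (∀ i, (μ i)⁻¹ = μ i) → tor μ * g.1 = g.1 * tor μ → μ (i.elim id id) = μ (j.elim id id) :=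
    fun μ e c => by
      have := dg_entry (a := t1w μ) (b := t1w μ) (mul_inv_eq_iff_eq_mul.2 c.symm) n
      rcases i with i | i <;> rcases j with j | j <;> simpa [e] using this
  have k1 := k _ (fun i => by fin_cases i <;> simp) (g.2.2 _ (.inl rfl))
  have k2 := k _ (fun i => by fin_cases i <;> simp) (g.2.2 _ (.inr rfl))
  have n1 := t3_ne h2 1
  generalize i.elim id id = p, j.elim id id = q at h k1 k2
  fin_cases p <;> fin_cases q <;> simp_all [n1.symm]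

theorem evb_det (i : Fin 3) (g : evB K) : (g.1.1.submatrix ![.inl i, .inr i] ![.inl i, .inr i]).det = 1 := by
  have := congrFun (congrFun (mem_Sp'.1 g.2.1) (.inr i)) (.inl i)
  rw [Matrix.mul_apply, ev_sum i fun j e => by rw [evB_zero h2 g (j := .inl i) e, mul_zero]] at this
  simp [Matrix.mul_apply, Matrix.J, Matrix.one_apply] at this
  rw [Matrix.det_fin_two, ← this, mul_comm, sub_eq_add_neg]
  rfl

theorem evb_mul (i : Fin 3) (g g' : evB K) : (g.1.1 * g'.1.1).submatrix ![.inl i, .inr i] ![.inl i, .inr i] =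
    g.1.1.submatrix ![.inl i, .inr i] ![.inl i, .inr i] * g'.1.1.submatrix ![.inl i, .inr i] ![.inl i, .inr i] := by
  ext a b
  rw [Matrix.submatrix_apply, Matrix.mul_apply, ev_sum i fun j e => by
    rw [evB_zero h2 g' (j := ![.inl i, .inr i] b) (by fin_cases b <;> exact e), mul_zero], Matrix.mul_apply,
    Fin.sum_univ_two]
  rfl

/-- The three blocks. -/
def evb (i : Fin 3) : evB K →* SL(2, K) :=
  MonoidHom.mk' (fun g => ⟨_, evb_det h2 i g⟩) fun g g' => Subtype.ext (evb_mul h2 i g g')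

theorem evb_inj {g : evB K} (h : ∀ i, evb h2 i g = 1) : g = 1 := Subtype.ext (Units.ext (Matrix.ext fun a b => by
  by_cases e : a.elim id id = b.elim id id
  · have k := fun u v => congrArg (fun s : SL(2, K) => s.1 u v) (h (a.elim id id))
    rcases a with a | a <;> rcases b with b | b <;> obtain rfl : a = b := e
    exacts [(k 0 0).trans (by simp), (k 0 1).trans (by simp), (k 1 0).trans (by simp), (k 1 1).trans (by simp)]
  · rw [evB_zero h2 g e, OneMemClass.coe_one, Units.val_one, Matrix.one_apply_ne fun c => e (by rw [c])]))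

end Blk

/-- abstract form of the `U₃(4)` argument -/
theorem Cv.evn_u3 (h : Cv Y π) {T : Subgroup X} {Z : Set X} {x : X} (x5 : x ^ 5 = 1) (nx : ∀ a ∈ T, x * a * x⁻¹ ∈ T)
    (hZ : ∀ z ∈ Z, z * z = 1 ∧ (∀ a ∈ T, Commute a z) ∧ Commute x z ∧ ∃ a ∈ T, ∃ b ∈ T, ⁅a, b⁆ = z)
    (hT : ∀ a ∈ T, a * a ∈ Z ∧ ∃ b ∈ T, ∃ z ∈ Z, a = ⁅x, b⁆ * z) {z₁ z₂ : X} (h1 : z₁ ∈ Z) (h2 : z₂ ∈ Z)
    (n1 : z₁ ≠ 1) (n2 : z₂ ≠ 1) (n : z₁ ≠ z₂) {b : X} (hb : b ∈ T) : ⁅x, b⁆ * ⁅x, b⁆ = 1 := by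
  have cm : ∀ t g : Y, π t ∈ Z → π g ∈ T → Commute g.1 t.1 := fun t g ht hg => by
    obtain ⟨-, c1, c2, -⟩ := hZ _ ht
    have k : ∀ a b, Commute a (π t) → Commute b (π t) → ∃ g : Y, π g = ⁅a, b⁆ ∧ Commute g.1 t.1 := fun a b ca cb => by
      obtain ⟨a, rfl⟩ := h.surj a
      obtain ⟨b, rfl⟩ := h.surj b
      exact ⟨⁅a, b⁆, map_commutatorElement _ _ _, evn_sgn (h.pm_comm ca) (h.pm_comm cb)⟩
    obtain ⟨-, b, hb, z, hz, e⟩ := hT _ hg
    obtain ⟨-, -, -, u, hu, v, hv, rfl⟩ := hZ _ hz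
    obtain ⟨g1, e1, d1⟩ := k _ _ c2 (c1 b hb)
    obtain ⟨g2, e2, d2⟩ := k _ _ (c1 u hu) (c1 v hv)
    rcases h.eq_iff.1 (e.trans (by rw [← e1, ← e2, map_mul]) : π g = π (g1 * g2)) with e | e <;> rw [e]
    · exact d1.mul_left d2
    · exact (d1.mul_left d2).neg_left
  have sq : ∀ t : Y, π t ∈ Z → t.1 * t.1 = 1 := fun t ht => by
    obtain ⟨t2, -, -, a, ha, b, hb, e⟩ := hZ _ ht
    obtain ⟨a, rfl⟩ := h.surj a
    obtain ⟨b, rfl⟩ := h.surj b
    exact (h.pm_sq t2).resolve_right (ti_of_comm h.two (h.sp t.2)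
      (h.eq_iff.1 ((map_commutatorElement π a b).trans e)) (cm t a ht ha) (cm t b ht hb))
  have ti : ∀ z ∈ Z, z ≠ 1 → ∃ t : Y, π t = z ∧ TI t.1 := fun z hz n => by
    obtain ⟨t, rfl⟩ := h.surj z
    rcases ti_or h.two (h.sp t.2) (sq t hz) with e | e | e | e
    exacts [(n ((h.ker t).2 (.inl e))).elim, (n ((h.ker t).2 (.inr e))).elim, ⟨t, rfl, e⟩,
      ⟨⟨-t.1, h.neg_mem t.2⟩, h.eq_iff.2 (.inr rfl), e⟩]
  obtain ⟨t₁, rfl, i1⟩ := ti _ h1 n1
  obtain ⟨t₂, rfl, i2⟩ := ti _ h2 n2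
  obtain ⟨k, hk, e1, e2⟩ := TI.frame h.two i1 i2 (h.sp t₁.2) (h.sp t₂.2) (cm _ _ h2 (by
    obtain ⟨-, -, -, a, ha, b, hb, e⟩ := hZ _ h1
    exact e ▸ T.mul_mem (T.mul_mem (T.mul_mem ha hb) (T.inv_mem ha)) (T.inv_mem hb)))
    fun e => n (congrArg π (Subtype.ext e))
  obtain ⟨y, rfl, y5⟩ := h.lift (by decide : Odd 5) x5
  obtain ⟨g, rfl⟩ := h.surj b
  let c : Y →* G6 K := (MulAut.conj k).toMonoidHom.comp Y.subtype
  have mC : ∀ g : Y, Commute g.1 t₁.1 → Commute g.1 t₂.1 → g ∈ (evB K).comap c := fun g c1 c2 =>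
    Subgroup.mem_inf.2 ⟨mul_mem (mul_mem hk (h.sp g.2)) (inv_mem hk), by
      rintro _ (rfl | rfl)
      exacts [e1 ▸ (c1.symm.map (MulAut.conj k)).eq, e2 ▸ (c2.symm.map (MulAut.conj k)).eq]⟩
  let y' : (evB K).comap c := ⟨y, mC y (h.cw.commute (by decide) y5 (hZ _ h1).2.2.1.symm).symm
    (h.cw.commute (by decide) y5 (hZ _ h2).2.2.1.symm).symm⟩
  let g' : (evB K).comap c := ⟨g, mC g (cm _ _ h1 hb) (cm _ _ h2 hb)⟩
  have := h.fin
  have key : c.subgroupComap _ (⁅y', g'⁆ * ⁅y', g'⁆) = 1 := evb_inj h.two fun i => by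
    let f := (evb h.two i).comp (c.subgroupComap (evB K))
    let V := ((T.comap π).subgroupOf ((evB K).comap c)).map (PSL2.toL.comp f)
    have : Finite V := .of_surjective _ ((PSL2.toL.comp f).subgroupMap_surjective _)
    have c4 : Nat.card V ≤ 4 := O7.card_le_four h.two (by
      rintro _ ⟨a, ha, rfl⟩
      rw [← map_mul]
      exact PSL2.toL_eq_one_iff.2 (PSL2.eq_one_or_neg_one_of_mul_self h.two (by
        rw [← map_mul, show a * a * (a * a) = 1 from Subtype.ext (Subtype.ext (sq (a.1 * a.1)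
          (by rw [map_mul]; exact (hT _ ha).1))), map_one])))
    have md := t3_mod (R := V) (x := PSL2.toL.comp f y') (by
      rw [← map_pow, show y' ^ 5 = 1 from Subtype.ext (Subtype.ext y5), map_one]) (by
      rintro _ ⟨a, ha, rfl⟩
      refine ⟨y' * a * y'⁻¹, ?_, by rw [map_mul, map_mul, map_inv]⟩
      change π (y * a.1 * y⁻¹) ∈ T
      rw [map_mul, map_mul, map_inv]
      exact nx _ ha)
    have l := Subgroup.card_le_of_le (inf_le_left : V ⊓ Subgroup.centralizer {PSL2.toL.comp f y'} ≤ V)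
    have := ((Subgroup.eq_of_le_of_card_ge inf_le_left (md.eq_of_lt_of_lt (by omega) (by omega)).le).ge
      (⟨g', hb, rfl⟩ : _ ∈ V)).2 _ rfl
    rw [← commutatorElement_eq_one_iff_mul_comm, ← map_commutatorElement] at this
    change f _ = 1
    rcases PSL2.toL_eq_one_iff.1 this with e | e <;> rw [map_mul, e] <;> simp
  have : ⁅y, g⁆ * ⁅y, g⁆ = 1 := Subtype.ext ((MulAut.conj k).injective ((congrArg Subtype.val key).trans (map_one _).symm))
  rw [← map_commutatorElement, ← map_mul, this, map_one]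

/-- `T` Sylow of order 64, `Z = Z(T)` a four-group of commutators, `x` of order five centralising `Z`, irreducible on
`T / Z = 2⁴`.  The sign `T → ± 1`, `a ↦ ⁅ã, z̃⁆` is an `x`-invariant homomorphism, so trivial; `ti_of_comm`: the
lifts `t₁, t₂, t₃` of `Z^#` have type I, `TI.frame`.  On the plane `U_i`, `ã² = ± 1` and lifts commute or
anticommute; the alternating form on `T / Z` is `x`-invariant, not nondegenerate (an anticommuting pair generates
`End U_i`), so zero; then `a ↦ ã²|U_i` is an invariant homomorphism, so trivial and `ã = ± 1` on each `U_i`.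
So `ã² = 1`, but `a² ≠ 1`. -/
theorem Cv.no_U34 (hE : Fintype.card E = 16) {π : Y →* PSU 3 E 4} (h : Cv Y π) : False := by
  have t0 := O7.ev_two (n := 4) hE
  obtain ⟨σ, b⟩ := Unitary.exists_isBar (q := 4) hE
  haveI : Fact (Function.Involutive σ) := ⟨b.invol⟩
  obtain ⟨m, -⟩ := U3.exists_model_PSU b
  obtain ⟨s, hs, s0, s1⟩ := b.exists_fixed_ne (by norm_num)
  obtain ⟨w, hw⟩ := b.exists_ne
  obtain ⟨a, ha, a1⟩ := b.exists_norm_one_ne_one
  have a0 : a ≠ 0 := left_ne_zero_of_mul_eq_one ha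
  have k1 : a ^ 2 / σ a - 1 ≠ 0 := fun z => by
    rw [sub_eq_zero, div_eq_one_iff_eq (right_ne_zero_of_mul_eq_one ha)] at z
    have := b.eq a
    grind
  have h0 : ∀ d, σ d = d → U3.Hs σ 0 d := fun d hd => by simp [U3.Hs, hd, ← two_mul, t0]
  have key : ∀ z, ∃ y z' y', U3.Hs σ z y ∧ U3.Hs σ z' y' ∧ ⁅m.h a, m.u z' y'⁆ = m.u z y := fun z => by
    obtain ⟨y, hy⟩ := U3.exists_hs' b (z / (a ^ 2 / σ a - 1))
    have e1 : a ^ 2 / σ a * (z / (a ^ 2 / σ a - 1)) + -(z / (a ^ 2 / σ a - 1)) = z := by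
      rw [← sub_eq_add_neg, ← sub_one_mul, mul_div_cancel₀ _ k1]
    have hz := (hy.tor a0).mul hy.inv
    have := m.u_mul (hy.tor a0) hy.inv
    rw [e1] at this hz
    exact ⟨_, _, _, hz, hy, by rw [commutatorElement_def, m.h_conj_u a0 hy, m.u_inv hy, this]⟩
  obtain ⟨y, z', y', hy, hy', e⟩ := key 1
  have := h.evn_u3 (T := m.U) (Z := {g | ∃ d, σ d = d ∧ g = m.u 0 d}) (x := m.h a) ?_
    (fun g hg => m.conj_mem_U (m.T_le_B (m.h_mem_T a0)) hg) ?_ ?_ ⟨1, map_one σ, rfl⟩ ⟨s, hs, rfl⟩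
    (fun e => one_ne_zero ((m.u_eq_one (h0 1 (map_one σ))).1 e)) (fun e => s0 ((m.u_eq_one (h0 s hs)).1 e))
    (fun e => s1 ((m.u_inj (h0 1 (map_one σ)) (h0 s hs)).1 e).2.symm) (m.u_mem_U hy')
  · rw [e, m.u_mul hy hy, m.u_eq_one (hy.mul hy), ← two_mul, t0] at this
    simp at this
  · have a5 : a * a * a * a * a = 1 := by rw [← ha, b.eq]; ring
    simp only [pow_succ, pow_zero, one_mul, m.h_mul, ne_eq, mul_eq_zero, a0, or_self, not_false_eq_true, a5, m.h_one]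
  · rintro _ ⟨d, hd, rfl⟩
    refine ⟨by rw [m.u_mul (h0 d hd) (h0 d hd)]; simp [← two_mul, t0, m.u_zero], fun g hg => ?_,
      mul_inv_eq_iff_eq_mul.1 (by rw [m.h_conj_u a0 (h0 d hd), ha, mul_zero, one_mul]), ?_⟩
    · obtain ⟨x, y, hx, rfl⟩ := m.mem_U.1 hg
      rw [Commute, SemiconjBy, m.u_mul (h0 d hd) hx, m.u_mul hx (h0 d hd)]
      simp [add_comm]
    have w0 : σ w - w ≠ 0 := sub_ne_zero.2 hw
    have e1 : σ (d / (σ w - w)) = d / (σ w - w) := by
      rw [map_div₀, hd, map_sub, b.invol, show w - σ w = σ w - w by linear_combination (w - σ w) * t0]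
    obtain ⟨x, hx⟩ := U3.exists_hs' b 1
    obtain ⟨y, hy⟩ := U3.exists_hs' b (d / (σ w - w) * w)
    refine ⟨_, m.u_mem_U hx, _, m.u_mem_U hy, ?_⟩
    rw [commutatorElement_def, mul_assoc, ← _root_.mul_inv_rev, mul_inv_eq_iff_eq_mul, m.u_mul hx hy, m.u_mul hy hx,
      m.u_mul (h0 d hd) (hy.mul hx), map_mul, e1]
    congr 1
    · ring
    · simp only [map_one, zero_mul]
      field_simp
      ring
  · intro g hg
    obtain ⟨x, y, hx, rfl⟩ := m.mem_U.1 hg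
    obtain ⟨v, z', y', hv, hy', e⟩ := key x
    have e1 : σ (y - v) = y - v := by
      rw [map_sub]
      linear_combination hx.eq - hv.eq + (v - y) * t0
    refine ⟨⟨x * σ x, by rw [map_mul, b.invol, mul_comm], ?_⟩, _, m.u_mem_U hy', _, ⟨_, e1, rfl⟩, ?_⟩
    · rw [m.u_mul hx hx, ← two_mul, ← two_mul, t0, zero_mul, zero_mul, zero_add]
    · rw [e, m.u_mul hv (h0 _ e1)]
      simp

end Cfsg.Lib.S6Q
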