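import Cfsg.Agent.Lib.S6Q.Pl
import Cfsg.Agent.Lib.O7.G2
import Cfsg.Agent.Lib.O7.D4
import Cfsg.Agent.Lib.O7.Ree

/-!
# Exceptional groups of Lie type, odd `q`
-/

set_option autoImplicit false

namespace Cfsg.Lib.S6Q

open scoped MatrixGroups Matrix commutatorElement
open Cfsg.Geo Cfsg.Lib.Asch Cfsg.Lib.Linear Cfsg.Lib.Q4 Cfsg.Lib.Symp Module
open Cfsg.Lib.Q4R (Sq HasTv sc dg)

variable {K : Type*} [Field K] [IsAlgClosed K] {X : Type*} [Group X] {Y : Subgroup (G6 K)} {π : Y →* X}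
  {E : Type*} [Field E] [Fintype E]

theorem exc_two (ho : Odd (Fintype.card E)) : (2 : E) ≠ 0 := fun e => by
  have := FiniteField.even_card_of_char_two
    ((ringChar.eq_iff (R := E)).2 (CharTwo.of_one_ne_zero_of_two_eq_zero one_ne_zero e))
  obtain ⟨n, hn⟩ := ho
  omega

/-- `GG.fR`, `GG.fL` (`O7/G21`, `O7/G2`) and `Cv.no_sl2sl2`. -/
theorem Cv.no_G2 (ho : Odd (Fintype.card E)) {π : Y →* Lie.chevG2.group E} (h : Cv Y π) : False := by
  obtain ⟨c⟩ := Oct.nonempty_chev_equiv (F := E)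
  exact (h.comp c).no_sl2sl2 ho ho O7.GG.fR O7.GG.fL
    (fun e => PSL2.sl_neg_one_ne_one (exc_two ho) (Oct.psi_gamR_injective (e.trans (map_one _).symm))) O7.GG.fL_neg.symm
    fun a b => (Oct.gamL_comm b a).symm.map Oct.psi

/-- `O7.d4_data` and `Cv.tri` with `d = a (dS l)`, `l` of order `q² + q + 1`. -/
theorem Cv.no_D4 {q : ℕ} (ho : Odd q) (hq : Fintype.card E = q ^ 3) {π : Y →* Lie.twistedD4 E q} (h : Cv Y π) :
    False := by
  obtain ⟨p, _, n, hp, e0⟩ := FiniteField.card' E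
  obtain ⟨a, -, ea⟩ := (Nat.dvd_prime_pow hp).1 (e0 ▸ hq ▸ dvd_pow_self q three_ne_zero)
  have h1 := Fintype.one_lt_card (α := E)
  have ha : a ≠ 0 := by
    rintro rfl
    simp [hq, ea] at h1
  have oE : Odd (Fintype.card E) := hq ▸ ho.pow
  have q2 : 2 ≤ q := ea ▸ hp.two_le.trans (Nat.le_self_pow ha _)
  have c8 : 8 ≤ Fintype.card E := hq ▸ Nat.pow_le_pow_left q2 3
  obtain ⟨f, r, D⟩ := O7.d4_data (ea ▸ hp.isPrimePow.pow ha) hq (exc_two oE)
  obtain ⟨s, hs⟩ := IsCyclic.exists_ofOrder_eq_natCard (α := Eˣ)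
  have ol : orderOf (s ^ (q - 1)) = q ^ 2 + q + 1 := by
    have : orderOf s = (q - 1) * (q ^ 2 + q + 1) := by
      rw [hs, Nat.card_units, Nat.card_eq_fintype_card, hq]
      obtain ⟨q, rfl⟩ := Nat.exists_eq_add_of_le' q2
      exact Nat.sub_eq_of_eq_add (by rw [show q + 2 - 1 = q + 1 from rfl]; ring)
    rw [orderOf_pow_of_dvd (by omega) ⟨_, this⟩, this, Nat.mul_div_cancel_left _ (by omega)]
  have hl := ol ▸ pow_orderOf_eq_one (s ^ (q - 1))
  have := D.inj ((h.tri oE (by omega) f (fun e => PSL2.sl_neg_one_ne_one (exc_two oE) (D.inj (e.trans (map_one _).symm)))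
    D.comm D.eb ⟨_, rfl⟩ (ho.pow.add_odd ho).add_one (by
      rw [← map_pow, show O7.dS _ ^ _ = 1 from (map_pow O7.tri_dH _ _).symm.trans (by rw [hl, map_one]), map_one])
    (D.cen _ hl)).trans (map_one _).symm)
  rw [show s ^ (q - 1) = 1 from Units.ext (congrArg (fun s : SL(2, E) => s.1 0 0) this), orderOf_one] at ol
  omega

/-- `C(a) = ⟨a⟩ × L₂(q)`: `⟨a⟩ ×` a four-group; all involutions are conjugate (`Lib/Ree`). -/
theorem Cv.no_Ree (h : Cv Y π) (e : Lie.IsoRee X) : False := by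
  obtain ⟨E, _, _, m, hm, hE, ⟨e⟩⟩ := e
  obtain ⟨R, -⟩ := Ree.exists_model hE
  have := R.finite
  have hq : 27 ≤ Nat.card E := Nat.card_eq_fintype_card.trans hE ▸ Nat.pow_le_pow_right (n := 3) (i := 3) three_pos (by omega)
  obtain ⟨S⟩ : Nonempty (Sylow 2 (Lie.twistedG2 E (3 ^ m))) := inferInstance
  have k : ∀ a ∈ S.1, a ≠ 1 → IsConj a R.a := fun a m n =>
    R.isConj_a (by omega) (orderOf_eq_prime ((sq a).trans (R.mul_self_of_mem_sylow S m)) n)
  exact (h.comp e).no_pure8 (R.card_sylow_two S) (fun a => R.mul_self_of_mem_sylow S)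
    fun a ma b mb a1 b1 => (k a ma a1).trans (k b mb b1).symm

/-- `L₂(q) ≤ Ree(q)`, `q ≥ 27`, `Cw.l2`. -/
theorem Cw.three_of_Ree (h : Cw Y π) (e : Lie.IsoRee X) : (3 : K) = 0 := by
  obtain ⟨E, _, _, m, hm, hE, ⟨e⟩⟩ := e
  obtain ⟨R, -⟩ := Ree.exists_model hE
  have hq : 27 ≤ Fintype.card E := hE ▸ Nat.pow_le_pow_right (n := 3) (i := 3) three_pos (by omega)
  obtain ⟨Y', -, π', h', -⟩ := (h.comp e).sub R.θ_inj
  by_contra n
  have := h'.l2 (hE ▸ Odd.pow (by decide)) (by rw [hE]; push_cast; exact pow_ne_zero _ n)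
  omega

end Cfsg.Lib.S6Q
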