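import Cfsg.Agent.Lib.S6Q.T2
import Cfsg.Agent.Lib.Orth.LongRoot
import Cfsg.Agent.Lib.O7.SM

/-!
# Bivectors: the calculus of `a ∧ y` in characteristic two
-/

set_option autoImplicit false

namespace Cfsg.Lib.S6Q

open scoped MatrixGroups Matrix commutatorElement
open QuadraticMap Module Cfsg.Lib.Orth Cfsg.Lib.Asch
open Cfsg.Lib.O7 (V W Q N I7 Spin phi act gam sU dm fx stabS stabV dgV)

variable {K : Type*} [Field K] {M : Subgroup (O (Q K))} {a y b z s s' p : V K} {g t h : O (Q K)}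

theorem geo_add_l (x y v : V K) : B (x + y) v = B x v + B y v := polar_add_left _ _ _ _
theorem geo_add_r (v x y : V K) : B v (x + y) = B v x + B v y := polar_add_right _ _ _ _
theorem geo_smul_l (c : K) (x v : V K) : B (c • x) v = c * B x v := polar_smul_left' _ _ _ _
theorem geo_smul_r (c : K) (v x : V K) : B v (c • x) = c * B v x := polar_smul_right' _ _ _ _
theorem geo_sing (ha : Q K a = 0) : B a a = 0 := by rw [B, polar_self', ha, mul_zero]

theorem geo_perp (ha : B a z = 0) (hy : B y z = 0) {v : V K} (hv : v ∈ ln a y) : B v z = 0 := by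
  obtain ⟨α, β, rfl⟩ := Submodule.mem_span_pair.1 hv
  rw [geo_add_l, geo_smul_l, geo_smul_l, ha, hy, mul_zero, mul_zero, add_zero]

theorem geo_left (a y : V K) : a ∈ ln a y := Submodule.subset_span (by simp)
theorem geo_right (a y : V K) : y ∈ ln a y := Submodule.subset_span (by simp)

theorem Ln.symm (l : Ln a y) : Ln y a := by
  exact ⟨l.qy, l.qa, (B_comm _ _).trans l.p, fun s t e => (l.li t s (by rw [add_comm, e])).symm⟩

theorem Ln.ne (l : Ln a y) : a ≠ 0 := by
  exact fun k => one_ne_zero (l.li 1 0 (by rw [k, smul_zero, zero_smul, add_zero])).1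

theorem Ln.smul (l : Ln a y) {c : K} (hc : c ≠ 0) : Ln a (c • y) := by
  refine ⟨l.qa, by rw [Q_smul, l.qy, mul_zero], by rw [geo_smul_r, l.p, mul_zero], fun s t e => ?_⟩
  rw [smul_smul] at e
  exact ⟨(l.li _ _ e).1, (mul_eq_zero.1 (l.li _ _ e).2).resolve_right hc⟩

theorem Ln.add (l : Ln a y) (c : K) : Ln a (y + c • a) := by
  refine ⟨l.qa, (Q_add_smul_of_singular l.qa l.p c).trans l.qy,
    by rw [geo_add_r, geo_smul_r, l.p, geo_sing l.qa, mul_zero, add_zero], fun s t e => ?_⟩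
  obtain ⟨h1, h3⟩ := l.li (s + t * c) t (by linear_combination (norm := module) e)
  exact ⟨by rw [h3, zero_mul, add_zero] at h1; exact h1, h3⟩

theorem Ln.conj (l : Ln a y) (g : O (Q K)) : Ln (g.1 a) (g.1 y) := by
  refine ⟨(O.map_Q g a).trans l.qa, (O.map_Q g y).trans l.qy, (O.map_polar g a y).trans l.p,
    fun s t e => l.li s t ?_⟩
  rw [← map_smul, ← map_smul, ← map_add] at e
  exact g.1.map_eq_zero_iff.1 e

theorem Ln.sing (l : Ln a y) {v : V K} (hv : v ∈ ln a y) : Q K v = 0 := by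
  obtain ⟨α, β, rfl⟩ := Submodule.mem_span_pair.1 hv
  have : polar (Q K) a y = 0 := l.p
  rw [Q_add, Q_smul, Q_smul, polar_smul_left', polar_smul_right', l.qa, l.qy, this]
  ring

theorem Ln.finrank (l : Ln a y) : finrank K (ln a y) = 2 := by
  have h := finrank_span_eq_card (LinearIndependent.pair_iff.2 l.li)
  rwa [Matrix.range_cons_cons_empty, Fintype.card_fin] at h

theorem DL.conj (l : DL M a y) (hg : g ∈ M) : DL M (g.1 a) (g.1 y) := by
  exact ⟨l.1.conj g, by rw [wd, ← conj_eich]; exact M.mul_mem (M.mul_mem hg l.2) (M.inv_mem hg)⟩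

theorem A2.conj (l : A2 t) (g : O (Q K)) : A2 (g * t * g⁻¹) := by
  obtain ⟨a, y, l, rfl⟩ := l
  exact ⟨_, _, l.conj g, conj_eich g a y⟩

theorem kap_conj (g : O (Q K)) : kap (g.1 a) (g.1 y) (g.1 b) (g.1 z) = kap a y b z := by
  simp only [kap, B, O.map_polar]

theorem kap_comm : kap a y b z = kap b z a y := by
  rw [kap, kap, B_comm b a, B_comm z y, B_comm b y, B_comm z a]; ring

/-- Opposite lines: nothing in the first is perpendicular to the second. -/
theorem kap_ne_iff (l : Ln a y) : kap a y b z ≠ 0 ↔ ∀ v ∈ ln a y, B v b = 0 → B v z = 0 → v = 0 := by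
  refine ⟨fun k v hv h1 h3 => ?_, fun h k => ?_⟩
  · obtain ⟨α, β, rfl⟩ := Submodule.mem_span_pair.1 hv
    rw [geo_add_l, geo_smul_l, geo_smul_l] at h1 h3
    have e1 : α * kap a y b z = 0 := by rw [kap]; linear_combination B y z * h1 - B y b * h3
    have e2 : β * kap a y b z = 0 := by rw [kap]; linear_combination B a b * h3 - B a z * h1
    rw [(mul_eq_zero.1 e1).resolve_right k, (mul_eq_zero.1 e2).resolve_right k, zero_smul, zero_smul, add_zero]
  · rw [kap] at k
    have e1 := l.li _ _ (h (B y z • a + (-B a z) • y) (Submodule.mem_span_pair.2 ⟨_, _, rfl⟩)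
      (by rw [geo_add_l, geo_smul_l, geo_smul_l]; linear_combination k)
      (by rw [geo_add_l, geo_smul_l, geo_smul_l]; ring))
    have e2 := l.li _ _ (h (B y b • a + (-B a b) • y) (Submodule.mem_span_pair.2 ⟨_, _, rfl⟩)
      (by rw [geo_add_l, geo_smul_l, geo_smul_l]; ring)
      (by rw [geo_add_l, geo_smul_l, geo_smul_l]; linear_combination -k))
    exact l.ne (h a (geo_left a y) (neg_eq_zero.1 e2.2) (neg_eq_zero.1 e1.2))

/-- prescribe one more value of `B` -/
theorem geo_step (h2 : (2 : K) = 0) {X : Submodule K (V K)} {c : V K} (hc : c ∉ X ⊔ K ∙ sU K) (v₀ : V K) (r : K) :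
    ∃ v, (∀ w ∈ X, B w v = B w v₀) ∧ B c v = r := by
  obtain ⟨f, f0, hf⟩ := Submodule.exists_dual_map_eq_bot_of_notMem hc inferInstance
  have hf' : ∀ w ∈ X ⊔ K ∙ sU K, f w = 0 := fun w hw => by
    rw [← Submodule.mem_bot K, ← hf]; exact ⟨w, hw, rfl⟩
  obtain ⟨z, hz⟩ : ∃ z, ∀ w, B w z = f w := by
    refine ⟨inc (((alt_om (K := K)).bilin.toDual alt_om.nondegenerate).symm (f ∘ₗ inc)), fun w => ?_⟩
    rw [B_comm, B_eq h2, pr_inc]
    refine (LinearMap.BilinForm.apply_toDual_symm_apply (hB := alt_om.nondegenerate) (f ∘ₗ inc) (pr w)).trans ?_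
    conv_rhs => rw [inc_pr w, map_add, map_smul,
      hf' _ (Submodule.mem_sup_right (Submodule.mem_span_singleton_self _)), smul_zero, add_zero]
    rfl
  refine ⟨v₀ + ((r - B c v₀) / f c) • z, fun w hw => ?_, ?_⟩
  · rw [geo_add_r, geo_smul_r, hz, hf' w (Submodule.mem_sup_left hw), mul_zero, add_zero]
  · rw [geo_add_r, geo_smul_r, hz, div_mul_cancel₀ _ f0, add_sub_cancel]

theorem geo_rad (h2 : (2 : K) = 0) (ha : Q K a = 0) (h : a ∈ K ∙ sU K) : a = 0 := by
  refine rad_sing h2 (fun u => ?_) ha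
  obtain ⟨c, rfl⟩ := Submodule.mem_span_singleton.1 h
  rw [geo_smul_l, B_sU h2, mul_zero]

theorem geo_one (h2 : (2 : K) = 0) (ha : Q K a = 0) (a0 : a ≠ 0) (r : K) : ∃ v, B a v = r := by
  obtain ⟨v, -, h⟩ := geo_step h2 (X := ⊥) (c := a) (by rw [bot_sup_eq]; exact fun k => a0 (geo_rad h2 ha k)) 0 r
  exact ⟨v, h⟩

theorem Ln.exists_B (h2 : (2 : K) = 0) (l : Ln a y) (r r' : K) : ∃ v, B a v = r ∧ B y v = r' := by
  obtain ⟨v₀, h0⟩ := geo_one h2 l.qa l.ne r
  obtain ⟨v, h1, h3⟩ := geo_step h2 (X := K ∙ a) (c := y) (fun k => by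
    obtain ⟨u, hu, w, hw, e⟩ := Submodule.mem_sup.1 k
    obtain ⟨c, rfl⟩ := Submodule.mem_span_singleton.1 hu
    have e' : w = (-c) • a + (1 : K) • y := by rw [← e]; module
    have := geo_rad h2 (l.sing (Submodule.mem_span_pair.2 ⟨_, _, e'.symm⟩)) hw
    exact one_ne_zero (l.li _ _ (e'.symm.trans this)).2) v₀ r'
  exact ⟨v, (h1 a (Submodule.mem_span_singleton_self a)).trans h0, h3⟩

theorem wd_inj (ha : Q K a = 0) (a0 : a ≠ 0) (h2 : (2 : K) = 0) (hs : B a s = 0) (hs' : B a s' = 0)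
    (e : wd a s = wd a s') : s - s' ∈ K ∙ a := by
  obtain ⟨v, hv⟩ := geo_one h2 ha a0 1
  have k := congrArg (fun g : O (Q K) => g.1 v) e
  simp only [wd, eich_apply ha hs, eich_apply ha hs'] at k
  rw [show polar (Q K) a v = 1 from hv] at k
  exact Submodule.mem_span_singleton.2 ⟨B s v - Q K s - B s' v + Q K s', by
    linear_combination (norm := module) k⟩

section Two

variable (h2 : (2 : K) = 0)
include h2

theorem geo_add_self (v : V K) : v + v = 0 := by rw [← two_smul K, h2, zero_smul]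

theorem geo_neg (v : V K) : -v = v := neg_eq_of_add_eq_zero_left (geo_add_self h2 v)

theorem wd_apply (ha : Q K a = 0) (hy : B a y = 0) (v : V K) :
    (wd a y).1 v = v + B y v • a + B a v • y + (Q K y * B a v) • a := by
  rw [wd, eich_apply ha hy, sub_eq_add_neg, sub_eq_add_neg, geo_neg h2, geo_neg h2]

theorem Ln.apply (l : Ln a y) (v : V K) : (wd a y).1 v = v + B y v • a + B a v • y := by
  rw [wd_apply h2 l.qa l.p, l.qy, zero_mul, zero_smul, add_zero]

theorem wd_sq (a y : V K) : wd a y * wd a y = 1 := by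
  by_cases h : Q K a = 0 ∧ polar (Q K) a y = 0
  · rw [wd, ← eich_add h.1 h.2 h.2, geo_add_self h2, eich_zero]
  · rw [wd, eich_of_not h, mul_one]

theorem Ln.swap (l : Ln a y) : wd y a = wd a y := by
  rw [wd, eich_swap l.qa l.p l.qy, geo_neg h2]

theorem Ln.basis (l : Ln a y) (α β γ δ : K) :
    wd (α • a + β • y) (γ • a + δ • y) = wd a ((α * δ + β * γ) • y) := by
  have m : ∀ α β : K, α • a + β • y ∈ ln a y := fun α β => Submodule.mem_span_pair.2 ⟨_, _, rfl⟩
  have pp : ∀ {u w}, u ∈ ln a y → w ∈ ln a y → B u w = 0 := fun hu hw =>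
    geo_perp ((B_comm _ _).trans (geo_perp (geo_sing l.qa) l.symm.p hw))
      ((B_comm _ _).trans (geo_perp l.p (geo_sing l.qy) hw)) hu
  refine O.ext fun v => ?_
  rw [wd_apply h2 (l.sing (m α β)) (pp (m α β) (m γ δ)), l.sing (m γ δ),
    wd_apply h2 l.qa (by rw [geo_smul_r, l.p, mul_zero]), Q_smul, l.qy]
  simp only [geo_add_l, geo_smul_l]
  linear_combination (norm := module) h2 • ((α * γ * B a v) • a + (β * δ * B y v) • y)

theorem Ln.comm (l : Ln a y) : O.comm (wd a y) = ln a y := by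
  refine le_antisymm (comm_eich_le a y) (Submodule.span_le.2 (Set.pair_subset ?_ ?_))
  · obtain ⟨v, h1, h3⟩ := l.exists_B h2 0 1
    exact O.mem_comm.2 ⟨v, by rw [l.apply h2, h1, h3]; module⟩
  · obtain ⟨v, h1, h3⟩ := l.exists_B h2 1 0
    exact O.mem_comm.2 ⟨v, by rw [l.apply h2, h1, h3]; module⟩

theorem Ln.dm (l : Ln a y) : dm (wd a y) = 2 := by
  rw [O7.dm, l.comm h2, l.finrank]

theorem Ln.ne_one (l : Ln a y) : wd a y ≠ 1 := by
  intro k
  have h := l.comm h2
  rw [k, O.comm_one] at h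
  exact l.ne ((Submodule.mem_bot K).1 (h ▸ geo_left a y))

theorem Ln.basis' (l : Ln a y) {α β γ δ : K} (d : α * δ + β * γ ≠ 0) :
    Ln (α • a + β • y) (γ • a + δ • y) ∧ ln (α • a + β • y) (γ • a + δ • y) = ln a y := by
  have m : ∀ α β : K, α • a + β • y ∈ ln a y := fun α β => Submodule.mem_span_pair.2 ⟨_, _, rfl⟩
  have l' : Ln (α • a + β • y) (γ • a + δ • y) := by
    refine ⟨l.sing (m α β), l.sing (m γ δ), ?_, fun s t e => ?_⟩
    · simp only [geo_add_l, geo_add_r, geo_smul_l, geo_smul_r, geo_sing l.qa, geo_sing l.qy, l.p, l.symm.p,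
        mul_zero, add_zero]
    · obtain ⟨h1, h3⟩ := l.li (s * α + t * γ) (s * β + t * δ) (by linear_combination (norm := module) e)
      exact ⟨(mul_eq_zero.1 (show s * (α * δ + β * γ) = 0 by
          linear_combination δ * h1 + γ * h3 - t * γ * δ * h2)).resolve_right d,
        (mul_eq_zero.1 (show t * (α * δ + β * γ) = 0 by
          linear_combination β * h1 + α * h3 - s * α * β * h2)).resolve_right d⟩
  exact ⟨l', Submodule.eq_of_le_of_finrank_eq (Submodule.span_le.2 (Set.pair_subset (m α β) (m γ δ)))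
    (by rw [l'.finrank, l.finrank])⟩

/-- Any point of the line can be put first. -/
theorem Ln.exists_basis (l : Ln a y) (hp : p ∈ ln a y) (p0 : p ≠ 0) :
    ∃ s, Ln p s ∧ wd p s = wd a y ∧ ln p s = ln a y := by
  obtain ⟨α, β, rfl⟩ := Submodule.mem_span_pair.1 hp
  obtain ⟨γ, δ, d⟩ : ∃ γ δ : K, α * δ + β * γ = 1 := by
    by_cases h : α = 0
    · have hβ : β ≠ 0 := fun k => p0 (by rw [h, k, zero_smul, zero_smul, add_zero])
      exact ⟨β⁻¹, 0, by rw [mul_zero, zero_add, mul_inv_cancel₀ hβ]⟩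
    · exact ⟨0, α⁻¹, by rw [mul_zero, add_zero, mul_inv_cancel₀ h]⟩
  obtain ⟨h1, h3⟩ := l.basis' h2 (d ▸ one_ne_zero : α * δ + β * γ ≠ 0)
  exact ⟨_, h1, by rw [l.basis h2, d, one_smul], h3⟩

/-- Two involutions with the same line. -/
theorem Ln.of_ln_eq (l : Ln a y) (l' : Ln b z) (e : ln b z = ln a y) : ∃ c : K, c ≠ 0 ∧ wd b z = wd a (c • y) := by
  obtain ⟨α, β, hb⟩ := Submodule.mem_span_pair.1 (e ▸ geo_left b z)
  obtain ⟨γ, δ, hz⟩ := Submodule.mem_span_pair.1 (e ▸ geo_right b z)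
  have k : wd b z = wd a ((α * δ + β * γ) • y) := by rw [← hb, ← hz, l.basis h2]
  exact ⟨_, fun k' => l'.ne_one h2 (by rw [k, k', zero_smul, wd, eich_zero]), k⟩

/-- `eich a s` has type `a₂` only for singular `s`. -/
theorem A2.sing (ha : Q K a = 0) (a0 : a ≠ 0) (hs : B a s = 0) (h : A2 (wd a s)) : Ln a s := by
  obtain ⟨b, z, l, e⟩ := h
  obtain ⟨v, hv⟩ := geo_one h2 ha a0 1
  have k : s + (B s v + Q K s) • a ∈ ln b z := by
    rw [← l.comm h2, ← e]
    exact O.mem_comm.2 ⟨v, by rw [wd_apply h2 ha hs, hv]; module⟩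
  refine ⟨ha, (Q_add_smul_of_singular ha hs _).symm.trans (l.sing k), hs, fun α β k' => ?_⟩
  have hβ : β = 0 := by
    by_contra hβ
    refine l.ne_one h2 (e.symm.trans (eich_of_mem_span ha (Submodule.mem_span_singleton.2 ⟨-(β⁻¹ * α), ?_⟩)))
    have := inv_mul_cancel₀ hβ
    linear_combination (norm := module) (-β⁻¹) • k' + this • s
  rw [hβ, zero_smul, add_zero] at k'
  exact ⟨(smul_eq_zero.1 k').resolve_right a0, hβ⟩

/-- `p ↦ eich p z` is additive up to the cocycle `Q z · p ∧ p'`. -/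
theorem wd_add_left (l : Q K a = 0) (l' : Q K b = 0) (e : B a b = 0) (ha : B a z = 0) (hb : B b z = 0) :
    wd a z * wd b z = wd (a + b) z * wd a (Q K z • b) := by
  have e' : B b a = 0 := (B_comm _ _).trans e
  have ha' : B z a = 0 := (B_comm _ _).trans ha
  have hb' : B z b = 0 := (B_comm _ _).trans hb
  refine O.ext fun v => ?_
  rw [O.mul_apply, O.mul_apply, wd_apply h2 l ha, wd_apply h2 l' hb,
    wd_apply h2 (a := a + b) (by rw [Q_add, l, l', zero_add, zero_add]; exact e) (by rw [geo_add_l, ha, hb, add_zero]),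
    wd_apply h2 l (by rw [geo_smul_r, e, mul_zero]), Q_smul, l']
  simp only [geo_add_l, geo_add_r, geo_smul_l, geo_smul_r, B_self h2, e, e', ha, ha', hb']
  linear_combination (norm := module) (-h2) • ((Q K z * B b v) • a + (Q K z * B a v) • b)

/-- The Witt index is three. -/
theorem finrank_ts {X : Submodule K (V K)} (h : ∀ v ∈ X, Q K v = 0) : finrank K X ≤ 3 := by
  have h1 : finrank K (X.map pr) = finrank K X := by
    rw [← LinearMap.range_domRestrict]
    refine LinearMap.finrank_range_of_inj ((injective_iff_map_eq_zero _).2 fun v hv => ?_)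
    exact Subtype.ext (geo_rad h2 (h v.1 v.2) (pr_eq_zero.1 hv))
  have h3 : X.map pr ≤ (alt_om (K := K)).bilin.orthogonal (X.map pr) := by
    rintro _ ⟨u, hu, rfl⟩ _ ⟨w, hw, rfl⟩
    change om K (pr w) (pr u) = 0
    rw [← B_eq h2, B, polar, h _ (X.add_mem hw hu), h _ hu, h _ hw, sub_zero, sub_zero]
  have h4 := Submodule.finrank_mono h3
  rw [LinearMap.BilinForm.finrank_orthogonal alt_om.nondegenerate, T2.fr6] at h4
  omega

theorem Ln.commute (l : Ln a y) (l' : Ln b z) (m : ln a y ⊓ ln b z ≠ ⊥) : Commute (wd a y) (wd b z) := by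
  obtain ⟨p, ⟨h1, h3⟩, p0⟩ := (Submodule.ne_bot_iff _).1 m
  obtain ⟨s, k, e, -⟩ := l.exists_basis h2 h1 p0
  obtain ⟨s', k', e', -⟩ := l'.exists_basis h2 h3 p0
  rw [← e, ← e']
  exact eich_comm k.qa k.p k'.p

theorem Ln.comm_eq (l : Ln a y) (l' : Ln b z) (h1 : B a b = 0) (h3 : B a z = 0) (h4 : B y b = 0) :
    ⁅wd a y, wd b z⁆ = wd a (B y z • b) := by
  rw [commutatorElement_def, mul_inv_eq_iff_eq_mul, mul_inv_eq_iff_eq_mul]
  refine O.ext fun v => ?_
  rw [O.mul_apply, O.mul_apply, O.mul_apply, l.apply h2, l'.apply h2,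
    wd_apply h2 l.qa (by rw [geo_smul_r, h1, mul_zero]), Q_smul, l'.qa, l'.apply h2, l.apply h2]
  simp only [geo_add_r, geo_smul_l, geo_smul_r, B_self h2, h1, h3, h4, B_comm b a, B_comm z a,
    B_comm b y, B_comm z y, l.p, l'.p]
  linear_combination (norm := module) (-h2) • ((B y z * B a v) • b)

/-- Disjoint lines with a degenerate pairing: it has rank one (`finrank_ts`); normal form. -/
theorem Ln.four (l : Ln a y) (l' : Ln b z) (m : ln a y ⊓ ln b z = ⊥) (k : kap a y b z = 0) :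
    ∃ a' y' b' z', Ln a' y' ∧ Ln b' z' ∧ wd a' y' = wd a y ∧ wd b' z' = wd b z ∧ ln a' y' = ln a y ∧
      ln b' z' = ln b z ∧ B a' b' = 0 ∧ B a' z' = 0 ∧ B y' b' = 0 ∧ B y' z' ≠ 0 ∧ Ln a' b' := by
  have k1 := (kap_ne_iff (b := b) (z := z) l).not.1 (not_not.2 k)
  have k2 := (kap_ne_iff (b := a) (z := y) l').not.1 (not_not.2 (kap_comm.trans k))
  push Not at k1 k2
  obtain ⟨a', ha, a1, a2, a0⟩ := k1
  obtain ⟨b', hb, b1, b2, b0⟩ := k2
  obtain ⟨y', la, ea, ea'⟩ := l.exists_basis h2 ha a0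
  obtain ⟨z', lb, eb, eb'⟩ := l'.exists_basis h2 hb b0
  have pa : ∀ w ∈ ln b z, B a' w = 0 := fun w hw =>
    (B_comm _ _).trans (geo_perp ((B_comm _ _).trans a1) ((B_comm _ _).trans a2) hw)
  have pb : ∀ w ∈ ln a y, B w b' = 0 := fun w hw =>
    geo_perp ((B_comm _ _).trans b1) ((B_comm _ _).trans b2) hw
  have h1 := pa b' hb
  have h3 := pa z' (eb' ▸ geo_right b' z')
  have h4 := pb y' (ea' ▸ geo_right a' y')
  refine ⟨a', y', b', z', la, lb, ea, eb, ea', eb', h1, h3, h4, fun h5 => ?_, la.qa, lb.qa, h1, fun s t e => ?_⟩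
  · have h6 := finrank_ts h2 (X := ln a' y' ⊔ ln b' z') fun v hv => by
      obtain ⟨u, hu, w, hw, rfl⟩ := Submodule.mem_sup.1 hv
      rw [Q_add, la.sing hu, lb.sing hw, zero_add, zero_add]
      exact (B_comm _ _).trans (geo_perp ((B_comm _ _).trans (geo_perp h1 h4 hu))
        ((B_comm _ _).trans (geo_perp h3 h5 hu)) hw)
    have h7 := Submodule.finrank_sup_add_finrank_inf_eq (ln a' y') (ln b' z')
    rw [la.finrank, lb.finrank] at h7
    conv_lhs at h7 => rw [show ln a' y' ⊓ ln b' z' = ⊥ by rw [ea', eb', m], finrank_bot]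
    omega
  · have h5 : s • a' = 0 := by
      rw [← Submodule.mem_bot K, ← m]
      exact ⟨Submodule.smul_mem _ _ ha, eq_neg_of_add_eq_zero_left e ▸ neg_mem (Submodule.smul_mem _ _ hb)⟩
    rw [h5, zero_add] at e
    exact ⟨(smul_eq_zero.1 h5).resolve_right a0, (smul_eq_zero.1 e).resolve_right b0⟩

theorem Ln.order_four (l : Ln a y) (l' : Ln b z) (m : ln a y ⊓ ln b z = ⊥) (k : kap a y b z = 0) :
    orderOf (wd a y * wd b z) = 4 ∧ A2 ((wd a y * wd b z) ^ 2) := by
  obtain ⟨a', y', b', z', la, lb, ea, eb, -, -, h1, h3, h4, h5, lab⟩ := l.four h2 l' m k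
  have e : (wd a y * wd b z) ^ 2 = wd a' (B y' z' • b') := by
    rw [← la.comm_eq h2 lb h1 h3 h4, ea, eb, commutatorElement_def, inv_eq_of_mul_eq_one_right (wd_sq h2 a y),
      inv_eq_of_mul_eq_one_right (wd_sq h2 b z), pow_two]
    simp only [mul_assoc]
  refine ⟨orderOf_eq_prime_pow (p := 2) (n := 1) ?_ ?_, _, _, lab.smul h5, e⟩
  · rw [pow_one, e]; exact (lab.smul h5).ne_one h2
  · rw [show 2 ^ (1 + 1) = 2 * 2 from rfl, pow_mul, e, pow_two, wd_sq h2]

/-- Opposite lines: normal form. -/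
theorem Ln.dual (l : Ln a y) (l' : Ln b z) (k : kap a y b z ≠ 0) : ∃ a' y', Ln a' y' ∧ ln a' y' = ln b z ∧
    B a a' = 1 ∧ B y y' = 1 ∧ B a y' = 0 ∧ B y a' = 0 ∧ wd b z = wd a' (kap a y b z • y') := by
  have s0 : ∀ v : V K, polar (Q K) v v = 0 := B_self h2
  have p0 : polar (Q K) b z = 0 := l'.p
  have p1 := (polar_comm _ _ _).trans p0
  have hk : kap a y b z = polar (Q K) a b * polar (Q K) y z - polar (Q K) a z * polar (Q K) y b := rfl
  generalize kap a y b z = κ at k hk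
  have m : ∀ s t : K, s • b + t • z ∈ ln b z := fun s t => Submodule.mem_span_pair.2 ⟨s, t, rfl⟩
  have h1 : B a ((κ⁻¹ * B y z) • b + (-κ⁻¹ * B y b) • z) = 1 := by
    simp only [B, polar_add_right, polar_smul_right']
    linear_combination -κ⁻¹ * hk + inv_mul_cancel₀ k
  have h3 : B y ((-κ⁻¹ * B a z) • b + (κ⁻¹ * B a b) • z) = 1 := by
    simp only [B, polar_add_right, polar_smul_right']
    linear_combination -κ⁻¹ * hk + inv_mul_cancel₀ k
  have h4 : B a ((-κ⁻¹ * B a z) • b + (κ⁻¹ * B a b) • z) = 0 := by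
    simp only [B, polar_add_right, polar_smul_right']
    ring
  have h5 : B y ((κ⁻¹ * B y z) • b + (-κ⁻¹ * B y b) • z) = 0 := by
    simp only [B, polar_add_right, polar_smul_right']
    ring
  have l1 : Ln ((κ⁻¹ * B y z) • b + (-κ⁻¹ * B y b) • z) ((-κ⁻¹ * B a z) • b + (κ⁻¹ * B a b) • z) :=
    ⟨l'.sing (m _ _), l'.sing (m _ _), by
      simp only [B, polar_add_left, polar_add_right, polar_smul_left', polar_smul_right', s0, p0, p1]
      ring, fun s t e => by
      have e1 := congrArg (polar (Q K) a) e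
      have e2 := congrArg (polar (Q K) y) e
      rw [polar_add_right, polar_smul_right', polar_smul_right', polar_zero_right] at e1 e2
      exact ⟨by linear_combination e1 - s * h1 - t * h4, by linear_combination e2 - s * h5 - t * h3⟩⟩
  refine ⟨_, _, l1, Submodule.eq_of_le_of_finrank_eq (Submodule.span_le.2 (by rintro _ (rfl | rfl) <;> exact m _ _))
    (l1.finrank.trans l'.finrank.symm), h1, h3, h4, h5, ?_⟩
  rw [smul_add, smul_smul, smul_smul, l'.basis h2, eq_comm]
  convert congrArg (wd b) (one_smul K z) using 3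
  simp only [B]
  field_simp
  linear_combination -hk + polar (Q K) a z * polar (Q K) y b * h2

/-- The group `SL₂ ⊗ 1` of two opposite lines: `A` acts on `(a, y')` and on `(y, a')` as a matrix, and
trivially on the complement. -/
theorem exists_rho {a' y' : V K} (l : Ln a y) (l' : Ln a' y') (h1 : B a a' = 1) (h3 : B y y' = 1) (h4 : B a y' = 0)
    (h5 : B y a' = 0) : ∃ ρ : SL(2, K) →* O (Q K), Function.Injective ρ ∧
      (∀ c, ρ (PSL2.upper c) = wd a (c • y)) ∧ (∀ c, ρ (O7.lwS c) = wd a' (c • y')) ∧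
      ∀ A : SL(2, K), (ρ A).1 a = A.1 0 0 • a + A.1 1 0 • y' ∧ (ρ A).1 y' = A.1 0 1 • a + A.1 1 1 • y' ∧
        (ρ A).1 y = A.1 0 0 • y + A.1 1 0 • a' ∧ (ρ A).1 a' = A.1 0 1 • y + A.1 1 1 • a' ∧
        ∀ v, B a v = 0 → B y v = 0 → B a' v = 0 → B y' v = 0 → (ρ A).1 v = v := by
  have s0 : ∀ v : V K, polar (Q K) v v = 0 := B_self h2
  have b1 : polar (Q K) a a' = 1 := h1
  have b3 : polar (Q K) y y' = 1 := h3
  have b4 : polar (Q K) a y' = 0 := h4
  have b5 : polar (Q K) y a' = 0 := h5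
  have b6 : polar (Q K) a y = 0 := l.p
  have b7 : polar (Q K) a' y' = 0 := l'.p
  have c1 := (polar_comm _ _ _).trans b1
  have c3 := (polar_comm _ _ _).trans b3
  have c4 := (polar_comm _ _ _).trans b4
  have c5 := (polar_comm _ _ _).trans b5
  have c6 := (polar_comm _ _ _).trans b6
  have c7 := (polar_comm _ _ _).trans b7
  let P := polarBilin (Q K)
  let L (A : Matrix (Fin 2) (Fin 2) K) : End K (V K) := LinearMap.id + ((A 0 0 - 1) • P a' + A 0 1 • P y).smulRight a +
    (A 1 0 • P a' + (A 1 1 - 1) • P y).smulRight y' + ((A 0 0 - 1) • P y' + A 0 1 • P a).smulRight y +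
    (A 1 0 • P y' + (A 1 1 - 1) • P a).smulRight a'
  have hL : ∀ A v, L A v = v + ((A 0 0 - 1) * polar (Q K) a' v + A 0 1 * polar (Q K) y v) • a +
      (A 1 0 * polar (Q K) a' v + (A 1 1 - 1) * polar (Q K) y v) • y' +
      ((A 0 0 - 1) * polar (Q K) y' v + A 0 1 * polar (Q K) a v) • y +
      (A 1 0 * polar (Q K) y' v + (A 1 1 - 1) * polar (Q K) a v) • a' := fun _ _ => rfl
  clear_value L
  let φ : SL(2, K) →* End K (V K) :=
    { toFun := fun A => L A.1
      map_one' := LinearMap.ext fun v => by simp [hL]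
      map_mul' := fun A A' => LinearMap.ext fun v => by
        simp only [End.mul_apply, hL, polar_add_right, polar_smul_right', s0, b1, b3, b4, b5, b6, b7, c1, c3, c4, c5, c6, c7,
          Matrix.SpecialLinearGroup.coe_mul, Matrix.mul_apply, Fin.sum_univ_two]
        module }
  let ρ : SL(2, K) →* O (Q K) := ((LinearMap.GeneralLinearGroup.generalLinearEquiv K (V K)).toMonoidHom.comp
    φ.toHomUnits).codRestrict _ fun A v => by
      change Q K (L A.1 v) = _
      simp only [hL, Q_add, Q_smul, polar_add_left, polar_smul_left', polar_smul_right', l.qa, l.qy, l'.qa, l'.qy,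
        b1, b4, b5, b6, c3, c7, polar_comm _ v]
      linear_combination (polar (Q K) a' v * polar (Q K) a v + polar (Q K) y v * polar (Q K) y' v) * PSL2.sl_det A +
        (polar (Q K) a' v * polar (Q K) y' v * A.1 0 0 * A.1 1 0 + polar (Q K) y v * polar (Q K) a v * A.1 0 1 * A.1 1 1 +
          (polar (Q K) a' v * polar (Q K) a v + polar (Q K) y v * polar (Q K) y' v) * A.1 0 1 * A.1 1 0) * h2
  have hρ : ∀ A v, (ρ A).1 v = L A.1 v := fun _ _ => rfl
  have k : ∀ A : SL(2, K), (ρ A).1 a = A.1 0 0 • a + A.1 1 0 • y' ∧ (ρ A).1 y' = A.1 0 1 • a + A.1 1 1 • y' := fun A => by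
    simp only [hρ, hL, s0, b3, b4, b7, c1, c4, c6]
    constructor <;> module
  refine ⟨ρ, (injective_iff_map_eq_one ρ).2 fun A e => ?_, fun c => O.ext fun v => ?_, fun c => O.ext fun v => ?_,
    fun A => ⟨(k A).1, (k A).2, ?_, ?_, fun v e1 e2 e3 e4 => ?_⟩⟩
  · obtain ⟨k1, k2⟩ := k A
    rw [e] at k1 k2
    have e1 := congrArg (polar (Q K) a') k1
    have e2 := congrArg (polar (Q K) y) k1
    have e3 := congrArg (polar (Q K) a') k2
    have e4 := congrArg (polar (Q K) y) k2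
    simp [O.one_apply, c1, b7, c6, b3] at e1 e2 e3 e4
    apply PSL2.sl_ext <;> simp [← e1, ← e2, ← e3, ← e4]
  · rw [wd_apply h2 l.qa (by simp [B, b6]), hρ, hL]
    simp [B, PSL2.upper, Q_smul, l.qy]
    module
  · rw [wd_apply h2 l'.qa (by simp [B, b7]), hρ, hL]
    simp [B, Q_smul, l'.qy]
    module
  · simp only [hρ, hL, s0, b6, c3, c5]
    module
  · simp only [hρ, hL, s0, b1, b5, c7]
    module
  · rw [hρ, hL, show polar (Q K) a v = 0 from e1, show polar (Q K) y v = 0 from e2, show polar (Q K) a' v = 0 from e3,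
      show polar (Q K) y' v = 0 from e4]
    simp

/-- `A = upper 1 * lwS κ` has trace `κ ≠ 0`; if its order were even a power would be an involution, a
transvection, commuting with `A`. -/
theorem Ln.odd (l : Ln a y) (l' : Ln b z) (k : kap a y b z ≠ 0) (f : IsOfFinOrder (wd a y * wd b z)) :
    Odd (orderOf (wd a y * wd b z)) ∧ ¬ Commute (wd a y) (wd b z) := by
  obtain ⟨a', y', l1, -, h1, h3, h4, h5, e⟩ := l.dual h2 l' k
  obtain ⟨ρ, i, u, w, -⟩ := exists_rho h2 l l1 h1 h3 h4 h5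
  have e1 := u 1
  rw [one_smul] at e1
  rw [e, ← w, ← e1] at f ⊢
  generalize kap a y b z = κ at k f
  rw [← map_mul] at f ⊢
  refine ⟨Nat.not_even_iff_odd.1 fun ⟨m, hm⟩ => ?_, fun c => k ?_⟩
  · have p := f.orderOf_pos
    rw [orderOf_injective ρ i] at hm p
    refine pow_ne_one_of_lt_orderOf (x := PSL2.upper 1 * O7.lwS κ) (n := m) (by omega) (by omega) ?_
    have t2 := pow_orderOf_eq_one (PSL2.upper 1 * O7.lwS κ)
    rw [hm, pow_add] at t2
    have c := (Commute.refl (PSL2.upper 1 * O7.lwS κ)).pow_left m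
    generalize (PSL2.upper 1 * O7.lwS κ) ^ m = T at t2 c
    have s := fun i j => congrArg (fun x : SL(2, K) => x.1 i j) t2
    have t := fun i j => congrArg (fun x : SL(2, K) => x.1 i j) c.eq
    have s0 := s 0 0
    have s1 := s 1 1
    have t0 := t 0 0
    have t1 := t 0 1
    simp [Matrix.mul_apply, Fin.sum_univ_two] at s0 s1 t0 t1
    have d : T.1 0 0 = T.1 1 1 := sub_eq_zero.1 (pow_eq_zero_iff two_ne_zero |>.1 (by
      linear_combination s0 - s1 + (T.1 1 1 ^ 2 - T.1 0 0 * T.1 1 1) * h2))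
    have z : T.1 0 1 = 0 := mul_left_cancel₀ k (by linear_combination d - t1)
    have z' : T.1 1 0 = 0 := by linear_combination κ * z - t0
    have o : T.1 0 0 = 1 := sub_eq_zero.1 (pow_eq_zero_iff two_ne_zero |>.1 (by
      linear_combination s0 - T.1 1 0 * z + (1 - T.1 0 0) * h2))
    apply PSL2.sl_ext <;> simp [← d, o, z, z']
  · have := congrArg (fun x : SL(2, K) => x.1 0 0) (i ((map_mul ρ _ _).trans (c.eq.trans (map_mul ρ _ _).symm)))
    simpa [Matrix.mul_apply, Fin.sum_univ_two] using this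

/-- In the dihedral group an element interchanges the two involutions; it is antidiagonal. -/
theorem Ln.exists_swap (l : Ln a y) (l' : Ln b z) (k : kap a y b z ≠ 0) (f : IsOfFinOrder (wd a y * wd b z)) :
    ∃ n ∈ Subgroup.closure {wd a y, wd b z}, n * wd a y * n⁻¹ = wd b z ∧ n * wd b z * n⁻¹ = wd a y ∧
      (∀ v ∈ ln a y, n.1 v ∈ ln b z ∧ B v (n.1 v) = 0) ∧ (∀ v ∈ ln b z, n.1 v ∈ ln a y ∧ B v (n.1 v) = 0) ∧
      ∀ v, B a v = 0 → B y v = 0 → B b v = 0 → B z v = 0 → n.1 v = v := by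
  obtain ⟨⟨m, hm⟩, -⟩ := l.odd h2 l' k f
  obtain ⟨a', y', l1, el, h1, h3, h4, h5, e⟩ := l.dual h2 l' k
  obtain ⟨ρ, i, u, w, hρ⟩ := exists_rho h2 l l1 h1 h3 h4 h5
  have s2 := wd_sq h2 a y
  have t2 := wd_sq h2 b z
  have p := pow_orderOf_eq_one (wd a y * wd b z)
  have e1 := u 1
  rw [one_smul] at e1
  have e2 := (w _).trans e.symm
  rw [hm, two_mul, pow_succ, pow_add] at p
  obtain ⟨N, hN⟩ : ∃ N, ρ N = (wd a y * wd b z) ^ m * wd a y :=
    ⟨(PSL2.upper 1 * O7.lwS _) ^ m * PSL2.upper 1, by rw [map_mul, map_pow, map_mul, e1, e2]⟩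
  have iv : wd a y * ((wd a y * wd b z) ^ m)⁻¹ = (wd a y * wd b z) ^ m * wd a y := by
    rw [← inv_pow, _root_.mul_inv_rev, inv_eq_of_mul_eq_one_right s2, inv_eq_of_mul_eq_one_right t2, mul_pow_mul]
  have n1 : ρ N * wd a y * (ρ N)⁻¹ = wd b z := by
    rw [hN, _root_.mul_inv_rev, inv_eq_of_mul_eq_one_right s2, mul_assoc _ _ (wd a y), s2, mul_one, iv, ← mul_assoc]
    exact (eq_inv_of_mul_eq_one_left ((mul_assoc _ _ _).trans p)).trans (inv_eq_of_mul_eq_one_right t2)
  have n0 : ρ N * ρ N = 1 := by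
    rw [hN, mul_assoc, ← iv, ← mul_assoc (wd a y), s2, one_mul, mul_inv_cancel]
  have n2 : ρ N * wd b z * (ρ N)⁻¹ = wd a y := by
    rw [← n1, inv_eq_of_mul_eq_one_right n0, ← mul_assoc, ← mul_assoc, n0, one_mul, mul_assoc, n0, mul_one]
  have z1 : N.1 0 0 = 0 := by
    rw [← e1, ← e2, mul_inv_eq_iff_eq_mul, ← map_mul, ← map_mul] at n1
    simpa [Matrix.mul_apply, Fin.sum_univ_two] using congrArg (fun x : SL(2, K) => x.1 0 1) (i n1)
  have z2 : N.1 1 1 = 0 := by
    rw [← e1, ← e2, mul_inv_eq_iff_eq_mul, ← map_mul, ← map_mul] at n2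
    simpa [Matrix.mul_apply, Fin.sum_univ_two] using congrArg (fun x : SL(2, K) => x.1 0 1) (i n2)
  obtain ⟨r1, r2, r3, r4, r5⟩ := hρ N
  rw [z1, zero_smul, zero_add] at r1 r3
  rw [z2, zero_smul, add_zero] at r2 r4
  have m1 : ∀ u v : V K, u ∈ ln u v := fun u v => Submodule.subset_span (.inl rfl)
  have m2 : ∀ u v : V K, v ∈ ln u v := fun u v => Submodule.subset_span (.inr rfl)
  refine ⟨ρ N, ?_, n1, n2, fun v hv => ?_, fun v hv => ?_, fun v c1 c2 c3 c4 => ?_⟩
  · have := Subgroup.subset_closure (k := {wd a y, wd b z}) (.inl rfl)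
    rw [hN]
    exact mul_mem (pow_mem (mul_mem this (Subgroup.subset_closure (.inr rfl))) m) this
  · obtain ⟨s, t, rfl⟩ := Submodule.mem_span_pair.1 hv
    rw [map_add, map_smul, map_smul, r1, r3, ← el]
    refine ⟨add_mem (Submodule.smul_mem _ _ (Submodule.smul_mem _ _ (m2 _ _)))
      (Submodule.smul_mem _ _ (Submodule.smul_mem _ _ (m1 _ _))), ?_⟩
    simp only [B] at h1 h3 h4 h5
    simp only [B, polar_add_left, polar_add_right, polar_smul_left', polar_smul_right', h1, h3, h4, h5]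
    linear_combination s * t * N.1 1 0 * h2
  · rw [← el] at hv
    obtain ⟨s, t, rfl⟩ := Submodule.mem_span_pair.1 hv
    rw [map_add, map_smul, map_smul, r2, r4]
    refine ⟨add_mem (Submodule.smul_mem _ _ (Submodule.smul_mem _ _ (m2 _ _)))
      (Submodule.smul_mem _ _ (Submodule.smul_mem _ _ (m1 _ _))), ?_⟩
    rw [B_comm] at h1 h3 h4 h5
    simp only [B] at h1 h3 h4 h5
    simp only [B, polar_add_left, polar_add_right, polar_smul_left', polar_smul_right', h1, h3, h4, h5]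
    linear_combination s * t * N.1 0 1 * h2
  · have : ∀ x ∈ ln b z, B x v = 0 := fun x hx => by
      obtain ⟨s, t, rfl⟩ := Submodule.mem_span_pair.1 hx
      simp only [B] at c3 c4
      simp [B, c3, c4]
    exact r5 v c1 c2 (this _ (el ▸ m1 _ _)) (this _ (el ▸ m2 _ _))

end Two

end Cfsg.Lib.S6Q
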