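import Cfsg.Agent.Lib.S6Q.Geo
import Cfsg.Agent.Lib.Transfer.Fusion

/-!
# Ranks, frames, irreducibility in characteristic two
-/

set_option autoImplicit false
set_option linter.unusedSectionVars false

namespace Cfsg.Lib.S6Q

open scoped MatrixGroups Matrix commutatorElement
open QuadraticMap Module Cfsg.Lib.Orth Cfsg.Lib.Asch
open Cfsg.Lib.O7 (V W Q N I7 Spin phi act gam sU dm fx stabS stabV dgV)

variable {K : Type*} [Field K] {M : Subgroup (O (Q K))} {a y b z s s' p : V K} {g t h : O (Q K)}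

/-- A finite `2`-group fixes every point that it fixes projectively. -/
theorem fix_of_two (h2 : (2 : K) = 0) {n : ℕ} (o : g ^ 2 ^ n = 1) {v : V K} (hv : g.1 v ∈ K ∙ v) : g.1 v = v := by
  have := CharTwo.of_one_ne_zero_of_two_eq_zero one_ne_zero h2
  obtain ⟨c, hc⟩ := Submodule.mem_span_singleton.1 hv
  have e := O7.T3.pow_smul hc.symm (2 ^ n)
  rw [o, O.one_apply] at e
  by_cases h0 : v = 0
  · simp [h0]
  have h1 : (c - 1) ^ 2 ^ n = 0 := by
    rw [sub_pow_char_pow, one_pow]
    exact (smul_eq_zero.1 (by rw [sub_smul, one_smul, ← e, sub_self])).resolve_right h0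
  rw [← hc, sub_eq_zero.1 (pow_eq_zero_iff (by positivity) |>.1 h1), one_smul]

theorem g2_card {U ι : Type*} [AddCommGroup U] [Module K U] [FiniteDimensional K U] [Fintype ι] {X : Submodule K U}
    {v : ι → U} (hv : ∀ i, v i ∈ X) (li : LinearIndependent K v) : Fintype.card ι ≤ finrank K X :=
  (LinearIndependent.of_comp X.subtype (v := fun i => (⟨v i, hv i⟩ : X)) li).fintype_card_le_finrank

theorem g2_split {U : Type*} [AddCommGroup U] [Module K U] [FiniteDimensional K U] (f : End K U) (A : Submodule K U) :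
    finrank K A = finrank K (LinearMap.ker f ⊓ A : Submodule K U) + finrank K (A.map f) := by
  have := LinearMap.finrank_range_add_finrank_ker (f.domRestrict A)
  rw [LinearMap.range_domRestrict, LinearMap.ker_domRestrict,
    ← Submodule.finrank_map_subtype_eq, Submodule.map_comap_subtype, inf_comm] at this
  omega

section Two

variable (h2 : (2 : K) = 0)
include h2

theorem Q_add_sU (v : V K) (c : K) : Q K (v + c • sU K) = Q K v + c ^ 2 := by
  rw [Q_add, Q_smul, Q_sU, mul_one, polar_smul_right', polar_comm, show polar (Q K) (sU K) v = 0 from B_sU h2 v,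
    mul_zero, add_zero]

theorem g2_sqrt {r s : K} (e : r ^ 2 = s ^ 2) : r = s :=
  sub_eq_zero.1 (pow_eq_zero_iff two_ne_zero |>.1 (by linear_combination e + (s ^ 2 - r * s) * h2))

theorem comm_rad {v : V K} (hv : v ∈ O.comm g) (e : pr v = 0) : v = 0 := by
  obtain ⟨w, rfl⟩ := O.mem_comm.1 hv
  obtain ⟨c, hc⟩ := Submodule.mem_span_singleton.1 (pr_eq_zero.1 e)
  have q := O.map_Q g w
  rw [← sub_add_cancel (g.1 w) w, ← hc, add_comm, Q_add_sU h2, add_eq_left] at q
  rw [← hc, pow_eq_zero_iff two_ne_zero |>.1 q, zero_smul]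

theorem comm_rad' {v : V K} (hv : v ∈ O.comm g) (e : ∀ u, B v u = 0) : v = 0 :=
  comm_rad h2 hv (pr_eq_zero.2 (rad h2 e))

/-- `[V₇, g] ⊓ K ∙ sU = 0`: `Q (v + c • sU) = Q v + c²`. -/
theorem dm_eq_rk (g : O (Q K)) : dm g = rk (sp2 h2 g) := by
  have e : LinearMap.range (T2.lv (sp2 h2 g) - 1) = LinearMap.range (pr.domRestrict (O.comm g)) := by
    ext x
    constructor
    · rintro ⟨v, rfl⟩
      refine ⟨⟨_, O.sub_mem_comm g (inc v)⟩, ?_⟩
      rw [LinearMap.domRestrict_apply, map_sub, ← sp2_pr h2, pr_inc]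
      rfl
    · rintro ⟨⟨_, hw⟩, rfl⟩
      obtain ⟨w, rfl⟩ := O.mem_comm.1 hw
      refine ⟨pr w, ?_⟩
      rw [LinearMap.domRestrict_apply, map_sub, ← sp2_pr h2]
      rfl
  rw [T2.rk_eq, e, LinearMap.finrank_range_of_inj ((injective_iff_map_eq_zero _).2 fun v hv =>
    Subtype.ext (comm_rad h2 v.2 hv)), dm]

/-- Over a perfect field every symplectic map lifts: `v ↦ inc (g (pr v)) + (v₀ + λ v) • sU` with
`(λ v)² = Q (inc (g v)) + Q (inc v)` (additive, so the square of a linear form). -/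
theorem sp2_surj (hK : ∀ x : K, IsSquare x) {g : G6 K} (hg : g ∈ Sp K) : ∃ k, sp2 h2 k = g := by
  have Qi : ∀ u v : I6 → K, Q K (inc (u + v)) = Q K (inc u) + Q K (inc v) + om K u v := fun u v => by
    rw [map_add, Q_add]
    exact congrArg _ (B_eq h2 _ _)
  choose r hr using fun v : I6 → K => hK (Q K (inc (g.1 *ᵥ v)) + Q K (inc v))
  let l : (I6 → K) →ₗ[K] K :=
    { toFun := r
      map_add' := fun u v => g2_sqrt h2 (by
        have e := hr (u + v)
        rw [Matrix.mulVec_add, Qi, Qi, mem_Sp.1 hg] at e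
        linear_combination -e + hr u + hr v + (om K u v - r u * r v) * h2)
      map_smul' := fun c v => g2_sqrt h2 (by
        have e := hr (c • v)
        rw [Matrix.mulVec_smul, LinearMap.map_smul inc, LinearMap.map_smul inc, Q_smul, Q_smul] at e
        simp only [RingHom.id_apply, smul_eq_mul]
        linear_combination -e + c ^ 2 * hr v) }
  let f : V K →ₗ[K] V K := inc ∘ₗ g.1.mulVecLin ∘ₗ pr +
    (LinearMap.proj (R := K) (φ := fun _ : I7 => K) (.inl ()) + l ∘ₗ pr).smulRight (sU K)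
  have fe : ∀ v, f v = inc (g.1 *ᵥ pr v) + (v (.inl ()) + r (pr v)) • sU K := fun _ => rfl
  have fq : ∀ v, Q K (f v) = Q K v := fun v => by
    conv_rhs => rw [inc_pr v]
    rw [fe, Q_add_sU h2, Q_add_sU h2]
    linear_combination -hr (pr v) + (Q K (inc (g.1 *ᵥ pr v)) + v (.inl ()) * r (pr v)) * h2
  have fp : ∀ v, pr (f v) = g.1 *ᵥ pr v := fun v => by
    rw [fe, map_add, map_smul, pr_sU, smul_zero, add_zero, pr_inc]
  have fi : Function.Injective f := (injective_iff_map_eq_zero _).2 fun v hv => by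
    have e := fp v
    rw [hv, map_zero] at e
    have e' : pr v = 0 := by
      rw [← Matrix.one_mulVec (pr v), ← g.inv_mul, ← Matrix.mulVec_mulVec, ← e, Matrix.mulVec_zero]
    exact rad_sing h2 (fun u => by rw [B_eq h2, e']; simp [om, sympForm]) (by rw [← fq, hv, map_zero])
  refine ⟨⟨LinearEquiv.ofInjectiveEndo f fi, fq⟩, Units.ext (Matrix.mulVec_injective (funext fun v => ?_))⟩
  rw [← pr_inc v, sp2_pr]
  exact fp _

/-- Singular vectors are determined by their images in `V₆`. -/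
theorem sing_ext {u v : V K} (hu : Q K u = 0) (hv : Q K v = 0) (e : pr u = pr v) : u = v := by
  obtain ⟨c, hc⟩ := Submodule.mem_span_singleton.1 ((pr_eq_zero (v := u - v)).1 (by rw [map_sub, e, sub_self]))
  rw [← sub_add_cancel u v, ← hc, add_comm, Q_add_sU h2, hv, zero_add] at hu
  rw [pow_eq_zero_iff two_ne_zero |>.1 hu, zero_smul] at hc
  exact sub_eq_zero.1 hc.symm

/-- Witt's lemma for independent singular families (`Alt.exists_iso_of_family`, `sp2_surj`, `sing_ext`). -/
theorem exists_frame (hK : ∀ x : K, IsSquare x) {ι : Type*} (u v : ι → V K) (hu : ∀ i, Q K (u i) = 0)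
    (hv : ∀ i, Q K (v i) = 0) (lu : LinearIndependent K fun i => pr (u i)) (lv : LinearIndependent K fun i => pr (v i))
    (e : ∀ i j, B (u i) (u j) = B (v i) (v j)) : ∃ k : O (Q K), ∀ i, k.1 (u i) = v i := by
  obtain ⟨g, hg, e'⟩ := alt_om.exists_iso_of_family _ _ lu lv fun i j => by rw [← B_eq h2, ← B_eq h2, e]
  obtain ⟨k, rfl⟩ := sp2_surj h2 hK (g := g) (mem_Sp.2 hg)
  exact ⟨k, fun i => sing_ext h2 ((O.map_Q k _).trans (hu i)) (hv i) ((sp2_pr h2 k _).symm.trans (e' i))⟩

/-- `[V, g]` totally singular: `N = g - 1` has `B v (N v) = 0`; the alternating form `B u (N v)` has even rank `≤ 3`. -/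
theorem a2_of_ts (h : ∀ v, Q K (g.1 v - v) = 0) : g = 1 ∨ A2 g := by
  let n : V K →ₗ[K] V K := (g.1 : V K →ₗ[K] V K) - LinearMap.id
  have ne : ∀ v, g.1 v = v + n v := fun v => (add_sub_cancel v (g.1 v)).symm
  have nX : ∀ v, n v ∈ O.comm g := fun v => ⟨v, rfl⟩
  have hX : ∀ v ∈ O.comm g, Q K v = 0 := fun v hv => by
    obtain ⟨w, rfl⟩ := O.mem_comm.1 hv
    exact h w
  have alt : ∀ v, B v (n v) = 0 := fun v => by
    have := O.map_Q g v
    rw [ne, Q_add, hX _ (nX v)] at this
    linear_combination this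
  have sym : ∀ u v, B u (n v) = B v (n u) := fun u v => by
    have := alt (u + v)
    simp only [map_add, polar_add_left, polar_add_right, alt] at this
    linear_combination this - B v (n u) * h2
  have ex : ∀ {x : V K}, x ∈ O.comm g → x ≠ 0 → ∃ u, B u x = 1 := fun {x} hx h0 => by
    obtain ⟨u, hu⟩ := not_forall.1 fun e => h0 (comm_rad' h2 hx e)
    exact ⟨(B x u)⁻¹ • u, by rw [B, polar_smul_left', polar_comm]; exact inv_mul_cancel₀ hu⟩
  by_cases h0 : ∀ v, n v = 0
  · exact .inl (O.ext fun v => by rw [ne, h0, add_zero, O.one_apply])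
  obtain ⟨w, hw⟩ := not_forall.1 h0
  obtain ⟨u, hu⟩ := ex (nX w) hw
  have hu' : B w (n u) = 1 := (sym w u).trans hu
  have l : Ln (n u) (n w) := ⟨hX _ (nX u), hX _ (nX w), by
    have := hX _ (add_mem (nX u) (nX w))
    rwa [Q_add, hX _ (nX u), hX _ (nX w), zero_add, zero_add] at this, fun s t e =>
      ⟨by simpa [alt, hu'] using congrArg (B w) e, by simpa [alt, hu] using congrArg (B u) e⟩⟩
  refine .inr ⟨_, _, l, O.ext fun v => ?_⟩
  let m : V K → V K := fun x => n x - B (n w) x • n u - B (n u) x • n w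
  have mX : ∀ x, m x ∈ O.comm g := fun x =>
    sub_mem (sub_mem (nX x) (Submodule.smul_mem _ _ (nX u))) (Submodule.smul_mem _ _ (nX w))
  have me : ∀ x y, B x (m y) = B x (n y) - B y (n w) * B x (n u) - B y (n u) * B x (n w) := fun x y => by
    simp only [m, polar_sub_right, polar_smul_right', B_comm (n _) y]
  have mu : ∀ x, B u (m x) = 0 := fun x => by rw [me, alt, hu, sym u x]; ring
  have mw : ∀ x, B w (m x) = 0 := fun x => by rw [me, alt, hu', sym w x]; ring
  have ms : ∀ x y, B x (m y) = B y (m x) := fun x y => by rw [me, me, sym x y]; ring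
  have ma : ∀ x, B x (m x) = 0 := fun x => by
    rw [me, alt]
    linear_combination -(B x (n w) * B x (n u)) * h2
  suffices m v = 0 by
    rw [l.apply h2, ne]
    linear_combination (norm := module) this
  by_contra hv
  obtain ⟨x, hx⟩ := ex (mX v) hv
  have hx' : B v (m x) = 1 := (ms v x).trans hx
  have li : LinearIndependent K ![n u, n w, m x, m v] := Fintype.linearIndependent_iff.2 fun c hc => by
    rw [Fin.sum_univ_four] at hc
    have e0 : c 0 = 0 := by simpa [alt, hu', mw] using congrArg (B w) hc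
    have e1 : c 1 = 0 := by simpa [alt, hu, mu] using congrArg (B u) hc
    have e2 : c 2 = 0 := by simpa [e0, e1, ma, hx'] using congrArg (B v) hc
    have e3 : c 3 = 0 := by simpa [e0, e1, ma, hx] using congrArg (B x) hc
    intro i
    fin_cases i <;> assumption
  have h4 := g2_card (X := O.comm g) (fun i => by fin_cases i; exacts [nX u, nX w, mX x, mX v]) li
  have := finrank_ts h2 hX
  rw [Fintype.card_fin] at h4
  omega

theorem a2_of_alt (h : ∀ v, B v (g.1 v) = 0) : g = 1 ∨ A2 g :=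
  a2_of_ts h2 fun v => by
    rw [Q_sub, O.map_Q, polar_comm]
    linear_combination Q K v * h2 - h v

/-- `N⁴ = 0` on `V₆`: `range N² ≤ ker N²` is totally isotropic, and rank three would need blocks `≥ 3` thrice; rank one:
`g²` is a transvection with centre `u`, `g u = u`, `B v (g² v) = B (N v) (N² v) = c B v u * B (N v) u = 0`. -/
theorem dm_sq (h4 : g ^ 4 = 1) (h1 : g ^ 2 ≠ 1) : dm (g ^ 2) = 2 := by
  have := CharTwo.of_one_ne_zero_of_two_eq_zero one_ne_zero h2
  have n0 : dm (g ^ 2) ≠ 0 := fun e => h1 (O7.dm_eq_zero.1 e)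
  have n1 : dm (g ^ 2) ≠ 1 := fun e => by
    obtain ⟨⟨u, hu⟩, -, hs⟩ := finrank_eq_one_iff'.1 e
    have hs' : ∀ x ∈ O.comm (g ^ 2), ∃ c : K, c • u = x := fun x hx =>
      (hs ⟨x, hx⟩).imp fun c e => congrArg Subtype.val e
    have gu : g.1 u = u := fix_of_two h2 (n := 2) h4 (Submodule.mem_span_singleton.2
      (hs' _ (O7.T2.stab_comm ((Commute.refl g).pow_right 2) u hu)))
    rcases a2_of_alt h2 (g := g ^ 2) fun v => (by
      obtain ⟨c, hc⟩ := hs' _ (O.sub_mem_comm (g ^ 2) v)
      have e1 : B (g.1 v - v) ((g ^ 2).1 v - v) = 0 := by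
        rw [← hc, B, polar_smul_right', polar_sub_left]
        nth_rw 1 [← gu]
        rw [O.map_polar, sub_self, mul_zero]
      have e2 := B_self h2 v
      rw [B, polar_sub_left, polar_sub_right, polar_sub_right, pow_two, O.mul_apply, O.map_polar,
        polar_comm _ (g.1 v) v] at e1
      rw [pow_two, O.mul_apply]
      linear_combination e2 - e1) with e1 | ⟨a, y, l, e1⟩
    · exact h1 e1
    · rw [e1, l.dm h2] at e
      omega
  have n3 : dm (g ^ 2) ≤ 2 := by
    have : CharP (End K (I6 → K)) 2 := charP_of_injective_algebraMap' K 2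
    rw [dm_eq_rk h2, T2.rk_eq, map_pow, map_pow, ← one_pow 2, ← sub_pow_char_of_commute _ (Commute.one_right _)]
    have e4 : (T2.lv (sp2 h2 g) - 1) ^ 2 ^ 2 = 0 := by
      rw [sub_pow_char_pow_of_commute _ _ (Commute.one_right _), ← map_pow, ← map_pow]
      simp [h4]
    generalize T2.lv (sp2 h2 g) - 1 = n at e4
    have st : ∀ i, finrank K (LinearMap.range (n ^ i)) = finrank K (LinearMap.ker n ⊓ LinearMap.range (n ^ i) :
        Submodule K _) + finrank K (LinearMap.range (n ^ (i + 1))) := fun i => by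
      rw [pow_succ', End.mul_eq_comp, LinearMap.range_comp]
      exact g2_split n _
    have mo : ∀ i, finrank K (LinearMap.ker n ⊓ LinearMap.range (n ^ (i + 1)) : Submodule K _) ≤
        finrank K (LinearMap.ker n ⊓ LinearMap.range (n ^ i) : Submodule K _) := fun i =>
      Submodule.finrank_mono (inf_le_inf_left _ (by rw [pow_succ]; exact LinearMap.range_comp_le_range _ _))
    have r0 : finrank K (LinearMap.range (n ^ 0)) ≤ 6 := (Submodule.finrank_le _).trans T2.fr6.le
    have r4 : finrank K (LinearMap.range (n ^ (3 + 1))) = 0 := by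
      rw [show n ^ (3 + 1) = 0 from e4, LinearMap.range_zero, finrank_bot]
    have := st 0; have := st 1; have := st 2; have := st 3
    have := mo 0; have := mo 1; have := mo 2
    simp only [Nat.reduceAdd] at *
    omega
  omega

theorem dm_inv (h : t * t = 1) : dm t ≤ 3 := by
  have := CharTwo.of_one_ne_zero_of_two_eq_zero one_ne_zero h2
  have := rk_char 2 (a := sp2 h2 t) (n := 1) (by rw [← map_pow, pow_one, pow_two, h, map_one])
  rw [dm_eq_rk h2]
  omega

/-- Type `c₂`: the plane `[V, t]` has exactly one singular point; `h` fixes it and the plane pointwise. -/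
theorem dm_cent [IsAlgClosed K] (ht : t * t = 1) (d : dm t = 2) (n : ¬ A2 t) (c : Commute h t) {m : ℕ} (hm : Odd m)
    (o : h ^ m = 1) : dm h ≤ 2 := by
  have tt := O7.T2.app2 ht
  have neg : ∀ v : V K, -v = v := fun v => by linear_combination (norm := module) -h2 • v
  have tB : ∀ u v, B u (t.1 v - v) = B (t.1 u - u) v := fun u v => by
    rw [B, B, polar_sub_right, polar_sub_left, ← O.map_polar t u, tt]
  have tX : ∀ x ∈ O.comm t, t.1 x = x := fun x hx => by
    obtain ⟨w, rfl⟩ := O.mem_comm.1 hx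
    rw [map_sub, tt, ← neg (w - t.1 w), neg_sub]
  have XB : ∀ x ∈ O.comm t, ∀ x' ∈ O.comm t, B x x' = 0 := fun x hx x' hx' => by
    obtain ⟨w, rfl⟩ := O.mem_comm.1 hx'
    rw [tB, tX x hx, sub_self, B, polar_zero_left]
  obtain ⟨y, hy, qy⟩ : ∃ y ∈ O.comm t, Q K y ≠ 0 := by
    by_contra! e
    rcases a2_of_ts h2 (g := t) fun v => e _ (O.sub_mem_comm t v) with e | e
    · rw [O7.dm_eq_zero.2 e] at d
      omega
    · exact n e
  have y0 : y ≠ 0 := by
    rintro rfl
    simp at qy
  obtain ⟨x, hx, xy⟩ : ∃ x ∈ O.comm t, x ∉ K ∙ y := by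
    by_contra! e
    have := Submodule.finrank_mono (show O.comm t ≤ K ∙ y from e)
    rw [finrank_span_singleton y0] at this
    unfold dm at d
    omega
  obtain ⟨r, hr⟩ := IsAlgClosed.exists_pow_nat_eq (Q K x / Q K y) two_pos
  have ha : x + r • y ∈ O.comm t := add_mem hx (Submodule.smul_mem _ _ hy)
  have qa : Q K (x + r • y) = 0 := by
    rw [Q_add, Q_smul, hr, div_mul_cancel₀ _ qy, show polar (Q K) x (r • y) = 0 from
      XB _ hx _ (Submodule.smul_mem _ _ hy)]
    linear_combination Q K x * h2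
  have a0 : x + r • y ≠ 0 := fun e => xy (Submodule.mem_span_singleton.2 ⟨-r, by
    linear_combination (norm := module) -e⟩)
  generalize x + r • y = a at ha qa a0
  have qc : ∀ α β : K, Q K (α • a + β • y) = β ^ 2 * Q K y := fun α β => by
    rw [Q_add, Q_smul, Q_smul, qa, show polar (Q K) (α • a) (β • y) = 0 from
      XB _ (Submodule.smul_mem _ _ ha) _ (Submodule.smul_mem _ _ hy)]
    ring
  have li : LinearIndependent K ![a, y] := LinearIndependent.pair_iff.2 fun α β e => by
    have := qc α β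
    rw [e, map_zero] at this
    have b0 : β = 0 := by simpa [qy] using this
    exact ⟨by simpa [b0, a0] using e, b0⟩
  have sp : ∀ z ∈ O.comm t, ∃ α β : K, α • a + β • y = z := fun z hz => by
    have e : Submodule.span K {a, y} = O.comm t := Submodule.eq_of_le_of_finrank_eq
      (Submodule.span_le.2 (by simp [Set.insert_subset_iff, ha, hy])) (by
        have := finrank_span_eq_card li
        rw [Matrix.range_cons_cons_empty] at this
        rw [this, Fintype.card_fin]
        exact d.symm)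
    exact Submodule.mem_span_pair.1 (e.ge hz)
  have pw : ∀ {v w : V K}, h.1 v = v + w → h.1 w = w → w = 0 := fun {v w} e1 e2 => by
    have k : ∀ j : ℕ, (h ^ j).1 v = v + (j : K) • w := fun j => by
      induction j with
      | zero => simp
      | succ j ih => rw [pow_succ', O.mul_apply, ih, map_add, map_smul, e1, e2, Nat.cast_succ]; module
    obtain ⟨j, rfl⟩ := hm
    have := k (2 * j + 1)
    rw [o, O.one_apply, left_eq_add] at this
    simpa [h2] using this
  obtain ⟨μ, β, e1⟩ := sp _ (O7.T2.stab_comm c a ha)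
  obtain ⟨ν, γ, e2⟩ := sp _ (O7.T2.stab_comm c y hy)
  have b0 : β = 0 := by
    have := qc μ β
    rw [e1, O.map_Q, qa] at this
    simpa [qy] using this
  have c1 : γ = 1 := by
    have := qc ν γ
    rw [e2, O.map_Q] at this
    exact g2_sqrt h2 (mul_right_cancel₀ qy (by linear_combination -this))
  rw [b0, zero_smul, add_zero] at e1
  rw [c1, one_smul] at e2
  obtain ⟨u, hu⟩ := O.mem_comm.1 ha
  obtain ⟨w, hw⟩ := O.mem_comm.1 hy
  have ua : B u a = 0 := by
    have := O.map_Q t u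
    rw [← sub_add_cancel (t.1 u) u, hu, Q_add, qa, polar_comm] at this
    linear_combination this
  have wa : B w a ≠ 0 := fun e => a0 (comm_rad' h2 ha fun v => by
    obtain ⟨α, β, e3⟩ := sp _ (O.sub_mem_comm t v)
    have e4 : B u y = 0 := by rw [← hw, tB, hu, B_comm, e]
    rw [← hu, ← tB, ← e3]
    simp [ua, e4])
  have m1 : μ = 1 := by
    have e3 : t.1 (h.1 w) - h.1 w = ν • (t.1 u - u) + (t.1 w - w) := by
      rw [← O7.T2.app c, ← map_sub, hw, hu, e2]
    have e4 : B (h.1 w) a = B w a := by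
      rw [← hu, tB, e3, hu, hw, B, polar_add_left, polar_smul_left', polar_comm _ a u,
        show polar (Q K) u a = 0 from ua, mul_zero, zero_add, ← hw, ← hu]
      exact (tB w u).symm
    have e5 := O.map_polar h w a
    rw [← e1, polar_smul_right'] at e5
    exact mul_right_cancel₀ wa (by linear_combination e5 - μ * e4)
  rw [m1, one_smul] at e1
  have e3 : ν • a = 0 := pw (v := y) (by rw [← e2, add_comm]) (by rw [map_smul, ← e1])
  rw [e3, zero_add] at e2
  have hX : ∀ z ∈ O.comm t, h.1 z = z := fun z hz => by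
    obtain ⟨α, β, rfl⟩ := sp z hz
    rw [map_add, map_smul, map_smul, ← e1, ← e2]
  have l1 : O.comm h ≤ O.fix t := fun z hz => by
    obtain ⟨v, rfl⟩ := O.mem_comm.1 hz
    refine O.mem_fix.2 (sub_eq_zero.1 (comm_rad' h2 (O.sub_mem_comm t _) fun x => ?_))
    rw [← tB, B, polar_sub_left]
    nth_rw 1 [← hX _ (O.sub_mem_comm t x)]
    rw [O.map_polar, sub_self]
  have l2 : O.comm t ⊔ K ∙ sU K ≤ O.fix t := sup_le (fun z hz => O.mem_fix.2 (tX z hz))
    ((Submodule.span_singleton_le_iff_mem _ _).2 (O.mem_fix.2 (fix_sU h2 t)))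
  have l3 : O.comm t ⊔ K ∙ sU K ≤ O.fix h := sup_le (fun z hz => O.mem_fix.2 (hX z hz))
    ((Submodule.span_singleton_le_iff_mem _ _).2 (O.mem_fix.2 (fix_sU h2 h)))
  have d1 : O.comm t ⊓ K ∙ sU K = ⊥ := (Submodule.eq_bot_iff _).2 fun z hz =>
    comm_rad h2 hz.1 (pr_eq_zero.2 hz.2)
  have d2 : O.comm h ⊓ (O.comm t ⊔ K ∙ sU K) = ⊥ := (Submodule.eq_bot_iff _).2 fun z hz => by
    obtain ⟨v, e⟩ := O.mem_comm.1 hz.1
    exact pw (v := v) (by rw [← e, add_sub_cancel]) (O.mem_fix.1 (l3 hz.2))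
  have s0 : sU K ≠ 0 := fun e => by simpa [e] using Q_sU (K := K)
  have f1 := Submodule.finrank_sup_add_finrank_inf_eq (O.comm t) (K ∙ sU K)
  have f2 := Submodule.finrank_sup_add_finrank_inf_eq (O.comm h) (O.comm t ⊔ K ∙ sU K)
  have f3 := Submodule.finrank_mono (sup_le l1 l2)
  have f4 := O7.dm_add_fx t
  rw [d1, finrank_bot, finrank_span_singleton s0] at f1
  rw [d2, finrank_bot] at f2
  rw [O7.finrank_V] at f4
  unfold dm fx at *
  omega

/-- An element of odd order centralising two coplanar `a ∧ s`, `a ∧ s'` has eigenvalues `ν, ν⁻¹` only (on `V₆`): an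
eigenvector for another eigenvalue is perpendicular to the plane `⟨a, s, s'⟩`, so lies in it. -/
theorem eig_cent [IsAlgClosed K] (l : Ln a s) (l' : Ln a s') (e : B s s' = 0) (n : s' ∉ ln a s) (c : Commute h (wd a s))
    (c' : Commute h (wd a s')) : ∃ ν : Kˣ, ∀ (μ : K) (v : I6 → K), v ≠ 0 → (sp2 h2 h).1 *ᵥ v = μ • v →
      μ = ν ∨ μ = ν⁻¹ := by
  have li : ∀ α β γ : K, α • a + β • s + γ • s' = 0 → α = 0 ∧ β = 0 ∧ γ = 0 := fun α β γ e0 => by
    have g0 : γ = 0 := by
      by_contra g0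
      refine n (Submodule.mem_span_pair.2 ⟨-(γ⁻¹ * α), -(γ⁻¹ * β), ?_⟩)
      have : s' = γ⁻¹ • γ • s' := by rw [smul_smul, inv_mul_cancel₀ g0, one_smul]
      linear_combination (norm := module) -γ⁻¹ • e0 - this
    rw [g0, zero_smul, add_zero] at e0
    exact ⟨(l.li _ _ e0).1, (l.li _ _ e0).2, g0⟩
  have st : ∀ {s : V K}, Ln a s → Commute h (wd a s) → ∃ α β : K, α • a + β • s = h.1 a := fun l c => by
    have := O7.T2.stab_comm c
    rw [l.comm h2] at this
    exact Submodule.mem_span_pair.1 (this a (Submodule.subset_span (by simp)))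
  obtain ⟨ν, β, e1⟩ := st l c
  obtain ⟨ν', β', e2⟩ := st l' c'
  have b0 := (li (ν - ν') β (-β') (by linear_combination (norm := module) e1 - e2)).2.1
  rw [b0, zero_smul, add_zero] at e1
  have n0 : ν ≠ 0 := fun e => O.apply_ne_zero h l.ne (by rw [← e1, e, zero_smul])
  have st2 : ∀ {s : V K}, Ln a s → Commute h (wd a s) → ∃ κ : K, ν • h.1 s = s + κ • a := fun {s} l c => by
    have p : B a (h.1 s) = 0 := by
      have := (O.map_polar h a s).trans l.p
      rw [← e1, polar_smul_left'] at this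
      exact (mul_eq_zero.1 this).resolve_left n0
    have := conj_eich h a s
    rw [c.eq, mul_inv_cancel_right, ← e1, eich_smul_left l.qa p] at this
    obtain ⟨κ, hκ⟩ := Submodule.mem_span_singleton.1
      (wd_inj l.qa l.ne h2 (by rw [B, polar_smul_right']; exact mul_eq_zero_of_right _ p) l.p this.symm)
    exact ⟨κ, by rw [hκ, add_sub_cancel]⟩
  obtain ⟨κ, e3⟩ := st2 l c
  obtain ⟨κ', e4⟩ := st2 l' c'
  refine ⟨Units.mk0 ν n0, fun μ v v0 hv => ?_⟩
  by_contra! hn
  simp only [Units.val_mk0, Units.val_inv_eq_inv_val, ne_eq] at hn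
  have m1 : μ * ν - 1 ≠ 0 := fun e => hn.2 (eq_inv_of_mul_eq_one_left (sub_eq_zero.1 e))
  obtain ⟨r, hr⟩ := IsAlgClosed.exists_pow_nat_eq (Q K (inc v)) two_pos
  have qw : Q K (inc v + r • sU K) = 0 := by
    rw [Q_add_sU h2, hr]
    linear_combination Q K (inc v) * h2
  have pw : pr (inc v + r • sU K) = v := by rw [map_add, map_smul, pr_sU, smul_zero, add_zero, pr_inc]
  generalize inc v + r • sU K = w at qw pw
  have hw : h.1 w = μ • w := sing_ext h2 ((O.map_Q h w).trans qw) (by rw [Q_smul, qw, mul_zero])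
    (by rw [← sp2_pr h2, map_smul, pw, hv])
  have wa : B a w = 0 := by
    have := O.map_polar h a w
    rw [← e1, hw, polar_smul_left', polar_smul_right'] at this
    exact (mul_eq_zero.1 (by linear_combination this : (μ * ν - 1) * B a w = 0)).resolve_left m1
  have ws : ∀ {s : V K} {κ : K}, ν • h.1 s = s + κ • a → B s w = 0 := fun {s κ} e3 => by
    have := congrArg (fun x => B x (h.1 w)) e3
    simp only [polar_smul_left', O.map_polar] at this
    simp only [hw, polar_add_left, polar_smul_left', polar_smul_right', wa] at this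
    exact (mul_eq_zero.1 (by linear_combination -this : (μ - ν) * B s w = 0)).resolve_left (sub_ne_zero.2 hn.1)
  have li4 : LinearIndependent K ![a, s, s', w] := Fintype.linearIndependent_iff.2 fun c hc => by
    rw [Fin.sum_univ_four] at hc
    change c 0 • a + c 1 • s + c 2 • s' + c 3 • w = 0 at hc
    have hc' := congrArg h.1 hc
    rw [map_add, map_add, map_add, map_smul, map_smul, map_smul, map_smul, ← e1, hw, map_zero] at hc'
    obtain ⟨k0, k1, k2⟩ := li (c 0 * ν * (μ - ν) - c 1 * κ - c 2 * κ') (c 1 * (μ * ν - 1)) (c 2 * (μ * ν - 1)) (by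
      linear_combination (norm := module) (μ * ν) • hc - ν • hc' + c 1 • e3 + c 2 • e4)
    have e1 : c 1 = 0 := (mul_eq_zero.1 k1).resolve_right m1
    have e2 : c 2 = 0 := (mul_eq_zero.1 k2).resolve_right m1
    have e0 : c 0 = 0 := by simpa [e1, e2, n0, sub_eq_zero, hn.1] using k0
    have e3 : c 3 = 0 := by
      have w0 : w ≠ 0 := fun e => v0 (by rw [← pw, e, map_zero])
      simpa [e0, e1, e2, w0] using hc
    intro i
    fin_cases i <;> assumption
  have f1 := finrank_span_eq_card li4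
  have f2 := finrank_ts h2 (X := Submodule.span K (Set.range ![a, s, s', w])) fun x hx => by
    obtain ⟨c, rfl⟩ := (Submodule.mem_span_range_iff_exists_fun K).1 hx
    simp [Fin.sum_univ_four, Q_add, Q_smul, l.qa, l.qy, l'.qy, qw, l.p, l'.p, e, wa, ws e3, ws e4]
  rw [Fintype.card_fin] at f1
  omega

end Two

theorem tor_entry {μ μ' : Fin 3 → Kˣ} {n : G6 K} (e : n * tor μ * n⁻¹ = tor μ') (i : Fin 3) :
    ∃ j, μ' i = μ j ∨ μ' i = (μ j)⁻¹ := by
  obtain ⟨σ, hσ⟩ := exists_diag n
  obtain ⟨j, hj⟩ := σ.surjective (.inl i)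
  have := dg_entry e (hσ j)
  rw [hj] at this
  rcases j with j | j
  exacts [⟨j, .inl this⟩, ⟨j, .inr this⟩]

/-- Three commuting conjugate semisimple elements with product one (put them into `tor`). -/
theorem no_three [IsAlgClosed K] {c₁ c₂ c₃ k l : G6 K} (s₁ : c₁ ∈ Sp K) (s₂ : c₂ ∈ Sp K) (c : Commute c₁ c₂)
    (e : c₁ * c₂ * c₃ = 1) (e₂ : k * c₁ * k⁻¹ = c₂) (e₃ : l * c₁ * l⁻¹ = c₃) {m : ℕ} (hm : Odd m) (hK : (m : K) ≠ 0)
    (o : c₁ ^ m = 1) (h : rk c₁ ≤ 2 ∨ ∃ ν : Kˣ, ∀ (μ : K) (v : I6 → K), v ≠ 0 → c₁.1 *ᵥ v = μ • v →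
      μ = ν ∨ μ = ν⁻¹) : c₁ = c₂ := by
  classical
  obtain ⟨n, -, μ, μ', e1, e2⟩ := exists_conj_tor₂ s₁ s₂ o (by rw [← e₂, conj_pow, o, mul_one, mul_inv_cancel]) hK c
  have e3 : n * c₃ * n⁻¹ = tor (μ * μ')⁻¹ := by
    rw [map_inv, map_mul, ← e1, ← e2, conj_mul, eq_inv_iff_mul_eq_one, conj_mul, mul_eq_one_comm.1 e]
    group
  have f2 : n * k * n⁻¹ * tor μ * (n * k * n⁻¹)⁻¹ = tor μ' := by rw [← e1, ← e2, ← e₂]; group
  have f3 : n * l * n⁻¹ * tor μ * (n * l * n⁻¹)⁻¹ = tor (μ * μ')⁻¹ := by rw [← e1, ← e3, ← e₃]; group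
  suffices μ = μ' by rw [this, ← e2] at e1; simpa using e1
  rcases h with h | ⟨ν, h⟩
  · have r2 := rk_conj (tor μ) (n * k * n⁻¹)
    have r3 := rk_conj (tor μ) (n * l * n⁻¹)
    rw [← rk_conj _ n, e1, rk_tor] at h
    rw [f2, rk_tor, rk_tor] at r2
    rw [f3, rk_tor, rk_tor] at r3
    rcases Nat.eq_zero_or_pos (Finset.univ.filter fun i => μ i ≠ 1).card with z | z
    · have z' : (Finset.univ.filter fun i => μ' i ≠ 1).card = 0 := by omega
      simp only [Finset.card_eq_zero, Finset.filter_eq_empty_iff, Finset.mem_univ, not_not, forall_const] at z z'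
      exact funext fun i => (@z i).trans (@z' i).symm
    have one : ∀ ρ : Fin 3 → Kˣ, (Finset.univ.filter fun i => ρ i ≠ 1).card = 1 → ∃ i, ∀ x, ρ x ≠ 1 ↔ x = i :=
      fun ρ h => (Finset.card_eq_one.1 h).imp fun i hi x => by simpa using Finset.ext_iff.1 hi x
    obtain ⟨i, hi⟩ := one μ (by omega)
    obtain ⟨j, hj⟩ := one μ' (by omega)
    obtain ⟨j', hj'⟩ := one (μ * μ')⁻¹ (by omega)
    simp only [Pi.inv_apply, Pi.mul_apply, ne_eq, inv_eq_one] at hj'
    have a1 : ∀ {x}, x ≠ i → μ x = 1 := fun h => not_not.1 ((hi _).not.2 h)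
    have a2 : ∀ {x}, x ≠ j → μ' x = 1 := fun h => not_not.1 ((hj _).not.2 h)
    obtain rfl : i = j := by_contra fun ij => ij (((hj' i).1 (by rw [a2 ij, mul_one]; exact (hi i).2 rfl)).trans
      ((hj' j).1 (by rw [a1 (Ne.symm ij), one_mul]; exact (hj j).2 rfl)).symm)
    funext x
    rcases eq_or_ne x i with rfl | xi
    swap
    · rw [a1 xi, a2 xi]
    obtain ⟨y, hy⟩ := tor_entry f2 x
    obtain rfl : y = x := by_contra fun yx => (hj x).2 rfl (by rwa [a1 yx, inv_one, or_self] at hy)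
    refine (hy.resolve_right fun hy => (hj' j').2 rfl ?_).symm
    rcases eq_or_ne j' y with rfl | jy
    · rw [hy, mul_inv_cancel]
    · rw [a1 jy, a2 jy, mul_one]
  · have a : ∀ i, μ i = ν ∨ μ i = ν⁻¹ := fun i => by
      have := h (μ i) ((n⁻¹).1 *ᵥ Pi.single (.inl i) 1) (fun e => by
        have := congrArg (fun v => (n.1 *ᵥ v) (.inl i)) e
        simp only [Matrix.mulVec_mulVec, Units.mul_inv, Matrix.one_mulVec, Matrix.mulVec_zero] at this
        simp at this) (by
        rw [← Matrix.mulVec_smul, Matrix.mulVec_mulVec, ← Units.val_mul, show c₁ * n⁻¹ = n⁻¹ * tor μ by rw [← e1]; group,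
          Units.val_mul, ← Matrix.mulVec_mulVec, tor_eq, Q4R.dg_val]
        congr 1
        ext j
        rw [Matrix.mulVec_diagonal]
        rcases eq_or_ne j (.inl i) with rfl | hj
        · simp
        · simp [hj])
      simpa only [← Units.val_inv_eq_inv_val, Units.val_inj] using this
    have b : ∀ {ρ : Fin 3 → Kˣ} {n : G6 K}, n * tor μ * n⁻¹ = tor ρ → ∀ i, ρ i = ν ∨ ρ i = ν⁻¹ := fun e i => by
      obtain ⟨j, hj | hj⟩ := tor_entry e i <;> rcases a j with h | h <;> simp [hj, h]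
    funext i
    have b3 := b f3 i
    rcases a i with h1 | h1 <;> rcases b f2 i with h2 | h2 <;>
      simp only [Pi.inv_apply, Pi.mul_apply, h1, h2, mul_inv_cancel, inv_mul_cancel, inv_one,
        eq_comm (a := (1 : Kˣ)), inv_eq_one, or_self] at b3 ⊢ <;> rw [b3, inv_one]

theorem Ev0.conj (h : Ev0 M) (k : O (Q K)) : Ev0 (M.map (MulAut.conj k).toMonoidHom) := by
  have := h.fin
  have := h.simple
  let e := M.equivMapOfInjective (MulAut.conj k).toMonoidHom (MulAut.conj k).injective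
  refine ⟨h.two, .of_equiv _ e.toEquiv, e.symm.isSimpleGroup,
    fun c => h.nab ⟨⟨fun a b => e.injective (by rw [map_mul, map_mul, c.1.1])⟩⟩, fun X hX => ?_⟩
  refine (h.inv (X.comap (k.1 : V K →ₗ[K] V K)) fun g hg v hv => ?_).imp (fun i v hv => ?_) fun i => ?_
  · simpa [O.mul_apply] using hX ⟨g, hg, rfl⟩ _ hv
  · obtain ⟨c, hc⟩ := Submodule.mem_span_singleton.1 (i (x := k⁻¹.1 v) (by simpa using hv))
    exact Submodule.mem_span_singleton.2 ⟨c, by rw [← fix_sU h.two k, ← map_smul, hc, O.apply_inv_apply]⟩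
  · exact eq_top_iff.2 fun v _ => by simpa using i.ge (x := k⁻¹.1 v) trivial

/-- An invariant subspace containing a singular vector is everything. -/
theorem Ev0.eq_top (h : Ev0 M) {X : Submodule K (V K)} (hX : M ≤ stabS X) (ha : a ∈ X) (q : Q K a = 0)
    (a0 : a ≠ 0) : X = ⊤ := by
  exact (h.inv X hX).resolve_left fun i => a0 (geo_rad h.two q (i ha))

/-- `[V, M]` is invariant and not inside `K ∙ sU`. -/
theorem Ev0.comm_top (h : Ev0 M) {X : Submodule K (V K)} {S : Set (O (Q K))} (hS : M ≤ Subgroup.closure S)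
    (hX : ∀ g ∈ S, O.comm g ≤ X) : X = ⊤ := by
  refine (h.inv X (hS.trans ((Subgroup.closure_le _).2 fun g hg v hv => ?_))).resolve_left fun i => h.nab ?_
  · simpa using add_mem (hX g hg (O.sub_mem_comm g v)) hv
  have : M ≤ ⊥ := hS.trans ((Subgroup.closure_le _).2 fun g hg => O.comm_eq_bot_iff.1
    ((Submodule.eq_bot_iff _).2 fun v hv => comm_rad h.two hv (pr_eq_zero.2 (i (hX g hg hv)))))
  exact ⟨⟨fun a b => Subtype.ext (by rw [Subgroup.mem_bot.1 (this (a * b).2), Subgroup.mem_bot.1 (this (b * a).2)])⟩⟩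

theorem Ev0.le_sum (h : Ev0 M) (l : List (O (Q K))) (hl : M ≤ Subgroup.closure {g | g ∈ l}) :
    7 ≤ (l.map dm).sum := by
  obtain ⟨X, h1, h3⟩ : ∃ X : Submodule K (V K), (∀ g ∈ l, O.comm g ≤ X) ∧ finrank K X ≤ (l.map dm).sum := by
    clear hl
    induction l with
    | nil => exact ⟨⊥, by simp, by simp⟩
    | cons a l ih =>
      obtain ⟨X, h1, h3⟩ := ih
      refine ⟨O.comm a ⊔ X, fun g hg => ?_, (Submodule.finrank_add_le_finrank_add_finrank _ _).trans
        (Nat.add_le_add_left h3 _)⟩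
      rcases List.mem_cons.1 hg with rfl | hg
      exacts [le_sup_left, le_sup_of_le_right (h1 g hg)]
  rwa [h.comm_top hl h1, finrank_top, O7.finrank_V] at h3

/-- A nontrivial conjugation invariant subset generates. -/
theorem Ev0.gen (h : Ev0 M) {S : Set (O (Q K))} (hS : S ⊆ M) (c : ∀ g ∈ M, ∀ x ∈ S, g * x * g⁻¹ ∈ S)
    (n : ∃ x ∈ S, x ≠ 1) : Subgroup.closure S = M := by
  have := h.simple
  have le : Subgroup.closure S ≤ M := (Subgroup.closure_le _).2 hS
  have nm : ((Subgroup.closure S).subgroupOf M).Normal := ⟨fun x hx g => by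
    have : (Subgroup.closure S).map (MulAut.conj g.1).toMonoidHom ≤ Subgroup.closure S := by
      rw [MonoidHom.map_closure]
      exact Subgroup.closure_mono (by rintro _ ⟨x, hx, rfl⟩; exact c _ g.2 _ hx)
    exact this ⟨x.1, hx, rfl⟩⟩
  obtain ⟨x, hx, x1⟩ := n
  refine le.antisymm (Subgroup.subgroupOf_eq_top.1 (nm.eq_bot_or_eq_top.resolve_left fun e => x1 ?_))
  exact congrArg Subtype.val (Subgroup.mem_bot.1 (e.le (x := ⟨x, hS hx⟩) (Subgroup.subset_closure hx)))

/-- No subgroup of index two: Thompson's transfer lemma (`GO.thompson`, `LFE.thompson`) in the form: `T` Sylow,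
`χ : T → K` additive and `χ = c ≠ 0` on the conjugates of `t` in `T`. -/
theorem Ev0.transfer (h : Ev0 M) (T : Sylow 2 M) (χ : T →* Multiplicative K) {t : M} (ht : t * t = 1)
    (h1 : t ≠ 1) {c : K} (hc : c ≠ 0) (e : ∀ x : T, IsConj t x.1 → χ x = Multiplicative.ofAdd c) : False := by
  have := h.fin
  have := h.simple
  have t2 : t ^ 2 = 1 := (pow_two t).trans ht
  obtain ⟨P, hP⟩ := (IsPGroup.of_card (p := 2) (n := 1) (G := Subgroup.zpowers t)
    (by rw [Nat.card_zpowers, orderOf_eq_prime t2 h1, pow_one])).exists_le_sylow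
  obtain ⟨g, rfl⟩ := MulAction.exists_smul_eq M P T
  have m : g * t * g⁻¹ ∈ ((g • P : Sylow 2 M) : Subgroup M) :=
    Subgroup.smul_mem_pointwise_smul _ (MulAut.conj g) _ (hP (Subgroup.mem_zpowers t))
  have cj : IsConj t (g * t * g⁻¹) := isConj_iff.2 ⟨g, rfl⟩
  refine Transfer.not_mem_pResidual_sup_commutator_of_conj_mem_coset (g • P) (K := χ.ker.map (Subgroup.subtype _))
    ?_ m ?_ (by rw [conj_pow, t2, mul_one, mul_inv_cancel]) (fun a ha => ?_) (Subgroup.mem_sup_right ?_)
  · rw [← Subgroup.map_subtype_commutator]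
    exact Subgroup.map_mono (Abelianization.commutator_subset_ker χ)
  · rintro ⟨x, hx, e'⟩
    exact hc (Multiplicative.ofAdd.injective ((e x (cj.trans (isConj_iff.2 ⟨1, by simpa using e'.symm⟩))).symm.trans hx))
  · exact ⟨⟨_, ha⟩ * ⟨_, m⟩⁻¹, by
      rw [SetLike.mem_coe, MonoidHom.mem_ker, map_mul, map_inv, e ⟨_, m⟩ cj,
        e ⟨_, ha⟩ (cj.trans (isConj_iff.2 ⟨a, rfl⟩)), mul_inv_cancel], rfl⟩
  · rw [((inferInstance : (commutator M).Normal).eq_bot_or_eq_top).resolve_left fun e =>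
      h.nab ((commutator_eq_bot_iff _).1 e)]
    trivial

end Cfsg.Lib.S6Q
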