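import Cfsg.Agent.Lib.S6Q.Tv

/-!
# A transvection centred on an `a₂`-line (characteristic two)
-/

set_option autoImplicit false

namespace Cfsg.Lib.S6Q

open scoped MatrixGroups Matrix commutatorElement
open Cfsg.Geo Cfsg.Lib.Asch Cfsg.Lib.Linear Cfsg.Lib.Q4 Cfsg.Lib.Symp Module
open Cfsg.Lib.Q4R (Sq HasTv sc dg)

variable {F : Type*} [Field F] [Finite F] {P : Subgroup (G6 F)}

section Gen

open TVn

variable {ι : Type} [Fintype ι] [DecidableEq ι] {f : (ι → F) → (ι → F) → F} {M : Subgroup (GL ι F)} {k : Subfield F}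
  {u v w z : ι → F}

/-- `T_u` and the Eichler element `u ∧ z` lie in `M`. -/
def Tri (M : Subgroup (GL ι F)) (f : (ι → F) → (ι → F) → F) (u z : ι → F) : Prop :=
  u ≠ 0 ∧ z ∉ F ∙ u ∧ Ei M f u 0 1 ∧ Ei M f u z 0

variable (h : Alt f) (hM : M ≤ iso f) (h2 : (2 : F) = 0)
include h

omit [Finite F] in
theorem lr_ext {W : Submodule F (ι → F)} (hW : ∀ w ∈ W, Lr M f w) (hz : z ∈ W) (r : ∀ w ∈ W, f w z = 0)
    (hv : Lr M f v) (n : f v z ≠ 0) : ∀ w ∈ W ⊔ F ∙ v, Lr M f w := fun x hx => by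
  have k : ∀ w ∈ W, Lr M f (v + w) := fun w hw => by
    by_cases e : f v w = 0
    · simpa [add_assoc] using (hv.add h (hW _ (add_mem hw hz)) (by rwa [h.add_right, e, zero_add])).add_smul h (hW z hz)
        (by rwa [h.add_left, r _ (add_mem hw hz), add_zero]) (-1)
    · exact hv.add h (hW w hw) e
  obtain ⟨w, hw, y, hy, rfl⟩ := Submodule.mem_sup.1 hx
  obtain ⟨a, rfl⟩ := Submodule.mem_span_singleton.1 hy
  by_cases ha : a = 0
  · simpa [ha] using hW w hw
  · have := (k _ (W.smul_mem a⁻¹ hw)).smul h a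
    rwa [smul_add, smul_inv_smul₀ ha, add_comm] at this

omit [Finite F] in
theorem tv_dv (hv : v ≠ 0) : dv (RingHom.id F) f v ≠ 0 := fun e =>
  hv (dv_injective h.toSForm (e.trans (dv_zero h.toSForm).symm))

omit [Finite F] in
theorem ei_act {c : F} (t : Ei M f u 0 c) : ∃ g ∈ M, g ∈ iso f ∧ ∀ x, g.1 *ᵥ x = x + (c * f x u) • u := by
  simpa only [smul_zero, add_zero, h.zero_right, zero_add] using t.exists_iso h

omit [Finite F] h in
theorem Tri.conj (t : Tri M f u z) {g : GL ι F} (hg : g ∈ M) (gi : g ∈ iso f) : Tri M f (g.1 *ᵥ u) (g.1 *ᵥ z) :=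
  ⟨GL_mulVec_ne_zero g t.1, fun m => let ⟨a, e⟩ := Submodule.mem_span_singleton.1 m
    t.2.1 (Submodule.mem_span_singleton.2 ⟨a, GL_mulVec_injective g ((Matrix.mulVec_smul ..).trans e)⟩),
    by simpa using t.2.2.1.conj hg gi, t.2.2.2.conj hg gi⟩

include hM

omit [Finite F] in
theorem tv_lr {ψ : ι → F} (a : Fl M ⊤ w ψ) : Lr M f w := fun d => by
  obtain ⟨c, c0, rfl⟩ := tv_alt h hM a.1 a.2.1 a.tv
  exact tv_ei h (by simpa [smul_smul, c0] using a.2.2 (d / c) trivial)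

theorem tv_big (h0 : Fam0 M ⊤) {W : Submodule F (ι → F)} (hb : Big f W) (hW : ∀ w ∈ W, Lr M f w) : iso f ≤ M := by
  obtain ⟨X, l, h1, h3⟩ := exists_max_lr h hb hW
  obtain ⟨v, m, x, -, n⟩ := hb.exists_ne
  obtain rfl := tv_top h hM h0 ((Submodule.ne_bot_iff X).2 ⟨v, l m, fun e => n (e ▸ h.zero_right x)⟩)
    fun w ψ a => h3 w (tv_lr h hM a)
  exact h.iso_le fun v => h1 v trivial

include h2

theorem tv_field2 (hF : Fam M k) (ht : TrTop M) : k = ⊤ := by
  have : CharP F 2 := CharTwo.of_one_ne_zero_of_two_eq_zero one_ne_zero h2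
  obtain ⟨x, ξ, fx⟩ := hF.ex
  refine ht k (trace_mem (O := {a | Fl M k a.1 a.2 ∧ ξ ⬝ᵥ a.1 = 1 ∧ a.2 ⬝ᵥ x = -1}) (fun a ha => ha.1.dot) ?_
    fun N hN => hF.gen_opp (.inr fun a b e => ?_) fx N fun v φ a e1 e2 => hN (v, φ) ⟨a, e1, e2⟩)
  · rintro ⟨v, φ⟩ ⟨fa, a1, a2⟩ ⟨w, χ⟩ ⟨fb, b1, b2⟩
    have e3 := hF.two fa fb
    dsimp only at *
    obtain ⟨c, -, rfl⟩ := tv_alt h hM fx.1 fx.2.1 fx.tv
    obtain ⟨a, -, rfl⟩ := tv_alt h hM fa.1 fa.2.1 fa.tv
    obtain ⟨b, -, rfl⟩ := tv_alt h hM fb.1 fb.2.1 fb.tv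
    simp only [smul_dotProduct, dv_dot h.toSForm, smul_eq_mul, h.skew x, h.skew v w] at *
    obtain rfl : c = a := by grind
    obtain rfl : c = b := by grind
    obtain ⟨r, hr⟩ := isSquare_of_charTwo' (⟨_, e3⟩ : k)
    have hr : c * f w v * (c * -f w v) = r * r := congrArg Subtype.val hr
    rw [show c * f w v = r from sub_eq_zero.1 (pow_eq_zero_iff two_ne_zero |>.1
      (by linear_combination -hr - r * (c * f w v) * h2))]
    exact r.2
  · obtain ⟨c, c0, rfl⟩ := tv_alt h hM a.1 a.2.1 a.tv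
    obtain ⟨d, -, rfl⟩ := tv_alt h hM b.1 b.2.1 b.tv
    simp only [smul_dotProduct, dv_dot h.toSForm, smul_eq_mul] at e ⊢
    rw [h.skew, (mul_eq_zero.1 e).resolve_left c0, neg_zero, mul_zero]

theorem tv_sqrt {φ : ι → F} (a : Fl M k v φ) :
    ∃ s : F, s ≠ 0 ∧ φ = (s * s) • dv (RingHom.id F) f v ∧ Ei M f (s • v) 0 1 := by
  have : CharP F 2 := CharTwo.of_one_ne_zero_of_two_eq_zero one_ne_zero h2
  obtain ⟨c, c0, rfl⟩ := tv_alt h hM a.1 a.2.1 a.tv
  obtain ⟨s, rfl⟩ := isSquare_of_charTwo' c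
  exact ⟨s, left_ne_zero_of_mul c0, rfl, Ei.smul h (by simpa [sq] using tv_ei h a.tv) (h.zero_left _)⟩

theorem tv_mid (h0 : Fam0 M k) (hu : u ≠ 0) (hv : v ≠ 0) : ∃ w, Ei M f w 0 1 ∧ f w u ≠ 0 ∧ f w v ≠ 0 := by
  obtain ⟨x, ξ, a, n, n'⟩ := h0.mid hu (tv_dv h hv)
  obtain ⟨s, s0, rfl, t⟩ := tv_sqrt h hM h2 a
  rw [dv_dot h.toSForm] at n'
  refine ⟨_, t, ?_, ?_⟩ <;> rw [h.smul_left]
  · exact mul_ne_zero s0 fun e => n (by simp [dv_dot h.toSForm, h.map_eq_zero.1 e])
  · exact mul_ne_zero s0 n'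

omit hM

theorem tv_one (tu : Ei M f u 0 1) (tw : Ei M f w 0 1) (n : f w u ≠ 0) (e : Ei M f u z 0) (p : f w z = 0) :
    Ei M f z 0 1 := by
  have : CharP F 2 := CharTwo.of_one_ne_zero_of_two_eq_zero one_ne_zero h2
  obtain ⟨g, hg, gi, hg'⟩ := ei_act h tu
  obtain ⟨g', hk, ki, hk'⟩ := ei_act h tw
  have sk : f u w = f w u := (h.skew u w).trans (CharTwo.neg_eq _)
  let G : F → F → F → Prop := fun ε a b => Ei M f z (a • u + b • w) (a ^ 2 + b ^ 2 + f w u * a * b + ε)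
  have m : ∀ {ε a b ε' a' b'}, G ε a b → G ε' a' b' → G (ε + ε') (a + a') (b + b') := fun t t' => by
    convert t.mul h t' using 1
    · module
    · simp only [h.add_left, h.add_right, h.smul_left, h.smul_right', h.alt, sk]
      grind
  have s1 : ∀ {ε a b}, G ε a b → G 0 (f w u * b) 0 := fun {ε a b} t => by
    have := t.conj hg gi
    rw [hg' z, e.1, mul_zero, zero_smul, add_zero] at this
    convert m (show G ε (a + f w u * b) b by
      convert this using 1
      · simp only [hg', h.add_left, h.smul_left, h.alt]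
        module
      · grind) t using 1 <;> grind
  have s2 : ∀ {ε a b}, G ε a b → G 0 0 (f w u * a) := fun {ε a b} t => by
    have := t.conj hk ki
    rw [hk' z, h.map_eq_zero.1 p, mul_zero, zero_smul, add_zero] at this
    convert m (show G ε a (b + f w u * a) by
      convert this using 1
      · simp only [hk', h.add_left, h.smul_left, h.alt, sk]
        module
      · grind) t using 1 <;> grind
  have g0 : G 1 1 0 := by
    convert e.symm h using 1
    · simp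
    · grind
  have g1 : ∀ j : ℕ, G 0 (f w u ^ (2 * (j + 1))) 0 := fun j => by
    induction j with
    | zero => convert s1 (s2 g0) using 1; ring
    | succ j ih => convert s1 (s2 ih) using 1; ring
  obtain ⟨j, j0, hj⟩ := isOfFinOrder_iff_pow_eq_one.1 (isOfFinOrder_of_finite (Units.mk0 _ n))
  have := g1 (j - 1)
  rw [Nat.sub_add_cancel j0, mul_comm, pow_mul, show f w u ^ j = 1 from congrArg Units.val hj, one_pow] at this
  convert m this g0 using 1
  · rw [one_add_one_eq_two, h2]; simp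
  · grind

theorem Tri.perp (t : Tri M f u z) (tw : Ei M f w 0 1) (n : f w u ≠ 0) :
    Tri M f u (z + (f w z / f w u) • u) ∧ f w (z + (f w z / f w u) • u) = 0 ∧ Ei M f (z + (f w z / f w u) • u) 0 1 := by
  have e := t.2.2.2.add_smul h (f w z / f w u)
  rw [h2, zero_mul, sub_zero] at e
  have p : f w (z + (f w z / f w u) • u) = 0 := by
    rw [h.add_right, h.smul_right', div_mul_cancel₀ _ n, ← two_mul, h2, zero_mul]
  exact ⟨⟨t.1, fun m => t.2.1 ((Submodule.add_mem_iff_left _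
    (Submodule.smul_mem _ _ (Submodule.mem_span_singleton_self u))).1 m), t.2.2.1, e⟩, p, tv_one h h2 t.2.2.1 tw n e p⟩

theorem Tri.eq (hr : R2 M) (t : Tri M f u z) (tz : Ei M f z 0 1) (tw : Ei M f w 0 1) (n : f w u ≠ 0) (n' : f w z ≠ 0) :
    f w u = f w z := by
  have z0 : z ≠ 0 := fun e => t.2.1 (e ▸ zero_mem _)
  have t' : Tri M f z u := ⟨z0, fun m => by
    obtain ⟨a, e⟩ := Submodule.mem_span_singleton.1 m
    exact t.2.1 (Submodule.mem_span_singleton.2 ⟨a⁻¹, by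
      rw [← e, inv_smul_smul₀ (left_ne_zero_of_smul (e ▸ t.1))]⟩), tz, t.2.2.2.symm h⟩
  obtain ⟨a1, -, a2⟩ := t.perp h h2 tw n
  obtain ⟨-, -, a3⟩ := t'.perp h h2 tw n'
  have y0 : z + (f w z / f w u) • u ≠ 0 := fun e => a1.2.1 (e ▸ zero_mem _)
  rw [show u + (f w u / f w z) • z = (f w u / f w z) • (z + (f w z / f w u) • u) by
    rw [smul_add, smul_smul, div_mul_div_cancel₀ n', div_self n, one_smul, add_comm]] at a3
  have := hr y0 (tv_dv h y0) (by simpa using a2.tv h)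
    ((by simpa using a3.of_smul h (h.zero_left _) : Ei M f _ 0 ((f w u / f w z) ^ 2)).tv h)
  rw [← div_eq_one_iff_eq n']
  have q := div_ne_zero n n'
  grind

include hM

theorem Tri.one (hr : R2 M) (h0 : Fam0 M k) (t : Tri M f u z) (tw : Ei M f w 0 1) (n : f w u ≠ 0) : f w u = 1 := by
  have : CharP F 2 := CharTwo.of_one_ne_zero_of_two_eq_zero one_ne_zero h2
  obtain ⟨t, p, tz⟩ := t.perp h h2 tw n
  generalize z + (f w z / f w u) • u = z at t p tz
  obtain ⟨x, tx, n1, n2⟩ := tv_mid h hM h2 h0 t.1 (fun e => t.2.1 (e ▸ zero_mem _) : z ≠ 0)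
  obtain ⟨g, hg, gi, hg'⟩ := ei_act h t.2.2.1
  obtain ⟨g', hk, ki, hk'⟩ := ei_act h tw
  have sk : f u w = f w u := (h.skew u w).trans (CharTwo.neg_eq _)
  have t1 := t.conj hk ki
  rw [hk' z, h.map_eq_zero.1 p, mul_zero, zero_smul, add_zero] at t1
  have t2 := t1.conj hg gi
  rw [hg' z, t.2.2.2.1, mul_zero, zero_smul, add_zero] at t2
  have e0 := t.eq h h2 hr tz tx n1 n2
  have e1 := or_iff_not_imp_left.2 fun n => t1.eq h h2 hr tz tx n n2
  have e2 := or_iff_not_imp_left.2 fun n => t2.eq h h2 hr tz tx n n2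
  simp only [hg', hk', h.add_left, h.add_right, h.smul_left, h.smul_right', h.alt, sk, e0] at e1 e2
  have q : f w u * (f w u * f x z) ≠ 0 := mul_ne_zero n (mul_ne_zero n n2)
  refine sub_eq_zero.1 (pow_eq_zero_iff two_ne_zero |>.1 (mul_right_cancel₀ n2 ?_))
  rcases e1 with e1 | e1 <;> rcases e2 with e2 | e2
  exacts [absurd (by linear_combination e2 - e1) q, by linear_combination e2 - e1 + (1 - f w u) * f x z * h2,
    by linear_combination e2 - e1 - f w u * f x z * h2, absurd (by linear_combination e2 - e1) q]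

theorem Tri.next (hr : R2 M) (h0 : Fam0 M k) (t : Tri M f u z) (tw : Ei M f w 0 1) (n : f w u ≠ 0) :
    ∃ z, Tri M f w z := by
  have : CharP F 2 := CharTwo.of_one_ne_zero_of_two_eq_zero one_ne_zero h2
  obtain ⟨g, hg, gi, hg'⟩ := ei_act h t.2.2.1
  obtain ⟨g', hk, ki, hk'⟩ := ei_act h tw
  have e := t.one h hM h2 hr h0 tw n
  refine ⟨_, (?_ : g.1 *ᵥ g'.1 *ᵥ u = w) ▸ (t.conj hk ki).conj hg gi⟩
  simp only [hg', hk', h.add_left, h.smul_left, h.alt, h.skew u w, e, CharTwo.neg_eq]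
  linear_combination (norm := module) h2 • u

theorem tv_two (H : Hyp M) (t : Tri M f u z) : iso f ≤ M := by
  have tu : Tv M u (dv (RingHom.id F) f u) := by simpa using t.2.2.1.tv h
  have h0 := H.fam0 (fl_bot t.1 (tv_dv h t.1) tu)
  rcases H.exists_fam Fam0.mid t.1 (tv_dv h t.1) tu with ⟨k, k3, hF⟩ | ⟨-, hr⟩ | ⟨c3, -⟩
  · obtain rfl := tv_field2 h hM h2 hF H.top
    obtain ⟨v, φ, a⟩ := hF.ex
    obtain ⟨u, ψ, b, -, n⟩ := hF.toFam0.mid a.1 a.2.1
    obtain ⟨c, -, rfl⟩ := tv_alt h hM a.1 a.2.1 a.tv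
    replace n : f u v ≠ 0 := fun e => n (by simp [dv_dot h.toSForm, e])
    obtain ⟨s, -, s0, s1⟩ := cyc_avoid k3 (a := 0) (b := 1) (a' := -1) (b' := 1) (by simp) (by simp)
    refine tv_big h hM hF.toFam0 (W := (F ∙ v) ⊔ F ∙ u) (.inl ⟨⟨s, by simpa using s0, by grind⟩, v,
      Submodule.mem_sup_left (Submodule.mem_span_singleton_self v), u,
      Submodule.mem_sup_right (Submodule.mem_span_singleton_self u), n⟩)
      (lr_ext h (fun w hw => ?_) (Submodule.mem_span_singleton_self v) (fun w hw => ?_) (tv_lr h hM b) n) <;>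
      obtain ⟨a', rfl⟩ := Submodule.mem_span_singleton.1 hw
    exacts [(tv_lr h hM a).smul h a', by rw [h.smul_left, h.alt, mul_zero]]
  · have all : ∀ {v}, v ≠ 0 → Ei M f v 0 1 → ∃ z, Tri M f v z := fun {v} v0 tv => by
      obtain ⟨w, tw, n, n'⟩ := tv_mid h hM h2 h0 t.1 v0
      obtain ⟨y, t'⟩ := t.next h hM h2 hr h0 tw n
      exact t'.next h hM h2 hr h0 tv fun e => n' (h.map_eq_zero.1 e)
    have e := tv_field2 h hM h2 ⟨h0, fun {v φ w ψ} a b => by
      obtain ⟨s, s0, rfl, ts⟩ := tv_sqrt h hM h2 a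
      obtain ⟨r, r0, rfl, tr⟩ := tv_sqrt h hM h2 b
      obtain ⟨y, t'⟩ := all (smul_ne_zero s0 a.1) ts
      have := fun n => t'.one h hM h2 hr h0 tr n
      simp only [smul_dotProduct, dv_dot h.toSForm, smul_eq_mul, h.smul_left, h.smul_right', h.skew v w] at this ⊢
      rw [show s * s * f w v * (r * r * -f w v) = -((r * (s * f w v)) * (r * (s * f w v))) by ring]
      by_cases q : r * (s * f w v) = 0
      · simp [q]
      · simp [this q]⟩ H.top
    have lr : ∀ {v}, Ei M f v 0 1 → Lr M f v := fun {v} tv => by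
      by_cases v0 : v = 0
      · exact v0 ▸ Lr.zero h
      · exact tv_lr h hM (e ▸ fl_bot v0 (tv_dv h v0) (by simpa using tv.tv h))
    have bin : ∀ c : F, c = 0 ∨ c = 1 := fun c => hr t.1 (tv_dv h t.1) tu ((lr t.2.2.1 c).tv h)
    obtain ⟨a, ta, n, -⟩ := tv_mid h hM h2 h0 t.1 t.1
    obtain ⟨t, p, tz⟩ := t.perp h h2 ta n
    generalize z + (f a z / f a u) • u = z at t p tz
    obtain ⟨b, tb, -, n'⟩ := tv_mid h hM h2 h0 t.1 (fun e => t.2.1 (e ▸ zero_mem _) : z ≠ 0)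
    have zu := t.2.2.2.1
    have mu : u ∈ Submodule.span F {u, z} := Submodule.subset_span (by simp)
    have mz : z ∈ Submodule.span F {u, z} := Submodule.subset_span (by simp)
    have ma := Submodule.mem_sup_left (T := F ∙ b) (Submodule.mem_sup_right (S := Submodule.span F {u, z})
      (Submodule.mem_span_singleton_self (R := F) a))
    refine tv_big h hM (e ▸ h0) (.inr ⟨u, Submodule.mem_sup_left (Submodule.mem_sup_left mu), z,
      Submodule.mem_sup_left (Submodule.mem_sup_left mz), zu, ⟨a, ma, n⟩,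
      ⟨b, Submodule.mem_sup_right (Submodule.mem_span_singleton_self b), n'⟩, a, ma, by rwa [h.add_right, p, add_zero]⟩)
      (lr_ext h (lr_ext h (fun w hw => ?_) mu (fun w hw => ?_) (lr ta) n) (Submodule.mem_sup_left mz) (fun w hw => ?_)
        (lr tb) n')
    · obtain ⟨r, s, rfl⟩ := Submodule.mem_span_pair.1 hw
      rcases bin r with rfl | rfl
      · simpa using (lr tz).smul h s
      rcases bin s with rfl | rfl
      · simpa using lr t.2.2.1
      · simpa using lr (Ei.add h zu (by simpa [h.zero_left] using t.2.2.2.mul h t.2.2.1) tz)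
    · obtain ⟨r, s, rfl⟩ := Submodule.mem_span_pair.1 hw
      simp [h.add_left, h.smul_left, h.alt, zu]
    · obtain ⟨_, hx, _, hy, rfl⟩ := Submodule.mem_sup.1 hw
      obtain ⟨r, s, rfl⟩ := Submodule.mem_span_pair.1 hx
      obtain ⟨c, rfl⟩ := Submodule.mem_span_singleton.1 hy
      simp [h.add_left, h.smul_left, h.alt, h.map_eq_zero.1 zu, p]
  · exact absurd (by linear_combination c3 - h2) (one_ne_zero (α := F))

end Gen

/-- `Hyp.exists_fam`.  A family over `k`, `|k| ≥ 4`: as in `S6Q/Tv` (pairings have squares in `k`, so lie in `k`).  Case `R2 P`: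
scale `c = 1`, `𝒯 = P u`, `T_v x = x + om x v • v`.  (1) For `w ∈ 𝒯`, `α = om w u ≠ 0`, `z' = z + (om w z / α) u ⟂ u, w`; `δ = T_u T_w` has
odd order `m` without fixed points on `Π = ⟨u, w⟩`, fixes `z'` and a quadratic form `q` on `Π` with `q u = q w = 1`;
`(y, c) ↦ c + q y` is additive and `δ`-invariant on `{(y, c) | Ei P om z' y c}` `∋ (u, 0)`; the sum over the `δ`-orbit is
`(0, 1)`: `T_{z'} ∈ P`, and `T_{u + z'} = T_u T_{z'} g`.  (2) For such a triple `u, z, u + z` and any `T_w ∈ P`, `a = om w u`,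
`b = om w z` satisfy `a = 0`, `b = 0` or `a = b` ((1) twice and `R2`).  (3) Take `T_{w'} ∈ P` with `b = om w' z ≠ 0`; replacing `u`
by `u + z` if necessary `w'` is not perpendicular to `Π`; every `y` in the `⟨T_u, T_w⟩`-orbit of `u` (it contains `w`,
`u + α w`, `w + α u`) forms a triple with `z`, so `om w' y ∈ {0, b}` and `α = 1`.  (4) All pairings lie in `F₂`, so do the traces,
`F = F₂`.  (5) `u, z, u + z`, `a` with `om a u = 1`, `om a z = 0`, `b` with `om b z = 1`: all vectors of their span are `Lr`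
(`Lr.add`), it is `Big`; `exists_max_lr`, `Alt.iso_le`. -/
theorem Core.tv2 (h : Core P) (h2 : (2 : F) = 0) {u z : I6 → F} {c : F} (hc : c ≠ 0) (u0 : u ≠ 0) (hz : z ∉ F ∙ u)
    (t : Ei P (om F) u 0 c) (e : Ei P (om F) u z 0) : P = Sp F := by
  have : CharP F 2 := CharTwo.of_one_ne_zero_of_two_eq_zero one_ne_zero h2
  obtain ⟨s, rfl⟩ := isSquare_of_charTwo' c
  have s0 := left_ne_zero_of_mul hc
  have zu : om F (s⁻¹ • z) u = 0 := by rw [alt_om.smul_left, e.1, mul_zero]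
  refine le_antisymm h.sp (tv_two alt_om h.sp h2 (TVn.hyp_of_qs h.toQS h.ns) (u := s • u) (z := s⁻¹ • z)
    ⟨smul_ne_zero s0 u0, fun m => hz ?_, Ei.smul alt_om (by simpa [sq] using t) (alt_om.zero_left _),
      Ei.smul alt_om (by simpa [s0] using e) zu⟩)
  obtain ⟨a, ha⟩ := Submodule.mem_span_singleton.1 m
  exact Submodule.mem_span_singleton.2 ⟨s * (a * s), by rw [mul_smul, mul_smul, ha, smul_inv_smul₀ s0]⟩

end Cfsg.Lib.S6Q
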