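import Cfsg.Agent.Lib.S6Q.Spin2
import Cfsg.Agent.Lib.S6Q.Tv2
import Cfsg.Agent.Lib.S6Q.T2b
import Cfsg.Agent.Lib.O7.Red
import Cfsg.Agent.S1057

/-!
# From `Sp₆(F)` to `O₇(K)`, and the `G₂` ending
-/

set_option autoImplicit false

namespace Cfsg.Lib.S6Q

open scoped MatrixGroups Matrix commutatorElement
open QuadraticMap Module Cfsg.Lib.Orth Cfsg.Lib.Asch
open Cfsg.Lib.O7 (V W Q N I7 Spin phi act gam sU dm fx stabS stabV dgV)

variable {F K : Type*} [Field F] [Fintype F] [Field K] [IsAlgClosed K] (ι : F →+* K) {H P : Subgroup (G6 F)}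

/-- The group in `O₇(K)`. -/
noncomputable def up (h2 : (2 : F) = 0) (P : Subgroup (G6 F)) : Subgroup (O (Q K)) :=
  (P.comap (sp2 h2)).map (O7.bc ι)

theorem sp2_bc (h2 : (2 : F) = 0) (h2' : (2 : K) = 0) (g : O (Q F)) :
    sp2 h2' (O7.bc ι g) = mp ι (sp2 h2 g) := by
  refine Units.ext (O7.sp_toMatrix ι fun v => ?_)
  have : inc (ι ∘ v) = ι ∘ inc v := by ext i; rcases i with i | i <;> simp [inc]
  change pr ((O7.bc ι g).1 (inc (ι ∘ v))) = _
  rw [this, O7.bc_apply]; rfl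

omit [Fintype F] [IsAlgClosed K] in
include ι in
theorem two_up (h2 : (2 : F) = 0) : (2 : K) = 0 := by rw [← map_ofNat ι 2, h2, map_zero]

theorem sq_two (h2 : (2 : F) = 0) (x : F) : IsSquare x :=
  have : CharP F 2 := (CharP.charP_iff_prime_eq_zero Nat.prime_two).2 (by exact_mod_cast h2)
  FiniteField.isSquare_of_char_two (ringChar.eq F 2) x

omit [Fintype F] [IsAlgClosed K] in
theorem om_comp (u v : I6 → F) : om K (ι ∘ u) (ι ∘ v) = ι (om F u v) := by
  simp [om, sympForm, Matrix.J, dotProduct, Matrix.mulVec, Fin.sum_univ_three, Matrix.one_apply]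

theorem up_mem (h2 : (2 : F) = 0) {g : O (Q F)} (hg : sp2 h2 g ∈ P) : O7.bc ι g ∈ up ι h2 P := ⟨g, hg, rfl⟩

/-- In characteristic two `P` has no scalars. -/
theorem sq_equiv (h2 : (2 : F) = 0) (hP : P ≤ Sp F) : Nonempty (Q4R.Sq P ≃* P) := by
  have : (Geo.scalars I6 F).subgroupOf P = ⊥ := (Subgroup.eq_bot_iff_forall _).2 fun g hg => Subtype.ext
    ((pm_of_scalar (hP g.2) hg).elim id fun e => e.trans (Units.ext (neg_two h2 (1 : Matrix I6 I6 F))))
  exact ⟨(QuotientGroup.quotientMulEquivOfEq this).trans QuotientGroup.quotientBot⟩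

theorem up_equiv (h2 : (2 : F) = 0) (hP : P ≤ Sp F) : Nonempty (Q4R.Sq P ≃* up ι h2 P) := by
  obtain ⟨e⟩ := sq_equiv h2 hP
  have : (P.comap (sp2 h2)).map (sp2 h2) = P :=
    Subgroup.map_comap_eq_self fun g hg => sp2_surj h2 (sq_two h2) (hP hg)
  exact ⟨e.trans ((MulEquiv.subgroupCongr this.symm).trans
    (((P.comap (sp2 h2)).equivMapOfInjective _ (sp2_inj h2)).symm.trans
      ((P.comap (sp2 h2)).equivMapOfInjective _ (O7.bc_injective ι))))⟩

/-- An invariant complement `ker λ` to `K ∙ sU`: the invariant linear forms are the solutions of a linear system over `F`;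
take `λ₀ ≠ 0` over `F`, `λ₀ sU ≠ 0` by irreducibility; `v ↦ Q` of the vector of `ker λ₀` above `v` is an invariant quadratic form
with polar form `om`. -/
theorem Core.ev0 (h : Core P) (h2 : (2 : F) = 0) : Ev0 (up ι h2 P) := by
  have h2' := two_up ι h2
  obtain ⟨e⟩ := up_equiv ι h2 h.sp
  have := h.simple
  refine ⟨h2', .of_equiv _ e.toEquiv, e.symm.isSimpleGroup,
    fun c => h.nonabelian ⟨⟨fun a b => e.injective (by rw [map_mul, map_mul, c.1.1])⟩⟩, fun X hX => ?_⟩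
  have ir := irr_of_env (env_ext ι h.env) (X.map pr) (by
    rintro _ ⟨g, hg, rfl⟩ _ ⟨v, hv, rfl⟩
    obtain ⟨k, rfl⟩ := sp2_surj h2 (sq_two h2) (h.sp hg)
    rw [← sp2_bc ι h2 h2', sp2_pr]
    exact ⟨_, hX (up_mem ι h2 hg) v hv, rfl⟩)
  rcases ir with e | e
  · exact .inl fun v hv => pr_eq_zero.1 (e.le ⟨v, hv, rfl⟩)
  have dec : ∀ v : V K, ∃ x ∈ X, ∃ c : K, v = x + c • sU K := fun v => by
    obtain ⟨x, hx, f⟩ := e.ge (Submodule.mem_top (x := pr v))
    obtain ⟨c, hc⟩ := Submodule.mem_span_singleton.1 (pr_eq_zero.1 (show pr (v - x) = 0 by rw [map_sub, f, sub_self]))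
    exact ⟨x, hx, c, by rw [hc, add_sub_cancel]⟩
  refine .inr (eq_top_iff.2 fun v _ => ?_)
  by_cases m : sU K ∈ X
  · obtain ⟨x, hx, c, rfl⟩ := dec v
    exact add_mem hx (X.smul_mem c m)
  refine (h.nq ?_).elim
  obtain ⟨l, l1, l0⟩ := X.exists_dual_map_eq_bot_of_notMem m inferInstance
  have lX : ∀ x ∈ X, l x = 0 := fun x hx => l0.le ⟨x, hx, rfl⟩
  have li : ∀ g ∈ up ι h2 P, ∀ v, l (g.1 v) = l v := fun g hg v => by
    obtain ⟨x, hx, c, rfl⟩ := dec v
    rw [map_add, map_smul, fix_sU h2', map_add, map_add, lX _ hx, lX _ (hX hg x hx)]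
  letI := ι.toAlgebra
  obtain ⟨τ, hτ⟩ := (Algebra.linearMap F K).exists_leftInverse_of_injective
    (LinearMap.ker_eq_bot.2 ι.injective)
  have τ1 : τ 1 = 1 := by simpa using LinearMap.congr_fun hτ 1
  let l₀ : V F →ₗ[F] F :=
    { toFun := fun v => τ ((l (sU K))⁻¹ * l (ι ∘ v))
      map_add' := fun u v => by
        rw [show ι ∘ (u + v) = ι ∘ u + ι ∘ v from funext fun i => map_add ι _ _, map_add, mul_add, map_add]
      map_smul' := fun c v => by
        rw [show ι ∘ (c • v) = ι c • (ι ∘ v) from funext fun i => map_mul ι _ _, map_smul, smul_eq_mul, mul_left_comm]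
        exact map_smul τ c _ }
  have l₁ : l₀ (sU F) = 1 := by
    change τ (_ * l (ι ∘ sU F)) = 1
    rw [show ι ∘ sU F = sU K from O7.sp_single ι _, inv_mul_cancel₀ l1, τ1]
  have l₂ : ∀ g : O (Q F), sp2 h2 g ∈ P → ∀ v, l₀ (g.1 v) = l₀ v := fun g hg v => by
    change τ (_ * l (ι ∘ g.1 v)) = τ (_ * l (ι ∘ v))
    rw [← O7.bc_apply, li _ (up_mem ι h2 hg)]
  let s : (I6 → F) →ₗ[F] V F := inc - (l₀ ∘ₗ inc).smulRight (sU F)
  have s1 : ∀ v, s v = inc v - l₀ (inc v) • sU F := fun v => rfl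
  have s2 : ∀ v, pr (s v) = v := fun v => by rw [s1, map_sub, map_smul, pr_sU, smul_zero, sub_zero, pr_inc]
  have s3 : ∀ v, l₀ (s v) = 0 := fun v => by rw [s1, map_sub, map_smul, l₁, smul_eq_mul, mul_one, sub_self]
  have s4 : ∀ x, l₀ x = 0 → s (pr x) = x := fun x hx => by
    obtain ⟨c, hc⟩ := Submodule.mem_span_singleton.1
      (pr_eq_zero.1 (show pr (s (pr x) - x) = 0 by rw [map_sub, s2, sub_self]))
    have := congrArg l₀ hc
    rw [map_smul, l₁, map_sub, s3, hx, sub_zero, smul_eq_mul, mul_one] at this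
    rw [this, zero_smul] at hc
    exact sub_eq_zero.1 hc.symm
  have po : polar (fun v => Q F (s v)) = om F := funext₂ fun u v => by
    have := B_eq h2 (s u) (s v)
    rw [s2, s2] at this
    rw [← this, B, polar, polar, map_add]
  refine ⟨fun v => Q F (s v), isQuad_of (fun c v => by rw [map_smul, Q_smul]) (po ▸ alt_om.toSForm), ?_⟩
  rintro _ ⟨g, hg, rfl⟩ v
  obtain ⟨k, rfl⟩ := sp2_surj h2 (sq_two h2) (h.sp hg)
  change Q F (s ((sp2 h2 k).1 *ᵥ v)) = Q F (s v)
  conv_lhs => rw [← s2 v, sp2_pr, s4 _ (by rw [l₂ k hg, s3]), O.map_Q]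

/-- The transvection `eich a (c • sU)` is `x ↦ x + c² om x a • a` on `V₆`; both elements are defined over `F`, so the centre
`u` and the plane `[V, a ∧ y] ∋ u` are; the second is `Ei u z 0` as `om x (g x) = 0`. -/
theorem Core.nb (h : Core P) (h2 : (2 : F) = 0) (n : P ≠ Sp F) {a y : V K} {c : K} (l : DL (up ι h2 P) a y)
    (m : wd a (c • sU K) ∈ up ι h2 P) : c = 0 := by
  by_contra c0
  have h2' := two_up ι h2
  obtain ⟨g₁, m₁, e₁⟩ := l.2
  obtain ⟨g₂, m₂, e₂⟩ := m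
  have k : ∀ (g : O (Q F)) (x : I6 → F), ι ∘ ((sp2 h2 g).1 *ᵥ x) = pr ((O7.bc ι g).1 (inc (ι ∘ x))) := fun g x => by
    rw [← sp2_pr h2', sp2_bc ι h2, pr_inc, mp_val, O7.sp_mulVec]
  have sy : ∀ u v : I6 → K, om K u v = om K v u := fun u v => (alt_om.skew u v).trans (neg_two h2' _)
  have f₁ : ∀ x, ι ∘ ((sp2 h2 g₁).1 *ᵥ x) = ι ∘ x + om K (ι ∘ x) (pr y) • pr a + om K (ι ∘ x) (pr a) • pr y := fun x => by
    rw [k, e₁, l.1.apply h2', B_eq h2', B_eq h2', map_add, map_add, map_smul, map_smul, pr_inc, sy (pr y), sy (pr a)]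
  have f₂ : ∀ x, ι ∘ ((sp2 h2 g₂).1 *ᵥ x) = ι ∘ x + (c ^ 2 * om K (ι ∘ x) (pr a)) • pr a := fun x => by
    rw [k, e₂, wd_apply h2' l.1.qa (by rw [B_eq h2', map_smul, pr_sU, smul_zero, alt_om.zero_right]), B_eq h2', B_eq h2',
      map_add, map_add, map_add, map_smul, map_smul, map_smul, map_smul, pr_inc, pr_sU, Q_smul, Q_sU, sy (pr a)]
    simp [alt_om.zero_left]
  have ya : om K (pr y) (pr a) = 0 := by rw [← B_eq h2', B_comm]; exact l.1.p
  have a0 : pr a ≠ 0 := fun e => l.1.ne (sing_ext h2' l.1.qa (map_zero _) (e.trans (map_zero _).symm))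
  have n1 : sp2 h2 g₁ ≠ 1 := fun e => l.1.ne_one h2' (by rw [← e₁, sp2_inj h2 (e.trans (map_one _).symm), map_one])
  replace m₁ : sp2 h2 g₁ ∈ P := m₁
  replace m₂ : sp2 h2 g₂ ∈ P := m₂
  generalize pr a = a, pr y = y, sp2 h2 g₁ = G₁, sp2 h2 g₂ = G₂ at *
  obtain ⟨e, he⟩ : ∃ e : I6 → F, om K (ι ∘ e) a ≠ 0 := by
    by_contra! q
    refine a0 (alt_om.nondeg a fun x => ?_)
    exact LinearMap.congr_fun (O7.sp_lin_ext ι (f := alt_om.bilin.flip a) (g := 0) q) x
  have inj : ∀ {u v : I6 → F}, ι ∘ u = ι ∘ v → u = v := fun e => funext fun i => ι.injective (congrFun e i)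
  have ad : ∀ u v : I6 → F, ι ∘ (u + v) = ι ∘ u + ι ∘ v := fun u v => funext fun i => map_add ι _ _
  have su : ∀ u v : I6 → F, ι ∘ (u - v) = ι ∘ u - ι ∘ v := fun u v => funext fun i => map_sub ι _ _
  have sm : ∀ (c : F) (v : I6 → F), ι ∘ (c • v) = ι c • (ι ∘ v) := fun c v => funext fun i => map_mul ι _ _
  obtain ⟨u, hu⟩ : ∃ u : I6 → F, ι ∘ u = (c ^ 2 * om K (ι ∘ e) a) • a := ⟨G₂.1 *ᵥ e - e, by rw [su, f₂, add_sub_cancel_left]⟩
  have ou : ∀ x, ι (om F x u) = c ^ 2 * om K (ι ∘ e) a * om K (ι ∘ x) a := fun x => by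
    rw [← om_comp, hu, alt_om.smul_right']
  have d0 : om F e u ≠ 0 := fun q => by
    have := ou e
    rw [q, map_zero] at this
    exact mul_ne_zero (mul_ne_zero (pow_ne_zero 2 c0) he) he this.symm
  obtain ⟨z, hz⟩ : ∃ z : I6 → F, ι ∘ z = (ι (om F e u))⁻¹ • (om K (ι ∘ e) y • a + om K (ι ∘ e) a • y) :=
    ⟨(om F e u)⁻¹ • (G₁.1 *ᵥ e - e), by rw [sm, su, f₁, map_inv₀, add_assoc, add_sub_cancel_left]⟩
  have g₁ : ∀ x, G₁.1 *ᵥ x = x + om F x u • z + (om F x z + 0 * om F x u) • u := fun x => inj (by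
    rw [f₁, ad, ad, sm, sm, zero_mul, add_zero, ← om_comp ι x z, hz, hu, ou, ou, alt_om.smul_right', alt_om.add_right,
      alt_om.smul_right', alt_om.smul_right']
    generalize om K (ι ∘ e) a = α, om K (ι ∘ e) y = β, om K (ι ∘ x) a = γ, om K (ι ∘ x) y = δ at he ⊢
    match_scalars
    · rfl
    · field_simp
      linear_combination (-β * γ) * h2'
    · field_simp)
  refine n (h.tv2 h2 (u := u) (z := z) (c := (om F e u)⁻¹) (inv_ne_zero d0) (fun q => d0 (by rw [q, alt_om.zero_right]))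
    (fun q => n1 (Units.ext (Matrix.ext_of_mulVec_single fun i => ?_))) ⟨alt_om.zero_left _, G₂, m₂, fun x => inj ?_⟩
    ⟨ι.injective ?_, G₁, m₁, g₁⟩)
  · obtain ⟨t, rfl⟩ := Submodule.mem_span_singleton.1 q
    rw [g₁, alt_om.smul_right', zero_mul, add_zero, smul_smul, add_assoc, ← add_smul, mul_comm t, ← two_mul, h2,
      zero_mul, zero_smul, add_zero, Units.val_one, Matrix.one_mulVec]
  · rw [f₂, smul_zero, add_zero, alt_om.zero_right, zero_add, ad, sm, map_mul, map_inv₀, hu, ou, ou, smul_smul]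
    congr 2
    field_simp
  · rw [← om_comp, hz, hu, alt_om.smul_right', alt_om.smul_left, alt_om.add_left, alt_om.smul_left, alt_om.smul_left,
      alt_om.alt, ya, map_zero]
    simp

open Cfsg.Lib.Oct in
/-- The stabiliser of the identity is `G₂` in every characteristic: `D x w = s (x ⋆ w) - s x ⋆ s w` is alternating and
vanishes for traceless `x`. -/
theorem exists_g2_of_fix' {K : Type*} [Field K] {s : Spin K} (h : (act s).1 (one K) = one K) :
    ∃ g : Lie.G2 K, ∀ w, (act s).1 w = g • w := by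
  refine ⟨ofEquiv (act s).1 fun x w => ?_, fun w => (ofEquiv_smul _ _ _).symm⟩
  have k : ∀ x w, Oct.tr x = 0 → (act s).1 (x ⋆ w) = (act s).1 x ⋆ (act s).1 w := fun x w t => by
    have k : (act s).1 x = O7.jv ((phi s).1 (O7.pv x)) := by
      simpa only [O7.gam_apply, omul_one, h, O7.jv_pv t] using O7.act_gam s (O7.pv x) (one K)
    simpa only [O7.gam_apply, O7.jv_pv t, ← k] using O7.act_gam s (O7.pv x) w
  have q : ∀ x, (act s).1 (x ⋆ x) = (act s).1 x ⋆ (act s).1 x := fun x => by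
    rw [omul_self, omul_self, map_sub, map_smul, map_smul, h, ← O7.N_apply, ← O7.N_apply, O.map_Q, ← bl_one, ← bl_one,
      ← O7.rd_bl s x, h]
  have k' : ∀ x w, Oct.tr w = 0 → (act s).1 (x ⋆ w) = (act s).1 x ⋆ (act s).1 w := fun x w t => by
    have := q (x + w)
    simp only [add_omul, omul_add, map_add, q, k w x t] at this
    simpa using this
  have d : ∀ x : W K, ∃ (c : K) (y : W K), Oct.tr y = 0 ∧ x = c • e0 K + y := fun x =>
    ⟨Oct.tr x, x - Oct.tr x • e0 K, by simp, by simp⟩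
  obtain ⟨c, x, t, rfl⟩ := d x
  obtain ⟨c', w, t', rfl⟩ := d w
  simp only [add_omul, omul_add, smul_omul, omul_smul, map_add, map_smul, q, k x _ t, k' _ w t']

open Cfsg.Lib.Oct in
/-- `Spin` is transitive on the non-singular points. -/
theorem exists_one {K : Type*} [Field K] (h2 : (2 : K) = 0) (hK : ∀ x : K, IsSquare x) {w : W K} (h0 : nm w ≠ 0) :
    ∃ (s : Spin K) (c : K), c ≠ 0 ∧ (act s).1 (one K) = c • w := by
  obtain ⟨b, m, n⟩ : ∃ b ∈ LinearMap.ker (bl w ∘ₗ O7.jv), Q K b ≠ 0 := by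
    by_contra! c
    have a := finrank_ts h2 c
    have b := (bl w ∘ₗ O7.jv).finrank_range_add_finrank_ker
    have c := (LinearMap.range (bl w ∘ₗ O7.jv)).finrank_le
    rw [O7.finrank_V] at b
    rw [finrank_self] at c
    omega
  have n' : nm (O7.jv b) ≠ 0 := by rwa [O7.nm_jv, neg_ne_zero]
  have e : w = gam (O7.pv ((nm (O7.jv b))⁻¹ • w ⋆ Oct.cj (O7.jv b))) (gam b (one K)) := by
    rw [O7.gam_apply, O7.gam_apply, omul_one, O7.jv_pv (by
      rw [smul_omul, map_smul, tr_omul_cj, show bl w (O7.jv b) = 0 from m, smul_zero]), O7.rd_cancel,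
      smul_comm, inv_smul_smul₀ n']
  generalize O7.pv (K := K) _ = a at e
  have a0 : Q K a ≠ 0 := fun z => h0 (by rw [e, ← O7.N_apply, O7.N_gam, z, neg_zero, zero_mul])
  obtain ⟨c, hc⟩ := hK (Q K a * Q K b)
  obtain ⟨s, -, hs⟩ := O7.exists_refl_refl (c := c) a0 n ((pow_two c).trans hc.symm)
  exact ⟨s, c⁻¹, inv_ne_zero fun z => mul_ne_zero a0 n (by rw [hc, z, zero_mul]), by rw [hs, ← e]⟩

/-- Model: `O7.Core.g2`.  The fixed vector descends (`exists_sig` over `F`, `exists_bcS`, `exists_fix_bcW`), is nonsingular and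
unique up to scalars (`Ev0.nm_ne`: a plane over `K` contains a singular vector); `H` fixes the line, so the vector; `Spin F` is
transitive on vectors of norm one; `H = G₂(F)^k` by maximality.  `q > 2`: `G₂(q)` is simple (S1055); `q = 2`: `P = H'` (S1057). -/
theorem Core.g2 (h : Core P) (m : Mx H P) (h2 : (2 : F) = 0) {w : W K} (w0 : w ≠ 0)
    (hw : ∀ s : Spin K, phi s ∈ up ι h2 P → (act s).1 w = w) :
    (Fintype.card F = 2 ∧ ∃ (E : Type) (_ : Field E) (_ : Fintype E), Fintype.card E = 9 ∧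
      Nonempty (Q4R.Sq P ≃* PSU 3 E 3)) ∨ (Fintype.card F ≠ 2 ∧ Nonempty (Q4R.Sq P ≃* Lie.G2 F)) := by
  have h2' := two_up ι h2
  have ev := h.ev0 ι h2
  obtain ⟨f, hf⟩ := O7.exists_bcS ι
  let π : Spin F →* G6 F := (sp2 h2).comp phi
  have πi : Function.Injective π := (sp2_inj h2).comp (phi_inj h2)
  have πs : ∀ g ∈ Sp F, ∃ s, π s = g := fun g hg => by
    obtain ⟨k, rfl⟩ := sp2_surj h2 (sq_two h2) hg
    obtain ⟨s, rfl⟩ := phi_surj h2 (sq_two h2) k
    exact ⟨s, rfl⟩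
  obtain ⟨w, w0, hw⟩ := O7.exists_fix_bcW ι (M := (P.comap π).map act) w0 (by
    rintro _ ⟨s, i, rfl⟩
    exact (hf s).2 ▸ hw _ ((hf s).1 ▸ up_mem ι h2 i))
  replace hw : ∀ s, π s ∈ P → (act s).1 w = w := fun s i => hw _ ⟨s, i, rfl⟩
  have fx : ∀ {w : W F}, (∀ s, π s ∈ P → (act s).1 w = w) → ∀ g ∈ up ι h2 P, (aw h2' g).1 (ι ∘ w) = ι ∘ w := by
    rintro w hw _ ⟨g, i, rfl⟩
    obtain ⟨s, rfl⟩ := phi_surj h2 (sq_two h2) g
    rw [← (hf s).1, aw_phi, (hf s).2, O7.bcW_apply, hw s i]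
  have nK : N K (ι ∘ w) ≠ 0 := ev.nm_ne (fun e => w0 (funext fun i => (map_eq_zero ι).1 (congrFun e i)))
    fun g i => by rw [fx hw g i]; exact Submodule.mem_span_singleton_self _
  have n : Oct.nm w ≠ 0 := fun z => nK (by rw [O7.N_apply, Oct.nm_comp, z, map_zero])
  have un : ∀ {w' : W F}, (∀ s, π s ∈ P → (act s).1 w' = w') → w' ∈ F ∙ w := fun {w'} hw' => by
    obtain ⟨t, ht⟩ := IsAlgClosed.exists_root (Polynomial.C (N K (ι ∘ w)) * Polynomial.X ^ 2 +
      Polynomial.C (polar (N K) (ι ∘ w) (ι ∘ w')) * Polynomial.X + Polynomial.C (N K (ι ∘ w')))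
      (by rw [Polynomial.degree_quadratic nK]; decide)
    have e : t • (ι ∘ w) + ι ∘ w' = 0 := by
      by_contra z
      refine ev.nm_ne z (fun g i => ?_) ?_
      · rw [map_add, map_smul, fx hw g i, fx hw' g i]; exact Submodule.mem_span_singleton_self _
      · rw [Q_add, Q_smul, polar_smul_left']
        simp only [Polynomial.IsRoot, Polynomial.eval_add, Polynomial.eval_mul, Polynomial.eval_C, Polynomial.eval_pow,
          Polynomial.eval_X] at ht
        linear_combination ht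
    obtain ⟨i, hi⟩ := Function.ne_iff.1 w0
    refine Submodule.mem_span_singleton.2 ⟨w' i / w i, funext fun j => ι.injective ?_⟩
    have a : t * ι (w i) + ι (w' i) = 0 := congrFun e i
    have b : t * ι (w j) + ι (w' j) = 0 := congrFun e j
    have c : ι (w i) ≠ 0 := (map_ne_zero ι).2 hi
    rw [Pi.smul_apply, smul_eq_mul, map_mul, map_div₀, div_mul_eq_mul_div, div_eq_iff c]
    linear_combination ι (w j) * a - ι (w i) * b
  have l₁ : ∀ s, π s ∈ H → (act s).1 w = w := fun s i => by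
    obtain ⟨c, e⟩ := Submodule.mem_span_singleton.1 (un (w' := (act s).1 w) fun u j => by
      have := hw (s⁻¹ * u * s⁻¹⁻¹) (by rw [map_mul, map_mul, map_inv, map_inv]; exact m.norm _ (inv_mem i) _ j)
      rwa [inv_inv, map_mul, map_mul, map_inv, O.mul_apply, O.mul_apply, O.inv_apply_eq] at this)
    have := O.map_Q (act s) w
    rw [← e, Q_smul, O7.N_apply, mul_eq_right₀ n, pow_two, mul_self_eq_one_iff] at this
    rcases this with rfl | rfl
    · exact e.symm.trans (one_smul ..)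
    · rw [← e, neg_one_smul, neg_two h2]
  obtain ⟨s₀, c, c0, hs₀⟩ := exists_one h2 (sq_two h2) n
  obtain ⟨g2, g1, -⟩ := O7.exists_g2 (K := F)
  let ψ : Lie.G2 F →* G6 F := π.comp ((MulAut.conj s₀).toMonoidHom.comp g2)
  have inj : Function.Injective ψ := πi.comp ((MulAut.conj s₀).injective.comp fun a b e =>
    Oct.G2_ext fun x => by rw [← g1, ← g1, e])
  have l₂ : H ≤ ψ.range := fun g i => by
    obtain ⟨s, rfl⟩ := πs g (m.max.1.le i)
    obtain ⟨g, e⟩ := exists_g2_of_fix' (s := s₀⁻¹ * s * s₀) (by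
      rw [map_mul, map_mul, map_inv, O.mul_apply, O.mul_apply, hs₀, map_smul, l₁ s i, ← hs₀, O.inv_apply_apply])
    refine ⟨g, congrArg π ?_⟩
    change s₀ * g2 g * s₀⁻¹ = s
    rw [← show s₀⁻¹ * s * s₀ = g2 g from O7.act_injective (O.ext fun w => (e w).trans (g1 g w).symm)]
    group
  have l₃ : ψ.range ≤ Sp F := by rintro _ ⟨g, rfl⟩; exact sp2_mem h2 _
  have l₄ : ψ.range = H := (m.max.2 _ l₂ l₃).resolve_right fun l => by
    have q₂ : Q F (O7.sX F 0 + O7.sY F 0) = 1 := by simp [qOdd_apply, Fin.sum_univ_three]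
    obtain ⟨s, -, j⟩ := O7.exists_refl_refl (c := 1) (q₂ ▸ one_ne_zero) ((Q_sU (K := F)) ▸ one_ne_zero)
      (by rw [Q_sU, q₂, one_pow, one_mul])
    obtain ⟨g, e⟩ := l.ge (sp2_mem h2 (phi (s₀ * s * s₀⁻¹)))
    have k := g1 g (Oct.one F)
    rw [Oct.smul_one', show g2 g = s from (MulAut.conj s₀).injective (πi e), j] at k
    simpa [O7.gam_apply, Oct.mul_eq, O7.jv_apply, Oct.mk, Oct.one] using congrFun k 0
  obtain ⟨ε⟩ := Oct.nonempty_chev_equiv (F := F)
  obtain ⟨e₀⟩ := sq_equiv h2 h.sp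
  have l₅ : P ≤ ψ.range := l₄ ▸ m.le
  have nm : (P.comap ψ).Normal := ⟨fun x i g => by simpa using m.norm _ (l₄.le ⟨g, rfl⟩) _ i⟩
  have mP : (P.comap ψ).map ψ = P := Subgroup.map_comap_eq_self l₅
  have e₁ : Q4R.Sq P ≃* P.comap ψ := e₀.trans
    ((MulEquiv.subgroupCongr mP.symm).trans ((P.comap ψ).equivMapOfInjective _ inj).symm)
  have nt : P.comap ψ ≠ ⊥ := fun e => h.nonabelian ⟨⟨fun a b => e₁.injective (by
    have : Subsingleton (P.comap ψ) := e ▸ inferInstance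
    exact Subsingleton.elim _ _)⟩⟩
  by_cases q : Fintype.card F = 2
  · haveI := Fact.mk Nat.prime_three
    letI := Fintype.ofFinite (GaloisField 3 2)
    have c9 : Fintype.card (GaloisField 3 2) = 9 := by
      rw [← Nat.card_eq_fintype_card, GaloisField.card 3 2 two_ne_zero]; rfl
    obtain ⟨e₂⟩ := Agent.S1057.result q c9
    have := Unitary.isSimpleGroup_PSU (q := 3) (n := 3) c9 le_rfl (by decide)
    have e₃ : commutator (Lie.G2 F) ≃* PSU 3 (GaloisField 3 2) 3 :=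
      ((MulEquiv.subgroupCongr (by
        rw [commutator_def, commutator_def, Subgroup.map_commutator, Subgroup.map_top_of_surjective _ ε.surjective])).trans
          ((commutator _).equivMapOfInjective ε.toMonoidHom ε.injective).symm).trans e₂
    have := e₃.isSimpleGroup
    have le : P.comap ψ ≤ commutator (Lie.G2 F) := by
      have : ⁅P.comap ψ, P.comap ψ⁆ = P.comap ψ :=
        Subgroup.map_injective inj (by rw [Subgroup.map_commutator, mP, h.perfect])
      exact this ▸ Subgroup.commutator_mono le_top le_top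
    have e : P.comap ψ = commutator (Lie.G2 F) := le_antisymm le (Subgroup.subgroupOf_eq_top.1
      ((nm.subgroupOf _).eq_bot_or_eq_top.resolve_left fun e =>
        nt (le_bot_iff.1 ((le_inf le_rfl le).trans (Subgroup.subgroupOf_eq_bot.1 e).le_bot))))
    exact .inl ⟨q, _, _, _, c9, ⟨e₁.trans ((MulEquiv.subgroupCongr e).trans e₃)⟩⟩
  · obtain ⟨s₁, -⟩ := Agent.S1055.result (F := F) (by
      classical
      obtain ⟨a, ha⟩ := Finset.exists_mem_notMem_of_card_lt_card (s := ({0, 1} : Finset F)) (t := Finset.univ) (by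
        have := Fintype.one_lt_card (α := F)
        rw [Finset.card_pair zero_ne_one, Finset.card_univ]; omega)
      exact ⟨a, by simpa using ha.2⟩)
    have := ε.symm.isSimpleGroup
    exact .inr ⟨q, ⟨e₁.trans ((MulEquiv.subgroupCongr (nm.eq_bot_or_eq_top.resolve_left nt)).trans Subgroup.topEquiv)⟩⟩

end Cfsg.Lib.S6Q
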