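import Cfsg.Agent.Lib.S6Q.Tor
import Cfsg.Agent.Lib.O7.T1
import Cfsg.Agent.Lib.O7.SL
import Cfsg.Agent.Lib.PSL2.SmallIso

/-!
# Abelian subgroups of odd order prime to the characteristic

Port of `O7/T1` (the Weyl group is the same; `perm_pow`, `perm_q8`, `t1x_*` of `O7/T1` can be cited), then
lifted to the abstract group `X` with `Cw.lift`, `Cw.conj`, `Cw.commute` (the lift of `A` is
`{g ∈ Y | π g ∈ A, g ^ |A| = 1}`).
-/

set_option autoImplicit false

namespace Cfsg.Lib.S6Q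

open scoped MatrixGroups Matrix commutatorElement
open Cfsg.Geo Cfsg.Lib.Asch Cfsg.Lib.Linear Cfsg.Lib.Q4 Cfsg.Lib.Symp Module
open Cfsg.Lib.Q4R (Sq HasTv sc dg)

variable {K : Type*} [Field K] [IsAlgClosed K] {X : Type*} [Group X] {Y : Subgroup (G6 K)} {π : Y →* X}

/-- The lift of an abelian subgroup of odd order. -/
theorem Cw.exists_lift (h : Cw Y π) {A : Subgroup X} (hc : ∀ a ∈ A, ∀ b ∈ A, a * b = b * a)
    (ho : Odd (Nat.card A)) : ∃ σ : A →* Y, (∀ a, π (σ a) = a) ∧ ∀ a, (σ a).1 ^ Nat.card A = 1 := by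
  have p : ∀ a : A, a.1 ^ Nat.card A = 1 := fun a => congrArg Subtype.val (pow_card_eq_one' (x := a))
  choose g h1 h2 using fun a : A => h.lift ho (p a)
  refine ⟨MonoidHom.mk' g fun a b => h.lift_unique ho (by rw [map_mul, h1, h1, h1]; rfl) (h2 _) ?_, h1, h2⟩
  have c : Commute (g a).1 (g b).1 := h.commute ho (h2 b) (by rw [h1, h1]; exact hc _ a.2 _ b.2)
  rw [Subgroup.coe_mul, c.mul_pow, h2, h2, one_mul]

/-- The six weights of `tor μ`. -/
abbrev t1w (μ : Fin 3 → Kˣ) : I6 → Kˣ := Sum.elim μ fun i => (μ i)⁻¹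

omit [IsAlgClosed K] in
/-- `x` permutes the weights. -/
theorem t1_perm (k x : G6 K) : ∃ s : Equiv.Perm I6, ∀ {a b : G6 K} {μ ν : Fin 3 → Kˣ}, k * a * k⁻¹ = tor μ →
    k * b * k⁻¹ = tor ν → x * a * x⁻¹ = b → ∀ j, t1w ν (s j) = t1w μ j := by
  obtain ⟨s, hs⟩ := exists_diag (k * x * k⁻¹)
  refine ⟨s, fun ha hb e j => dg_entry (n := k * x * k⁻¹) ?_ (hs j)⟩
  rw [← tor_eq, ← tor_eq, ← ha, ← hb, ← e]
  group

theorem Cw.t1_wt (h : Cw Y π) {A : Subgroup X} (hc : ∀ a ∈ A, ∀ b ∈ A, a * b = b * a)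
    (ho : Odd (Nat.card A)) (hp : (Nat.card A : K) ≠ 0) : ∃ μ : A →* Fin 3 → Kˣ, Function.Injective μ ∧
      ∀ x : X, ∃ s : Equiv.Perm I6, ∀ a b : A, x * a * x⁻¹ = b → ∀ j, t1w (μ b) (s j) = t1w (μ a) j := by
  obtain ⟨σ, h1, h2⟩ := h.exists_lift hc ho
  haveI : Finite A := Nat.finite_of_card_ne_zero ho.pos.ne'
  let τ := Y.subtype.comp σ
  haveI : Finite τ.range := Set.finite_range τ
  obtain ⟨k, -, μ, hk⟩ := exists_wt (A := τ.range) (by rintro _ ⟨a, rfl⟩; exact h.sp (σ a).2) (by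
    rintro _ ⟨a, rfl⟩ _ ⟨b, rfl⟩
    rw [← map_mul, ← map_mul]
    exact congrArg τ (Subtype.ext (hc _ a.2 _ b.2))) fun e => by
      obtain ⟨c, hc⟩ := Subgroup.card_range_dvd τ
      exact hp (by rw [hc, Nat.cast_mul, e, zero_mul])
  have hk' : ∀ a : A, k * (σ a).1 * k⁻¹ = tor (μ.comp τ.rangeRestrict a) := fun a => hk (τ.rangeRestrict a)
  refine ⟨μ.comp τ.rangeRestrict, fun a b e => Subtype.ext ?_, fun x => ?_⟩
  · have := (hk' a).trans ((congrArg tor e).trans (hk' b).symm)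
    rw [← h1, ← h1, Subtype.ext (mul_left_cancel (mul_right_cancel this))]
  · obtain ⟨y, rfl⟩ := h.surj x
    obtain ⟨s, hs⟩ := t1_perm k y.1
    exact ⟨s, fun a b e => hs (hk' a) (hk' b) (h.conj ho (h2 a) (h2 b) (by rw [h1, h1, e]))⟩

/-- The nontrivial weights: at most six, closed under inversion. -/
theorem Cw.exists_perm (h : Cw Y π) {A : Subgroup X} (hc : ∀ a ∈ A, ∀ b ∈ A, a * b = b * a)
    (ho : Odd (Nat.card A)) (hp : (Nat.card A : K) ≠ 0) : ∃ (Ω : Type) (_ : Finite Ω) (ι : Equiv.Perm Ω)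
    (σ : Subgroup.normalizer (A : Set X) →* Equiv.Perm Ω), Nat.card Ω ≤ 6 ∧ ι * ι = 1 ∧ (∀ x, ι x ≠ x) ∧
      (∀ x, Commute (σ x) ι) ∧ ∀ x, σ x = 1 ↔ ∀ a ∈ A, Commute x.1 a := by
  classical
  obtain ⟨μ, hμ, hs⟩ := h.t1_wt hc ho hp
  let w : I6 → A →* Kˣ := Sum.elim (fun i => (Pi.evalMonoidHom _ i).comp μ) fun i => ((Pi.evalMonoidHom _ i).comp μ)⁻¹
  have hw : ∀ i a, w i a = t1w (μ a) i := by rintro (_ | _) a <;> rfl
  let Ω := {χ // χ ≠ 1 ∧ ∃ i, w i = χ}
  choose f hf using fun χ : Ω => χ.2.2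
  have fi : Function.Injective f := fun χ χ' e => Subtype.ext (by rw [← hf, e, hf])
  haveI : Finite Ω := Finite.of_injective f fi
  have iv : ∀ χ : Ω, χ.1⁻¹ ≠ 1 ∧ ∃ i, w i = χ.1⁻¹ := fun χ => ⟨fun e => χ.2.1 (MonoidHom.ext fun a =>
      inv_eq_one.1 (DFunLike.congr_fun e a)), by
    rw [← hf]
    rcases f χ with j | j
    · exact ⟨.inr j, rfl⟩
    · exact ⟨.inl j, MonoidHom.ext fun _ => (inv_inv _).symm⟩⟩
  let ι : Equiv.Perm Ω := ⟨fun χ => ⟨_, iv χ⟩, fun χ => ⟨_, iv χ⟩, fun χ => Subtype.ext (MonoidHom.ext fun _ => inv_inv _),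
    fun χ => Subtype.ext (MonoidHom.ext fun _ => inv_inv _)⟩
  letI : MulAction (Subgroup.normalizer (A : Set X)) Ω :=
    { smul := fun x χ => ⟨χ.1.comp (MulDistribMulAction.toMonoidHom A x⁻¹),
        fun e => χ.2.1 (MonoidHom.ext fun a => by
          have := DFunLike.congr_fun e (x • a)
          rwa [MonoidHom.comp_apply, MulDistribMulAction.toMonoidHom_apply, inv_smul_smul] at this), by
        obtain ⟨s, e⟩ := hs x.1
        refine ⟨s (f χ), MonoidHom.ext fun a => ?_⟩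
        rw [MonoidHom.comp_apply, hw, e (x⁻¹ • a) a (by change x.1 * (x.1⁻¹ * a.1 * x.1⁻¹⁻¹) * x.1⁻¹ = _; group), ← hw, hf]
        rfl⟩
      one_smul := fun χ => Subtype.ext (MonoidHom.ext fun a => congrArg χ.1 (by
        change (1 : Subgroup.normalizer (A : Set X))⁻¹ • a = a
        rw [inv_one, one_smul]))
      mul_smul := fun x y χ => Subtype.ext (MonoidHom.ext fun a => congrArg χ.1 (by
        change (x * y)⁻¹ • a = y⁻¹ • x⁻¹ • a
        rw [_root_.mul_inv_rev, mul_smul])) }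
  let σ := MulAction.toPermHom (Subgroup.normalizer (A : Set X)) Ω
  let E := (Finite.equivFin Ω).permCongrHom
  refine ⟨Fin (Nat.card Ω), inferInstance, E ι, E.toMonoidHom.comp σ, ?_, ?_, fun y e => ?_, fun x => ?_, fun x => ?_⟩
  · simpa using Nat.card_le_card_of_injective f fi
  · rw [← map_mul, ← map_one E]
    exact congrArg E (Equiv.ext fun χ => Subtype.ext (MonoidHom.ext fun _ => inv_inv _))
  · obtain ⟨χ, rfl⟩ := (Finite.equivFin Ω).surjective y
    have e1 : χ.1⁻¹ = χ.1 := congrArg Subtype.val (by simpa [E] using e : ι χ = χ)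
    refine χ.2.1 (MonoidHom.ext fun a => ?_)
    obtain ⟨n, hn⟩ := ho
    have e2 : χ.1 a * χ.1 a = 1 := mul_eq_one_iff_inv_eq.2 (DFunLike.congr_fun e1 a)
    have e3 := (map_pow χ.1 a _).symm.trans ((congrArg χ.1 pow_card_eq_one').trans (map_one χ.1))
    rwa [hn, pow_succ, pow_mul, pow_two, e2, one_pow, one_mul] at e3
  · exact Commute.map (Equiv.ext fun χ => rfl : Commute (σ x) ι) E
  · change E (σ x) = 1 ↔ _
    rw [map_eq_one_iff E E.injective]
    constructor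
    · intro e a ha
      have e1 : ∀ i, w i (x⁻¹ • ⟨a, ha⟩) = w i ⟨a, ha⟩ := fun i => by
        by_cases z : w i = 1
        · rw [z]; rfl
        · exact DFunLike.congr_fun (congrArg Subtype.val (Equiv.congr_fun e ⟨w i, z, i, rfl⟩)) ⟨a, ha⟩
      have e4 : x.1⁻¹ * a * x.1⁻¹⁻¹ = a := congrArg Subtype.val (hμ (funext fun i => e1 (.inl i)))
      rw [mul_inv_eq_iff_eq_mul] at e4
      exact Commute.inv_left_iff.1 e4
    · intro e
      refine Equiv.ext fun χ => Subtype.ext (MonoidHom.ext fun a => congrArg χ.1 (Subtype.ext ?_))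
      change x.1⁻¹ * a.1 * x.1⁻¹⁻¹ = a.1
      rw [(e _ a.2).inv_left.eq, mul_inv_cancel_right]

theorem Cw.pow (h : Cw Y π) {A : Subgroup X} (hc : ∀ a ∈ A, ∀ b ∈ A, a * b = b * a)
    (ho : Odd (Nat.card A)) (hp : (Nat.card A : K) ≠ 0) {x : X} (hx : ∀ a ∈ A, x * a * x⁻¹ ∈ A) :
    (∀ a ∈ A, Commute (x ^ 4) a) ∨ ∀ a ∈ A, Commute (x ^ 6) a := by
  haveI : Finite A := Nat.finite_of_card_ne_zero ho.pos.ne'
  obtain ⟨Ω, _, ι, σ, l, i1, i2, c, k⟩ := h.exists_perm hc ho hp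
  let x' : Subgroup.normalizer (A : Set X) := ⟨x, Subgroup.mem_normalizer_fintype hx⟩
  have k' : ∀ n, σ x' ^ n = 1 → ∀ a ∈ A, Commute (x ^ n) a := fun n e => by
    have := (k (x' ^ n)).1 ((map_pow σ _ _).trans e)
    rwa [Subgroup.coe_pow] at this
  exact (O7.perm_pow l i1 i2 (c x')).imp (k' _) (k' _)

theorem Cw.t1_q8 (h : Cw Y π) {A : Subgroup X} (hc : ∀ a ∈ A, ∀ b ∈ A, a * b = b * a)
    (ho : Odd (Nat.card A)) (hp : (Nat.card A : K) ≠ 0) {x y : X} (hx : ∀ a ∈ A, x * a * x⁻¹ ∈ A)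
    (hy : ∀ a ∈ A, y * a * y⁻¹ ∈ A) (e : ∀ a ∈ A, Commute (x * x * (y * y)⁻¹) a)
    (e' : ∀ a ∈ A, Commute (y * x * y⁻¹ * x) a) : ∀ a ∈ A, Commute (x * x) a := by
  haveI : Finite A := Nat.finite_of_card_ne_zero ho.pos.ne'
  obtain ⟨Ω, _, ι, σ, l, i1, i2, c, k⟩ := h.exists_perm hc ho hp
  let x' : Subgroup.normalizer (A : Set X) := ⟨x, Subgroup.mem_normalizer_fintype hx⟩
  let y' : Subgroup.normalizer (A : Set X) := ⟨y, Subgroup.mem_normalizer_fintype hy⟩
  have f := (k (x' * x' * (y' * y')⁻¹)).2 e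
  have f' := (k (y' * x' * y'⁻¹ * x')).2 e'
  simp only [map_mul, map_inv] at f f'
  exact (k (x' * x')).1 ((map_mul σ _ _).trans (O7.perm_q8 l i1 i2 (c x') (c y') (mul_inv_eq_one.1 f) f'))

theorem Cw.rank (h : Cw Y π) {A : Subgroup X} (hc : ∀ a ∈ A, ∀ b ∈ A, a * b = b * a)
    (ho : Odd (Nat.card A)) (hp : (Nat.card A : K) ≠ 0) {r : ℕ} (hr : 0 < r) (e : ∀ a ∈ A, a ^ r = 1) :
    Nat.card A ≤ r ^ 3 := by
  obtain ⟨μ, hμ, -⟩ := h.t1_wt hc ho hp
  haveI := NeZero.of_pos hr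
  let f (a : A) (i : Fin 3) : rootsOfUnity r K := ⟨μ a i, by
    rw [mem_rootsOfUnity, ← Pi.pow_apply, ← map_pow, show a ^ r = 1 from Subtype.ext (e _ a.2), map_one]; rfl⟩
  have i : Function.Injective f := fun a b e => hμ (funext fun i => congrArg Subtype.val (congrFun e i))
  refine (Nat.card_le_card_of_injective f i).trans ?_
  rw [Nat.card_fun, Nat.card_eq_fintype_card (α := Fin 3), Fintype.card_fin]
  exact Nat.pow_le_pow_left (card_rootsOfUnity _ _) 3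

theorem Cw.cyc (h : Cw Y π) {c x : X} {n k : ℕ} (hc : orderOf c = n) (ho : Odd n) (hn : (n : K) ≠ 0)
    (e : x * c * x⁻¹ = c ^ k) : k ^ 4 ≡ 1 [MOD n] ∨ k ^ 6 ≡ 1 [MOD n] := by
  subst hc
  have k' : ∀ m, Commute (x ^ m) c → k ^ m ≡ 1 [MOD orderOf c] := fun m h => pow_eq_pow_iff_modEq.1 (by
    rw [← O7.t1x_conj_pow e, h.eq, mul_inv_cancel_right, pow_one])
  refine (h.pow (A := Subgroup.zpowers c) ?_ (by rwa [Nat.card_zpowers]) (by rwa [Nat.card_zpowers]) (x := x) ?_).imp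
    (fun h => k' _ (h c (Subgroup.mem_zpowers c))) fun h => k' _ (h c (Subgroup.mem_zpowers c))
  · rintro _ ⟨i, rfl⟩ _ ⟨j, rfl⟩
    exact (Commute.zpow_zpow_self c i j).eq
  · rintro _ ⟨i, rfl⟩
    rw [← conj_zpow, e]
    exact zpow_mem (pow_mem (Subgroup.mem_zpowers c) k) i

theorem Cw.heis (h : Cw Y π) {r : ℕ} (hr : r.Prime) (h5 : 5 ≤ r) (hp : (r : K) ≠ 0) {x y z : X}
    (hx : x ^ r = 1) (hy : y ^ r = 1) (e : x * y * x⁻¹ = y * z) (cx : Commute x z) (cy : Commute y z) :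
    z = 1 := by
  have hz : z ^ r = 1 := by
    have := congrArg (· ^ r) e
    simp only [conj_pow, cy.mul_pow, hy] at this
    simpa using this.symm
  obtain ⟨A, _, c, ⟨n, hn⟩, ya, za, nm, -⟩ := O7.t1x_pair hr hy hz cy
  have h := h.pow c (hn ▸ (hr.odd_of_ne_two (by omega)).pow) (by rw [hn, Nat.cast_pow]; exact pow_ne_zero _ hp)
    (nm x (e ▸ mul_mem ya za) (by rwa [cx.eq, mul_inv_cancel_right]))
  rwa [(O7.t1x_cop hr h5 (k := 1) (by rwa [pow_one]) (h.imp (fun h => h _ ya) fun h => h _ ya)).eq, mul_inv_cancel_right,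
    left_eq_mul] at e

theorem Cw.eleven (h : Cw Y π) {c x : X} (hc : c ^ 11 = 1) (h1 : c ≠ 1) {k : ℕ}
    (hk : k = 3 ∨ k = 4 ∨ k = 5 ∨ k = 9) (e : x * c * x⁻¹ = c ^ k) : (11 : K) = 0 := by
  by_contra h'
  haveI : Fact (Nat.Prime 11) := ⟨by norm_num⟩
  have := h.cyc (orderOf_eq_prime hc h1) (by decide) (by exact_mod_cast h') e
  rcases hk with rfl | rfl | rfl | rfl <;> exact absurd this (by decide)

/-- `3² : Q₈`. -/
theorem Cw.nine (h : Cw Y π) {a b x y : X} (ha : a ^ 3 = 1) (h1 : a ≠ 1) (c : Commute a b)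
    (xa : x * a * x⁻¹ = b) (xb : x * b * x⁻¹ = a⁻¹) (ya : y * a * y⁻¹ = a * b)
    (yb : y * b * y⁻¹ = a * b⁻¹) : (3 : K) = 0 := by
  by_contra h'
  have hb : b ^ 3 = 1 := by rw [← xa, conj_pow, ha]; simp
  obtain ⟨A, _, cm, ⟨n, hn⟩, aa, ba, nm, ce⟩ := O7.t1x_pair Nat.prime_three ha hb c
  have a1 : a⁻¹ = a * a := inv_eq_of_mul_eq_one_right (by rw [← pow_three, ha])
  have b1 : b⁻¹ = b * b := inv_eq_of_mul_eq_one_right (by rw [← pow_three, hb])
  have a3 : ∀ t, a * (a * (a * t)) = t := fun t => by rw [← mul_assoc a a, ← a1, inv_mul_cancel_left]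
  have b3 : ∀ t, b * (b * (b * t)) = t := fun t => by rw [← mul_assoc b b, ← b1, inv_mul_cancel_left]
  have a4 : a * (a * a) = 1 := by rw [← a1, mul_inv_cancel]
  have b4 : b * (b * b) = 1 := by rw [← b1, mul_inv_cancel]
  have cj : ∀ g u : X, MulAut.conj g u = u → Commute g u := fun g u e => mul_inv_eq_iff_eq_mul.1 e
  have xa' : MulAut.conj x a = b := xa
  have xb' : MulAut.conj x b = a * a := xb.trans a1
  have ya' : MulAut.conj y a = a * b := ya
  have yb' : MulAut.conj y b = a * (b * b) := yb.trans (by rw [b1])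
  have ia : (MulAut.conj y)⁻¹ a = a * (a * (b * b)) := by
    rw [MulAut.inv_apply, MulEquiv.symm_apply_eq]
    simp only [map_mul, ya', yb', mul_assoc, c.symm.eq, c.symm.left_comm, a3, b3, a4, b4, mul_one]
  have ib : (MulAut.conj y)⁻¹ b = a * (a * b) := by
    rw [MulAut.inv_apply, MulEquiv.symm_apply_eq]
    simp only [map_mul, ya', yb', mul_assoc, c.symm.eq, c.symm.left_comm, a3, b3, a4, b4, mul_one]
  have k := h.t1_q8 cm (hn ▸ Odd.pow (by decide)) (by rw [hn, Nat.cast_pow]; exact pow_ne_zero _ (by exact_mod_cast h'))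
    (nm x (xa ▸ ba) (xb ▸ inv_mem aa)) (nm y (ya ▸ mul_mem aa ba) (yb ▸ mul_mem aa (inv_mem ba)))
    (ce _ (cj _ _ ?_) (cj _ _ ?_)) (ce _ (cj _ _ ?_) (cj _ _ ?_)) a aa
  · have : MulAut.conj (x * x) a = a := by rw [MulAut.conj_apply, k.eq, mul_inv_cancel_right]
    rw [map_mul, MulAut.mul_apply, xa', xb'] at this
    exact h1 (mul_eq_left.1 this)
  all_goals
    simp only [map_mul, map_inv, _root_.mul_inv_rev, MulAut.mul_apply, xa', xb', ya', yb', ia, ib, mul_assoc, c.symm.eq,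
      c.symm.left_comm, a3, b3, a4, b4, mul_one]

omit [IsAlgClosed K] in
/-- Logarithms of `r`-th roots of unity. -/
theorem t1_log {r : ℕ} (hr : r.Prime) {ζ : Kˣ} (h : ζ ^ r = 1) (h1 : ζ ≠ 1) : ∃ E : AddChar (ZMod r) Kˣ,
    (∀ n : ℕ, E n = ζ ^ n) ∧ Function.Injective E ∧ ∀ ξ : Kˣ, ξ ^ r = 1 → ∃ u, E u = ξ := by
  haveI := Fact.mk hr
  have p : IsPrimitiveRoot ζ r := orderOf_eq_prime h h1 ▸ IsPrimitiveRoot.orderOf ζ
  refine ⟨AddChar.zmodChar r h, AddChar.zmodChar_apply' h, fun u v e =>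
    ZMod.val_injective r (p.pow_inj (ZMod.val_lt u) (ZMod.val_lt v) e), fun ξ e => ?_⟩
  obtain ⟨i, -, hi⟩ := p.eq_pow_of_mem_rootsOfUnity ((mem_rootsOfUnity _ _).2 e)
  exact ⟨i, (AddChar.zmodChar_apply' h i).trans hi⟩

omit [IsAlgClosed K] in
theorem t1w_log {r : ℕ} (E : AddChar (ZMod r) Kˣ) (e : Fin 3 → ZMod r) (j : I6) :
    t1w (fun i => E (e i)) j = E (Sum.elim e (fun i => -e i) j) := by
  rcases j with j | j
  · rfl
  · exact (E.map_neg_eq_inv _).symm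

set_option synthInstance.maxSize 4096 in
theorem t1_dec : ∀ e f : Fin 3 → ZMod 3, (∀ p : ZMod 3 × ZMod 3,
    ∑ j : I6, (if (Sum.elim e (fun i => -e i) j, Sum.elim f (fun i => -f i) j) = p then 1 else 0) =
      ∑ j : I6, if (-Sum.elim f (fun i => -f i) j, Sum.elim e (fun i => -e i) j) = p then 1 else 0) →
    (∃ i, e i ≠ 0) → (Finset.univ.filter fun i => e i ≠ 0).card = 1 ∨
      (Finset.univ.filter fun i => e i + f i ≠ 0).card = 1 := by
  decide +kernel

/-- `3² : 4`: the nontrivial weights of `⟨a, b⟩` form orbits of length four under `x`, so there is exactly one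
orbit, with multiplicity one: `{± χ₁, ± χ₂}` or `{± χ₁ ± χ₂}`. -/
theorem Cw.three_four (h : Cw Y π) (h3 : (3 : K) ≠ 0) {a b x : Y} (ha : a.1 ^ 3 = 1) (h1 : π a ≠ 1)
    (c : Commute (π a) (π b)) (hb : b.1 ^ 3 = 1) (xa : π x * π a * (π x)⁻¹ = π b)
    (xb : π x * π b * (π x)⁻¹ = (π a)⁻¹) : rk a.1 = 2 ∨ rk (a.1 * b.1) = 2 := by
  classical
  have o : Odd 3 := by decide
  have e1 := h.conj o ha hb xa
  have e2 : x.1 * b.1 * x.1⁻¹ = a.1⁻¹ := h.conj (g' := a⁻¹) o hb (by rw [Subgroup.coe_inv, inv_pow, ha, inv_one])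
    (by rw [xb, map_inv])
  obtain ⟨k, -, μ, ν, hμ, hν⟩ := exists_conj_tor₂ (h.sp a.2) (h.sp b.2) ha hb (by exact_mod_cast h3) (h.commute o hb c)
  have p : ∀ {g : G6 K} {μ : Fin 3 → Kˣ}, k * g * k⁻¹ = tor μ → g ^ 3 = 1 → ∀ i, μ i ^ 3 = 1 := fun {g μ} e hg i =>
    congrFun (tor_inj (show tor (μ ^ 3) = tor 1 by rw [map_pow, ← e, conj_pow, hg, map_one]; simp)) i
  obtain ⟨i, hi⟩ : ∃ i, μ i ≠ 1 := by
    by_contra! e
    rw [show μ = 1 from funext e, map_one, mul_inv_eq_one, mul_eq_left] at hμ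
    exact h1 ((h.ker a).2 (.inl hμ))
  obtain ⟨E, -, iE, sE⟩ := t1_log Nat.prime_three (p hμ ha i) hi
  choose e he using fun i => sE _ (p hμ ha i)
  choose f hf using fun i => sE _ (p hν hb i)
  obtain rfl : (fun i => E (e i)) = μ := funext he
  obtain rfl : (fun i => E (f i)) = ν := funext hf
  obtain ⟨s, hs⟩ := t1_perm k x.1
  have s1 := hs hμ hν e1
  have s2 := hs (ν := fun i => E (-e i)) hν (by
    rw [← conj_inv, hμ, ← map_inv]
    exact congrArg _ (funext fun i => (E.map_neg_eq_inv _).symm)) e2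
  simp only [t1w_log, iE.eq_iff] at s1 s2
  have z : ∀ u, E u ≠ 1 ↔ u ≠ 0 := fun u => by rw [← E.map_zero_eq_one, iE.ne_iff]
  have := t1_dec e f (fun p => by
    rw [← Equiv.sum_comp s]
    refine Finset.sum_congr rfl fun j _ => if_congr (Iff.of_eq (congrArg (· = p) ?_)) rfl rfl
    rw [s1, ← s2]
    rcases s j with j | j <;> simp) ⟨i, (z _).1 hi⟩
  refine this.imp (fun e => ?_) fun e' => ?_
  · rw [← rk_conj _ k, hμ, rk_tor]
    simp only [z, e]
  · rw [← rk_conj _ k, ← conj_mul, hμ, hν, ← map_mul, rk_tor]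
    simp only [Pi.mul_apply, ← E.map_add_eq_mul, z, e']

/-- One of the two classes of elements of order three of `A₆` has rank two (`three_four` for
`(012), (345), (0314)(25)`-like `x`; all `3`-cycles are conjugate in `A₆`, and so are all products of two). -/
theorem Cw.a6 {π : Y →* alternatingGroup (Fin 6)} (h : Cw Y π) (h3 : (3 : K) ≠ 0) :
    (∀ g : Y, g.1 ^ 3 = 1 → (π g).1.IsThreeCycle → rk g.1 = 2) ∨
      ∀ g : Y, g.1 ^ 3 = 1 → π g ≠ 1 → ¬ (π g).1.IsThreeCycle → rk g.1 = 2 := by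
  haveI : Fact (Nat.Prime 3) := ⟨Nat.prime_three⟩
  have o : Odd 3 := by decide
  let a : alternatingGroup (Fin 6) := ⟨.swap 0 1 * .swap 1 2, Equiv.Perm.mem_alternatingGroup.2 (by decide +kernel)⟩
  let b : alternatingGroup (Fin 6) := ⟨.swap 3 4 * .swap 4 5, Equiv.Perm.mem_alternatingGroup.2 (by decide +kernel)⟩
  let x : alternatingGroup (Fin 6) := ⟨.swap 0 3 * (.swap 1 4 * .swap 4 2 * .swap 2 5),
    Equiv.Perm.mem_alternatingGroup.2 (by decide +kernel)⟩
  obtain ⟨a', ea, ha⟩ := h.lift (x := a) o (by decide +kernel)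
  obtain ⟨b', eb, hb⟩ := h.lift (x := b) o (by decide +kernel)
  obtain ⟨x', ex⟩ := h.surj x
  have c : Commute (π a') (π b') := by rw [ea, eb]; exact (by decide +kernel : a * b = b * a)
  have key : ∀ g t : Y, g.1 ^ 3 = 1 → t.1 ^ 3 = 1 → IsConj (π t) (π g) → rk g.1 = rk t.1 := fun g t hg ht e => by
    obtain ⟨y, e⟩ := isConj_iff.1 e
    obtain ⟨y, rfl⟩ := h.surj y
    rw [← h.conj o ht hg e, rk_conj]
  refine (h.three_four h3 (x := x') ha (by rw [ea]; decide +kernel) c hb (by rw [ex, ea, eb]; decide +kernel)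
    (by rw [ex, ea, eb]; decide +kernel)).imp (fun e g hg t => ?_) fun e g hg h1 t => ?_
  · refine (key g a' hg ha (alternatingGroup.isThreeCycle_isConj (by simp) ?_ t)).trans e
    rw [ea]; unfold Equiv.Perm.IsThreeCycle; decide +kernel
  refine (key g (a' * b') hg (by rw [Subgroup.coe_mul, (h.commute o hb c).mul_pow, ha, hb, one_mul]) ?_).trans e
  have og : orderOf (π g).1 = 3 := orderOf_eq_prime
    (by rw [← Subgroup.coe_pow, ← map_pow, show g ^ 3 = 1 from Subtype.ext hg, map_one]; rfl) fun e => h1 (Subtype.ext e)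
  obtain ⟨n, hn⟩ := Equiv.Perm.cycleType_prime_order (σ := (π g).1) (by rw [og]; exact Nat.prime_three)
  have l := (π g).1.sum_cycleType_le
  rw [og] at hn
  rw [hn, Multiset.sum_replicate, Fintype.card_fin, smul_eq_mul] at l
  obtain rfl | rfl : n = 0 ∨ n = 1 := by omega
  · exact (t hn).elim
  rw [map_mul, ea, eb]
  obtain ⟨y, hy⟩ := isConj_iff.1 (Equiv.Perm.isConj_iff_cycleType_eq.2
    ((by decide +kernel : (a * b).1.cycleType = Multiset.replicate 2 3).trans hn.symm))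
  rcases Int.units_eq_one_or (Equiv.Perm.sign y) with e | e
  · exact isConj_iff.2 ⟨⟨y, e⟩, Subtype.ext hy⟩
  · let z : Equiv.Perm (Fin 6) := .swap 0 3 * .swap 1 4 * .swap 2 5
    refine isConj_iff.2 ⟨⟨y * z, Equiv.Perm.mem_alternatingGroup.2 (by rw [map_mul, e]; decide +kernel)⟩, Subtype.ext ?_⟩
    rw [← hy, ← (by decide +kernel : z * (a * b).1 * z⁻¹ = (a * b).1)]
    change y * z * (a * b).1 * (y * z)⁻¹ = _
    group

omit [IsAlgClosed K] in
/-- The Weyl group. -/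
theorem t1_weyl (f : Fin 3 → I6) (hf : Function.Injective fun i => (f i).elim id id) (μ : Fin 3 → Kˣ) :
    ∃ n ∈ Sp K, n * tor μ * n⁻¹ = tor fun i => t1w μ (f i) := by
  let t : I6 → I6 := Sum.elim f fun i => (f i).swap
  have ts : ∀ j, t j.swap = (t j).swap := by rintro (j | j) <;> simp [t]
  have ti : Function.Injective t := by
    have k : ∀ j, (t j).elim id id = (f (j.elim id id)).elim id id := by
      rintro (j | j)
      · rfl
      · change (f j).swap.elim id id = (f j).elim id id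
        rcases f j with _ | _ <;> rfl
    have n : ∀ j : I6, j ≠ j.swap := by rintro (j | j) <;> simp
    intro a b e
    have := hf ((k a).symm.trans ((congrArg _ e).trans (k b)))
    rcases a with a | a <;> rcases b with b | b <;> obtain rfl : a = b := this
    exacts [rfl, (n _ e).elim, (n _ e.symm).elim, rfl]
  let τ : Equiv.Perm I6 := Equiv.ofBijective t (Finite.injective_iff_bijective.1 ti)
  let sg : I6 → Kˣ := Sum.elim (fun _ => -1) fun _ => 1
  have hJ : ∀ p q, Matrix.J (Fin 3) K p q = if q = p.swap then (sg p : K) else 0 := by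
    rintro (p | p) (q | q) <;> simp [Matrix.J, sg, Matrix.one_apply, eq_comm, apply_ite]
  let ε : I6 → Kˣ := Sum.elim (fun _ => 1) fun i => -sg (f i)
  have m : Q4R.pm τ * dg ε ∈ Sp K := mem_Sp'.2 (Matrix.ext fun a b => by
    have e : ∀ i j, (Q4R.pm τ * dg ε : G6 K).1 i j = if i = t j then (ε j : K) else 0 := fun i j => by
      rw [Units.val_mul, Q4R.dg_val, Matrix.mul_diagonal, Q4R.pm_apply, ite_mul, one_mul, zero_mul]; rfl
    simp only [Matrix.mul_apply, Matrix.transpose_apply, e, mul_ite, ite_mul, mul_zero, zero_mul, Finset.sum_ite_eq',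
      Finset.mem_univ, if_true]
    rw [hJ, hJ, ← ts]
    simp only [ti.eq_iff]
    split_ifs with e
    · subst e
      rcases a with a | a <;> simp only [t, ε, Sum.swap_inl, Sum.swap_inr, Sum.elim_inl, Sum.elim_inr] <;>
        rcases f a with _ | _ <;> simp [sg]
    · simp)
  refine ⟨_, inv_mem m, ?_⟩
  have e : (tor fun i => t1w μ (f i) : G6 K) = dg fun j => t1w μ (τ j) := (tor_eq _).trans (congrArg _ (funext (by
    rintro (j | j)
    · rfl
    · change (t1w μ (f j))⁻¹ = t1w μ (f j).swap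
      rcases f j with _ | _ <;> simp)))
  have c : (dg ε * dg fun j => t1w μ (τ j) : G6 K) = (dg fun j => t1w μ (τ j)) * dg ε := by
    rw [← map_mul, mul_comm, map_mul]
  rw [e, inv_inv, mul_assoc, inv_mul_eq_iff_eq_mul, mul_assoc, c, ← mul_assoc, ← mul_assoc, Q4R.pm_dg]
  simp [tor_eq]

/-- An element of prime order `r ∈ {7, 13}` conjugate to `c ^ k` with `k` of order three (or six) mod `r` has
the six eigenvalues `ζ ^ (± k ^ j)`. -/
theorem six_wt {c x : G6 K} (hc : c ∈ Sp K) {r k : ℕ} (hr : r.Prime) (hK : (r : K) ≠ 0) (h : c ^ r = 1)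
    (h1 : c ≠ 1) (e : x * c * x⁻¹ = c ^ k) (k1 : ¬ k ^ 4 ≡ 1 [MOD r]) :
    ∃ l ∈ Sp K, ∃ ζ : Kˣ, IsPrimitiveRoot ζ r ∧ k ^ 6 ≡ 1 [MOD r] ∧
      l * c * l⁻¹ = tor ![ζ, ζ ^ (k ^ 2), ζ ^ (k ^ 4)] := by
  haveI := Fact.mk hr
  obtain ⟨l, hl, μ, p, hμ⟩ := exists_conj_tor hc h hK
  obtain ⟨i, hi⟩ : ∃ i, μ i ≠ 1 := by
    by_contra! e
    rw [show μ = 1 from funext e, map_one, mul_inv_eq_one, mul_eq_left] at hμ
    exact h1 hμ
  obtain ⟨E, nE, iE, sE⟩ := t1_log hr (p i) hi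
  choose u hu using fun i => sE _ (p i)
  have ui : u i = 1 := iE (by rw [hu, ← Nat.cast_one, nE, pow_one])
  obtain ⟨s, hs⟩ := t1_perm l x
  have s1 := hs (μ := fun i => E (u i)) (ν := fun i => E (k * u i)) (by rw [hμ, funext hu]) (by
    rw [← conj_pow, hμ, ← map_pow]
    exact congrArg _ (funext fun i => by rw [Pi.pow_apply, ← hu, ← nsmul_eq_mul, E.map_nsmul_eq_pow])) e
  simp only [t1w_log, iE.eq_iff] at s1
  let g : I6 → ZMod r := Sum.elim u fun i => -u i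
  have s2 : ∀ j, g (s.symm j) = k * g j := fun j => by
    have := s1 (s.symm j)
    rw [Equiv.apply_symm_apply] at this
    refine this.symm.trans ?_
    rcases j with j | j <;> simp [g]
  have s3 : ∀ m : ℕ, ∃ j, g j = (k : ZMod r) ^ m := fun m => by
    induction m with
    | zero => exact ⟨.inl i, ui.trans (pow_zero _).symm⟩
    | succ m ih =>
      obtain ⟨j, e⟩ := ih
      exact ⟨s.symm j, by rw [s2, e, pow_succ']⟩
  choose J hJ using s3
  have sq : ∀ m m', (J m).elim id id = (J m').elim id id → ((k : ZMod r) ^ m) ^ 2 = ((k : ZMod r) ^ m') ^ 2 := fun m m' => by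
    rw [← hJ, ← hJ]
    rcases J m with j | j <;> rcases J m' with j' | j' <;> intro e <;> obtain rfl : j = j' := e <;> simp [g]
  have k0 : (k : ZMod r) ≠ 0 := fun e => by
    have := s2 (s (.inl i))
    rw [e, zero_mul, Equiv.symm_apply_apply] at this
    exact one_ne_zero (ui.symm.trans this)
  have cv : ∀ m, (k : ZMod r) ^ m = 1 ↔ k ^ m ≡ 1 [MOD r] := fun m => by
    rw [← ZMod.natCast_eq_natCast_iff, Nat.cast_pow, Nat.cast_one]
  have k4 : (k : ZMod r) ^ 4 ≠ 1 := fun e => k1 ((cv 4).1 e)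
  have k6 : (k : ZMod r) ^ 6 = 1 := by
    by_contra k6
    have d : ∀ a b : ℕ, a < b → b < 4 → ((k : ZMod r) ^ a) ^ 2 ≠ ((k : ZMod r) ^ b) ^ 2 := fun a b h1 h2 e => by
      obtain ⟨c, rfl⟩ := Nat.exists_eq_add_of_lt h1
      rw [add_assoc, pow_add, mul_pow, eq_comm, mul_eq_left₀ (pow_ne_zero _ (pow_ne_zero _ k0)), ← pow_mul] at e
      obtain rfl | rfl | rfl : c = 0 ∨ c = 1 ∨ c = 2 := by omega
      · exact k4 (by rw [show 4 = (0 + 1) * 2 * 2 from rfl, pow_mul, e, one_pow])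
      · exact k4 e
      · exact k6 e
    obtain ⟨a, b, h1, h2⟩ := Fintype.exists_ne_map_eq_of_card_lt (fun m : Fin 4 => (J m).elim id id) (by simp)
    rcases lt_or_gt_of_ne h1 with h1 | h1
    · exact d a b h1 b.2 (sq _ _ h2)
    · exact d b a h1 a.2 (sq _ _ h2.symm)
  have p3 : IsPrimitiveRoot ((k : ZMod r) ^ 4) 3 := by
    haveI : Fact (Nat.Prime 3) := ⟨Nat.prime_three⟩
    have := IsPrimitiveRoot.orderOf ((k : ZMod r) ^ 4)
    rwa [orderOf_eq_prime (p := 3) (by rw [← pow_mul, show 4 * 3 = 6 * 2 from rfl, pow_mul, k6, one_pow]) k4] at this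
  obtain ⟨n, hn, e⟩ := t1_weyl (fun m : Fin 3 => J (2 * m)) (fun a b e => Fin.ext (p3.pow_inj a.2 b.2 (by
    have := sq _ _ e
    simp only [← pow_mul] at this ⊢
    rwa [show 4 * a.1 = 2 * a * 2 by ring, show 4 * b.1 = 2 * b * 2 by ring]))) μ
  refine ⟨n * l, mul_mem hn hl, μ i, orderOf_eq_prime (p i) hi ▸ IsPrimitiveRoot.orderOf (μ i), (cv 6).1 k6, ?_⟩
  have e' : ∀ m, t1w μ (J m) = μ i ^ k ^ m := fun m => by
    rw [← nE, Nat.cast_pow, ← hJ, ← t1w_log, funext hu]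
  rw [_root_.mul_inv_rev, show n * l * c * (l⁻¹ * n⁻¹) = n * (l * c * l⁻¹) * n⁻¹ by group, hμ, e]
  refine congrArg _ (funext fun m => (e' _).trans ?_)
  fin_cases m <;> simp

/-- Cross characteristic `L₂(q)`: `Cw.pow` for the unipotent subgroup and a generator of the torus gives
`(q - 1) / 2 ∣ 4` or `6`. -/
theorem Cw.l2 {E : Type*} [Field E] [Fintype E] {π : Y →* PSL(2, E)} (h : Cw Y π)
    (ho : Odd (Fintype.card E)) (hc : (Fintype.card E : K) ≠ 0) : Fintype.card E = 3 ∨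
      Fintype.card E = 5 ∨ Fintype.card E = 7 ∨ Fintype.card E = 9 ∨ Fintype.card E = 13 := by
  have two : (2 : E) ≠ 0 := PSL2.two_ne_zero_iff_odd.2 (by rwa [Nat.card_eq_fintype_card])
  let u : Multiplicative E →* PSL(2, E) :=
    PSL2.toL.comp (MonoidHom.mk' (fun t => PSL2.upper t.toAdd) fun _ _ => (PSL2.upper_mul _ _).symm)
  have hu : ∀ t, u t = PSL2.toL (PSL2.upper t.toAdd) := fun _ => rfl
  have hd : Nat.card u.range ∣ Fintype.card E := by simpa using Subgroup.card_range_dvd u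
  obtain ⟨s, hs⟩ := IsCyclic.exists_ofOrder_eq_natCard (α := Eˣ)
  rw [Nat.card_units, Nat.card_eq_fintype_card] at hs
  have hds : ∀ m : ℕ, O7.dS s ^ m = O7.dS (s ^ m) := fun m => by
    induction m with
    | zero => simp [O7.dS_one]
    | succ m ih => rw [pow_succ, ih, O7.dS_mul, pow_succ]
  have key : ∀ m : ℕ, (∀ a ∈ u.range, Commute (PSL2.toL (O7.dS s) ^ m) a) → Fintype.card E - 1 ∣ m * 2 := fun m c => by
    have := (c _ ⟨.ofAdd 1, rfl⟩).eq
    rw [hu, ← map_pow, hds, ← map_mul, O7.dS_upper, map_mul, mul_left_inj] at this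
    rw [← hs, orderOf_dvd_iff_pow_eq_one, pow_mul]
    rcases PSL2.toL_eq_iff.1 this with e' | e'
    · exact Units.ext (by simpa [PSL2.upper] using congrArg (fun x : SL(2, E) => x 0 1) e')
    · have := congrArg (fun x : SL(2, E) => x 0 0) e'
      change (1 : E) = -1 at this
      exact absurd (by linear_combination this) two
  have h1 := (h.pow (A := u.range) (by
    rintro _ ⟨a, rfl⟩ _ ⟨b, rfl⟩
    rw [← map_mul, mul_comm, map_mul]) (ho.of_dvd_nat hd) (fun e => hc (by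
      obtain ⟨c, hc⟩ := hd
      rw [hc, Nat.cast_mul, e, zero_mul])) (x := PSL2.toL (O7.dS s)) (by
    rintro _ ⟨a, rfl⟩
    refine ⟨.ofAdd (s ^ 2 * a.toAdd), ?_⟩
    rw [hu, hu, toAdd_ofAdd, ← map_mul, O7.dS_upper, map_mul, mul_inv_cancel_right])).imp (key 4) (key 6)
  obtain ⟨k, hk⟩ := ho
  have : k ≤ 6 := by rcases h1 with h | h <;> have := Nat.le_of_dvd (by norm_num) h <;> omega
  rw [hk] at h1 ⊢
  clear * - this h1
  interval_cases k <;> simp_all

end Cfsg.Lib.S6Q
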