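import Cfsg.Agent.Lib.S6Q.Spin2
import Cfsg.Agent.Lib.S6Q.T1
import Cfsg.Agent.Lib.O7.SM
import Cfsg.Agent.Lib.O7.L2c
import Cfsg.Agent.Lib.O7.Alt

/-!
# Small groups in characteristic two
-/

set_option autoImplicit false

namespace Cfsg.Lib.S6Q

open scoped MatrixGroups Matrix commutatorElement
open QuadraticMap Module Cfsg.Lib.Orth Cfsg.Lib.Asch
open Cfsg.Lib.O7 (V W Q N I7 Spin phi act gam sU dm fx stabS stabV dgV dt)

variable {K : Type*} [Field K] [IsAlgClosed K] {M : Subgroup (O (Q K))} {a y b z s s' p u : V K} {g t h : O (Q K)}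
  {E : Type*} [Field E] [Fintype E]

theorem k2a_Dg (r : ℕ) : ¬ 3 ∣ (O7.Dg 2 r).card := by
  induction r using Nat.strong_induction_on with
  | _ r ih =>
    rcases r.eq_zero_or_pos with rfl | hr
    · rw [O7.card_Dg_zero Nat.prime_two]; norm_num
    have := ih (r / 2) (by omega)
    rw [O7.card_Dg Nat.prime_two]
    rcases r.mod_two_eq_zero_or_one with e | e <;> rw [e] <;> omega

/-- `O7.exists_basis`: irreducible modules have dimension `|Dg 2 r|`, a power of two. -/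
theorem Ev0.no_L2e [CharP E 2] (h : Ev0 M) (e : M ≃* PSL(2, E)) : False := by
  have : CharP K 2 := (CharP.charP_iff_prime_eq_zero Nat.prime_two).2 (by exact_mod_cast h.two)
  letI : Algebra (ZMod 2) E := ZMod.algebra E 2
  letI : Algebra (ZMod 2) K := ZMod.algebra K 2
  let ι : E →+* K := (IsAlgClosed.lift (R := ZMod 2) (S := E) (M := K)).toRingHom
  obtain ⟨-, -, hi, -⟩ := h.cw e
  let R : G6 K →* (I6 → K) ≃ₗ[K] (I6 → K) :=
    (Matrix.GeneralLinearGroup.toLin.trans (LinearMap.GeneralLinearGroup.generalLinearEquiv K _)).toMonoidHom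
  obtain ⟨r, -, b, -⟩ := O7.exists_basis 2 ι (R.comp ((sp2 h.two).comp ((emb e).comp PSL2.toL)))
    (fun X hX => hi X (by
      rintro _ ⟨g, hg, rfl⟩
      obtain ⟨y, rfl⟩ := (O7.range_emb e).ge hg
      obtain ⟨x, rfl⟩ := PSL2.toL_surjective y
      exact hX x)) (by rw [T2.fr6]; norm_num)
  exact k2a_Dg r (by rw [← Fintype.card_coe, ← finrank_eq_card_basis b, T2.fr6]; norm_num)

theorem Ev0.k2a_34 {X : Type*} [Group X] (h : Ev0 M) (e : M ≃* X) {a b x : X}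
    (H : a ^ 3 = 1 ∧ a ≠ 1 ∧ a * b = b * a ∧ b ^ 3 = 1 ∧ x * a * x⁻¹ = b ∧ x * b * x⁻¹ = a⁻¹) :
    dm (emb e a) = 2 ∨ dm (emb e (a * b)) = 2 := by
  obtain ⟨h1, h2, h3, h4, h5, h6⟩ := H
  obtain ⟨π, c, -, k⟩ := h.cw e
  let L : X → M.map (sp2 h.two) := fun y => ⟨sp2 h.two (emb e y), emb e y, O7.emb_mem e y, rfl⟩
  have l : ∀ y, π (L y) = y := fun y => (k (e.symm y)).trans (e.apply_symm_apply y)
  have p : ∀ y, y ^ 3 = 1 → (L y).1 ^ 3 = 1 := fun y hy => by
    change sp2 h.two (emb e y) ^ 3 = 1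
    rw [← map_pow, ← map_pow, hy, map_one, map_one]
  rw [dm_eq_rk h.two, dm_eq_rk h.two, map_mul, map_mul]
  exact c.three_four (a := L a) (b := L b) (x := L x) (by exact_mod_cast odd_ne h.two (by decide : Odd 3)) (p a h1)
    (by rwa [l]) (by rw [l, l]; exact h3) (p b h4) (by rwa [l, l, l]) (by rwa [l, l, l])

omit [IsAlgClosed K] in
/-- Three conjugates of `a` generate the alternating group. -/
theorem Ev0.k2a_gen {n : ℕ} (h : Ev0 M) (e : M ≃* alternatingGroup (Fin (n + 2)))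
    {a : alternatingGroup (Fin (n + 2))} (t u : alternatingGroup (Fin (n + 2))) (w : Fin (n + 2) → List (Fin 3))
    (H : ∀ i, i ≠ 0 → i ≠ 1 →
      (((w i).map ![a, t * a * t⁻¹, u * a * u⁻¹]).prod).1 = Equiv.swap 0 1 * Equiv.swap 1 i) : dm (emb e a) ≠ 2 := by
  intro d
  let l := [emb e a, emb e (t * a * t⁻¹), emb e (u * a * u⁻¹)]
  let S := (Subgroup.closure {g | g ∈ l}).comap (emb e)
  have := Alt.alt_le_of_arc (o := 0) (e := 1) (H := S.map (alternatingGroup _).subtype) Fin.zero_ne_one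
    (Subgroup.map_subtype_le _) fun i i0 i1 => ⟨_, list_prod_mem (by
      intro x hx
      obtain ⟨j, -, rfl⟩ := List.mem_map.1 hx
      fin_cases j <;> exact Subgroup.subset_closure (by simp [l])), H i i0 i1⟩
  have := h.le_sum l fun g hg => by
    obtain ⟨x, rfl⟩ := (O7.range_emb e).ge hg
    obtain ⟨y, hy, e'⟩ := this x.2
    obtain rfl : y = x := Subtype.ext e'
    exact hy
  simp [l, O7.dm_conj, d] at this

/-- `Cw.a6` for `A₆ ≤ A_n`; three elements of either class generate; `le_sum`, `dm_eq_rk`. -/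
theorem Ev0.no_A67 (h : Ev0 M) {n : ℕ} (hn : n = 6 ∨ n = 7) (e : M ≃* alternatingGroup (Fin n)) : False := by
  rcases hn with rfl | rfl
  · rcases h.k2a_34 e (a := dt 0 1 1 2) (b := dt 3 4 4 5) (x := dt 0 3 1 4 * dt 4 2 2 5) (by decide +kernel) with d | d
    · exact h.k2a_gen e (dt 0 3 1 4) (dt 2 3 2 5) ![[], [], [0], [1, 0, 1, 1], [1, 1, 0, 1], [2]] (by decide +kernel) d
    · exact h.k2a_gen e (dt 0 1 0 3) (dt 2 3 3 4) ![[], [], [0, 1, 1, 0, 2], [1, 2, 0, 2], [2, 0, 1], [0, 2, 1, 1]]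
        (by decide +kernel) d
  · rcases h.k2a_34 e (a := dt 0 1 1 2) (b := dt 3 4 4 5) (x := dt 0 3 1 4 * dt 4 2 2 5) (by decide +kernel) with d | d
    · exact h.k2a_gen e (dt 0 3 1 4) (dt 0 5 1 6)
        ![[], [], [0], [1, 0, 1, 1], [1, 1, 0, 1], [2, 0, 2, 2], [2, 2, 0, 2]] (by decide +kernel) d
    · exact h.k2a_gen e (dt 0 1 3 6) (dt 0 1 0 5 * dt 1 6 2 4)
        ![[], [], [2, 1, 2], [1, 1, 2], [0, 2, 0, 1], [0, 0, 1, 2, 1, 0], [1, 0, 0, 2, 0, 1, 1, 0]] (by decide +kernel) d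

/-- An element of order three permuting the eigenspaces of `c` has a fixed vector: otherwise `x ^ 2 + x + 1 = 0`. -/
theorem k2a_rk {c x : G6 K} {r m : ℕ} (hc : c ∈ Sp K) (hK : (r : K) ≠ 0) (h3 : Nat.Coprime 3 r) (c1 : c ≠ 1)
    (cr : c ^ r = 1) (d : r ∣ m ^ 2 + m + 1) (ex : x * c * x⁻¹ = c ^ m) (x3 : x ^ 3 = 1) : rk x ≠ 6 := by
  obtain ⟨k, -, μ, p, e⟩ := exists_conj_tor hc cr hK
  obtain ⟨i, hi⟩ : ∃ i, μ i ≠ 1 := by
    by_contra! e'
    rw [show μ = 1 from funext e', map_one, mul_inv_eq_one, mul_eq_left] at e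
    exact c1 e
  rw [← rk_conj x k]
  have e1 : k * x * k⁻¹ * tor μ * (k * x * k⁻¹)⁻¹ = tor (μ ^ m) := by
    rw [map_pow, ← e, conj_pow, ← ex]; group
  have e3 : (k * x * k⁻¹) ^ 3 = 1 := by rw [conj_pow, x3]; simp
  generalize k * x * k⁻¹ = y at e1 e3
  have n : μ i ^ m ≠ μ i := fun e' => hi ((pow_eq_one_iff_of_coprime h3).1 ⟨by
    obtain ⟨q, hq⟩ := d
    have := congrArg (μ i ^ ·) hq
    simp only [pow_add, pow_two, pow_mul, e', p i, one_pow, pow_one] at this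
    rwa [pow_succ, pow_two], p i⟩)
  have z1 : y.1 (.inl i) (.inl i) = 0 := by_contra fun z => n (dg_entry e1 z)
  have z2 : (y⁻¹).1 (.inl i) (.inl i) = 0 := by_contra fun z =>
    n (dg_entry (a := t1w (μ ^ m)) (b := t1w μ) (n := y⁻¹) (e1 ▸ by change _ * (_ * tor μ * _) * _ = tor μ; group) z).symm
  intro r6
  have k0 := T2.rk_add_ker y
  rw [r6, Nat.add_eq_left, Submodule.finrank_eq_zero, T2.lv_sub] at k0
  have : (y⁻¹.1 + y.1 + 1) *ᵥ Pi.single (.inl i) 1 ∈ LinearMap.ker (y.1 - 1).mulVecLin := by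
    have e4 : y.1 * y.1 = y⁻¹.1 := congrArg Units.val (eq_inv_of_mul_eq_one_left (by rw [← e3, pow_succ, pow_two]) : y * y = y⁻¹)
    rw [LinearMap.mem_ker, Matrix.mulVecLin_apply, Matrix.mulVec_mulVec, sub_mul, mul_add, mul_add, e4, Units.mul_inv,
      one_mul, mul_one, show 1 + y⁻¹.1 + y.1 - (y⁻¹.1 + y.1 + 1) = 0 by abel, Matrix.zero_mulVec]
  rw [k0] at this
  simpa [z1, z2, -Matrix.coe_units_inv] using congrFun this (.inl i)

/-- A `(2, 3, r)`-group, `b ~ ` an element permuting the eigenspaces of an element of order `r`: `b` has eigenvalues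
`(1, ω, ω²)²` (`six_wt`: trace zero and ..; or Scott on `V₆`: `rk b ≠ 2` as `3 + 2 + 6 < 12`, and `rk b ≠ 6`), so
`4 + 4 + 6 < 16`. -/
theorem Ev.no_hur (h : Ev M) {a b c x : O (Q K)} (e : M = Subgroup.closure {a, b}) (ha : a * a = 1) (hb : b ^ 3 = 1)
    {r m : ℕ} (hr : r = 7 ∨ r = 13) (hc : (a * b) ^ r = 1) (d : r ∣ m ^ 2 + m + 1) (cj : IsConj (a * b) ((a * b) ^ m))
    (c1 : c ≠ 1) (cr : c ^ r = 1) (ex : x * c * x⁻¹ = c ^ m) (bx : IsConj b x) : False := by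
  have hp : r.Prime := by rcases hr with rfl | rfl <;> norm_num
  have h3 : Nat.Coprime 3 r := by rcases hr with rfl | rfl <;> norm_num
  have s := h.scottW e
  have s1 := dm_aw_inv h.two ha
  have s3 := dm_aw_nine h.two hp (by omega) hc d cj
  obtain ⟨-, -, hi, -⟩ := h.toEv0.cw (MulEquiv.refl M)
  rw [congrArg (Subgroup.map (sp2 h.two)) e, MonoidHom.map_closure, Set.image_pair] at hi
  have t := scott hi
  have t1 := (dm_eq_rk h.two a).ge.trans (dm_inv h.two ha)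
  have t2 := rk_le (sp2 h.two a * sp2 h.two b)
  have t3 := rk_le (sp2 h.two b)
  obtain ⟨j, t4⟩ := even_rk (sp2_mem h.two b) (n := 3) (by rw [← map_pow, hb, map_one]) (odd_ne h.two (by decide))
  obtain ⟨k, rfl⟩ := isConj_iff.1 bx
  have t5 := k2a_rk (x := sp2 h.two (k * b * k⁻¹)) (sp2_mem h.two c) (odd_ne h.two (hp.odd_of_ne_two (by omega))) h3
    (fun e => c1 (sp2_inj h.two (e.trans (map_one _).symm))) (by rw [← map_pow, cr, map_one]) d
    (by rw [← map_inv, ← map_mul, ← map_mul, ex, map_pow]) (by rw [← map_pow, conj_pow, hb]; simp)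
  rw [map_mul, map_mul, map_inv, rk_conj] at t5
  have s2 := dm_aw_three h.two hb (by rw [dm_eq_rk h.two]; omega)
  omega

open Cfsg.Lib.PSL2 Cfsg.Lib.O7 in
theorem Ev.k2a_hur {r : ℕ} [Fact r.Prime] (hr : r = 7 ∨ r = 13) (h : Ev M) (e : M ≃* PSL(2, ZMod r))
    (b d g : SL(2, ZMod r)) (m : ℕ) (hm : r ∣ m ^ 2 + m + 1)
    (H : wS _ * b = upper (-1) ∧ b ^ 3 = 1 ∧ d * upper (-1) = upper (-1) ^ m * d ∧ g * b = d * g ∧
      upper (-1 : ZMod r) ≠ 1 ∧ upper (-1 : ZMod r) ≠ -1) : False := by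
  obtain ⟨h1, h2, h3, h4, h5, h6⟩ := H
  let f : SL(2, ZMod r) →* O (Q K) := (emb e).comp toL
  have f1 : ∀ {x}, f x = 1 ↔ x = 1 ∨ x = -1 := fun {x} =>
    (map_eq_one_iff _ (emb_injective e)).trans toL_eq_one_iff
  have hup : ∀ n : ℕ, upper (-1 : ZMod r) ^ n = upper (-(n : ZMod r)) := fun n => by rw [upper_pow, mul_neg_one]
  have o : f (upper (-1)) ^ r = 1 := by rw [← map_pow, hup, ZMod.natCast_self, neg_zero, upper_zero, map_one]
  have cj : f d * f (upper (-1)) * (f d)⁻¹ = f (upper (-1)) ^ m := by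
    rw [← map_mul, h3, map_mul, mul_inv_cancel_right, map_pow]
  refine h.no_hur (a := f (wS _)) (b := f b) ?_ (by rw [← map_mul, wS_sq, f1.2 (.inr rfl)])
    (by rw [← map_pow, h2, map_one]) hr (by rwa [← map_mul, h1]) hm (by rw [← map_mul, h1]; exact isConj_iff.2 ⟨_, cj⟩)
    (fun e => (f1.1 e).elim h5 h6) o cj (f.map_isConj (isConj_iff.2 ⟨g, mul_inv_eq_of_eq_mul h4⟩))
  refine le_antisymm (fun g hg => ?_) ((Subgroup.closure_le _).2 (by rintro _ (rfl | rfl) <;> exact emb_mem e _))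
  obtain ⟨y, rfl⟩ := (range_emb e).ge hg
  obtain ⟨x, rfl⟩ := toL_surjective y
  have w : wS _ ∈ (Subgroup.closure {f (wS _), f b}).comap f := Subgroup.subset_closure (.inl rfl)
  refine gen_sl (M := ((Subgroup.closure {f (wS _), f b}).comap f).toSubmonoid) (fun c => ?_) w x
  have := pow_mem (mul_mem w (Subgroup.subset_closure (.inr rfl) : b ∈ Subgroup.comap f _)) (-c).val
  rwa [h1, hup, ZMod.natCast_zmod_val, neg_neg] at this

/-- `Cw.l2`; `q = 5`: `A₅ ≅ L₂(4)`; `q = 9`: `A₆`; `q = 7, 13`: `no_hur` (data in `O7/L2c`). -/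
theorem Ev.no_L2 (h : Ev M) (e : M ≃* PSL(2, E)) : False := by
  rcases Nat.even_or_odd (Fintype.card E) with ho | ho
  · have := ringChar.of_eq (FiniteField.even_card_iff_char_two.2 (Nat.even_iff.1 ho))
    exact h.toEv0.no_L2e e
  obtain ⟨π, c, -⟩ := h.toEv0.cw e
  rcases c.l2 ho (odd_ne h.two ho) with q | q | q | q | q
  · have := h.simple
    have : IsSimpleGroup PSL(2, E) := e.symm.isSimpleGroup
    have := PSL2.four_le_card_of_simple (F := E)
    rw [Nat.card_eq_fintype_card] at this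
    omega
  · obtain ⟨i⟩ := PSL2.equiv_psl_alt_five (F := E) (.inr (by rwa [Nat.card_eq_fintype_card]))
    obtain ⟨j⟩ := PSL2.equiv_psl_alt_five (F := GaloisField 2 2) (.inl (GaloisField.card 2 2 two_ne_zero))
    letI := Fintype.ofFinite (GaloisField 2 2)
    exact h.toEv0.no_L2e ((e.trans i).trans j.symm)
  · exact @Ev.k2a_hur K _ _ M 7 ⟨by norm_num⟩ (.inl rfl) h
      (e.trans (Linear.congrPSL (Equiv.refl _) (ZMod.ringEquivOfPrime E (by norm_num) q).symm))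
      ⟨!![0, 6; 1, 6], by decide +kernel⟩ ⟨!![4, 0; 0, 2], by decide +kernel⟩ ⟨!![1, 4; 3, 6], by decide +kernel⟩ 2
      (by norm_num) (by and_intros <;> decide +kernel)
  · obtain ⟨i⟩ := PSL2.equiv_psl_alt_six (F := E) (by rwa [Nat.card_eq_fintype_card])
    exact h.toEv0.no_A67 (.inl rfl) (e.trans i)
  · exact @Ev.k2a_hur K _ _ M 13 ⟨by norm_num⟩ (.inr rfl) h
      (e.trans (Linear.congrPSL (Equiv.refl _) (ZMod.ringEquivOfPrime E (by norm_num) q).symm))
      ⟨!![0, 12; 1, 12], by decide +kernel⟩ ⟨!![9, 0; 0, 3], by decide +kernel⟩ ⟨!![1, 9; 2, 6], by decide +kernel⟩ 3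
      (by norm_num) (by and_intros <;> decide +kernel)

end Cfsg.Lib.S6Q
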