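import Cfsg.Agent.Lib.S6Q.Qd
import Cfsg.Agent.Lib.O7.L3
import Cfsg.Agent.Lib.O7.X3

/-!
# `L₃(q)`, `q` odd
-/

set_option autoImplicit false

namespace Cfsg.Lib.S6Q

open scoped MatrixGroups Matrix commutatorElement
open Cfsg.Geo Cfsg.Lib.Asch Cfsg.Lib.Linear Cfsg.Lib.Q4 Cfsg.Lib.Symp Module
open Cfsg.Lib.Q4R (Sq HasTv sc dg)

variable {K : Type*} [Field K] [IsAlgClosed K] {X : Type*} [Group X] {Y : Subgroup (G6 K)} {π : Y →* X}
  {E : Type*} [Field E] [Fintype E]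

open O7 Matrix in
/-- `Cw.heis` (`char E ≥ 5`), `Cw.nine` (`char E = 3`: `3² : Q₈ ≤ SL₃(3)`). -/
theorem Cw.char_L3 (ho : Odd (Fintype.card E)) {π : Y →* PSL(3, E)} (h : Cw Y π) :
    (Fintype.card E : K) = 0 := by
  let f : SL(3, E) →* PSL(3, E) := QuotientGroup.mk' _
  obtain ⟨n, hr, hc⟩ := FiniteField.card E (ringChar E)
  have h1 : f (x3 0 0 1) ≠ 1 := fun e => x3_not_mem ((QuotientGroup.eq_one_iff _).1 e)
  have pw : ∀ a b c : E, a * b = 0 → f (x3 a b c) ^ ringChar E = 1 := fun a b c h => by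
    rw [← map_pow, x3_pow _ _ _ h, CharP.cast_eq_zero E, zero_mul, zero_mul, zero_mul, x3_zero, map_one]
  have cj : ∀ {x y z : SL(3, E)}, x.1 * y.1 = z.1 * x.1 → f x * f y * (f x)⁻¹ = f z := fun {x y z} h => by
    rw [mul_inv_eq_iff_eq_mul, ← map_mul, ← map_mul]; exact congrArg f (Subtype.ext h)
  have cm : ∀ {x y : SL(3, E)}, x.1 * y.1 = y.1 * x.1 → Commute (f x) (f y) := fun {x y} h =>
    Commute.map (show Commute x y from Subtype.ext h) f
  suffices (ringChar E : K) = 0 by rw [hc, Nat.cast_pow, this, zero_pow n.ne_zero]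
  by_contra h0
  have o : Odd (ringChar E) := (Nat.odd_pow_iff n.ne_zero).1 (hc ▸ ho)
  by_cases h3 : ringChar E = 3
  · have e3 : (3 : E) = 0 := by exact_mod_cast h3 ▸ CharP.cast_eq_zero E (ringChar E)
    have iv : (x3 (0 : E) 0 1)⁻¹ = x3 0 0 (-1) := inv_eq_of_mul_eq_one_right (by simp [x3_mul, x3_zero])
    have iw : (x3 (0 : E) 1 0)⁻¹ = x3 0 (-1) 0 := inv_eq_of_mul_eq_one_right (by simp [x3_mul, x3_zero])
    rw [h3] at h0 pw
    refine h0 ?_
    exact_mod_cast h.nine (a := f (x3 0 0 1)) (b := f (x3 0 1 0))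
      (x := f ⟨!![0, -1, 0; 1, 0, 0; 0, 0, 1], by simp [det_fin_three]⟩)
      (y := f ⟨!![1, 1, 0; 1, -1, 0; 0, 0, 1], by simp [det_fin_three]; linear_combination -e3⟩)
      (pw _ _ _ (by simp)) h1 (cm (by simp [coe_x3, x3_mul])) (cj (by simp [coe_x3, x3_mul]))
      (by rw [← map_inv, iv]; exact cj (by simp [coe_x3, x3_mul])) (by rw [← map_mul]; exact cj (by simp [coe_x3, x3_mul]))
      (by rw [← map_inv, iw, ← map_mul]; exact cj (by simp [coe_x3, x3_mul]))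
  · have h5 : 5 ≤ ringChar E := by
      have := hr.two_le
      obtain ⟨k, hk⟩ := o
      omega
    exact h1 (h.heis hr h5 h0 (x := f (x3 1 0 0)) (y := f (x3 0 1 0)) (z := f (x3 0 0 1)) (pw _ _ _ (by simp))
      (pw _ _ _ (by simp)) (by rw [← map_mul (x := x3 0 1 0), x3_mul]; exact cj (by simp [coe_x3]))
      (cm (by simp [coe_x3])) (cm (by simp [coe_x3])))

local notation "tv" => Matrix.SpecialLinearGroup.transvection

namespace L3

section Mat

omit [Fintype E]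

/-- The diagonal involutions. -/
def D (k : Fin 3) : SL(3, E) :=
  ⟨Matrix.diagonal fun l => if l = k then 1 else -1, by fin_cases k <;> simp [Fin.prod_univ_three]⟩

theorem coe_D (k : Fin 3) : (D k : SL(3, E)).1 = Matrix.diagonal fun l => if l = k then 1 else -1 := rfl

/-- The projection. -/
abbrev pj : SL(3, E) →* PSL(3, E) := QuotientGroup.mk' _

theorem D_tv {i j : Fin 3} (n : i ≠ j) (k : Fin 3) (c : E) :
    pj (D k) * pj (tv n c) * (pj (D k))⁻¹ = pj (tv n (if i = k ∨ j = k then -c else c)) := by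
  rw [mul_inv_eq_iff_eq_mul, ← map_mul, ← map_mul]
  refine congrArg pj (Subtype.ext (Matrix.ext fun a b => ?_))
  simp only [Matrix.SpecialLinearGroup.coe_mul, coe_D, Matrix.SpecialLinearGroup.transvection_coe,
    Matrix.diagonal_mul, Matrix.mul_diagonal, Matrix.add_apply, Matrix.one_apply, Matrix.single_apply]
  split_ifs <;> simp_all

theorem D_inv {i j : Fin 3} (n : i ≠ j) {k : Fin 3} (h : i = k ∨ j = k) (c : E) :
    pj (D k) * pj (tv n c) * (pj (D k))⁻¹ = (pj (tv n c))⁻¹ := by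
  rw [D_tv, if_pos h, ← map_inv, Matrix.SpecialLinearGroup.transvection_inv]

theorem D_cm {i j : Fin 3} (n : i ≠ j) {k : Fin 3} (h : k ≠ i) (h' : k ≠ j) (c : E) :
    Commute (pj (D k)) (pj (tv n c)) :=
  mul_inv_eq_iff_eq_mul.1 (by rw [D_tv, if_neg (not_or.2 ⟨h.symm, h'.symm⟩)])

theorem D_comm (i k : Fin 3) : Commute (pj (D i : SL(3, E))) (pj (D k)) :=
  Commute.map (show Commute (D i : SL(3, E)) (D k) from Subtype.ext (by
    rw [Matrix.SpecialLinearGroup.coe_mul, Matrix.SpecialLinearGroup.coe_mul, coe_D, coe_D]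
    exact Matrix.commute_diagonal _ _)) pj

theorem third : ∀ {i j : Fin 3}, i ≠ j → ∃ k, k ≠ i ∧ k ≠ j := by decide

theorem D_ne (h2 : (2 : E) ≠ 0) {i k : Fin 3} (n : i ≠ k) : pj (D i : SL(3, E)) ≠ pj (D k) := fun e => by
  obtain ⟨j, h, h'⟩ := third n
  have e1 := D_inv h.symm (.inl rfl) (1 : E)
  rw [e, (D_cm h.symm n.symm h'.symm 1).eq, mul_inv_cancel_right, eq_inv_iff_mul_eq_one, ← map_mul,
    ← Matrix.SpecialLinearGroup.transvection_add] at e1
  exact h2 (one_add_one_eq_two.symm.trans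
    ((Matrix.SpecialLinearGroup.transvection_mem_center_iff _ _).1 ((QuotientGroup.eq_one_iff _).1 e1)))

theorem D_conj (k : Fin 3) : O7.L3.r3 E * D k * (O7.L3.r3 E)⁻¹ = D (k + 1) :=
  mul_inv_eq_iff_eq_mul.2 (Subtype.ext (by
    ext a b
    fin_cases k <;> fin_cases a <;> fin_cases b <;>
      simp [coe_D, O7.L3.coe_r3, Matrix.mul_diagonal, Matrix.diagonal_mul]))

theorem D_zero : O7.L3.upH (-1) = (D 0 : SL(3, E)) := Subtype.ext (by
  ext a b
  fin_cases a <;> fin_cases b <;> simp [coe_D, O7.L3.coe_upH])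

theorem tv_pow (p : ℕ) [CharP E p] {i j : Fin 3} (n : i ≠ j) (c : E) : pj (tv n c) ^ p = 1 := by
  have : ∀ m : ℕ, tv n c ^ m = tv n (m * c) := fun m => by
    induction m with
    | zero => simp
    | succ m ih => rw [pow_succ, ih, ← Matrix.SpecialLinearGroup.transvection_add, Nat.cast_succ, add_one_mul]
  rw [← map_pow, this, CharP.cast_eq_zero, zero_mul, Matrix.SpecialLinearGroup.transvection_coeff_zero, map_one]

theorem tv_conj {i j l : Fin 3} (n : i ≠ j) (n' : i ≠ l) (m : j ≠ l) {c : E} (hc : c ≠ 0) (d : E) :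
    IsConj (pj (tv n c)) (pj (tv n c) * pj (tv n' d)) := by
  have := Linear.commutator_transvection n m n' (-c) (-d / c)
  rw [show -c * (-d / c) = d by field_simp, ← Matrix.SpecialLinearGroup.transvection_inv] at this
  rw [← map_mul, ← this]
  exact pj.map_isConj (isConj_iff.2 ⟨tv m (-d / c), by simp [commutatorElement_def, mul_assoc]⟩)

theorem tv_comm {i j l : Fin 3} (n : i ≠ j) (n' : i ≠ l) (c d : E) : Commute (pj (tv n c)) (pj (tv n' d)) :=
  (Linear.commute_transvection n n' n.symm n' c d).map pj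

end Mat

omit [IsAlgClosed K] in
theorem mv (a b : G6 K) (v : I6 → K) : (a * b).1 *ᵥ v = a.1 *ᵥ b.1 *ᵥ v := (Matrix.mulVec_mulVec _ _ _).symm

theorem fix_of (h2 : (2 : K) ≠ 0) {s t : G6 K} (hs : TI s) (ht : TI t) (s6 : s ∈ Sp K) (t6 : t ∈ Sp K)
    (c : Commute s t) (ne : s ≠ t) {v : I6 → K} (hv : t.1 *ᵥ v = -v) : s.1 *ᵥ v = v := by
  obtain ⟨k, -, e1, e2⟩ := hs.frame h2 ht s6 t6 c ne
  have h1 : (k * t * k⁻¹).1 *ᵥ k.1 *ᵥ v = -(k.1 *ᵥ v) := by
    rw [← mv, inv_mul_cancel_right, mv, hv, Matrix.mulVec_neg]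
  have h3 : (k * s * k⁻¹).1 *ᵥ k.1 *ᵥ v = k.1 *ᵥ v := by
    rw [e2] at h1
    rw [e1]
    generalize k.1 *ᵥ v = w at h1 ⊢
    have z : ∀ i, w i = -w i → w i = 0 := fun i e =>
      (mul_eq_zero.1 (by linear_combination e)).resolve_left h2
    have a := z (.inl 0) (by simpa [tor_eq, Q4R.dg_val, Matrix.mulVec_diagonal] using congrFun h1 (.inl 0))
    have b := z (.inr 0) (by simpa [tor_eq, Q4R.dg_val, Matrix.mulVec_diagonal] using congrFun h1 (.inr 0))
    ext i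
    rcases i with i | i <;> fin_cases i <;> simp [tor_eq, Q4R.dg_val, Matrix.mulVec_diagonal, a, b]
  rw [← mv, inv_mul_cancel_right, mv] at h3
  rw [← Asch.inv_mulVec_mulVec k (s.1 *ᵥ v), h3, Asch.inv_mulVec_mulVec]

omit [IsAlgClosed K] in
theorem two_ne (ho : Odd (Fintype.card E)) : (2 : E) ≠ 0 := fun e => by
  have : Fact (Nat.Prime 2) := ⟨Nat.prime_two⟩
  have := (CharP.charP_iff_prime_eq_zero Nat.prime_two).2 (by exact_mod_cast e : ((2 : ℕ) : E) = 0)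
  obtain ⟨n, -, hc⟩ := FiniteField.card E 2
  rw [hc] at ho
  exact absurd ((Nat.odd_pow_iff n.ne_zero).1 ho) (by decide)

omit [IsAlgClosed K] in
theorem quad (h2 : (2 : K) ≠ 0) {g g' : G6 K} (ha : (g.1 - 1) * (g.1 - 1) = 0) (hb : (g'.1 - 1) * (g'.1 - 1) = 0)
    (c : Commute g g') (h : ((g * g').1 - 1) * ((g * g').1 - 1) = 0) : (g.1 - 1) * (g'.1 - 1) = 0 := by
  have c' : (g'.1 - 1) * (g.1 - 1) = (g.1 - 1) * (g'.1 - 1) :=
    ((c.symm.units_val.sub_left (Commute.one_left _)).sub_right (Commute.one_right _)).eq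
  rw [show (g * g').1 - 1 = (g.1 - 1) + (g'.1 - 1) + (g.1 - 1) * (g'.1 - 1) by
    rw [Units.val_mul]; noncomm_ring] at h
  generalize g.1 - 1 = a at *
  generalize g'.1 - 1 = b at *
  have h1 : a * (a * b) = 0 := by rw [← mul_assoc, ha, zero_mul]
  have h3 : a * b * b = 0 := by rw [mul_assoc, hb, mul_zero]
  have h4 : b * (a * b) = 0 := by rw [← mul_assoc, c', h3]
  have h5 : a * b * a = 0 := by rw [mul_assoc, c', h1]
  have h6 : a * b * (a * b) = 0 := by rw [← mul_assoc, h5, zero_mul]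
  simp only [add_mul, mul_add, ha, hb, c', h1, h3, h4, h5, h6, add_zero, zero_add] at h
  exact (smul_eq_zero.1 ((two_smul K _).trans h)).resolve_left h2

omit [Fintype E] in
theorem sq_zero {π : Y →* X} (h : Cv Y π) {p : ℕ} [Fact p.Prime] [CharP K p] {g : Y} (o : g.1 ^ p = 1)
    (r : rk g.1 ≤ 2) : (g.1.1 - 1) * (g.1.1 - 1) = 0 := by
  obtain r | r | r : rk g.1 = 0 ∨ rk g.1 = 1 ∨ rk g.1 = 2 := by omega
  · simp [rk_eq_zero.1 r]
  · exact (h.ntv (hasTv_iff.2 ⟨g, g.2, isTv_of_rk (h.sp g.2) r⟩)).elim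
  obtain ⟨a, b, q⟩ := exists_qd h.two p (h.sp g.2) o r
  refine mat_eq_zero_of_mulVec fun v => ?_
  have e : ∀ v, (g.1.1 - 1) *ᵥ v = om K v a • b + om K v b • a := fun v => by
    rw [Matrix.sub_mulVec, q.eq, Matrix.one_mulVec, add_assoc, add_sub_cancel_left]
  rw [← Matrix.mulVec_mulVec, e v, Matrix.mulVec_add, Matrix.mulVec_smul, Matrix.mulVec_smul, e, e, alt_om.alt,
    alt_om.alt, alt_om.skew b a, q.p]
  simp

variable {π : Y →* PSL(3, E)} (h : Cv Y π)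
include h

theorem exists_t (ho : Odd (Fintype.card E)) : ∃ t : Fin 3 → Y, ∀ i, π (t i) = pj (D i) ∧ TI (t i).1 := by
  obtain ⟨t, e, ht, -⟩ := h.sl2 ho (pj.comp O7.L3.upH)
    fun e => O7.L3.not_cen (two_ne ho) ((QuotientGroup.eq_one_iff _).1 e)
  obtain ⟨r, hr⟩ := h.surj (pj (O7.L3.r3 E))
  have k : ∀ i, (∃ t : Y, π t = pj (D i) ∧ TI t.1) → ∃ t : Y, π t = pj (D (i + 1)) ∧ TI t.1 := fun i ⟨t, e, ht⟩ =>
    ⟨r * t * r⁻¹, by simp only [map_mul, map_inv, e, hr, ← D_conj], ht.conj r.1⟩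
  have k0 : ∃ t : Y, π t = pj (D 0) ∧ TI t.1 := ⟨t, e.trans (congrArg pj D_zero), ht⟩
  refine Classical.skolem.1 (fun i => ?_ : ∀ i, ∃ t : Y, π t = pj (D i) ∧ TI t.1)
  fin_cases i
  exacts [k0, k 0 k0, k 1 (k 0 k0)]

variable (ho : Odd (Fintype.card E)) {t : Fin 3 → Y} (ht : ∀ i, π (t i) = pj (D i) ∧ TI (t i).1)
include ho ht

theorem t_fix {i k : Fin 3} (n : i ≠ k) {v : I6 → K} (hv : (t k).1.1 *ᵥ v = -v) : (t i).1.1 *ᵥ v = v :=
  fix_of h.two (ht i).2 (ht k).2 (h.sp (t i).2) (h.sp (t k).2)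
    (h.comm_ti (ht k).2 (by rw [(ht i).1, (ht k).1]; exact D_comm i k))
    (fun e => D_ne (two_ne ho) n (by rw [← (ht i).1, ← (ht k).1, Subtype.ext e])) hv

variable {p : ℕ} (hp : Odd p) {g : Y} (o : g.1 ^ p = 1) {i j k : Fin 3} {n : i ≠ j} {c : E} (e : π g = pj (tv n c))
include hp o e

omit ho [IsAlgClosed K] [Fintype E] in
theorem t_inv (m : i = k ∨ j = k) : (t k).1 * g.1 * (t k).1⁻¹ = g.1⁻¹ :=
  h.cw.conj (g' := g⁻¹) hp o (by simp [o]) (by rw [(ht k).1, map_inv, e, D_inv n m])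

theorem fixU (m : k ≠ i) (m' : k ≠ j) {v : I6 → K} (hv : (t k).1.1 *ᵥ v = -v) : g.1.1 *ᵥ v = v := by
  have c1 := h.cw.commute (y := t k) hp o (by rw [(ht k).1, e]; exact D_cm n m m' c)
  have h1 := t_fix h ho ht m.symm (v := g.1.1 *ᵥ v) (by rw [← mv, c1.eq, mv, hv, Matrix.mulVec_neg])
  rw [← mv, mul_inv_eq_iff_eq_mul.1 (t_inv h ht hp o e (.inl rfl)), mv, t_fix h ho ht m.symm hv] at h1
  have h2 : ∀ l : ℕ, (g.1 ^ (2 * l + 1)).1 *ᵥ v = g.1.1 *ᵥ v := fun l => by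
    induction l with
    | zero => simp
    | succ l ih => rw [mul_add_one, pow_succ, pow_succ, mv, ← h1, ← mv, mul_inv_cancel_right, ih, h1]
  obtain ⟨l, rfl⟩ := hp
  rw [← h2 l, o, Units.val_one, Matrix.one_mulVec]

end L3

open L3

/-- Transvections of `L₃(q)` have lifts of rank two.  `q > 3`: `x = x₁₃(c)` lies in `L_t ≅ SL₂(q)` for
`t = diag(-1, 1, -1)` and for `t' = u t u⁻¹`, `u = x₁₂(1)`, so it fixes both planes (`Cv.sl2_odd`); if they meet then
`t t' = x₁₂(± 2)` has rank `≤ 2` (`rk_mul_ti`), otherwise `x` has.  `q = 3`: `A = ⟨x₁₂(1), x₁₃(1)⟩` is inverted by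
`t = diag(1, -1, -1)` (plane `U`) and `Q₈ ≤ L_t`, scalar on `U` (`Cv.sl2`), is regular on `A^#`.  `L_a = (a - a⁻¹) / 2` has
the kernel of `a - 1`, `L_a³ = 0`, swaps `U` and `U^⊥`, and the two parts are adjoint, so `rk a = 2 rank (L_a|U)`.  If
`L_a|U` is injective (then for all `a ∈ A^#`): `U = L_a U^⊥`, so `L_a²|U = 0` (apply `L_a³ = 0` to `U^⊥`, `L_a|U` injective
is not needed: `L_a² U = L_a³ U^⊥`), `L_{a b} = L_a + L_b` on `U`; `a^j = a^{± 1} (a^i)^{± 1}` gives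
`± j̃ = ± 1 ± ĩ` on the plane `L_a U + L_b U`-image of `U`, i.e. `(± j̃ ∓ ĩ ∓ 1) L_a u = 0`; `R = L_a U` is `Q₈`-invariant
(`L_{ab}²|U = 0` gives `L_a L_b|U = 0`, so `L_b U ≤ ker (L_a|U^⊥) = L_a U`), `ĩ² = j̃² = -1` anticommute on `R`: square it. -/
theorem Cv.rk_L3 (ho : Odd (Fintype.card E)) {π : Y →* PSL(3, E)} (h : Cv Y π) (p : ℕ) [Fact p.Prime] [CharP K p]
    [CharP E p] {g : Y} (o : g.1 ^ p = 1) {i j : Fin 3} (n : i ≠ j) {c : E} (hc : c ≠ 0)
    (e : π g = QuotientGroup.mk (Matrix.SpecialLinearGroup.transvection n c)) : rk g.1 ≤ 2 := by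
  have h2 := two_ne ho
  have hp : Odd p := (Fact.out : p.Prime).odd_of_ne_two (by
    rintro rfl
    exact h.two (CharP.cast_eq_zero K 2))
  obtain ⟨t, ht⟩ := exists_t h ho
  obtain ⟨k, m, m'⟩ := third n
  obtain ⟨u, eu, ou⟩ := h.lift hp (tv_pow p m.symm (1 : E))
  have cu := h.cw.commute (y := u) hp o (by rw [eu, e]; exact tv_comm _ _ _ _)
  by_cases hm : ∃ v ≠ 0, (t k).1.1 *ᵥ v = -v ∧ (u.1 * (t k).1 * u.1⁻¹).1 *ᵥ v = -v
  · have r := rk_mul_ti h.two (h.sp (t k).2) (h.sp (u * t k * u⁻¹).2) (ht k).2 ((ht k).2.conj u.1) hm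
    have e1 : (t k).1 * (u.1 * (t k).1 * u.1⁻¹) = (u⁻¹ * u⁻¹ : Y) := by
      rw [Subgroup.coe_mul, Subgroup.coe_inv]
      nth_rw 2 [← t_inv h ht hp ou eu (.inr rfl)]
      rw [← eq_inv_of_mul_eq_one_left (ht k).2.1]
      simp only [mul_assoc]
    have e2 : π (u⁻¹ * u⁻¹) = pj (tv m.symm (-1 + -1)) := by
      rw [map_mul, map_inv, eu, ← map_inv, ← map_mul, Matrix.SpecialLinearGroup.transvection_inv,
        Matrix.SpecialLinearGroup.transvection_add]
    have c1 := tv_conj m.symm n m' (c := -1 + -1) (fun z => h2 (by linear_combination -z)) c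
    rw [(tv_comm _ _ _ _).eq] at c1
    obtain ⟨y, hy⟩ := isConj_iff.1 (c1.trans (tv_conj n m.symm m'.symm hc _).symm)
    obtain ⟨y, rfl⟩ := h.surj y
    rw [← h.cw.conj (g := u⁻¹ * u⁻¹) (y := y) hp (by simp [(Commute.refl _).mul_pow, ou]) o
      (by rw [e2, hy, e]; rfl), rk_conj, ← e1]
    exact r
  have R : ∀ {s : G6 K}, TI s → ∀ v ∈ LinearMap.range (T2.lv s - 1), s.1 *ᵥ v = -v := by
    rintro s hs _ ⟨v, rfl⟩
    change s.1 *ᵥ (s.1 *ᵥ v - v) = -(s.1 *ᵥ v - v)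
    rw [Matrix.mulVec_sub, ← mv, hs.1, Units.val_one, Matrix.one_mulVec, neg_sub]
  have t' := (ht k).2.conj u.1
  have e1 := Submodule.finrank_sup_add_finrank_inf_eq (LinearMap.range (T2.lv (t k).1 - 1))
    (LinearMap.range (T2.lv (u.1 * (t k).1 * u.1⁻¹) - 1))
  rw [← T2.rk_eq, ← T2.rk_eq, (ht k).2.2, t'.2, (Submodule.eq_bot_iff (_ ⊓ _)).2 fun v hv => by_contra fun v0 =>
    hm ⟨v, v0, R (ht k).2 v hv.1, R t' v hv.2⟩, finrank_bot] at e1
  have e2 := Submodule.finrank_mono (sup_le (c := LinearMap.ker (T2.lv g.1 - 1))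
    (fun v hv => sub_eq_zero.2 (fixU h ho ht hp o e m m' (R (ht k).2 v hv))) fun v hv => sub_eq_zero.2 (by
      have a := R t' v hv
      have b := fixU h ho ht hp o e m m' (v := (u.1⁻¹).1 *ᵥ v) (by
        rw [← Matrix.mulVec_neg, ← a, ← mv, ← mv]
        simp only [← mul_assoc, inv_mul_cancel, one_mul])
      have := congrArg (u.1.1 *ᵥ ·) b
      simp only [← mv, ← mul_assoc, cu.eq, mul_inv_cancel_right, mul_inv_cancel, Units.val_one,
        Matrix.one_mulVec] at this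
      exact this))
  have := T2.rk_add_ker g.1
  omega

/-- Let `A(P)` be the transvections with centre `P`; its lifts are `Qd` (`exists_qd`).  Either all of `A(P)^#` have the
same line `ℓ(P)`, or a common point `a(P)` (if `x = a b`, `y = a c` with different lines, `z = d e`, `a ∤ z`: for each of
the `≥ 4` classes `m` in `F_p b + F_p c`, `Qd.add` gives `⟨a, m⟩ = ⟨d, e⟩` or `m ∝ d` or `m ∝ e`).  Two points `P, P'`
carry transvections with a common axis.  Line case: `ℓ(P_i)` meet pairwise, so `[V, G] = Σ ℓ(P_i)` has dimension `≤ 5`.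
Point case: `a(P) ⟂ a(P')` (`Qd.perp`), the orbit of `a(P)` spans a totally isotropic invariant subspace. -/
theorem Cv.no_L3 (ho : Odd (Fintype.card E)) {π : Y →* PSL(3, E)} (h : Cv Y π) (hi : Irr Y) : False := by
  obtain ⟨_, hr, hc⟩ := FiniteField.card E (ringChar E)
  have h0 := h.cw.char_L3 ho
  rw [hc, Nat.cast_pow] at h0
  have := Fact.mk hr
  have := (CharP.charP_iff_prime_eq_zero hr).2 (pow_eq_zero_iff (PNat.ne_zero _) |>.1 h0)
  generalize hq : ringChar E = p at *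
  have : CharP E p := hq ▸ inferInstance
  have hp : Odd p := hr.odd_of_ne_two (by
    rintro rfl
    exact h.two (CharP.cast_eq_zero K 2))
  obtain ⟨t, ht⟩ := exists_t h ho
  let L : Fin 3 → Y → Prop := fun i g => g.1 ^ p = 1 ∧ ∃ j, ∃ n : i ≠ j, ∃ c, π g = pj (tv n c)
  have one : ∀ {g : Y} {i j} {n : i ≠ j}, g.1 ^ p = 1 → π g = pj (tv n 0) → g = 1 := fun o e =>
    h.lift_unique hp (by rw [e]; simp) o (by simp)
  have q1 : ∀ {i g}, L i g → rk g.1 ≤ 2 := fun {i g} ⟨o, j, n, c, e⟩ => by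
    by_cases hc : c = 0
    · rw [one o (hc ▸ e), Subgroup.coe_one, rk_one]; omega
    · exact h.rk_L3 ho p o n hc e
  have q2 : ∀ {i g g'}, L i g → L i g' → (g.1.1 - 1) * (g'.1.1 - 1) = 0 :=
    fun {i g g'} ⟨o, j, n, c, e⟩ ⟨o', l, n', d, e'⟩ => by
    have cm := h.cw.commute (y := g) hp o' (by rw [e, e']; exact tv_comm _ _ _ _)
    have oo : (g * g').1 ^ p = 1 := by rw [Subgroup.coe_mul, cm.mul_pow, o, o', one_mul]
    refine quad h.two (sq_zero h o (q1 ⟨o, j, n, c, e⟩)) (sq_zero h o' (q1 ⟨o', l, n', d, e'⟩)) cm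
      (sq_zero h oo ?_)
    by_cases hj : j = l
    · subst hj
      exact q1 ⟨oo, j, n, c + d, by rw [map_mul, e, e', ← map_mul, Matrix.SpecialLinearGroup.transvection_add]⟩
    by_cases hc : c = 0
    · rw [one o (hc ▸ e), one_mul]
      exact q1 ⟨o', l, n', d, e'⟩
    obtain ⟨y, hy⟩ := isConj_iff.1 (tv_conj n n' hj hc d)
    obtain ⟨y, rfl⟩ := h.surj y
    rw [← h.cw.conj (y := y) hp o oo (by rw [map_mul, e, e', hy]), rk_conj]
    exact q1 ⟨o, j, n, c, e⟩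
  have q3 : ∀ {i g g'}, L i g → L i g' → ∀ v, g.1.1 *ᵥ (g'.1.1 *ᵥ v - v) - (g'.1.1 *ᵥ v - v) = 0 :=
    fun a b v => by simpa [Matrix.sub_mulVec, ← Matrix.mulVec_mulVec] using congrArg (· *ᵥ v) (q2 a b)
  have iv : ∀ {i g}, L i g → ∀ v, (g.1⁻¹).1 *ᵥ v = v - (g.1.1 *ᵥ v - v) := fun {i g} a v => by
    have := congrArg ((g.1⁻¹).1 *ᵥ ·) (sub_eq_zero.1 (q3 a a v))
    simp only [Matrix.mulVec_sub, Asch.inv_mulVec_mulVec] at this
    linear_combination this
  have tn : ∀ {i g}, L i g → ∀ v, (t i).1.1 *ᵥ (g.1.1 *ᵥ v - v) = -(g.1.1 *ᵥ (t i).1.1 *ᵥ v - (t i).1.1 *ᵥ v) :=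
    fun {i g} a v => by
    obtain ⟨o, j, n, c, e⟩ := id a
    rw [Matrix.mulVec_sub, ← mv, mul_inv_eq_iff_eq_mul.1 (t_inv h ht hp o e (.inl rfl)), mv, iv a]
    abel
  let B := (alt_om (K := K)).bilin
  have sp : ∀ (g : Y) u v, B (g.1.1 *ᵥ u) (g.1.1 *ᵥ v) = B u v := fun g => mem_Sp.1 (h.sp g.2)
  have ad : ∀ {i g}, L i g → ∀ u v, B (g.1.1 *ᵥ u - u) v = -B u (g.1.1 *ᵥ v - v) := fun {i g} a u v => by
    have := sp g u ((g.1⁻¹).1 *ᵥ v)
    rw [Asch.mulVec_inv_mulVec, iv a, map_sub] at this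
    rw [map_sub, LinearMap.sub_apply, this]
    ring
  have z : ∀ {x : K}, x = -x → x = 0 := fun e => (mul_eq_zero.1 (by linear_combination e)).resolve_left h.two
  let S := {w | ∃ i g v, L i g ∧ (t i).1.1 *ᵥ v = v ∧ w = g.1.1 *ᵥ v - v}
  have irr := h.cw.irr_of_closure hi (s := {g | ∃ i, L i g}) (top_le_iff.1 fun x _ => by
    obtain ⟨x, rfl⟩ := QuotientGroup.mk'_surjective _ x
    refine Subgroup.mem_comap.1
      ((Linear.eq_top_of_transvection_mem (Subgroup.comap pj _) fun i j n c => ?_).ge (Subgroup.mem_top x))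
    obtain ⟨g, e, o⟩ := h.lift hp (tv_pow p n c)
    exact Subgroup.subset_closure ⟨g, ⟨i, o, j, n, c, e⟩, e⟩)
  rcases T2.irr_sub irr (W := Submodule.span K S) (by
    rintro _ ⟨g, ⟨k, a⟩, rfl⟩
    refine (Submodule.span_le (p := (Submodule.span K S).comap (T2.lv g.1))).2 ?_
    rintro _ ⟨i, g', v, b, hv, rfl⟩
    have m : _ ∈ Submodule.span K S := Submodule.subset_span ⟨i, g', v, b, hv, rfl⟩
    change g.1.1 *ᵥ _ ∈ Submodule.span K S
    by_cases n : k = i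
    · subst n
      rwa [sub_eq_zero.1 (q3 a b v)]
    · have m' : _ ∈ Submodule.span K S := Submodule.subset_span
        ⟨k, g, _, a, t_fix h ho ht n (by rw [tn b, hv]), rfl⟩
      simpa using add_mem m' m) with e | e
  · obtain ⟨g, eg, o⟩ := h.lift hp (tv_pow p (zero_ne_one (α := Fin 3)) (1 : E))
    have a : L 0 g := ⟨o, 1, _, 1, eg⟩
    have tt : ∀ v, (t 0).1.1 *ᵥ (t 0).1.1 *ᵥ v = v := fun v => by
      rw [← mv, (ht 0).2.1, Units.val_one, Matrix.one_mulVec]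
    have k : ∀ v, g.1.1 *ᵥ (v + (t 0).1.1 *ᵥ v) - (v + (t 0).1.1 *ᵥ v) = 0 := fun v =>
      e.le (Submodule.subset_span ⟨0, g, _, a, by rw [Matrix.mulVec_add, tt, add_comm], rfl⟩)
    have g1 : g.1 = 1 := Units.ext (mat_ext_mulVec fun v => by
      rw [Units.val_one, Matrix.one_mulVec, ← sub_eq_zero]
      refine alt_om.nondeg _ fun x => z ?_
      have h1 := ad a (x + (t 0).1.1 *ᵥ x) v
      have h2 := sp (t 0) x (g.1.1 *ᵥ v - v)
      rw [tn a, show -(g.1.1 *ᵥ (t 0).1.1 *ᵥ v - (t 0).1.1 *ᵥ v) = g.1.1 *ᵥ v - v by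
        have := k v
        rw [Matrix.mulVec_add] at this
        linear_combination -this] at h2
      rw [k, map_zero, map_add, LinearMap.add_apply, h2, LinearMap.zero_apply] at h1
      change B x _ = -B x _
      linear_combination h1)
    rw [show g = 1 from Subtype.ext g1, map_one] at eg
    exact one_ne_zero ((Matrix.SpecialLinearGroup.transvection_mem_center_iff _ _).1
      ((QuotientGroup.eq_one_iff _).1 eg.symm))
  have : B = 0 := LinearMap.ext_on e (by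
    rintro _ ⟨i, g, v, a, hv, rfl⟩
    refine LinearMap.ext_on e ?_
    rintro _ ⟨k, g', v', b, hv', rfl⟩
    change B _ _ = 0
    by_cases n : i = k
    · subst n
      rw [ad a, q3 a b, map_zero, neg_zero]
    · have := sp (t i) (g.1.1 *ᵥ v - v) (g'.1.1 *ᵥ v' - v')
      rw [tn a, hv, t_fix h ho ht n (by rw [tn b, hv']), map_neg, LinearMap.neg_apply] at this
      exact z this.symm)
  exact one_ne_zero (congrFun (alt_om.nondeg (1 : I6 → K) fun x => by
    change B x 1 = 0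
    rw [this]
    rfl) (.inl 0))

end Cfsg.Lib.S6Q
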