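import Cfsg.Agent.Lib.S6Q.Pl

/-!
# Unipotent elements of rank two (odd characteristic)
-/

set_option autoImplicit false

namespace Cfsg.Lib.S6Q

open scoped MatrixGroups Matrix commutatorElement
open Cfsg.Geo Cfsg.Lib.Asch Cfsg.Lib.Linear Cfsg.Lib.Q4 Cfsg.Lib.Symp Module
open Cfsg.Lib.Q4R (Sq HasTv sc dg)

variable {K : Type*} [Field K] {g g' : G6 K} {a b a' b' : I6 → K}

/-- `g v = v + om v a • b + om v b • a` with `a ⟂ b` independent (the symmetric tensor `a b`). -/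
structure Qd (g : G6 K) (a b : I6 → K) : Prop where
  li : ∀ s t : K, s • a + t • b = 0 → s = 0 ∧ t = 0
  p : om K a b = 0
  eq : ∀ v, g.1 *ᵥ v = v + om K v a • b + om K v b • a

theorem om_add_l (x y v : I6 → K) : om K (x + y) v = om K x v + om K y v := alt_om.add_left x y v
theorem om_add_r (v x y : I6 → K) : om K v (x + y) = om K v x + om K v y := alt_om.add_right v x y
theorem om_sub_l (x y v : I6 → K) : om K (x - y) v = om K x v - om K y v := alt_om.sub_left x y v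
theorem om_sub_r (v x y : I6 → K) : om K v (x - y) = om K v x - om K v y := alt_om.sub_right v x y
theorem om_neg_l (x v : I6 → K) : om K (-x) v = -om K x v := alt_om.neg_left x v
theorem om_neg_r (v x : I6 → K) : om K v (-x) = -om K v x := alt_om.neg_right x v
theorem om_smul_l (c : K) (x v : I6 → K) : om K (c • x) v = c * om K x v := alt_om.smul_left c x v
theorem om_smul_r (c : K) (v x : I6 → K) : om K v (c • x) = c * om K v x := alt_om.smul_right' c v x
theorem om_self (x : I6 → K) : om K x x = 0 := alt_om.alt x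
theorem om_skew (x y : I6 → K) : om K x y = -om K y x := alt_om.skew x y
theorem om_zero_l (x : I6 → K) : om K 0 x = 0 := alt_om.zero_left x
theorem om_zero_r (x : I6 → K) : om K x 0 = 0 := alt_om.zero_right x

/-- prescribe one more value -/
theorem qd_step {W : Submodule K (I6 → K)} {c : I6 → K} (hc : c ∉ W) (v₀ : I6 → K) (r : K) :
    ∃ v, (∀ w ∈ W, om K v w = om K v₀ w) ∧ om K v c = r := by
  obtain ⟨f, f0, hf⟩ := Submodule.exists_dual_map_eq_bot_of_notMem hc inferInstance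
  obtain ⟨z, hz⟩ : ∃ z, ∀ w, om K z w = f w :=
    ⟨((alt_om (K := K)).bilin.toDual alt_om.nondegenerate).symm f, fun w =>
      LinearMap.BilinForm.apply_toDual_symm_apply (hB := alt_om.nondegenerate) f w⟩
  refine ⟨v₀ + ((r - om K v₀ c) / f c) • z, fun w hw => ?_, ?_⟩
  · have : f w = 0 := by
      rw [← Submodule.mem_bot K, ← hf]; exact ⟨w, hw, rfl⟩
    rw [om_add_l, om_smul_l, hz, this, mul_zero, add_zero]
  · rw [om_add_l, om_smul_l, hz, div_mul_cancel₀ _ f0, add_sub_cancel]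

theorem qd_ne (li : ∀ s t : K, s • a + t • b = 0 → s = 0 ∧ t = 0) : a ≠ 0 := fun k =>
  one_ne_zero (li 1 0 (by rw [k, smul_zero, zero_smul, add_zero])).1

theorem qd_dual (li : ∀ s t : K, s • a + t • b = 0 → s = 0 ∧ t = 0) (s t : K) :
    ∃ v, om K v a = s ∧ om K v b = t := by
  obtain ⟨v₀, -, h0⟩ := qd_step (W := ⊥) (c := a) (qd_ne li) 0 s
  obtain ⟨v, h1, h2⟩ := qd_step (W := K ∙ a) (c := b) (fun k => by
    obtain ⟨c, hc⟩ := Submodule.mem_span_singleton.1 k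
    exact one_ne_zero (neg_eq_zero.1 (li c (-1) (by rw [hc, neg_one_smul, add_neg_cancel])).2)) v₀ t
  exact ⟨v, (h1 a (Submodule.mem_span_singleton_self a)).trans h0, h2⟩

theorem qd_fr (li : ∀ s t : K, s • a + t • b = 0 → s = 0 ∧ t = 0) :
    finrank K (Submodule.span K {a, b}) = 2 := by
  have h := finrank_span_eq_card (LinearIndependent.pair_iff.2 li)
  rwa [Matrix.range_cons_cons_empty, Fintype.card_fin] at h

theorem qd_span {U : Submodule K (I6 → K)} (hU : finrank K U ≤ 2)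
    (li : ∀ s t : K, s • a + t • b = 0 → s = 0 ∧ t = 0) (ha : a ∈ U) (hb : b ∈ U) :
    Submodule.span K {a, b} = U :=
  Submodule.eq_of_le_of_finrank_le (Submodule.span_le.2 (Set.pair_subset ha hb)) (by rw [qd_fr li]; exact hU)

theorem qd_li {u v : I6 → K} (h : om K u v ≠ 0) (s t : K) (e : s • u + t • v = 0) : s = 0 ∧ t = 0 := by
  have h1 := congrArg (om K u) e
  have h2 := congrArg (om K · v) e
  simp only [om_add_l, om_add_r, om_smul_l, om_smul_r, om_self, om_zero_l, om_zero_r, mul_zero, add_zero,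
    zero_add] at h1 h2
  exact ⟨(mul_eq_zero.1 h2).resolve_right h, (mul_eq_zero.1 h1).resolve_right h⟩

theorem qd_mul (g g' : G6 K) (v : I6 → K) : (g * g').1 *ᵥ v = g.1 *ᵥ g'.1 *ᵥ v := by
  rw [Units.val_mul, Matrix.mulVec_mulVec]

theorem qd_inv (g : G6 K) (v : I6 → K) : g.1 *ᵥ (g⁻¹).1 *ᵥ v = v := by
  rw [← qd_mul, mul_inv_cancel, Units.val_one, Matrix.one_mulVec]

theorem qd_inv' (g : G6 K) (v : I6 → K) : (g⁻¹).1 *ᵥ g.1 *ᵥ v = v := by
  rw [← qd_mul, inv_mul_cancel, Units.val_one, Matrix.one_mulVec]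

theorem qd_n (g : G6 K) (v : I6 → K) : (T2.lv g - 1) v = g.1 *ᵥ v - v := rfl

theorem qd_rk_le {W : Submodule K (I6 → K)} (h : ∀ v, g.1 *ᵥ v - v ∈ W) : S6Q.rk g ≤ finrank K W := by
  rw [T2.rk_eq]
  refine Submodule.finrank_mono ?_
  rintro _ ⟨v, rfl⟩
  exact h v

theorem Qd.n (h : Qd g a b) (v : I6 → K) : (T2.lv g - 1) v = om K v a • b + om K v b • a := by
  rw [qd_n, h.eq]; abel

theorem Qd.symm (h : Qd g a b) : Qd g b a := by
  exact ⟨fun s t e => (h.li t s (by rw [add_comm, e])).symm, by rw [om_skew, h.p, neg_zero],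
    fun v => by rw [h.eq, add_right_comm]⟩

theorem Qd.inv (h : Qd g a b) : Qd g⁻¹ a (-b) := by
  refine ⟨fun s t e => ?_, by rw [om_neg_r, h.p, neg_zero], fun v => ?_⟩
  · obtain ⟨h1, h2⟩ := h.li s (-t) (by rw [← e, neg_smul, smul_neg])
    exact ⟨h1, neg_eq_zero.1 h2⟩
  · have : v = g.1 *ᵥ (v + om K v a • -b + om K v (-b) • a) := by
      rw [h.eq]
      simp only [om_add_l, om_smul_l, om_neg_l, om_neg_r, om_self, h.p, h.symm.p]
      module
    conv_lhs => rw [this, qd_inv']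

theorem Qd.exists_eq (h : Qd g a b) : ∃ v, (T2.lv g - 1) v = a := by
  obtain ⟨v, h1, h2⟩ := qd_dual h.li 0 1
  exact ⟨v, by rw [h.n, h1, h2, zero_smul, one_smul, zero_add]⟩

theorem Qd.range (h : Qd g a b) : LinearMap.range (T2.lv g - 1) = Submodule.span K {a, b} := by
  refine le_antisymm ?_ (Submodule.span_le.2 (Set.pair_subset h.exists_eq h.symm.exists_eq))
  rintro _ ⟨v, rfl⟩
  exact Submodule.mem_span_pair.2 ⟨_, _, by rw [h.n, add_comm]⟩

theorem Qd.sq (h : Qd g a b) : (T2.lv g - 1) * (T2.lv g - 1) = 0 := by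
  refine LinearMap.ext fun v => ?_
  rw [Module.End.mul_apply, h.n, h.n]
  simp only [om_add_l, om_smul_l, om_self, h.p, h.symm.p, mul_zero, add_zero, zero_smul, LinearMap.zero_apply]

theorem Qd.rk (h : Qd g a b) : rk g = 2 := by
  rw [T2.rk_eq, h.range, qd_fr h.li]

theorem Qd.conj (h : Qd g a b) {k : G6 K} (hk : k ∈ Sp K) : Qd (k * g * k⁻¹) (k.1 *ᵥ a) (k.1 *ᵥ b) := by
  have hk' := mem_Sp.1 hk
  refine ⟨fun s t e => h.li s t ?_, by rw [hk', h.p], fun v => ?_⟩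
  · rw [← qd_inv' k (s • a + t • b), Matrix.mulVec_add, Matrix.mulVec_smul, Matrix.mulVec_smul, e,
      Matrix.mulVec_zero]
  · rw [qd_mul, qd_mul, h.eq, Matrix.mulVec_add, Matrix.mulVec_add, Matrix.mulVec_smul, Matrix.mulVec_smul,
      ← hk' _ a, ← hk' _ b, qd_inv]

theorem Qd.uniq1 (h2 : (2 : K) ≠ 0) (h : Qd g a b) (h' : Qd g a' b') : a' ∈ K ∙ a ∨ a' ∈ K ∙ b := by
  obtain ⟨v, h1, h3⟩ := qd_dual h'.li 0 1
  have e := h.n v
  rw [h'.n, h1, h3, zero_smul, one_smul, zero_add] at e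
  have k : 2 * (om K v a * om K v b) = 0 := by
    rw [e, om_add_r, om_smul_r, om_smul_r] at h1
    linear_combination h1
  rcases mul_eq_zero.1 ((mul_eq_zero.1 k).resolve_left h2) with k | k
  · rw [k, zero_smul, zero_add] at e
    exact .inl (Submodule.mem_span_singleton.2 ⟨_, e.symm⟩)
  · rw [k, zero_smul, add_zero] at e
    exact .inr (Submodule.mem_span_singleton.2 ⟨_, e.symm⟩)

theorem qd_not_both (li : ∀ s t : K, s • a + t • b = 0 → s = 0 ∧ t = 0) {c : I6 → K} (ha : a ∈ K ∙ c)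
    (hb : b ∈ K ∙ c) : False := by
  obtain ⟨s, rfl⟩ := Submodule.mem_span_singleton.1 ha
  obtain ⟨t, rfl⟩ := Submodule.mem_span_singleton.1 hb
  exact qd_ne li (by rw [neg_eq_zero.1 (li t (-s) (by module)).2, zero_smul])

/-- The unordered pair of points is determined. -/
theorem Qd.uniq (h2 : (2 : K) ≠ 0) (h : Qd g a b) (h' : Qd g a' b') :
    (a' ∈ K ∙ a ∧ b' ∈ K ∙ b) ∨ (a' ∈ K ∙ b ∧ b' ∈ K ∙ a) := by
  rcases h.uniq1 h2 h' with k | k <;> rcases h.uniq1 h2 h'.symm with k' | k'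
  · exact (qd_not_both h'.li k k').elim
  · exact .inl ⟨k, k'⟩
  · exact .inr ⟨k, k'⟩
  · exact (qd_not_both h'.li k k').elim

/-- `N = g - 1` is nilpotent of rank two; `U = range N = (ker N)^⊥`.  If `U` were nondegenerate `N` would be
invertible on `U`; so `U` is totally isotropic, `N² = 0`, `(u, v) ↦ om u (N v)` is symmetric of rank two; take
its two isotropic points. -/
theorem exists_qd [IsAlgClosed K] (h2 : (2 : K) ≠ 0) (p : ℕ) [Fact p.Prime] [CharP K p] (hg : g ∈ Sp K)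
    (o : g ^ p = 1) (r : rk g = 2) : ∃ a b, Qd g a b := by
  rw [T2.rk_eq] at r
  have hs := mem_Sp.1 hg
  have hp : (T2.lv g - 1) ^ p = 0 := by
    rw [← pow_one p, O7.T3.unip p (Commute.one_right _), pow_one, ← map_pow, o, map_one, one_pow, sub_self]
  have hgN : ∀ v, g.1 *ᵥ v = v + (T2.lv g - 1) v := fun v => by rw [qd_n, add_sub_cancel]
  generalize T2.lv g - 1 = N at r hp hgN
  have k1 : ∀ u v, om K (N u) v + om K u (N v) + om K (N u) (N v) = 0 := fun u v => by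
    have := hs u v
    rw [hgN, hgN] at this
    simp only [om_add_l, om_add_r] at this
    linear_combination this
  obtain ⟨e₀, f₀, li⟩ : ∃ e₀ f₀, ∀ s t : K, s • N e₀ + t • N f₀ = 0 → s = 0 ∧ t = 0 := by
    let B := Module.finBasisOfFinrankEq K _ r
    obtain ⟨e₀, he⟩ := (B 0).2
    obtain ⟨f₀, hf⟩ := (B 1).2
    refine ⟨e₀, f₀, fun s t e => ?_⟩
    have := Fintype.linearIndependent_iff.1 B.linearIndependent ![s, t] (Subtype.ext (by
      rw [Fin.sum_univ_two]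
      rw [he, hf] at e
      exact e))
    exact ⟨this 0, this 1⟩
  obtain ⟨w, w0, w1⟩ : ∃ w, N w ≠ 0 ∧ N (N w) = 0 := by
    by_contra k
    push Not at k
    have : ∀ j : ℕ, N ((N ^ j) e₀) ≠ 0 := fun j => by
      induction j with
      | zero => exact qd_ne li
      | succ j ih => rw [pow_succ']; exact k _ ih
    exact this p (by rw [hp, LinearMap.zero_apply, map_zero])
  have k2 : ∀ u v, om K (N u) (N v) = 0 := fun u v => by
    by_contra k
    have hw : N w ∈ Submodule.span K {N u, N v} := by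
      rw [qd_span r.le (qd_li k) ⟨u, rfl⟩ ⟨v, rfl⟩]; exact ⟨w, rfl⟩
    obtain ⟨s, t, e⟩ := Submodule.mem_span_pair.1 hw
    have h1 := k1 u (N w)
    have h3 := k1 v (N w)
    rw [w1, om_zero_r, om_zero_r, add_zero, add_zero, ← e, om_add_r, om_smul_r, om_smul_r, om_self] at h1 h3
    rw [om_skew (N v)] at h3
    have s0 : s = 0 := (mul_eq_zero.1 (by linear_combination -h3 : s * om K (N u) (N v) = 0)).resolve_right k
    have t0 : t = 0 := (mul_eq_zero.1 (by linear_combination h1 : t * om K (N u) (N v) = 0)).resolve_right k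
    exact w0 (by rw [← e, s0, t0, zero_smul, zero_smul, add_zero])
  have k3 : ∀ u v, om K u (N v) = om K v (N u) := fun u v => by
    have := k1 u v
    rw [k2, om_skew (N u)] at this
    linear_combination this
  obtain ⟨e, e0, e1⟩ : ∃ e, N e ≠ 0 ∧ om K e (N e) = 0 := by
    by_cases hA : om K e₀ (N e₀) = 0
    · exact ⟨e₀, qd_ne li, hA⟩
    obtain ⟨δ, hδ⟩ := IsAlgClosed.exists_eq_mul_self
      (om K e₀ (N f₀) * om K e₀ (N f₀) - om K e₀ (N e₀) * om K f₀ (N f₀))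
    refine ⟨(δ - om K e₀ (N f₀)) • e₀ + om K e₀ (N e₀) • f₀, fun k => hA ?_, ?_⟩
    · rw [map_add, map_smul, map_smul] at k
      exact (li _ _ k).2
    · simp only [map_add, map_smul, om_add_l, om_add_r, om_smul_l, om_smul_r, k3 f₀ e₀]
      linear_combination (-om K e₀ (N e₀)) * hδ
  obtain ⟨f, f1, f2⟩ : ∃ f, om K e (N f) = 1 ∧ om K f (N f) = 0 := by
    obtain ⟨f, -, hf⟩ := qd_step (W := ⊥) (c := N e) e0 0 1
    refine ⟨f - (om K f (N f) / 2) • e, ?_, ?_⟩
    · rw [map_sub, map_smul, om_sub_r, om_smul_r, e1, k3, hf, mul_zero, sub_zero]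
    · simp only [map_sub, map_smul, om_sub_l, om_sub_r, om_smul_l, om_smul_r, k3 e f, hf, e1]
      field_simp
      ring
  have li' : ∀ s t : K, s • N e + t • N f = 0 → s = 0 ∧ t = 0 := fun s t k => by
    have h1 := congrArg (om K e) k
    have h3 := congrArg (om K f) k
    rw [om_add_r, om_smul_r, om_smul_r, om_zero_r] at h1 h3
    rw [e1, f1] at h1
    rw [k3 f e, f1, f2] at h3
    exact ⟨by linear_combination h3, by linear_combination h1⟩
  refine ⟨N e, N f, li', k2 e f, fun v => ?_⟩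
  have hv : N v ∈ Submodule.span K {N e, N f} := by
    rw [qd_span r.le li' ⟨e, rfl⟩ ⟨f, rfl⟩]; exact ⟨v, rfl⟩
  obtain ⟨s, t, k⟩ := Submodule.mem_span_pair.1 hv
  have h1 : om K v (N e) = t := by
    rw [k3, ← k, om_add_r, om_smul_r, om_smul_r, e1, f1]; ring
  have h3 : om K v (N f) = s := by
    rw [k3, ← k, om_add_r, om_smul_r, om_smul_r, k3 f e, f1, f2]; ring
  rw [hgN, h1, h3, ← k]
  abel

theorem qd_ring {R : Type*} [Ring R] {n m : R} (h1 : n * n = 0) (h2 : m * m = 0) (c : Commute n m) :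
    ((n + 1) * (m + 1) - 1) * ((n + 1) * (m + 1) - 1) = n * m + n * m := by
  have h3 : m * (n * m) = 0 := by rw [← mul_assoc, ← c.eq, mul_assoc, h2, mul_zero]
  have h4 : n * (n * m) = 0 := by rw [← mul_assoc, h1, zero_mul]
  have h5 : (n + 1) * (m + 1) - 1 = n + m + n * m := by noncomm_ring
  rw [h5]
  simp only [mul_add, add_mul, mul_assoc, h1, h2, h3, h4, ← c.eq, mul_zero, add_zero, zero_add]

/-- Commuting, with `(g g' - 1)² = 0`: `4 N N' = 0`, so the four vectors are perpendicular and tensors add. -/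
theorem Qd.perp (h2 : (2 : K) ≠ 0) (h : Qd g a b) (h' : Qd g' a' b') (c : Commute g g') {x y : I6 → K}
    (e : Qd (g * g') x y) : om K a a' = 0 ∧ om K a b' = 0 ∧ om K b a' = 0 ∧ om K b b' = 0 := by
  have k := qd_ring h.sq h'.sq (((c.map T2.lv).sub_left (Commute.one_left _)).sub_right (Commute.one_right _))
  rw [sub_add_cancel, sub_add_cancel, ← map_mul, e.sq, ← two_smul K, eq_comm, smul_eq_zero] at k
  have k' := k.resolve_left h2
  have main : ∀ z, (∃ v, (T2.lv g' - 1) v = z) → om K a z = 0 ∧ om K b z = 0 := by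
    rintro z ⟨v, hv⟩
    have := congrArg (· v) k'
    simp only [Module.End.mul_apply, hv, h.n, LinearMap.zero_apply] at this
    obtain ⟨h1, h3⟩ := h.li _ _ ((add_comm _ _).trans this)
    exact ⟨by rw [om_skew, h3, neg_zero], by rw [om_skew, h1, neg_zero]⟩
  obtain ⟨h1, h3⟩ := main _ h'.exists_eq
  obtain ⟨h4, h5⟩ := main _ h'.symm.exists_eq
  exact ⟨h1, h4, h3, h5⟩

theorem Qd.add_mem (h2 : (2 : K) ≠ 0) (h : Qd g a b) (h' : Qd g' a' b') (c : Commute g g') {x y : I6 → K}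
    (e : Qd (g * g') x y) (v : I6 → K) :
    om K v a • b + om K v b • a + om K v a' • b' + om K v b' • a' ∈ Submodule.span K {x, y} := by
  obtain ⟨h1, h3, h4, h5⟩ := h.perp h2 h' c e
  rw [← e.range]
  refine ⟨v, ?_⟩
  rw [qd_n, qd_mul, h.eq, h'.eq]
  simp only [om_add_l, om_smul_l, om_skew a' a, om_skew a' b, om_skew b' a, om_skew b' b, h1, h3, h4, h5]
  module

theorem Qd.add1 (h2 : (2 : K) ≠ 0) (h : Qd g a b) (h' : Qd g' a' b') (c : Commute g g') {x y : I6 → K}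
    (e : Qd (g * g') x y) (ha : a' ∉ Submodule.span K {a, b}) :
    ∃ α β : K, b' = α • a + β • b + (α * β) • a' := by
  have M := h.add_mem h2 h' c e
  have d3 : ∀ p q r : K, ∃ v, om K v a = p ∧ om K v b = q ∧ om K v a' = r := fun p q r => by
    obtain ⟨v₀, h1, h3⟩ := qd_dual h.li p q
    obtain ⟨v, h4, h5⟩ := qd_step ha v₀ r
    exact ⟨v, (h4 a (Submodule.subset_span (by simp))).trans h1, (h4 b (Submodule.subset_span (by simp))).trans h3, h5⟩
  have fin : a ∈ Submodule.span K {x, y} → b ∈ Submodule.span K {x, y} → a' ∈ Submodule.span K {x, y} → False :=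
    fun h1 h3 h4 => ha (by rwa [qd_span (qd_fr e.li).le h.li h1 h3])
  by_cases hb : b' ∈ Submodule.span K {a, b, a'}
  · obtain ⟨α, β, γ, rfl⟩ := Submodule.mem_span_triple.1 hb
    by_cases k : γ = α * β
    · exact ⟨α, β, by rw [k]⟩
    exfalso
    obtain ⟨v₁, p1, q1, r1⟩ := d3 1 0 0
    obtain ⟨v₂, p2, q2, r2⟩ := d3 0 1 0
    obtain ⟨v₃, p3, q3, r3⟩ := d3 (-β) (-α) 1
    have m1 := M v₁
    have m2 := M v₂
    have m3 := M v₃
    simp only [om_add_r, om_smul_r, p1, q1, r1, p2, q2, r2, p3, q3, r3] at m1 m2 m3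
    have k3 : a' ∈ Submodule.span K {x, y} := by
      have k0 : 2 * (γ - α * β) ≠ 0 := mul_ne_zero h2 (sub_ne_zero.2 k)
      rw [← Submodule.smul_mem_iff _ k0]
      convert m3 using 1
      module
    refine fin ?_ ?_ k3
    · convert Submodule.sub_mem _ m2 (Submodule.smul_mem _ β k3) using 1
      module
    · convert Submodule.sub_mem _ m1 (Submodule.smul_mem _ α k3) using 1
      module
  · exfalso
    have d4 : ∀ p q r s : K, p • b + q • a + r • b' + s • a' ∈ Submodule.span K {x, y} := fun p q r s => by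
      obtain ⟨v₀, h1, h3, h4⟩ := d3 p q r
      obtain ⟨v, h5, h6⟩ := qd_step hb v₀ s
      have := M v
      rwa [h5 a (Submodule.subset_span (by simp)), h5 b (Submodule.subset_span (by simp)),
        h5 a' (Submodule.subset_span (by simp)), h1, h3, h4, h6] at this
    exact fin (by simpa using d4 0 1 0 0) (by simpa using d4 1 0 0 0) (by simpa using d4 0 0 0 1)

theorem Qd.add2 (h2 : (2 : K) ≠ 0) (h : Qd g a b) (h' : Qd g' a' b') (c : Commute g g') {x y : I6 → K}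
    (e : Qd (g * g') x y) {x' y' : I6 → K} (e' : Qd (g * g'⁻¹) x' y') (ha : a' ∉ Submodule.span K {a, b}) :
    b' ∈ K ∙ a ∨ b' ∈ K ∙ b := by
  obtain ⟨α, β, k⟩ := h.add1 h2 h' c e ha
  obtain ⟨α', β', k'⟩ := h.add1 h2 h'.inv c.inv_right e' ha
  have k0 : α * β + α' * β' = 0 := by
    by_contra k0
    refine ha ?_
    rw [← Submodule.smul_mem_iff _ k0]
    exact Submodule.mem_span_pair.2 ⟨-(α + α'), -(β + β'), by linear_combination (norm := module) k + k'⟩
  obtain ⟨h1, h3⟩ := h.li (α + α') (β + β') (by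
    linear_combination (norm := module) -k - k' - k0 • a')
  have k1 : 2 * (α * β) = 0 := by
    linear_combination k0 + β * h1 - α' * h3
  have k2 := (mul_eq_zero.1 k1).resolve_left h2
  rcases mul_eq_zero.1 k2 with k3 | k3
  · exact .inr (Submodule.mem_span_singleton.2 ⟨β, by rw [k, k2, k3]; module⟩)
  · exact .inl (Submodule.mem_span_singleton.2 ⟨α, by rw [k, k2, k3]; module⟩)

/-- ... and `a b + a' b'`, `a b - a' b'` have rank two: same line, or a common point. -/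
theorem Qd.add (h2 : (2 : K) ≠ 0) (h : Qd g a b) (h' : Qd g' a' b') (c : Commute g g') {x y : I6 → K}
    (e : Qd (g * g') x y) {x' y' : I6 → K} (e' : Qd (g * g'⁻¹) x' y') : Submodule.span K {a, b} = Submodule.span K {a', b'} ∨
      a' ∈ K ∙ a ∨ a' ∈ K ∙ b ∨ b' ∈ K ∙ a ∨ b' ∈ K ∙ b := by
  by_cases ha : a' ∈ Submodule.span K {a, b}
  · by_cases hb : b' ∈ Submodule.span K {a, b}
    · exact .inl (qd_span (qd_fr h.li).le h'.li ha hb).symm
    · rcases h.add2 h2 h'.symm c e e' hb with k | k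
      · exact .inr (.inl k)
      · exact .inr (.inr (.inl k))
  · exact .inr (.inr (.inr (h.add2 h2 h' c e e' ha)))

theorem qd_ring' {R : Type*} [Ring R] {n m : R} (h1 : n * n = 0) (h2 : m * m = 0)
    (e : (n + 1) * (m + 1) * (n + 1) = (m + 1) * (n + 1) * (m + 1)) : n * (1 + m * n) = m * (1 + n * m) := by
  have h3 : (n + 1) * (m + 1) * (n + 1) - (m + 1) * (n + 1) * (m + 1) =
      n * (1 + m * n) - m * (1 + n * m) + n * n - m * m := by noncomm_ring
  rw [e, sub_self, h1, h2, add_zero, sub_zero] at h3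
  exact sub_eq_zero.1 h3.symm

theorem Qd.braid1 (h2 : (2 : K) ≠ 0) (h : Qd g a b) (h' : Qd g' a' b') (e : g * g' * g = g' * g * g')
    (r : Submodule.span K {a, b} ⊓ Submodule.span K {a', b'} = ⊥) :
    om K a a' * om K a b' = 0 ∧ om K a a' * om K b b' + om K a b' * om K b a' = 1 := by
  have k := qd_ring' h.sq h'.sq (by
    simp only [sub_add_cancel, ← map_mul, e])
  obtain ⟨v, hv⟩ := h.exists_eq
  have k1 := congrArg (· v) k
  simp only [Module.End.mul_apply] at k1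
  have k2 : (T2.lv g - 1) ((1 + (T2.lv g' - 1) * (T2.lv g - 1)) v) = 0 := by
    rw [← Submodule.mem_bot K, ← r, ← h.range, ← h'.range]
    exact ⟨⟨_, rfl⟩, ⟨_, k1.symm⟩⟩
  rw [LinearMap.add_apply, Module.End.one_apply, Module.End.mul_apply, map_add, hv, h'.n, h.n] at k2
  simp only [om_add_l, om_smul_l, om_skew a' a, om_skew a' b, om_skew b' a, om_skew b' b] at k2
  obtain ⟨h1, h3⟩ := h.li (1 - (om K a a' * om K b b' + om K a b' * om K b a')) (-(2 * (om K a a' * om K a b')))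
    (by linear_combination (norm := module) k2)
  exact ⟨(mul_eq_zero.1 (neg_eq_zero.1 h3)).resolve_left h2, (sub_eq_zero.1 h1).symm⟩

/-- The braid relation (block matrices `A B = -1` on `⟨a, b⟩ ⊕ ⟨a', b'⟩`): the coefficient of `b` in `A B a` is
`± 2 om a a' * om a b'`. -/
theorem Qd.braid (h2 : (2 : K) ≠ 0) (h : Qd g a b) (h' : Qd g' a' b') (e : g * g' * g = g' * g * g')
    (r : Submodule.span K {a, b} ⊓ Submodule.span K {a', b'} = ⊥) :
    (om K a a' = 0 ∧ om K b b' = 0 ∧ om K a b' ≠ 0 ∧ om K b a' ≠ 0) ∨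
      (om K a b' = 0 ∧ om K b a' = 0 ∧ om K a a' ≠ 0 ∧ om K b b' ≠ 0) := by
  obtain ⟨h1, h3⟩ := h.braid1 h2 h' e r
  obtain ⟨h4, -⟩ := h.symm.braid1 h2 h' e (by rwa [Set.pair_comm])
  by_cases k : om K a a' = 0
  · rw [k, zero_mul, zero_add] at h3
    exact .inl ⟨k, (mul_eq_zero.1 h4).resolve_left (right_ne_zero_of_mul_eq_one h3), left_ne_zero_of_mul_eq_one h3,
      right_ne_zero_of_mul_eq_one h3⟩
  · have k1 := (mul_eq_zero.1 h1).resolve_left k
    rw [k1, zero_mul, add_zero] at h3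
    exact .inr ⟨k1, (mul_eq_zero.1 h4).resolve_right (right_ne_zero_of_mul_eq_one h3), k,
      right_ne_zero_of_mul_eq_one h3⟩

theorem TI.qd_tt {t : G6 K} (i : TI t) (x : I6 → K) : t.1 *ᵥ t.1 *ᵥ x = x := by
  rw [← qd_mul, i.1, Units.val_one, Matrix.one_mulVec]

theorem qd_om_neg {t : G6 K} (s : t ∈ Sp K) {v : I6 → K} (hv : t.1 *ᵥ v = -v) (x : I6 → K) :
    om K (t.1 *ᵥ x) v = -om K x v := by
  rw [← mem_Sp.1 s x v, hv, om_neg_r, neg_neg]

theorem TI.exists_hyp (h2 : (2 : K) ≠ 0) {t : G6 K} (s : t ∈ Sp K) (i : TI t) {v : I6 → K} (v0 : v ≠ 0)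
    (hv : t.1 *ᵥ v = -v) : ∃ u, t.1 *ᵥ u = -u ∧ om K v u = 1 := by
  obtain ⟨y, -, hy⟩ := qd_step (W := ⊥) (c := v) v0 0 (-1)
  refine ⟨(2⁻¹ : K) • (y - t.1 *ᵥ y), ?_, ?_⟩
  · rw [Matrix.mulVec_smul, Matrix.mulVec_sub, i.qd_tt]; module
  · rw [om_skew, om_smul_l, om_sub_l, qd_om_neg s hv, hy]
    field_simp
    ring

/-- the explicit form of a type I involution -/
theorem TI.form (h2 : (2 : K) ≠ 0) {t : G6 K} (s : t ∈ Sp K) (i : TI t) {v u : I6 → K} (hv : t.1 *ᵥ v = -v)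
    (hu : t.1 *ᵥ u = -u) (e : om K v u = 1) (x : I6 → K) :
    t.1 *ᵥ x = x - (2 * om K x u) • v + (2 * om K x v) • u := by
  have m : ∀ w, t.1 *ᵥ w = -w → w ∈ LinearMap.range (T2.lv t - 1) := fun w hw =>
    ⟨(-2⁻¹ : K) • w, by
      rw [map_smul, qd_n, hw]
      have : (2⁻¹ : K) * 2 = 1 := inv_mul_cancel₀ h2
      linear_combination (norm := module) this • w⟩
  have hx : t.1 *ᵥ x - x ∈ Submodule.span K {v, u} := by
    rw [qd_span ((T2.rk_eq t).symm.trans i.2).le (qd_li (by rw [e]; exact one_ne_zero)) (m v hv) (m u hu)]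
    exact ⟨x, rfl⟩
  obtain ⟨p, q, k⟩ := Submodule.mem_span_pair.1 hx
  have h1 := congrArg (om K · u) k
  have h3 := congrArg (om K · v) k
  simp only [om_add_l, om_sub_l, om_smul_l, om_self, om_skew u v, e, qd_om_neg s hv, qd_om_neg s hu] at h1 h3
  have hp : p = -(2 * om K x u) := by linear_combination h1
  have hq : q = 2 * om K x v := by linear_combination -h3
  rw [hp, hq] at k
  linear_combination (norm := module) -k

/-- the product of two type I involutions whose planes meet -/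
theorem TI.mul_form (h2 : (2 : K) ≠ 0) {t t' : G6 K} (s : t ∈ Sp K) (s' : t' ∈ Sp K) (i : TI t) (i' : TI t')
    {v u u' : I6 → K} (hv : t.1 *ᵥ v = -v) (hv' : t'.1 *ᵥ v = -v) (hu : t.1 *ᵥ u = -u) (hu' : t'.1 *ᵥ u' = -u')
    (e : om K v u = 1) (e' : om K v u' = 1) (x : I6 → K) :
    (t * t').1 *ᵥ x = x + om K x v • ((2 : K) • (u' - u - om K u' u • v)) +
      om K x ((2 : K) • (u' - u - om K u' u • v)) • v := by
  rw [qd_mul, i'.form h2 s' hv' hu' e', Matrix.mulVec_add, Matrix.mulVec_sub, Matrix.mulVec_smul,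
    Matrix.mulVec_smul, hv, i.form h2 s hv hu e x, i.form h2 s hv hu e u']
  simp only [om_sub_r, om_smul_r, om_skew u' v, e']
  module

theorem qd_comm {a b b' : I6 → K} (h : ∀ v, g.1 *ᵥ v = v + om K v a • b + om K v b • a)
    (h' : ∀ v, g'.1 *ᵥ v = v + om K v a • b' + om K v b' • a) (p : om K b a = 0) (p' : om K b' a = 0) :
    S6Q.rk ⁅g, g'⁆ ≤ 1 := by
  refine (qd_rk_le (W := K ∙ a) fun v => ?_).trans ((finrank_span_le_card _).trans (by simp))
  obtain ⟨x, rfl⟩ : ∃ x, v = g'.1 *ᵥ g.1 *ᵥ x := ⟨(g⁻¹).1 *ᵥ (g'⁻¹).1 *ᵥ v, by rw [qd_inv, qd_inv]⟩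
  rw [commutatorElement_def, qd_mul, qd_mul, qd_mul, qd_inv', qd_inv']
  refine Submodule.mem_span_singleton.2 ⟨2 * om K x a * om K b' b, ?_⟩
  rw [h, h', h', h]
  simp only [om_add_l, om_smul_l, om_self, om_skew a b, om_skew a b', om_skew b b', p, p']
  module

theorem qd_common (h2 : (2 : K) ≠ 0) {t t' t'' : G6 K} (s : t ∈ Sp K) (s' : t' ∈ Sp K) (s'' : t'' ∈ Sp K)
    (i : TI t) (i' : TI t') (i'' : TI t'') {v : I6 → K} (v0 : v ≠ 0) (hv : t.1 *ᵥ v = -v) (hv' : t'.1 *ᵥ v = -v)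
    (hv'' : t''.1 *ᵥ v = -v) : S6Q.rk ⁅t * t', t * t''⁆ ≤ 1 := by
  obtain ⟨u, hu, e⟩ := i.exists_hyp h2 s v0 hv
  obtain ⟨u', hu', e'⟩ := i'.exists_hyp h2 s' v0 hv'
  obtain ⟨u'', hu'', e''⟩ := i''.exists_hyp h2 s'' v0 hv''
  refine qd_comm (i.mul_form h2 s s' i' hv hv' hu hu' e e') (i.mul_form h2 s s'' i'' hv hv'' hu hu'' e e'') ?_ ?_ <;>
  simp only [om_sub_l, om_smul_l, om_self, om_skew u v, om_skew u' v, om_skew u'' v, e, e', e''] <;> ring

/-- perpendicular vectors of the plane are proportional -/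
theorem TI.qd_prop (h2 : (2 : K) ≠ 0) {t : G6 K} (s : t ∈ Sp K) (i : TI t) {v w : I6 → K} (v0 : v ≠ 0)
    (hv : t.1 *ᵥ v = -v) (hw : t.1 *ᵥ w = -w) (e : om K v w = 0) : ∃ c : K, w = c • v := by
  obtain ⟨u, hu, e'⟩ := i.exists_hyp h2 s v0 hv
  have k := i.form h2 s hv hu e' w
  rw [hw, om_skew w v, e] at k
  refine ⟨om K w u, smul_right_injective _ h2 ?_⟩
  linear_combination (norm := module) -k

/-- Three type I involutions whose planes meet pairwise: the planes have a common line or lie in a `3`-space, and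
`⁅t t', t t''⁆` has rank at most one when `t t'`, `t t''` are unipotent (`t t' = 1 + c · w r` with `w` the common
line of the two planes and `r` the radical of their sum). -/
theorem rk_comm_le (h2 : (2 : K) ≠ 0) (p : ℕ) [Fact p.Prime] [CharP K p] {t t' t'' : G6 K} (s : t ∈ Sp K)
    (s' : t' ∈ Sp K) (s'' : t'' ∈ Sp K) (i : TI t) (i' : TI t') (i'' : TI t'') (u : (t * t') ^ p = 1)
    (u' : (t * t'') ^ p = 1) (m : ∃ v ≠ 0, t.1 *ᵥ v = -v ∧ t'.1 *ᵥ v = -v)
    (m' : ∃ v ≠ 0, t.1 *ᵥ v = -v ∧ t''.1 *ᵥ v = -v) (m'' : ∃ v ≠ 0, t'.1 *ᵥ v = -v ∧ t''.1 *ᵥ v = -v) :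
    S6Q.rk ⁅t * t', t * t''⁆ ≤ 1 := by
  obtain ⟨v, v0, hv, hv'⟩ := m
  obtain ⟨v', v0', hw, hw'⟩ := m'
  obtain ⟨w, w0, hz, hz'⟩ := m''
  have sm : ∀ {r : G6 K} {z : I6 → K} (c : K), r.1 *ᵥ z = -z → r.1 *ᵥ (c • z) = -(c • z) := fun c k => by
    rw [Matrix.mulVec_smul, k, smul_neg]
  by_cases h1 : om K v v' = 0
  · obtain ⟨c, rfl⟩ := i.qd_prop h2 s v0' hw hv (by rw [om_skew, h1, neg_zero])
    exact qd_common h2 s s' s'' i i' i'' v0 hv hv' (sm c hw')
  by_cases h3 : om K v w = 0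
  · obtain ⟨c, rfl⟩ := i'.qd_prop h2 s' w0 hz hv' (by rw [om_skew, h3, neg_zero])
    exact qd_common h2 s s' s'' i i' i'' v0 hv hv' (sm c hz')
  by_cases h4 : om K v' w = 0
  · obtain ⟨c, rfl⟩ := i''.qd_prop h2 s'' w0 hz' hw' (by rw [om_skew, h4, neg_zero])
    exact qd_common h2 s s' s'' i i' i'' v0' hw (sm c hz) hw'
  obtain ⟨x, hx, hx', e1, e2⟩ : ∃ x, t.1 *ᵥ x = -x ∧ t''.1 *ᵥ x = -x ∧ om K v x = 1 ∧ om K x w ≠ 0 :=
    ⟨(om K v v')⁻¹ • v', sm _ hw, sm _ hw', by rw [om_smul_r, inv_mul_cancel₀ h1],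
      by rw [om_smul_l]; exact mul_ne_zero (inv_ne_zero h1) h4⟩
  obtain ⟨y, hy, hy', e3, e4⟩ : ∃ y, t'.1 *ᵥ y = -y ∧ t''.1 *ᵥ y = -y ∧ om K v y = 1 ∧ om K x y ≠ 0 :=
    ⟨(om K v w)⁻¹ • w, sm _ hz, sm _ hz', by rw [om_smul_r, inv_mul_cancel₀ h3],
      by rw [om_smul_r]; exact mul_ne_zero (inv_ne_zero h3) e2⟩
  have f1 := i.mul_form h2 s s' i' hv hv' hx hy e1 e3
  have f2 := i.mul_form h2 s s'' i'' hx hx' (u := -v) (by rw [Matrix.mulVec_neg, hv]) (sm (om K x y)⁻¹ hy')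
    (by rw [om_neg_r, om_skew, e1, neg_neg]) (by rw [om_smul_r, inv_mul_cancel₀ e4])
  have e5 : (om K x y)⁻¹ • y - -v - om K ((om K x y)⁻¹ • y) (-v) • x = (om K x y)⁻¹ • (y - x - om K y x • v) := by
    rw [om_neg_r, om_smul_l, om_skew y v, e3, om_skew y x]
    have := inv_mul_cancel₀ e4
    linear_combination (norm := module) (-this) • v
  rw [e5] at f2
  refine qd_comm (a := y - x - om K y x • v) (b := (2 : K) • v) (b' := (2 * (om K x y)⁻¹) • x)
    (fun z => ?_) (fun z => ?_) ?_ ?_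
  · rw [f1, om_smul_r, om_smul_r]; module
  · rw [f2, om_smul_r, om_smul_r, om_smul_r]; module
  · simp only [om_sub_r, om_smul_l, om_smul_r, om_self, e1, e3]; ring
  · simp only [om_sub_r, om_smul_l, om_smul_r, om_self, om_skew x v, om_skew y x, e1]; ring

/-- If the planes of `t ≠ t'` meet then `rk (t t') ≤ 2`. -/
theorem rk_mul_ti (h2 : (2 : K) ≠ 0) {t t' : G6 K} (s : t ∈ Sp K) (s' : t' ∈ Sp K) (i : TI t) (i' : TI t')
    (m : ∃ v ≠ 0, t.1 *ᵥ v = -v ∧ t'.1 *ᵥ v = -v) : S6Q.rk (t * t') ≤ 2 := by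
  obtain ⟨v, v0, hv, hv'⟩ := m
  obtain ⟨u, hu, e⟩ := i.exists_hyp h2 s v0 hv
  obtain ⟨u', hu', e'⟩ := i'.exists_hyp h2 s' v0 hv'
  refine (qd_rk_le (W := Submodule.span K {v, (2 : K) • (u' - u - om K u' u • v)}) fun x => ?_).trans ?_
  · rw [i.mul_form h2 s s' i' hv hv' hu hu' e e']
    exact Submodule.mem_span_pair.2 ⟨_, _, by rw [add_assoc, add_sub_cancel_left, add_comm]⟩
  · classical
    refine (finrank_span_le_card _).trans ?_
    rw [Set.toFinset_insert, Set.toFinset_singleton]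
    exact Finset.card_le_two

end Cfsg.Lib.S6Q
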