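import Cfsg.Agent.Lib.S6Q.Un0

/-!
# Quaternionic reflections: definitions

`± U₃(3)` and `2 · J₂` are generated by involutions of type `TI` (reflections over `M₂(K)`).  The relations `Sx`, `Sx'` between the
generators determine them up to conjugacy (`NF`, `NF'`).
-/

set_option autoImplicit false

namespace Cfsg.Lib.S6Q

open scoped MatrixGroups Matrix commutatorElement
open Cfsg.Geo Cfsg.Lib.Asch Cfsg.Lib.Linear Cfsg.Lib.Q4 Cfsg.Lib.Symp Module
open Cfsg.Lib.Q4R (Sq HasTv sc dg)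

/-- Generators of `U₃(3)`: the roots are `(1, 0, 0)`, `(1, 1, 0)`, `(0, 1, 1)`, `(1, i, 0)`, `(1, 1, -1 - i)`. -/
structure Sx {X : Type*} [Group X] (a b c d r : X) : Prop where
  a1 : a ≠ 1
  a2 : a * a = 1
  b2 : b * b = 1
  c2 : c * c = 1
  d2 : d * d = 1
  r2 : r * r = 1
  ar : (a * r) ^ 3 = 1
  dr : (d * r) ^ 3 = 1
  dc : (d * c) ^ 3 = 1
  bc : (b * c) ^ 3 = 1
  ab : a * (b * a * b) = c * b * a * b * c
  da : d * a * d = b * a * b
  bd : (b * d) ^ 2 = c * b * a * b * c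
  ra : Commute r (a * b * a)
  br : (c * b * c * r) ^ 3 = 1
  cr : (c * d * c * r) ^ 3 = 1

/-- Generators of `J₂`: `e` has the root `(1, j, 0)`. -/
structure Sx' {X : Type*} [Group X] (a b c d r e : X) : Prop extends Sx a b c d r where
  e2 : e * e = 1
  ec : (e * c) ^ 3 = 1
  ea : e * a * e = b * a * b
  be : (b * e) ^ 2 = c * b * a * b * c
  de : (d * e) ^ 2 = c * b * a * b * c
  er : (b * d * c * e * c * d * b * r) ^ 3 = 1

variable {K : Type*} [Field K] {f f' f₁ f₂ f₃ g₁ g₂ g₃ : Fm K} {J J' z I I' y δ : M2 K} {s : K}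
  {t t' n A B C D R E A' B' C' D' R' E' : G6 K}

/-- The relations in `Sp₆(K)`. -/
structure Sy (A B C D R : G6 K) : Prop where
  two : (2 : K) ≠ 0
  sp : ∀ g ∈ [A, B, C, D, R], g ∈ Sp K ∧ TI g
  ar : (A * R) ^ 3 = 1
  ab : A * (B * A * B) = -(C * B * A * B * C)
  da : D * A * D = B * A * B
  bd : (B * D) ^ 2 = -(C * B * A * B * C)
  ra : Commute R (A * B * A)
  br : (C * B * C * R) ^ 3 = 1
  cr : (C * D * C * R) ^ 3 = 1

/-- The relations in `Sp₆(K)`. -/
structure Sy' (A B C D R E : G6 K) : Prop extends Sy A B C D R where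
  spe : E ∈ Sp K ∧ TI E
  ea : E * A * E = B * A * B
  be : (B * E) ^ 2 = -(C * B * A * B * C)
  de : (D * E) ^ 2 = -(C * B * A * B * C)
  er : (B * D * C * E * C * D * B * R) ^ 3 = 1

/-- The reflection with root `f`, `c • ad f * f = 2`. -/
def rf (c : K) (f : Fm K) : Matrix I6 I6 K := 1 - c • (f * ad f)

/-- Three perpendicular frames. -/
structure Tr3 (f₁ f₂ f₃ : Fm K) : Prop where
  h₁ : Fr f₁
  h₂ : Fr f₂
  h₃ : Fr f₃
  h₁₂ : ad f₁ * f₂ = 0
  h₁₃ : ad f₁ * f₃ = 0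
  h₂₃ : ad f₂ * f₃ = 0

/-- The quaternions `J`, `z = (1 + J) / 4 + z'`. -/
structure Qz (J z : M2 K) : Prop where
  two : (2 : K) ≠ 0
  pu : Pu J
  t₁ : 2 * z.trace = 1
  t₂ : 2 * (J.adjugate * z).trace = 1
  dz : 2 * z.det = 1

/-- `z = (1 + J - s J' + J J') / 4`. -/
structure Qz' (J z J' : M2 K) (s : K) : Prop extends Qz J z where
  pu' : Pu J'
  an : J * J' = -(J' * J)
  t₃ : 2 * (J'.adjugate * z).trace = -s
  t₄ : 2 * ((J * J').adjugate * z).trace = 1

/-- The normal form. -/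
structure NF (f₁ f₂ f₃ : Fm K) (J z : M2 K) (A B C D R : G6 K) : Prop where
  tr : Tr3 f₁ f₂ f₃
  q : Qz J z
  a : A.1 = rf 2 f₁
  b : B.1 = rf 1 (f₁ + f₂)
  c : C.1 = rf 1 (f₂ + f₃)
  d : D.1 = rf 1 (f₁ + f₂ * J)
  r : R.1 = rf 2 ((2 : K)⁻¹ • (f₁ + f₂) + f₃ * z)

/-- The normal form. -/
structure NF' (f₁ f₂ f₃ : Fm K) (J z J' : M2 K) (s : K) (A B C D R E : G6 K) : Prop extends NF f₁ f₂ f₃ J z A B C D R where
  q' : Qz' J z J' s
  e : E.1 = rf 1 (f₁ + f₂ * J')

theorem Fr.eq (h : Fr f) : ad f * f = 1 := h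

theorem rf_el : rf 2 f = el f (-1) := by
  rw [rf, el, show (-1 - 1 : M2 K) = (-2 : K) • 1 by module, Matrix.mul_smul, Matrix.smul_mul, Matrix.mul_one, neg_smul,
    sub_eq_add_neg]

theorem rf_adj : (f * ad f')ᵀ * Matrix.J (Fin 3) K = Matrix.J (Fin 3) K * (f' * ad f) := by
  have : (!![0, -1; 1, 0] : M2 K)ᵀ = -!![0, -1; 1, 0] := by ext i j; fin_cases i <;> fin_cases j <;> simp
  simp only [ad, Matrix.transpose_mul, Matrix.transpose_transpose, Matrix.J_transpose, this, Matrix.mul_assoc, Matrix.neg_mul,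
    Matrix.mul_neg, neg_neg]

theorem rf_apply (c : K) : rf c f * f' = f' - c • (f * (ad f * f')) := by
  rw [rf, Matrix.sub_mul, Matrix.one_mul, Matrix.smul_mul, Matrix.mul_assoc]

theorem rf_mul (c : K) (d : δ.det = 1) : rf c (f * δ) = rf c f := by
  rw [rf, rf, ad_mul, Matrix.mul_assoc, ← Matrix.mul_assoc δ, Matrix.mul_adjugate, d, one_smul, Matrix.one_mul]

theorem rf_smul (c d : K) : rf c (d • f) = rf (c * d ^ 2) f := by
  rw [rf, rf, ad_smul, Matrix.smul_mul, Matrix.mul_smul, smul_smul, smul_smul, sq, mul_assoc]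

theorem rf_conj (c : K) (hn : n ∈ Sp K) : n.1 * rf c f * (n⁻¹).1 = rf c (n.1 * f) := by
  rw [rf, rf, ad_sp hn, mul_sub, sub_mul, mul_one, Units.mul_inv, mul_smul_comm, smul_mul_assoc]
  simp only [Matrix.mul_assoc]

theorem TI.exists_fr [IsAlgClosed K] (h2 : (2 : K) ≠ 0) (h : TI t) (s : t ∈ Sp K) : ∃ f, Fr f ∧ t.1 = rf 2 f := by
  obtain ⟨k, hk, μ, -, e⟩ := exists_conj_tor s (n := 2) (by rw [sq, h.1]) (by exact_mod_cast h2)
  obtain ⟨i, rfl⟩ := TI.one (e ▸ h.conj k)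
  obtain ⟨f₀, F, E⟩ := un0_frame (K := K) i
  refine ⟨_, F.conj (inv_mem hk), ?_⟩
  rw [← rf_conj _ (inv_mem hk), rf_el, show (-1 : M2 K) = !![-1, 0; 0, -1] by ext i j; fin_cases i <;> fin_cases j <;> simp, E,
    show t = k⁻¹ * (k * t * k⁻¹) * k⁻¹⁻¹ by group, e, Units.val_mul, Units.val_mul, tor_eq, Q4R.dg_val]
  congr 3
  funext a
  rcases a with l | l <;> by_cases a : l = i <;> simp [a]

theorem rf_ad_map {L : Type*} [Field L] (σ : K →+* L) : (ad f).map σ = ad (f.map σ) := by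
  rw [ad, ad, Matrix.map_mul, Matrix.map_mul, Matrix.transpose_map]
  congr 2
  · ext i j; fin_cases i <;> fin_cases j <;> simp
  · ext (i | i) (j | j) <;> simp [Matrix.J, Matrix.one_apply, apply_ite σ]

theorem rf_map {L : Type*} [Field L] (σ : K →+* L) (c : K) : (rf c f).map σ = rf (σ c) (f.map σ) := by
  rw [rf, rf, ← rf_ad_map, ← Matrix.map_mul]
  ext i j
  simp [-Matrix.map_mul, Matrix.one_apply, apply_ite σ]

/-- Frames of the same plane. -/
theorem Fr.of_rf (h2 : (2 : K) ≠ 0) (h : Fr f) (h' : Fr f') (e : rf 2 f = rf 2 f') : ∃ δ : M2 K, δ.det = 1 ∧ f' = f * δ := by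
  have e1 : f' = f * (ad f * f') := by
    rw [← Matrix.mul_assoc, smul_right_injective _ h2 (sub_right_injective e), Matrix.mul_assoc, h', Matrix.mul_one]
  refine ⟨_, ?_, e1⟩
  rw [Fr, e1, ad_mul, Matrix.mul_assoc, ← Matrix.mul_assoc (ad f), h, Matrix.one_mul, Matrix.adjugate_mul] at h'
  simpa using congrFun (congrFun h' 0) 0

/-- A root `f` with `c • ad f * f = 2` gives an element of type `TI`. -/
theorem exists_rf (h2 : (2 : K) ≠ 0) {c : K} (h : c • (ad f * f) = 2 • 1) : ∃ t ∈ Sp K, TI t ∧ t.1 = rf c f := by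
  have e1 : rf c f * f = -f := by
    rw [rf_apply, ← Matrix.mul_smul, h, Matrix.mul_smul, Matrix.mul_one, two_smul, sub_add_cancel_left]
  have e : rf c f * rf c f = 1 := by
    change rf c f * (1 - c • (f * ad f)) = 1
    rw [mul_sub, mul_one, mul_smul_comm, ← Matrix.mul_assoc, e1, rf, Matrix.neg_mul, smul_neg, sub_neg_eq_add, sub_add_cancel]
  refine ⟨⟨_, _, e, e⟩, mem_Sp'.2 ?_, ⟨Units.ext e, le_antisymm ?_ ?_⟩, rfl⟩
  · have : (rf c f)ᵀ * Matrix.J (Fin 3) K = Matrix.J (Fin 3) K * rf c f := by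
      rw [rf, Matrix.transpose_sub, Matrix.transpose_smul, sub_mul, mul_sub, smul_mul_assoc, rf_adj, mul_smul_comm,
        Matrix.transpose_one, mul_one, one_mul]
    exact this ▸ by rw [mul_assoc, e, mul_one]
  · change (1 - c • (f * ad f) - 1).rank ≤ 2
    rw [sub_sub_cancel_left, ← neg_smul, ← Matrix.smul_mul]
    exact (Matrix.rank_mul_le_right _ _).trans ((Matrix.rank_le_card_height _).trans (by simp))
  · have : (-(2 * 2 : K)⁻¹ * c) • ad f * (rf c f - 1) * f = 1 := by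
      rw [Matrix.mul_assoc, Matrix.sub_mul, e1, Matrix.one_mul, Matrix.mul_sub, Matrix.mul_neg, Matrix.smul_mul, mul_smul, h]
      match_scalars
      field_simp
      norm_num
    exact (by rw [this]; simp : 2 ≤ _).trans ((Matrix.rank_mul_le_left _ f).trans
      (Matrix.rank_mul_le_right ((-(2 * 2 : K)⁻¹ * c) • ad f) _))

theorem rf_pp (h : Fr f) : f * ad f * (f * ad f) = f * ad f := by
  rw [Matrix.mul_assoc, ← Matrix.mul_assoc (ad f), h, Matrix.one_mul]

theorem rf_pqp : f * ad f * (f' * ad f' * (f * ad f)) = (ad f * f').det • (f * ad f) := by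
  rw [Matrix.mul_assoc, Matrix.mul_assoc f', ← Matrix.mul_assoc (ad f'), ← Matrix.mul_assoc (ad f), ad_swap (f := f) (f' := f'),
    ← Matrix.mul_assoc (ad f * f'), Matrix.mul_adjugate, Matrix.smul_mul, Matrix.one_mul, Matrix.mul_smul]

theorem rf_qpq : f' * ad f' * (f * ad f * (f' * ad f')) = (ad f * f').det • (f' * ad f') := by
  rw [rf_pqp, ad_swap (f := f) (f' := f'), un0_det]

section
variable (h : Fr f) (h' : Fr f') (e : t.1 = rf 2 f) (e' : t'.1 = rf 2 f')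
include h h' e e'

/-- With `P = f ad f`: `P P' P = c P`, `P' P P' = c P'`. -/
theorem rf_poly : ((t * t').1 - 1) * ((t * t').1 ^ 2 - (4 * (ad f * f').det - 2) • (t * t').1 + 1) = 0 := by
  have a1 := rf_pp h
  have a2 := rf_pp h'
  have a3 := rf_pqp (f := f) (f' := f')
  have a4 := rf_qpq (f := f) (f' := f')
  rw [Units.val_mul, e, e', rf, rf]
  generalize f * ad f = P at *
  generalize f' * ad f' = Q at *
  have b1 : ∀ x, P * (P * x) = P * x := fun x => by rw [← mul_assoc, a1]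
  have b2 : ∀ x, Q * (Q * x) = Q * x := fun x => by rw [← mul_assoc, a2]
  simp only [sq, mul_sub, sub_mul, mul_add, mul_one, one_mul, smul_mul_assoc, mul_smul_comm, mul_assoc, a1, a2, a3, a4,
    b1, b2, smul_sub]
  module

theorem rf_tr : tr (t * t') = 8 * (ad f * f').det - 2 := by
  have a : ∀ {f : Fm K}, Fr f → (f * ad f).trace = 2 := fun h => by rw [Matrix.trace_mul_comm, h]; simp
  have b : (f * ad f * (f' * ad f')).trace = 2 * (ad f * f').det := by
    conv_lhs => rw [← rf_pp h, mul_assoc, Matrix.trace_mul_comm, mul_assoc, rf_pqp, Matrix.trace_smul, a h]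
    rw [smul_eq_mul, mul_comm]
  simp only [Q4.tr, Units.val_mul, e, e', rf, mul_sub, sub_mul, mul_one, one_mul, smul_mul_assoc, mul_smul_comm, Matrix.trace_sub,
    Matrix.trace_smul, a h, a h', b, Matrix.trace_one, smul_eq_mul, Fintype.card_sum, Fintype.card_fin]
  push_cast
  ring

theorem rf_two (h2 : (2 : K) ≠ 0) (c : Commute t t') (n : t ≠ t') : ad f * f' = 0 := by
  have c1 : f * ad f * (f' * ad f') = f' * ad f' * (f * ad f) := by
    have := congrArg Units.val c.eq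
    simp only [Units.val_mul, e, e', rf, mul_sub, sub_mul, mul_one, one_mul, smul_mul_assoc, mul_smul_comm] at this
    exact smul_right_injective _ (mul_ne_zero h2 h2) (by linear_combination (norm := module) this)
  have a3 := rf_pqp (f := f) (f' := f')
  have a4 := rf_qpq (f := f) (f' := f')
  rw [← c1, ← mul_assoc, rf_pp h] at a3
  rw [c1, ← mul_assoc, rf_pp h', ← c1, a3] at a4
  rcases eq_or_ne (ad f * f').det 0 with d | d
  · have := congrArg (ad f * · * f') a3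
    simpa only [d, zero_smul, Matrix.mul_zero, Matrix.zero_mul, Matrix.mul_assoc, show ad f' * f' = 1 from h', Matrix.mul_one,
      ← Matrix.mul_assoc (ad f) f, show ad f * f = 1 from h, Matrix.one_mul] using this
  · exact absurd (Units.ext (by rw [e, e', rf, rf, smul_right_injective _ d a4])) n

theorem rf_rec (k : ℕ) : (t * t').1 ^ (k + 3) = (4 * (ad f * f').det - 1) • (t * t').1 ^ (k + 2) -
    (4 * (ad f * f').det - 1) • (t * t').1 ^ (k + 1) + (t * t').1 ^ k := by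
  have := congrArg ((t * t').1 ^ k * ·) (rf_poly h h' e e')
  simp only [mul_sub, sub_mul, mul_add, mul_one, one_mul, mul_smul_comm, mul_zero, ← pow_succ, ← pow_succ', ← pow_add, ← sq,
    Nat.reduceAdd] at this
  linear_combination (norm := module) this

theorem rf_three (o : (t * t') ^ 3 = 1) (n : t ≠ t') : 4 * (ad f * f').det = 1 := by
  have r := rf_rec h h' e e' 0
  rw [zero_add, ← Units.val_pow_eq_pow_val, o, pow_zero, Units.val_one, eq_comm, add_eq_right, ← smul_sub, smul_eq_zero,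
    sub_eq_zero, sub_eq_zero, ← Units.val_pow_eq_pow_val, ← Units.val_pow_eq_pow_val, Units.val_inj, zero_add, zero_add, pow_one, sq,
    mul_eq_left] at r
  refine r.resolve_right fun r => n ?_
  have : t * t = 1 := Units.ext (by rw [Units.val_mul, e, rf_el, h.el_mul]; simp [el])
  exact mul_left_cancel (this.trans r.symm)

theorem rf_four (h2 : (2 : K) ≠ 0) (o : (t * t') ^ 4 = 1) (n : (t * t') ^ 2 ≠ 1) : 2 * (ad f * f').det = 1 := by
  have r : (2 * (2 * (ad f * f').det - 1)) • ((t * t').1 ^ 3 - (t * t').1 ^ 1) = 0 := by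
    have o' : (t * t').1 ^ 4 = (t * t').1 ^ 0 := by rw [← Units.val_pow_eq_pow_val, o, pow_zero, Units.val_one]
    linear_combination (norm := module) o' - rf_rec h h' e e' 0 - rf_rec h h' e e' 1
  rw [smul_eq_zero, sub_eq_zero, ← Units.val_pow_eq_pow_val, ← Units.val_pow_eq_pow_val, Units.val_inj] at r
  exact sub_eq_zero.1 ((mul_eq_zero.1 (r.resolve_right fun r => n (mul_right_cancel (b := t * t') (by
    rw [← pow_succ, r, pow_one, one_mul])))).resolve_left h2)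

theorem rf_five (o : (4 * (ad f * f').det - 2) ^ 2 + (4 * (ad f * f').det - 2) = 1) : (t * t') ^ 5 = 1 := by
  refine Units.ext ?_
  rw [Units.val_pow_eq_pow_val, Units.val_one, ← pow_zero (t * t').1]
  linear_combination (norm := module) rf_rec h h' e e' 2 + (4 * (ad f * f').det - 1) • rf_rec h h' e e' 1 +
    rf_rec h h' e e' 0 + o • ((t * t').1 ^ 3 - (t * t').1 ^ 2)

end

theorem Tr3.sum (h : Tr3 f₁ f₂ f₃) : f₁ * ad f₁ + f₂ * ad f₂ + f₃ * ad f₃ = 1 := by
  have s : ∀ {f f' : Fm K}, ad f * f' = 0 → ad f' * f = 0 := fun e => by rw [ad_swap, e]; simp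
  rw [← Matrix.fromCols_mul_fromRows, ← Matrix.fromCols_mul_fromRows,
    Matrix.fromCols_mul_fromRows_eq_one_comm (Fintype.equivOfCardEq (by simp)), Matrix.fromRows_mul_fromCols,
    Matrix.fromRows_mul_fromCols, Matrix.fromRows_mul, Matrix.mul_fromCols, h.h₁, h.h₂, h.h₃, h.h₁₂, h.h₁₃, h.h₂₃, s h.h₁₂,
    s h.h₁₃, s h.h₂₃]
  simp

/-- `k = ∑ f_i ad g_i`. -/
theorem Tr3.exists_sp (h : Tr3 f₁ f₂ f₃) (h' : Tr3 g₁ g₂ g₃) : ∃ k ∈ Sp K, k.1 * g₁ = f₁ ∧ k.1 * g₂ = f₂ ∧ k.1 * g₃ = f₃ := by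
  have s : ∀ {f f' : Fm K}, ad f * f' = 0 → ad f' * f = 0 := fun e => by rw [ad_swap, e]; simp
  have a : ∀ {f₁ f₂ f₃ g₁ g₂ g₃ : Fm K}, Tr3 g₁ g₂ g₃ → (f₁ * ad g₁ + f₂ * ad g₂ + f₃ * ad g₃) * g₁ = f₁ ∧
      (f₁ * ad g₁ + f₂ * ad g₂ + f₃ * ad g₃) * g₂ = f₂ ∧ (f₁ * ad g₁ + f₂ * ad g₂ + f₃ * ad g₃) * g₃ = f₃ := fun h => by
    simp [Matrix.add_mul, Matrix.mul_assoc, h.h₁.eq, h.h₂.eq, h.h₃.eq, h.h₁₂, h.h₁₃, h.h₂₃, s h.h₁₂, s h.h₁₃, s h.h₂₃]
  have b : (g₁ * ad f₁ + g₂ * ad f₂ + g₃ * ad f₃) * (f₁ * ad g₁ + f₂ * ad g₂ + f₃ * ad g₃) = 1 := by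
    rw [mul_add, mul_add, ← Matrix.mul_assoc, ← Matrix.mul_assoc, ← Matrix.mul_assoc, (a h).1, (a h).2.1, (a h).2.2, h'.sum]
  refine ⟨⟨_, _, mul_eq_one_comm.1 b, b⟩, mem_Sp'.2 ?_, a h'⟩
  rw [Matrix.transpose_add, Matrix.transpose_add, add_mul (_ + _), add_mul _ _ (Matrix.J _ _), rf_adj, rf_adj, rf_adj, ← mul_add,
    ← mul_add, mul_assoc, b, mul_one]

theorem exists_tr3 : ∃ f₁ f₂ f₃ : Fm K, Tr3 f₁ f₂ f₃ := by
  choose f F E using un0_frame (K := K)
  have : ∀ i j, i ≠ j → ad (f i) * f j = 0 := fun i j n => by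
    have a : ∀ i, f i * ad (f i) = Matrix.diagonal (Sum.elim (fun l => if l = i then 1 else 0) fun l => if l = i then 1 else 0) :=
      fun i => by
        have := E i 2 2
        rw [el, show (!![2, 0; 0, 2] : M2 K) - 1 = 1 by ext i j; fin_cases i <;> fin_cases j <;> simp <;> norm_num,
          Matrix.mul_one, ← eq_sub_iff_add_eq'] at this
        rw [this, ← Matrix.diagonal_one, Matrix.diagonal_sub]
        congr 1
        funext a
        rcases a with l | l <;> by_cases a : l = i <;> simp [a] <;> norm_num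
    have : f i * ad (f i) * (f j * ad (f j)) = 0 := by
      rw [a, a, Matrix.diagonal_mul_diagonal, ← Matrix.diagonal_zero]
      congr 1
      funext a
      rcases a with l | l <;> by_cases a : l = i <;> simp [a, n]
    simpa only [Matrix.mul_zero, Matrix.zero_mul, Matrix.mul_assoc, (F j).eq, Matrix.mul_one,
      ← Matrix.mul_assoc (ad (f i)) (f i), (F i).eq, Matrix.one_mul] using congrArg (ad (f i) * · * f j) this
  exact ⟨f 0, f 1, f 2, F 0, F 1, F 2, this _ _ (by decide), this _ _ (by decide), this _ _ (by decide)⟩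

theorem rf_pu_map {L : Type*} [Field L] (σ : K →+* L) (h : Pu J) : Pu (J.map σ) :=
  ⟨by rw [← AddMonoidHom.map_trace σ J, h.1, map_zero], by rw [← RingHom.mapMatrix_apply, ← RingHom.map_det, h.2, map_one]⟩

theorem rf_tr_map {L : Type*} [Field L] (σ : K →+* L) (J z : M2 K) :
    2 * ((J.map σ).adjugate * z.map σ).trace = σ (2 * (J.adjugate * z).trace) := by
  rw [← RingHom.mapMatrix_apply, ← RingHom.map_adjugate, RingHom.mapMatrix_apply, ← Matrix.map_mul, ← AddMonoidHom.map_trace σ,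
    map_mul, map_ofNat]

theorem rf_qz_map {L : Type*} [Field L] (σ : K →+* L) (h : Qz J z) : Qz (J.map σ) (z.map σ) :=
  ⟨fun e => h.two (σ.injective (by rw [map_ofNat, e, map_zero])), rf_pu_map σ h.pu,
    by rw [← AddMonoidHom.map_trace σ z, ← map_ofNat σ 2, ← map_mul, h.t₁, map_one], by rw [rf_tr_map, h.t₂, map_one],
    by rw [← RingHom.mapMatrix_apply, ← RingHom.map_det, ← map_ofNat σ 2, ← map_mul, h.dz, map_one]⟩

theorem NF.map {L : Type*} [Field L] (σ : K →+* L) (h : NF f₁ f₂ f₃ J z A B C D R) :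
    NF (f₁.map σ) (f₂.map σ) (f₃.map σ) (J.map σ) (z.map σ) (mp σ A) (mp σ B) (mp σ C) (mp σ D) (mp σ R) := by
  have a : ∀ {f : Fm K}, Fr f → Fr (f.map σ) := fun h => by
    rw [Fr, ← rf_ad_map, ← Matrix.map_mul, h, Matrix.map_one _ (map_zero σ) (map_one σ)]
  have b : ∀ {f f' : Fm K}, ad f * f' = 0 → ad (f.map σ) * f'.map σ = 0 := fun h => by
    rw [← rf_ad_map, ← Matrix.map_mul, h, Matrix.map_zero _ (map_zero σ)]
  refine ⟨⟨a h.tr.h₁, a h.tr.h₂, a h.tr.h₃, b h.tr.h₁₂, b h.tr.h₁₃, b h.tr.h₂₃⟩, rf_qz_map σ h.q, ?_, ?_, ?_, ?_, ?_⟩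
  · rw [mp_val, h.a, rf_map, map_ofNat]
  · rw [mp_val, h.b, rf_map, map_one, Matrix.map_add _ (map_add σ)]
  · rw [mp_val, h.c, rf_map, map_one, Matrix.map_add _ (map_add σ)]
  · rw [mp_val, h.d, rf_map, map_one, Matrix.map_add _ (map_add σ), Matrix.map_mul]
  · rw [mp_val, h.r, rf_map, map_ofNat, Matrix.map_add _ (map_add σ), Matrix.map_mul]
    congr 2
    ext i j
    simp [map_ofNat, mul_add]

theorem NF'.map {L : Type*} [Field L] (σ : K →+* L) (h : NF' f₁ f₂ f₃ J z J' s A B C D R E) :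
    NF' (f₁.map σ) (f₂.map σ) (f₃.map σ) (J.map σ) (z.map σ) (J'.map σ) (σ s) (mp σ A) (mp σ B) (mp σ C) (mp σ D) (mp σ R)
      (mp σ E) := by
  refine ⟨h.toNF.map σ, ⟨rf_qz_map σ h.q, rf_pu_map σ h.q'.pu', ?_, by rw [rf_tr_map, h.q'.t₃, map_neg],
    by rw [← Matrix.map_mul, rf_tr_map, h.q'.t₄, map_one]⟩, ?_⟩
  · rw [← Matrix.map_mul, ← Matrix.map_mul, h.q'.an, Matrix.map_neg _ (map_neg σ)]
  · rw [mp_val, h.e, rf_map, map_one, Matrix.map_add _ (map_add σ), Matrix.map_mul]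

end Cfsg.Lib.S6Q
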