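import Cfsg.Agent.Lib.S6Q.Rf

/-!
# Quaternionic reflections: quaternions
-/

set_option autoImplicit false

namespace Cfsg.Lib.S6Q

open scoped MatrixGroups Matrix commutatorElement
open Cfsg.Geo Cfsg.Lib.Asch Cfsg.Lib.Linear Cfsg.Lib.Q4 Cfsg.Lib.Symp Module
open Cfsg.Lib.Q4R (Sq HasTv sc dg)

variable {K : Type*} [Field K] {f f' f₁ f₂ f₃ g₁ g₂ g₃ : Fm K} {J J' z I I' y δ : M2 K} {s : K}
  {t t' n A B C D R E A' B' C' D' R' E' : G6 K}

theorem qz_tr (X Y : M2 K) : (X.adjugate * Y).trace = X 1 1 * Y 0 0 - X 0 1 * Y 1 0 - X 1 0 * Y 0 1 + X 0 0 * Y 1 1 := by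
  simp [Matrix.adjugate_fin_two, Matrix.trace_fin_two, Matrix.vecMul, dotProduct]
  ring

theorem qz_anti {X Y : M2 K} (h : X.trace = 0) (h' : Y.trace = 0) : X * Y + Y * X = (X * Y).trace • 1 := by
  have e : ∀ X : M2 K, X.trace = 0 → X.adjugate = -X := fun X h => by
    rw [eq_neg_iff_add_eq_zero, add_comm, un0_tr, h, zero_smul]
  rw [← neg_mul_neg Y X, ← e X h, ← e Y h', ← Matrix.adjugate_mul_distrib, un0_tr]

theorem qz_four (h2 : (2 : K) ≠ 0) : (4 : K) ≠ 0 := by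
  rw [show (4 : K) = 2 * 2 by norm_num]; exact mul_ne_zero h2 h2

/-- The part of `4 z` perpendicular to `1` and `J`. -/
theorem Qz.exists_w (h : Qz J z) : ∃ w : M2 K, w.trace = 0 ∧ w.det = 6 ∧ J * w = -(w * J) ∧ (4 : K) • z = 1 + J + w := by
  obtain ⟨-, ⟨p1, p2⟩, t1, t2, t3⟩ := h
  have t : ((4 : K) • z - 1 - J).trace = 0 := by
    simp only [Matrix.trace_sub, Matrix.trace_smul, Matrix.trace_one, p1, smul_eq_mul, Fintype.card_fin]
    linear_combination 2 * t1
  refine ⟨(4 : K) • z - 1 - J, t, ?_, ?_, by abel⟩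
  · rw [qz_tr] at t2
    simp only [Matrix.trace_fin_two, Matrix.det_fin_two] at *
    simp
    linear_combination 8 * t3 - 2 * t1 - 2 * t2 + p1 + p2
  · rw [eq_neg_iff_add_eq_zero, qz_anti p1 t, smul_eq_zero]
    left
    rw [qz_tr] at t2
    simp only [Matrix.trace_fin_two, Matrix.det_fin_two] at *
    simp [Matrix.mul_apply, Fin.sum_univ_two]
    linear_combination -2 * t2 + 2 * p2 + (4 * z 0 0 + 4 * z 1 1 - 1 - J 0 0 - J 1 1) * p1

theorem Qz'.eq (h : Qz' J z J' s) : (4 : K) • z = 1 + J - s • J' + J * J' := by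
  have pu := h.pu
  have pu' := h.pu'
  have pm := pu.mul pu' h.an
  have t1 := h.t₁
  have t2 := h.t₂
  have t3 := h.t₃
  have t4 := h.t₄
  rw [pu.adj, neg_mul, Matrix.trace_neg] at t2
  rw [pu'.adj, neg_mul, Matrix.trace_neg] at t3
  rw [pm.adj, neg_mul, Matrix.trace_neg] at t4
  have a1 : J' * J = -(J * J') := by rw [h.an, neg_neg]
  have a2 : J' * (J * J') = J := by rw [← mul_assoc, a1, neg_mul, mul_assoc, pu'.sq, mul_neg, mul_one, neg_neg]
  have a3 : J * J' * J = J' := by rw [mul_assoc, a1, mul_neg, ← mul_assoc, pu.sq, neg_mul, one_mul, neg_neg]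
  rw [← sub_eq_zero]
  generalize e : (4 : K) • z - (1 + J - s • J' + J * J') = Y
  have k : ∀ X : M2 K, (X * Y).trace =
      4 * (X * z).trace - (X.trace + (X * J).trace - s * (X * J').trace + (X * (J * J')).trace) := fun X => by
    simp only [← e, mul_sub, mul_add, Matrix.mul_smul, mul_one, Matrix.trace_sub, Matrix.trace_add, Matrix.trace_smul, smul_eq_mul]
  have y0 : Y.trace = 0 := by
    have := k 1
    simp only [one_mul, pu.1, pu'.1, pm.1, Matrix.trace_one, Fintype.card_fin] at this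
    linear_combination this + 2 * t1
  have y1 : J * Y + Y * J = 0 := by
    rw [qz_anti pu.1 y0, k, ← mul_assoc, pu.sq, neg_one_mul, pu.1, pm.1, Matrix.trace_neg, Matrix.trace_neg, pu'.1,
      Matrix.trace_one, Fintype.card_fin, smul_eq_zero]
    exact .inl (by linear_combination -2 * t2)
  have y2 : J' * Y + Y * J' = 0 := by
    rw [qz_anti pu'.1 y0, k, a2, a1, pu'.sq, pu.1, pu'.1, Matrix.trace_neg, Matrix.trace_neg, pm.1,
      Matrix.trace_one, Fintype.card_fin, smul_eq_zero]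
    exact .inl (by linear_combination -2 * t3)
  have y3 : J * J' * Y + Y * (J * J') = 0 := by
    rw [qz_anti pm.1 y0, k, a3, pm.sq, mul_assoc J J' J', pu'.sq, mul_neg_one, pm.1, pu'.1, Matrix.trace_neg, Matrix.trace_neg, pu.1,
      Matrix.trace_one, Fintype.card_fin, smul_eq_zero]
    exact .inl (by linear_combination -2 * t4)
  rw [← mul_assoc, eq_neg_of_add_eq_zero_right y1, neg_mul, mul_assoc J Y, eq_neg_of_add_eq_zero_right y2, mul_neg, neg_neg,
    ← mul_assoc, ← two_smul K, smul_eq_zero, or_iff_right h.two] at y3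
  rw [← neg_eq_zero, ← neg_one_mul, ← pm.sq, mul_assoc, y3, mul_zero]

theorem qz_eig (h2 : (2 : K) ≠ 0) (h : Pu J) {i : K} (hi : i * i = -1) : ∃ v : Fin 2 → K, v ≠ 0 ∧ J *ᵥ v = i • v := by
  have n : J + i • (1 : M2 K) ≠ 0 := fun e => by
    have := congrArg Matrix.trace e
    rw [Matrix.trace_add, h.1, Matrix.trace_smul, Matrix.trace_one, Fintype.card_fin, Matrix.trace_zero] at this
    exact h2 (by simp only [smul_eq_mul] at this; linear_combination -i * this + 2 * hi)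
  obtain ⟨x, hx⟩ : ∃ x, (J + i • (1 : M2 K)) *ᵥ x ≠ 0 := by
    by_contra! e
    exact n (Matrix.ext_iff_mulVec.2 fun x => by rw [e, Matrix.zero_mulVec])
  refine ⟨_, hx, ?_⟩
  rw [Matrix.mulVec_mulVec, ← Matrix.smul_mulVec, mul_add, smul_add, h.sq, smul_smul, hi, Matrix.mul_smul, mul_one, neg_smul,
    one_smul, add_comm]

/-- Two anticommuting pure units in a standard basis. -/
theorem qz_std [IsAlgClosed K] (h2 : (2 : K) ≠ 0) (h : Pu J) (h' : Pu J') (a : J * J' = -(J' * J)) {i : K} (hi : i * i = -1) :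
    ∃ P : M2 K, P.det = 1 ∧ J * P = P * !![i, 0; 0, -i] ∧ J' * P = P * !![0, -1; 1, 0] := by
  obtain ⟨v, v0, hv⟩ := qz_eig h2 h hi
  obtain ⟨u, hu⟩ : ∃ u, u = J' *ᵥ v := ⟨_, rfl⟩
  have e1 : J *ᵥ u = -i • u := by
    rw [hu, Matrix.mulVec_mulVec, a, Matrix.neg_mulVec, ← Matrix.mulVec_mulVec, hv, Matrix.mulVec_smul, neg_smul]
  have e2 : J' *ᵥ u = -v := by rw [hu, Matrix.mulVec_mulVec, h'.sq, Matrix.neg_mulVec, Matrix.one_mulVec]
  have u0 : u ≠ 0 := fun e => v0 (by rw [← neg_eq_zero, ← e2, e, Matrix.mulVec_zero])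
  have i0 : i ≠ 0 := fun e => by simp [e] at hi
  obtain ⟨P, hP⟩ : ∃ P : M2 K, P = !![v 0, u 0; v 1, u 1] := ⟨_, rfl⟩
  have p1 : J * P = P * !![i, 0; 0, -i] := by
    have a0 := congrFun hv 0
    have a1 := congrFun hv 1
    have b0 := congrFun e1 0
    have b1 := congrFun e1 1
    simp [Matrix.mulVec, dotProduct, Fin.sum_univ_two] at a0 a1 b0 b1
    ext r c
    fin_cases r <;> fin_cases c <;> simp [hP, Matrix.mul_apply, Fin.sum_univ_two, a0, a1, b0, b1] <;> ring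
  have p2 : J' * P = P * !![0, -1; 1, 0] := by
    have a0 := congrFun hu 0
    have a1 := congrFun hu 1
    have b0 := congrFun e2 0
    have b1 := congrFun e2 1
    simp [Matrix.mulVec, dotProduct, Fin.sum_univ_two] at a0 a1 b0 b1
    ext r c
    fin_cases r <;> fin_cases c <;> simp [hP, Matrix.mul_apply, Fin.sum_univ_two, ← a0, ← a1, b0, b1]
  have d : P.det ≠ 0 := fun e => by
    obtain ⟨x, x0, hx⟩ := Matrix.exists_mulVec_eq_zero_iff.2 e
    have q : x 0 • v + x 1 • u = 0 := by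
      rw [← hx]
      ext r
      fin_cases r <;> simp [hP, Matrix.mulVec, dotProduct, Fin.sum_univ_two] <;> ring
    have q' := congrArg (J *ᵥ ·) q
    simp only [Matrix.mulVec_add, Matrix.mulVec_smul, hv, e1, Matrix.mulVec_zero] at q'
    have r0 : (2 * i * x 0) • v = 0 := by linear_combination (norm := module) i • q + q'
    have r1 : (2 * i * x 1) • u = 0 := by linear_combination (norm := module) i • q - q'
    simp only [smul_eq_zero, mul_eq_zero, h2, i0, v0, u0, false_or, or_false] at r0 r1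
    exact x0 (funext fun r => by fin_cases r <;> assumption)
  obtain ⟨c, hc⟩ := IsAlgClosed.exists_eq_mul_self P.det⁻¹
  refine ⟨c • P, ?_, by rw [Matrix.mul_smul, p1, Matrix.smul_mul], by rw [Matrix.mul_smul, p2, Matrix.smul_mul]⟩
  rw [Matrix.det_smul, Fintype.card_fin, sq, ← hc, inv_mul_cancel₀ d]

theorem qz_conj [IsAlgClosed K] (h2 : (2 : K) ≠ 0) (h : Pu J) (h' : Pu J') (a : J * J' = -(J' * J)) (k : Pu I) (k' : Pu I')
    (b : I * I' = -(I' * I)) : ∃ δ : M2 K, δ.det = 1 ∧ δ * I = J * δ ∧ δ * I' = J' * δ := by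
  obtain ⟨i, hi⟩ := IsAlgClosed.exists_eq_mul_self (-1 : K)
  obtain ⟨P, d, p, p'⟩ := qz_std h2 h h' a hi.symm
  obtain ⟨Q, e, q, q'⟩ := qz_std h2 k k' b hi.symm
  have m : ∀ {X Y S : M2 K}, X * P = P * S → Y * Q = Q * S → P * Q.adjugate * Y = X * (P * Q.adjugate) := fun {X Y S} p q => by
    have e1 : Q * Q.adjugate = 1 := by rw [Matrix.mul_adjugate, e, one_smul]
    have e2 : Q.adjugate * Q = 1 := by rw [Matrix.adjugate_mul, e, one_smul]
    rw [← mul_assoc X, p, ← mul_one (_ * Y), ← e1, ← mul_assoc, mul_assoc _ Y, q, ← mul_assoc, mul_assoc P _ Q, e2, mul_one]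
  exact ⟨P * Q.adjugate, by rw [Matrix.det_mul, un0_det, d, e, one_mul], m p q, m p' q'⟩

/-- `1, J, J', J J'` is an orthonormal basis. -/
theorem Qz'.sq (h : Qz' J z J' s) : s ^ 2 = 5 := by
  have e := h.eq
  have t1 := h.t₁
  have t2 := h.t₂
  have t3 := h.t₃
  have t4 := h.t₄
  have t5 := h.dz
  have e00 := congrFun (congrFun e 0) 0
  have e01 := congrFun (congrFun e 0) 1
  have e10 := congrFun (congrFun e 1) 0
  have e11 := congrFun (congrFun e 1) 1
  generalize J * J' = L at *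
  rw [qz_tr] at t2 t3 t4
  rw [Matrix.trace_fin_two] at t1
  rw [Matrix.det_fin_two] at t5
  simp at e00 e01 e10 e11
  linear_combination 8 * t5 - 2 * (z 1 1 * e00 - z 1 0 * e01 - z 0 1 * e10 + z 0 0 * e11) - t1 - t2 + s * t3 - t4

/-- Diagonalise `J`; `z' = (0, β; γ, 0)`, `- β γ = 3 / 8`. -/
theorem Qz.conj [IsAlgClosed K] (h : Qz J z) (h' : Qz I y) (h3 : (3 : K) ≠ 0) :
    ∃ δ : M2 K, δ.det = 1 ∧ δ * I = J * δ ∧ δ * y = z * δ := by
  obtain ⟨w, w1, w2, w3, w4⟩ := h.exists_w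
  obtain ⟨x, x1, x2, x3, x4⟩ := h'.exists_w
  have h6 : (6 : K) ≠ 0 := by rw [show (6 : K) = 2 * 3 by norm_num]; exact mul_ne_zero h.two h3
  obtain ⟨c, hc⟩ := IsAlgClosed.exists_eq_mul_self (6 : K)⁻¹
  have c0 : c ≠ 0 := fun e => inv_ne_zero h6 (by rw [hc, e, zero_mul])
  have p : ∀ w : M2 K, w.trace = 0 → w.det = 6 → Pu (c • w) := fun w a b =>
    ⟨by rw [Matrix.trace_smul, a, smul_zero], by rw [Matrix.det_smul, b, Fintype.card_fin, sq, ← hc, inv_mul_cancel₀ h6]⟩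
  obtain ⟨δ, d, e, e'⟩ := qz_conj h.two h.pu (p w w1 w2) (by rw [Matrix.mul_smul, w3, Matrix.smul_mul, smul_neg]) h'.pu (p x x1 x2)
    (by rw [Matrix.mul_smul, x3, Matrix.smul_mul, smul_neg])
  rw [Matrix.mul_smul, Matrix.smul_mul] at e'
  refine ⟨δ, d, e, smul_right_injective _ (qz_four h.two) ?_⟩
  simp only [← Matrix.mul_smul, x4]
  rw [Matrix.mul_smul, ← Matrix.smul_mul, w4, mul_add, mul_add, e, smul_right_injective _ c0 e', add_mul, add_mul, mul_one, one_mul]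

theorem Qz'.conj [IsAlgClosed K] (h : Qz' J z J' s) (h' : Qz' I y I' s) :
    ∃ δ : M2 K, δ.det = 1 ∧ δ * I = J * δ ∧ δ * y = z * δ ∧ δ * I' = J' * δ := by
  obtain ⟨δ, d, e, e'⟩ := qz_conj h.two h.pu h.pu' h.an h'.pu h'.pu' h'.an
  refine ⟨δ, d, e, smul_right_injective _ (qz_four h.two) ?_, e'⟩
  change (4 : K) • (δ * y) = (4 : K) • (z * δ)
  rw [← Matrix.mul_smul, ← Matrix.smul_mul, h.eq, h'.eq]
  simp only [mul_add, mul_sub, add_mul, sub_mul, Matrix.mul_smul, Matrix.smul_mul, mul_one, one_mul, ← mul_assoc δ, e, e',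
    mul_assoc J]

theorem Qz.eig [IsAlgClosed K] (h : Qz J z) (h3 : (3 : K) = 0) :
    ∃ v : Fin 2 → K, v ≠ 0 ∧ (∃ c : K, J *ᵥ v = c • v) ∧ ∃ c : K, z *ᵥ v = c • v := by
  obtain ⟨w, w1, w2, w3, w4⟩ := h.exists_w
  obtain ⟨i, hi⟩ := IsAlgClosed.exists_eq_mul_self (-1 : K)
  obtain ⟨u, u0, hu⟩ := qz_eig h.two h.pu hi.symm
  have k : ∀ (v : Fin 2 → K) (c : K), J *ᵥ v = c • v → w *ᵥ v = 0 → z *ᵥ v = (4⁻¹ * (1 + c)) • v := fun v c a b => by
    rw [← inv_smul_smul₀ (qz_four h.two) z, w4, Matrix.smul_mulVec, Matrix.add_mulVec, Matrix.add_mulVec,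
      a, b, Matrix.one_mulVec, add_zero, mul_smul, add_smul, one_smul]
  by_cases q : w *ᵥ u = 0
  · exact ⟨u, u0, ⟨_, hu⟩, _, k u i hu q⟩
  have e : J *ᵥ (w *ᵥ u) = -i • (w *ᵥ u) := by
    rw [Matrix.mulVec_mulVec, w3, Matrix.neg_mulVec, ← Matrix.mulVec_mulVec, hu, Matrix.mulVec_smul, neg_smul]
  refine ⟨_, q, ⟨_, e⟩, _, k _ _ e ?_⟩
  rw [Matrix.mulVec_mulVec, un0_ch, w1, w2, show (6 : K) = 0 by linear_combination 2 * h3, zero_smul, zero_smul, sub_zero,
    Matrix.zero_mulVec]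

/-- `δ = α (z' + J z')`, `3 α² = 4`, `tr (δ z*) = 3 α / 4`. -/
theorem Qz.sqrt3 (h : Qz J z) (h3 : (3 : K) ≠ 0) (d : δ.det = 1) (e : δ * J = -(J * δ)) (e' : δ * z = -(z * J * δ)) :
    (2 * (δ * z.adjugate).trace) ^ 2 = 3 := by
  obtain ⟨w, w1, w2, w3, w4⟩ := h.exists_w
  have h4 := qz_four h.two
  have z2 : ∀ x : K, x = -x → x = 0 := fun x e => (mul_eq_zero.1 (show 2 * x = 0 by linear_combination e)).resolve_left h.two
  have t1 : δ.trace = 0 := z2 _ (by
    have := congrArg (fun X => (J * X).trace) e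
    simp only [mul_neg, ← mul_assoc, h.pu.sq, neg_mul, one_mul, neg_neg] at this
    rwa [Matrix.trace_mul_cycle, h.pu.sq, neg_one_mul, Matrix.trace_neg, eq_comm] at this)
  have t2 : (δ * J).trace = 0 := z2 _ (by
    conv_lhs => rw [e, Matrix.trace_neg, Matrix.trace_mul_comm])
  have e1 : δ * w = J * (w * δ) := by
    have := congrArg ((4 : K) • ·) e'
    simp only [← Matrix.mul_smul, smul_neg, ← Matrix.smul_mul, w4] at this
    simp only [Matrix.mul_smul, ← Matrix.smul_mul, w4, mul_add, add_mul, mul_one, one_mul, e, h.pu.sq] at this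
    rw [← mul_assoc, w3]
    linear_combination (norm := noncomm_ring) this
  have e2 := congrArg Matrix.det (qz_anti t1 w1)
  rw [show δ * w + w * δ = (1 + J) * (w * δ) by rw [add_mul, one_mul, ← e1, add_comm], Matrix.det_mul, Matrix.det_mul, w2, d,
    Matrix.det_smul, Matrix.det_one, Fintype.card_fin, show (1 + J).det = 2 by
      have p1 := h.pu.1
      have p2 := h.pu.2
      simp only [Matrix.trace_fin_two, Matrix.det_fin_two] at *
      simp
      linear_combination p1 + p2] at e2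
  have e3 : 4 * (δ * z.adjugate).trace = -(δ * w).trace := by
    have : z.adjugate = z.trace • 1 - z := by rw [← un0_tr, add_sub_cancel_left]
    rw [this, mul_sub, Matrix.mul_smul, mul_one, Matrix.trace_sub, Matrix.trace_smul, t1, smul_zero, zero_sub, mul_neg,
      ← smul_eq_mul, ← Matrix.trace_smul, ← Matrix.mul_smul, w4, mul_add, mul_add, mul_one, Matrix.trace_add, Matrix.trace_add, t1,
      t2, zero_add, zero_add]
  refine mul_left_cancel₀ h4 ?_
  linear_combination (4 * (δ * z.adjugate).trace - (δ * w).trace) * e3 - e2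

/-- `J = (0, -1; 1, 0)`, `J' = (a, b; b, -a)`, `a² + b² = -1`. -/
theorem exists_qz [Finite K] (h2 : (2 : K) ≠ 0) (hs : s ^ 2 = 5) : ∃ J z J' : M2 K, Qz' J z J' s := by
  haveI : NeZero (ringChar K) := ⟨CharP.ringChar_ne_zero_of_finite K⟩
  obtain ⟨a, b, e⟩ := CharP.sq_add_sq K (ringChar K) (-1)
  generalize (a : K) = a, (b : K) = b at e
  have h4 : (4 : K)⁻¹ * 4 = 1 := inv_mul_cancel₀ (qz_four h2)
  generalize (4 : K)⁻¹ = c at h4
  push_cast at e
  refine ⟨!![0, -1; 1, 0], c • !![1 - s * a - b, -1 - s * b + a; 1 - s * b + a, 1 + s * a + b], !![a, b; b, -a],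
    ⟨h2, ⟨by simp, by simp⟩, ?_, ?_, ?_⟩, ⟨by simp, ?_⟩, ?_, ?_, ?_⟩
  · simp
    linear_combination h4
  · rw [qz_tr]
    simp
    linear_combination h4
  · simp
    linear_combination (4 * c + 1) * h4 - 2 * c ^ 2 * (s ^ 2 + 1) * e + 2 * c ^ 2 * hs
  · simp
    linear_combination -e
  · simp
  · rw [qz_tr]
    simp
    linear_combination -s * h4 + 4 * c * s * e
  · rw [qz_tr]
    simp
    linear_combination h4 - 4 * c * e

end Cfsg.Lib.S6Q
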