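import Cfsg.Agent.Lib.S6Q.Rf
import Cfsg.Agent.Lib.S6Q.Pl

/-!
# Quaternionic reflections: lifting the relations
-/

set_option autoImplicit false

namespace Cfsg.Lib.S6Q

open scoped MatrixGroups Matrix commutatorElement
open Cfsg.Geo Cfsg.Lib.Asch Cfsg.Lib.Linear Cfsg.Lib.Q4 Cfsg.Lib.Symp Module
open Cfsg.Lib.Q4R (Sq HasTv sc dg)

variable {K : Type*} [Field K] {f f' f₁ f₂ f₃ g₁ g₂ g₃ : Fm K} {J J' z I I' y δ : M2 K} {s : K}
  {t t' n A B C D R E A' B' C' D' R' E' : G6 K}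

section
variable [IsAlgClosed K] {X : Type*} [Group X] {Y : Subgroup (G6 K)} {π : Y →* X} {a b c d r e : X}

omit [IsAlgClosed K] in
theorem TI.cj {s t : G6 K} (hs : TI s) (ht : TI t) : TI (s * t * s) := by
  have := pl_conj ht s
  rwa [inv_eq_of_mul_eq_one_right hs.1] at this

omit [IsAlgClosed K] in
theorem TI.fix2 {s t : G6 K} (hs : TI s) (ht : TI t) : ∃ v : I6 → K, v ≠ 0 ∧ s.1 *ᵥ v = v ∧ t.1 *ᵥ v = v := by
  obtain ⟨v, v0, hv⟩ := exists_fix [s, t] (by simp [hs.2, ht.2])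
  exact ⟨v, v0, hv s (by simp), hv t (by simp)⟩

omit [IsAlgClosed K] in
theorem Cv.cube (h : Cv Y π) {s t : Y} (hs : TI s.1) (ht : TI t.1) (e : (π s * π t) ^ 3 = 1) : (s.1 * t.1) ^ 3 = 1 := by
  refine ((h.ker ((s * t) ^ 3)).1 (by rwa [map_pow, map_mul])).resolve_right fun k => ?_
  obtain ⟨v, v0, h1, h3⟩ := hs.fix2 ht
  have k : (s.1 * t.1) ^ 3 = -1 := k
  have e1 : ((s.1 * t.1) ^ 3).1 *ᵥ v = v := by
    simp only [pow_succ, pow_zero, one_mul, pl_mul, h1, h3]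
  rw [k, Units.val_neg, Units.val_one, Matrix.neg_mulVec, Matrix.one_mulVec] at e1
  exact v0 ((smul_eq_zero.1 (by rw [two_smul]; exact neg_eq_iff_add_eq_zero.1 e1)).resolve_left h.two)

theorem Cv.neg3 (h : Cv Y π) {s t u : Y} (hs : TI s.1) (ht : TI t.1) (hu : TI u.1) (e : π s * π t = π u) :
    s.1 * t.1 = -u.1 := by
  refine (h.eq_iff.1 ((map_mul π s t).trans e)).resolve_left fun k => ?_
  have k : s.1 * t.1 = u.1 := k
  obtain ⟨v, v0, h1, h3⟩ := hs.fix2 ht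
  have c : Commute s.1 t.1 := by
    have := inv_eq_of_mul_eq_one_right hu.1
    rw [← k, mul_inv_rev, inv_eq_of_mul_eq_one_right hs.1, inv_eq_of_mul_eq_one_right ht.1] at this
    exact this.symm
  have := klein h.two (h.sp s.2) (h.sp t.2) hs.1 ht.1 c (ht.2.trans hs.2.symm) (k ▸ hu.2.trans hs.2.symm) v0 h1 h3
  have r := hs.2
  rw [this, rk_one] at r
  omega

omit [IsAlgClosed K] in
theorem Cv.ti_three (h : Cv Y π) (a2 : a * a = 1) (b2 : b * b = 1) (e : (a * b) ^ 3 = 1) :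
    (∃ s : Y, π s = a ∧ TI s.1) ↔ ∃ t : Y, π t = b ∧ TI t.1 := by
  have k : a * b * a * (a * b)⁻¹ = b := by
    rw [mul_inv_rev, inv_eq_of_mul_eq_one_right a2, inv_eq_of_mul_eq_one_right b2]
    calc a * b * a * (b * a) = (a * b) ^ 3 * b * (b * b)⁻¹ := by simp only [pow_succ]; group
      _ = b := by rw [e, b2, one_mul, inv_one, mul_one]
  obtain ⟨g, hg⟩ := h.surj (a * b)
  refine ⟨fun ⟨s, e, hs⟩ => ⟨g * s * g⁻¹, by rw [map_mul, map_mul, map_inv, hg, e, k], pl_conj hs _⟩,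
    fun ⟨s, e, hs⟩ => ⟨g⁻¹ * s * g⁻¹⁻¹, ?_, pl_conj hs _⟩⟩
  rw [map_mul, map_mul, map_inv, map_inv, map_inv, hg, e]
  nth_rw 2 [← k]
  group

theorem Cv.ti_lift (h : Cv Y π) (x : Sx a b c d r) : ∃ s : Y, π s = a ∧ TI s.1 := by
  obtain ⟨A, rfl⟩ := h.surj a
  obtain ⟨B, rfl⟩ := h.surj b
  obtain ⟨C, rfl⟩ := h.surj c
  obtain ⟨D, rfl⟩ := h.surj d
  have bi := inv_eq_of_mul_eq_one_right x.b2
  have ci := inv_eq_of_mul_eq_one_right x.c2
  have di := inv_eq_of_mul_eq_one_right x.d2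
  have e1 : π (B * D) * π A = π A * π (B * D) := by
    rw [← mul_inv_eq_iff_eq_mul, map_mul, mul_inv_rev, bi, di]
    calc _ = π B * (π D * π A * π D) * π B := by group
      _ = π B * π B * π A * (π B * π B) := by rw [x.da]; group
      _ = _ := by rw [x.b2, one_mul, mul_one]
  have e2 : Commute ((B * D).1 * (B * D).1) A.1 := by
    change _ * _ = _ * _
    rcases h.pm_comm e1 with e | e
    · rw [mul_assoc, e, ← mul_assoc, e, mul_assoc]
    · rw [mul_assoc, e, mul_neg, ← mul_assoc, e, neg_mul, neg_neg, mul_assoc]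
  have e3 := h.eq_iff (g := A * (B * A * B⁻¹)) (g' := B * D * (B * D)) |>.1 (by
    simp only [map_mul, map_inv, bi]; rw [x.ab, ← x.bd, sq])
  have e4 := h.eq_iff (g := C * (B * A * B⁻¹) * C⁻¹) (g' := B * D * (B * D)) |>.1 (by
    simp only [map_mul, map_inv, bi, ci]; rw [← sq, x.bd]; group)
  simp only [Subgroup.coe_mul, Subgroup.coe_inv] at e2 e3 e4
  generalize B.1 * D.1 * (B.1 * D.1) = N at e2 e3 e4
  have cen : ∀ g : G6 K, g * A.1 * g⁻¹ * (g * A.1 * g⁻¹) = A.1 * A.1 := fun g => by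
    rw [show g * A.1 * g⁻¹ * (g * A.1 * g⁻¹) = g * (A.1 * A.1) * g⁻¹ by group]
    rcases h.pm_sq x.a2 with e | e <;> simp [e]
  have e5 : N * N = A.1 * A.1 := by
    rw [← cen (C.1 * B.1), show C.1 * B.1 * A.1 * (C.1 * B.1)⁻¹ = C.1 * (B.1 * A.1 * B.1⁻¹) * C.1⁻¹ by group]
    rcases e4 with e | e <;> simp [e]
  have e6 : A.1 * A.1 = 1 := by
    have k : A.1⁻¹ * N * (A.1⁻¹ * N) = 1 := by
      rw [mul_assoc, ← mul_assoc N, e2.inv_right.eq, mul_assoc, e5]; group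
    rw [← cen B.1, ← k]
    rcases e3 with e | e <;> rw [eq_inv_mul_of_mul_eq e]
    simp
  rcases ti_or h.two (h.sp A.2) e6 with e | e | e | e
  · exact (x.a1 ((h.ker A).2 (.inl e))).elim
  · exact (x.a1 ((h.ker A).2 (.inr e))).elim
  · exact ⟨A, rfl, e⟩
  · exact ⟨⟨-A.1, h.neg_mem A.2⟩, h.eq_iff.2 (.inr rfl), e⟩

theorem Cv.sy_of (h : Cv Y π) {A B C D R : Y} (a : TI A.1) (b : TI B.1) (c : TI C.1) (d : TI D.1) (r : TI R.1)
    (x : Sx (π A) (π B) (π C) (π D) (π R)) : Sy A.1 B.1 C.1 D.1 R.1 := by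
  have t3 : TI (C * B * A * B * C).1 := by simpa only [mul_assoc, Subgroup.coe_mul] using c.cj (b.cj a)
  refine ⟨h.two, ?_, h.cube a r x.ar, h.neg3 (t := B * A * B) a (b.cj a) t3 (by simpa only [map_mul] using x.ab),
    congrArg Subtype.val (h.ti_eq (s := D * A * D) (t := B * A * B) (d.cj a) (b.cj a) (by simpa only [map_mul] using x.da)),
    ?_, h.comm_ti (t := A * B * A) (a.cj b) (by simpa only [map_mul] using x.ra),
    h.cube (s := C * B * C) (c.cj b) r (by simpa only [map_mul] using x.br),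
    h.cube (s := C * D * C) (c.cj d) r (by simpa only [map_mul] using x.cr)⟩
  · simp only [List.forall_mem_cons, List.not_mem_nil, false_imp_iff, implies_true, and_true]
    exact ⟨⟨h.sp A.2, a⟩, ⟨h.sp B.2, b⟩, ⟨h.sp C.2, c⟩, ⟨h.sp D.2, d⟩, h.sp R.2, r⟩
  · simpa only [sq, mul_assoc, Subgroup.coe_mul] using h.neg3 (t := D * B * D) b (d.cj b) t3
      (by simpa only [map_mul, sq, mul_assoc] using x.bd)

/-- All generators are conjugate.  `a₃ = c b a b c` is the square of `b d`, which commutes with `a`; so the lifts of `a`, `a₃` commute,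
and `T₂² = T₁² T₃²` shows `T₁² = 1` (`ti_or`).  Products of two `TI` fix a vector, so `(T T')³ ≠ -1`; `Cv.ti_eq`, `Cv.comm_ti`. -/
theorem Cv.exists_sy (h : Cv Y π) (x : Sx a b c d r) : ∃ A B C D R : Y, π A = a ∧ π B = b ∧ π C = c ∧ π D = d ∧ π R = r ∧
    Sy A.1 B.1 C.1 D.1 R.1 := by
  have a := h.ti_lift x
  have r := (h.ti_three x.a2 x.r2 x.ar).1 a
  have d := (h.ti_three x.d2 x.r2 x.dr).2 r
  have c := (h.ti_three x.d2 x.c2 x.dc).1 d
  obtain ⟨B, rfl, b⟩ := (h.ti_three x.b2 x.c2 x.bc).2 c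
  obtain ⟨A, rfl, a⟩ := a
  obtain ⟨C, rfl, c⟩ := c
  obtain ⟨D, rfl, d⟩ := d
  obtain ⟨R, rfl, r⟩ := r
  exact ⟨A, B, C, D, R, rfl, rfl, rfl, rfl, rfl, h.sy_of a b c d r x⟩

theorem Cv.exists_sy' (h : Cv Y π) (x : Sx' a b c d r e) : ∃ A B C D R E : Y, π A = a ∧ π B = b ∧ π C = c ∧ π D = d ∧ π R = r ∧
    π E = e ∧ Sy' A.1 B.1 C.1 D.1 R.1 E.1 := by
  obtain ⟨A, B, C, D, R, rfl, rfl, rfl, rfl, rfl, s⟩ := h.exists_sy x.toSx
  have a := (s.sp A.1 (by simp)).2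
  have b := (s.sp B.1 (by simp)).2
  have c := (s.sp C.1 (by simp)).2
  have d := (s.sp D.1 (by simp)).2
  have r := (s.sp R.1 (by simp)).2
  obtain ⟨E, rfl, e⟩ := (h.ti_three x.e2 x.c2 x.ec).2 ⟨C, rfl, c⟩
  have t3 : TI (C * B * A * B * C).1 := by simpa only [mul_assoc, Subgroup.coe_mul] using c.cj (b.cj a)
  refine ⟨A, B, C, D, R, E, rfl, rfl, rfl, rfl, rfl, rfl, s, ⟨h.sp E.2, e⟩,
    congrArg Subtype.val (h.ti_eq (s := E * A * E) (t := B * A * B) (e.cj a) (b.cj a) (by simpa only [map_mul] using x.ea)),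
    ?_, ?_, h.cube (s := B * D * C * E * C * D * B) 
      (by simpa only [mul_assoc, Subgroup.coe_mul] using b.cj (d.cj (c.cj e))) r
      (by simpa only [map_mul] using x.er)⟩
  · simpa only [sq, mul_assoc, Subgroup.coe_mul] using h.neg3 (t := E * B * E) b (e.cj b) t3
      (by simpa only [map_mul, sq, mul_assoc] using x.be)
  · simpa only [sq, mul_assoc, Subgroup.coe_mul] using h.neg3 (t := E * D * E) d (e.cj d) t3
      (by simpa only [map_mul, sq, mul_assoc] using x.de)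

end

end Cfsg.Lib.S6Q
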