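import Cfsg.Agent.Lib.O7.SR3

/-!
# 2-subgroups of the monomial group of `Sp₆` without units: at most four generators modulo `± 1`
-/

set_option autoImplicit false

namespace Cfsg.Lib.S6Q.SR

open Equiv Subgroup
open Cfsg.Lib.O7.SR (s4' ek)

/-- A faithful monomial action on a symplectic basis. -/
structure Dat (G K : Type*) [Group G] [Field K] where
  π : G →* Perm (Fin 3)
  t : G → Fin 3 → ℤˣ
  c : G → Fin 3 → Kˣ
  z : G
  two : (-1 : Kˣ) ≠ 1
  tm : ∀ x y i, t (x * y) i = t x (π y i) * t y i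
  cm : ∀ x y i, c (x * y) i = c x (π y i) ^ (t y i : ℤ) * c y i *
    if t x (π y i) = -1 ∧ t y i = -1 then -1 else 1
  F : ∀ x y, (∀ i, π x i = π y i ∧ t x i = t y i ∧ c x i = c y i) → x = y
  zπ : π z = 1
  zt : ∀ i, t z i = 1
  zc : ∀ i, c z i = -1
  N : ∀ y k, π y = 1 → (∀ i, i ≠ k → t y i = 1 ∧ c y i = 1) → ¬ (t y k = -1 ∨ c y k * c y k = -1)

/-- The sign. -/
def sg (K : Type*) [Field K] : ℤˣ →* Kˣ := Units.map (Int.castRingHom K).toMonoidHom

theorem sg_neg {K : Type*} [Field K] : sg K (-1) = -1 := Units.ext (by simp [sg])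

theorem sg_sq {K : Type*} [Field K] (s : ℤˣ) : sg K s * sg K s = 1 := by
  rw [← map_mul, Int.units_mul_self, map_one]

theorem pm_of_sq {K : Type*} [Field K] {a : Kˣ} (h : a * a = 1) : a = 1 ∨ a = -1 :=
  (mul_self_eq_one_iff.1 (congrArg Units.val h)).imp (fun e => Units.ext e) fun e => Units.ext e

theorem sg_of_sq {K : Type*} [Field K] {a : Kˣ} (h : a * a = 1) : ∃ s, sg K s = a :=
  (pm_of_sq h).elim (fun e => ⟨1, by rw [e, map_one]⟩) fun e => ⟨-1, by rw [e, sg_neg]⟩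

theorem n1 : (1 : ℤˣ) ≠ -1 := by decide

namespace Dat

variable {G K : Type*} [Group G] [Field K] (D : Dat G K)

theorem t1 (i : Fin 3) : D.t 1 i = 1 := by simpa using D.tm 1 1 i

theorem c1 (i : Fin 3) : D.c 1 i = 1 := by simpa [t1, n1] using D.cm 1 1 i

/-- The diagonal elements. -/
def A : Subgroup G where
  carrier := {x | D.π x = 1 ∧ ∀ i, D.t x i = 1}
  one_mem' := ⟨map_one _, D.t1⟩
  mul_mem' ha hb := ⟨by rw [map_mul, ha.1, hb.1, mul_one], fun i => by rw [D.tm, ha.2, hb.2, mul_one]⟩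
  inv_mem' {a} ha := ⟨by rw [map_inv, ha.1, inv_one], fun i => by simpa [t1, ha.2] using (D.tm a a⁻¹ i).symm⟩

theorem zA : D.z ∈ D.A := ⟨D.zπ, D.zt⟩

variable {D}

theorem cA {u : G} (hu : u ∈ D.A) (x : G) (i : Fin 3) : D.c (x * u) i = D.c x i * D.c u i := by
  simp [D.cm, hu.1, hu.2]

theorem tA {u : G} (hu : u ∈ D.A) (x : G) (i : Fin 3) : D.t (x * u) i = D.t x i := by simp [D.tm, hu.1, hu.2]

theorem πA {u : G} (hu : u ∈ D.A) (x : G) : D.π (x * u) = D.π x := by rw [map_mul, hu.1, mul_one]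

theorem cinv {u : G} (hu : u ∈ D.A) (i : Fin 3) : D.c u⁻¹ i = (D.c u i)⁻¹ :=
  eq_inv_of_mul_eq_one_left (by rw [← cA hu, inv_mul_cancel, c1])

theorem eqA {u v : G} (hu : u ∈ D.A) (hv : v ∈ D.A) (h : ∀ i, D.c u i = D.c v i) : u = v :=
  D.F _ _ fun i => ⟨by rw [hu.1, hv.1], by rw [hu.2, hv.2], h i⟩

theorem commA {u v : G} (hu : u ∈ D.A) (hv : v ∈ D.A) : Commute u v :=
  eqA (mul_mem hu hv) (mul_mem hv hu) fun i => by rw [cA hv, cA hu, mul_comm]

theorem sqA {y : G} (h : D.π y = 1) : y * y ∈ D.A :=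
  ⟨by rw [map_mul, h, mul_one], fun i => by rw [D.tm, h]; exact Int.units_mul_self _⟩

theorem csq {y : G} (h : D.π y = 1) {i : Fin 3} (e : D.t y i = 1) : D.c (y * y) i = D.c y i * D.c y i := by
  simp [D.cm, h, e]

theorem csq' {y : G} (h : D.π y = 1) {i : Fin 3} (e : D.t y i = -1) : D.c (y * y) i = -1 := by
  simp [D.cm, h, e]

variable (D) in
/-- The squares of the diagonal elements. -/
def sqr : D.A →* G := .mk' (fun a => a * a) fun a b => (commA b.2 a.2).mul_mul_mul_comm _ _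

variable (D) in
/-- The diagonal involutions. -/
def R : Subgroup (Fin 3 → ℤˣ) where
  carrier := {ε | ∃ u ∈ D.A, ∀ i, D.c u i = sg K (ε i)}
  one_mem' := ⟨1, one_mem _, by simp [c1]⟩
  mul_mem' := by
    rintro _ _ ⟨u, hu, h⟩ ⟨v, hv, k⟩
    exact ⟨_, mul_mem hu hv, fun i => by simp [cA hv, h, k]⟩
  inv_mem' := by
    rintro ε ⟨u, hu, h⟩
    exact ⟨u, hu, fun i => by simp [h, Int.units_inv_eq_self]⟩

theorem card_R : Nat.card D.R ≤ 8 := (card_le_card_group _).trans (by simp)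

theorem R_top (h : 4 < Nat.card D.R) : D.R = ⊤ := by
  by_contra n
  have c : Nat.card (Fin 3 → ℤˣ) = 8 := by simp
  have := D.R.card_mul_index
  have := one_lt_index_of_ne_top n
  nlinarith

theorem card_A [Finite G] : Nat.card D.A ≤ Nat.card D.sqr.range * Nat.card D.R := by
  have h5 : Nat.card D.sqr.ker ≤ Nat.card D.R := by
    have : ∀ u : D.sqr.ker, ∃ ε : D.R, ∀ i, D.c u i = sg K (ε.1 i) := fun u => by
      choose ε hε using fun i => sg_of_sq (a := D.c u i)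
        (by rw [← cA u.1.2, show u.1.1 * u.1.1 = 1 from u.2, c1])
      exact ⟨⟨ε, u, u.1.2, fun i => (hε i).symm⟩, fun i => (hε i).symm⟩
    choose g hg using this
    exact Nat.card_le_card_of_injective g fun u v e => Subtype.ext (Subtype.ext (eqA u.1.2 v.1.2 fun i => by
      rw [hg, hg, e]))
  rw [← D.sqr.ker.card_mul_index, index_ker, mul_comm]
  exact Nat.mul_le_mul_left _ h5

variable (D) in
/-- `± 1` outside the `k`-th plane, of order four on it. -/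
structure Bad (y : G) (k : Fin 3) : Prop where
  p : D.π y = 1
  t : ∀ i, i ≠ k → D.t y i = 1
  c : ∀ i, i ≠ k → D.c y i * D.c y i = 1
  b : D.t y k = -1 ∨ D.c y k * D.c y k = -1

theorem Bad.no {y u : G} {k : Fin 3} (h : D.Bad y k) (hu : u ∈ D.A) (e : D.c u k * D.c u k = 1)
    (e' : ∀ i, i ≠ k → D.c u i = D.c y i) : False :=
  D.N (y * u) k ((πA hu y).trans h.p) (fun i n => ⟨(tA hu y i).trans (h.t i n), by rw [cA hu, e' i n, h.c i n]⟩)
    (by rw [tA hu, cA hu, mul_mul_mul_comm, e, mul_one]; exact h.b)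

theorem Bad.top {y : G} {k : Fin 3} (h : D.Bad y k) (hR : D.R = ⊤) : False := by
  have : ∀ i, ∃ s, i ≠ k → sg K s = D.c y i := fun i => by
    by_cases o : i = k
    · exact ⟨1, fun n => absurd o n⟩
    · exact (sg_of_sq (h.c i o)).imp fun _ h _ => h
  choose ε hε using this
  obtain ⟨u, hu, e⟩ : ε ∈ D.R := hR.ge trivial
  exact h.no hu (by rw [e, sg_sq]) fun i n => (e i).trans (hε i n)

theorem Bad.ne {y : G} {k i j : Fin 3} (h : D.Bad y k) (n : i ≠ k) (o : ∀ l, l ≠ k → l = i ∨ l = j) :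
    D.c y j ≠ D.c y i := fun e => by
  have a : ∀ l, l ≠ k → D.c y l = D.c y i := fun l m => by rcases o l m with rfl | rfl; exacts [rfl, e]
  rcases pm_of_sq (h.c i n) with s | s
  · exact h.no (one_mem _) (by simp [c1]) fun l m => by rw [c1, a l m, s]
  · exact h.no D.zA (by simp [D.zc]) fun l m => by rw [D.zc, a l m, s]

variable (D) in
/-- A reflection on the `k`-th plane, diagonal on the other two. -/
structure Rf (x : G) (k : Fin 3) : Prop where
  p : D.π x = 1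
  t : ∀ i, i ≠ k → D.t x i = 1
  k : D.t x k = -1

theorem Rf.mul {x u : G} {k : Fin 3} (h : D.Rf x k) (hu : u ∈ D.A) : D.Rf (x * u) k :=
  ⟨(πA hu x).trans h.p, fun i n => (tA hu x i).trans (h.t i n), (tA hu x k).trans h.k⟩

theorem Rf.red {x u : G} {k : Fin 3} (h : D.Rf x k) (hu : u ∈ D.A) (m : x * x * u ∈ D.sqr.range) :
    ∃ y, D.Rf y k ∧ ∀ i, i ≠ k → D.c y i * D.c y i * D.c u i = 1 := by
  obtain ⟨a, e⟩ := m
  refine ⟨x * (a : G)⁻¹, h.mul (inv_mem a.2), fun i n => ?_⟩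
  have := congrArg (D.c · i) e
  simp only [sqr, MonoidHom.mk'_apply, cA a.2, cA hu, csq h.p (h.t i n)] at this
  rw [cA (inv_mem a.2), cinv a.2, mul_mul_mul_comm, mul_right_comm, ← this]
  simp

theorem Rf.bad {y : G} {k : Fin 3} (h : D.Rf y k) (c : ∀ i, i ≠ k → D.c y i * D.c y i = 1) : D.Bad y k :=
  ⟨h.p, h.t, c, .inl h.k⟩

theorem bad_of_sq {u : G} {k : Fin 3} (m : u ∈ D.sqr.range) (e : D.c u k = -1) (e' : ∀ i, i ≠ k → D.c u i = 1) :
    ∃ b ∈ D.A, D.Bad b k := by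
  obtain ⟨b, rfl⟩ := m
  exact ⟨b, b.2, b.2.1, fun i _ => b.2.2 i, fun i n => (cA b.2 _ _).symm.trans (e' i n),
    .inr ((cA b.2 _ _).symm.trans e)⟩

variable {W : Subgroup G} (hW : ∀ x, x * x ∈ W)
include hW

theorem Rf.no {x : G} {k : Fin 3} (h : D.Rf x k) (hB : W ⊓ D.A ≤ D.sqr.range) : False := by
  obtain ⟨y, hy, c⟩ := h.red (one_mem _) (by rw [mul_one]; exact hB ⟨hW x, sqA h.p⟩)
  simp only [c1, mul_one] at c
  obtain ⟨b, hb, h'⟩ := bad_of_sq (hB ⟨hW y, sqA hy.p⟩) (csq' hy.p hy.k) fun i n =>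
    (csq hy.p (hy.t i n)).trans (c i n)
  obtain ⟨i, j, ni, nj, o⟩ := (by decide : ∀ k : Fin 3, ∃ i j, i ≠ k ∧ j ≠ k ∧ ∀ l, l ≠ k → l = i ∨ l = j) k
  have e1 := (hy.bad c).ne ni o
  have e2 := h'.ne ni o
  refine ((hy.mul hb).bad fun l n => ?_).ne ni o ?_
  · rw [cA hb, mul_mul_mul_comm, c l n, h'.c l n, mul_one]
  · rw [cA hb, cA hb]
    rcases pm_of_sq (c i ni) with a | a <;> rcases pm_of_sq (c j nj) with a' | a' <;>
      rcases pm_of_sq (h'.c i ni) with b | b <;> rcases pm_of_sq (h'.c j nj) with b' | b' <;>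
      simp_all

omit D in
theorem cW (x y : G) : (y * x)⁻¹ * (x * y) ∈ W := by
  have := mul_mem (mul_mem (hW x⁻¹) (hW (x * y⁻¹))) (hW y)
  rwa [show x⁻¹ * x⁻¹ * (x * y⁻¹ * (x * y⁻¹)) * (y * y) = (y * x)⁻¹ * (x * y) by group] at this

theorem comm0 {x y : G} (hx : D.π x = 1) (hy : D.π y = 1) : ∃ u ∈ W ⊓ D.A,
    ∀ i, D.c y i ^ (D.t x i : ℤ) * D.c x i * D.c u i = D.c x i ^ (D.t y i : ℤ) * D.c y i := by
  have e : y * x * ((y * x)⁻¹ * (x * y)) = x * y := by group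
  have p : D.π ((y * x)⁻¹ * (x * y)) = 1 := by simp [hx, hy]
  have m : (y * x)⁻¹ * (x * y) ∈ D.A := ⟨p, fun i => by
    have := D.tm (y * x) ((y * x)⁻¹ * (x * y)) i
    rw [e, p, D.tm x, D.tm y x, hx, hy] at this
    simpa [mul_comm] using this⟩
  refine ⟨_, ⟨cW hW x y, m⟩, fun i => ?_⟩
  have := cA m (y * x) i
  rw [e, D.cm x, D.cm y x, hx, hy, mul_right_comm _ _ (D.c _ i)] at this
  simp only [Perm.one_apply, and_comm (a := D.t y i = -1)] at this
  exact (mul_right_cancel this).symm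

theorem comm1 {u : G} {ε : Fin 3 → ℤˣ} (hu : u ∈ D.A) (h : ∀ i, D.c u i = sg K (ε i)) (g : G) :
    ∃ v ∈ W ⊓ D.A, ∀ i, D.c v i = sg K (ε (D.π g i) * ε i) := by
  have e : g * (g⁻¹ * u * g) = u * g := by group
  have p : D.π (g⁻¹ * u * g) = 1 := by simp [hu.1]
  have m : g⁻¹ * u * g ∈ D.A := ⟨p, fun i => by simpa [e, p, D.tm u, hu.2] using (D.tm g (g⁻¹ * u * g) i).symm⟩
  have c : ∀ i, D.c (g⁻¹ * u * g) i = sg K (ε (D.π g i)) := fun i => mul_left_cancel (a := D.c g i) (by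
    rw [← cA m, e, D.cm, h, ← map_zpow, hu.2]
    rcases Int.units_eq_one_or (D.t g i) with e | e <;> simp [e, Int.units_inv_eq_self, mul_comm])
  refine ⟨u⁻¹ * (g⁻¹ * u * g), ⟨?_, D.A.mul_mem (inv_mem hu) m⟩, fun i => ?_⟩
  · have := cW hW u g
    rwa [show (g * u)⁻¹ * (u * g) = u⁻¹ * (g⁻¹ * u * g) by group] at this
  · rw [cA m, cinv hu, c, h, ← map_inv, Int.units_inv_eq_self, map_mul, mul_comm]

theorem cnt [Finite G] (hG : IsPGroup 2 G) (h : 16 * Nat.card W < Nat.card G) {k : Fin 3}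
    (hk : ∀ x, D.π x k = k) : 2 * Nat.card ↥(W ⊓ D.A) < Nat.card D.A ∧
      (4 * Nat.card ↥(W ⊓ D.A) < Nat.card D.A ∨ ∃ x, D.Rf x k) := by
  have ne : ∀ x {i}, i ≠ k → D.π x i ≠ k := fun x i n o => n ((D.π x).injective (o.trans (hk x).symm))
  let σ : G →* Perm ({i // i ≠ k} × ℤˣ) := MonoidHom.toHomPerm
    { toFun := fun x p => (⟨D.π x p.1, ne x p.1.2⟩, D.t x p.1 * p.2)
      map_one' := funext fun p => by simp [t1]; rfl
      map_mul' := fun x y => funext fun p => by simp [D.tm, mul_assoc]; rfl }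
  have mY : ∀ {x}, x ∈ σ.ker ↔ ∀ i, i ≠ k → D.π x i = i ∧ D.t x i = 1 := by
    refine ⟨fun m i n => ?_, fun m => Perm.ext fun p => Prod.ext (Subtype.ext (m _ p.1.2).1) ?_⟩
    · have := Prod.ext_iff.1 (Perm.ext_iff.1 m (⟨i, n⟩, 1))
      exact ⟨congrArg Subtype.val this.1, (mul_one _).symm.trans this.2⟩
    · exact (congrArg (· * p.2) (m _ p.1.2).2).trans (one_mul _)
  have pY : ∀ {x}, x ∈ σ.ker → D.π x = 1 := fun {x} m => Perm.ext fun i => by
    by_cases o : i = k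
    exacts [o ▸ hk x, (mY.1 m i o).1]
  let τ : G →* ℤˣ := .mk' (fun x => D.t x k) fun x y => by rw [D.tm, hk]
  have eA : σ.ker ⊓ τ.ker = D.A := le_antisymm (fun x m => ⟨pY m.1, fun i => by
      by_cases o : i = k
      exacts [o ▸ m.2, (mY.1 m.1 i o).2]⟩) fun x m => ⟨mY.2 fun i _ => ⟨by simp [m.1], m.2 i⟩, m.2 k⟩
  have h1 := s4' hG (Fintype.equivFinOfCardEq (by simp)) σ hW
  have h2 := Core.card_map_mul_card_inf_ker τ σ.ker
  have h3 : Nat.card (σ.ker.map τ) ≤ 2 := (card_le_card_group _).trans (by simp)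
  have h8 : Nat.card ↥(W ⊓ D.A) ≤ Nat.card ↥(W ⊓ σ.ker) := card_le_of_le (inf_le_inf_left _ (eA ▸ inf_le_left))
  have p1 : 0 < Nat.card W := Nat.card_pos
  have p3 : 0 < Nat.card ↥(W ⊓ σ.ker) := Nat.card_pos
  rw [eA] at h2
  have k1 : 4 * Nat.card ↥(W ⊓ σ.ker) < Nat.card σ.ker := by nlinarith
  have k2 : Nat.card σ.ker ≤ 2 * Nat.card D.A := by nlinarith
  refine ⟨by omega, ?_⟩
  by_cases l : σ.ker ≤ D.A
  · have := card_le_of_le l
    exact .inl (by omega)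
  obtain ⟨x, hx, nx⟩ := SetLike.not_le_iff_exists.1 l
  exact .inr ⟨x, pY hx, fun i o => (mY.1 hx i o).2,
    (Int.units_eq_one_or _).resolve_left fun o => nx (eA ▸ ⟨hx, o⟩)⟩

variable (hz : D.z ∈ W)
include hz

set_option synthInstance.maxSize 1000 in
theorem caseA [Finite G] (hR : D.R = ⊤) (hB : W ⊓ D.A ≤ D.sqr.range) : Nat.card G ≤ 2 * Nat.card D.A := by
  have key : ∀ u ∈ W ⊓ D.A, ∀ ε : Fin 3 → ℤˣ, (∀ i, D.c u i = sg K (ε i)) → ∀ i, ε i = ε 0 := fun u hu ε e => by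
    have no : ∀ v ∈ W ⊓ D.A, ∀ k, ¬ ∀ i, D.c v i = sg K (ek k i) := fun v hv k e => by
      obtain ⟨b, -, h⟩ := bad_of_sq (k := k) (hB hv) (by simp [e, ek, sg_neg]) fun i n => by simp [e, ek, n]
      exact h.top hR
    rcases (by decide +kernel : ∀ ε : Fin 3 → ℤˣ, (∀ i, ε i = ε 0) ∨ ∃ k, ε = ek k ∨ ∀ i, ε i * -1 = ek k i) ε with
      o | ⟨k, rfl | o⟩
    · exact o
    · exact (no u hu k e).elim
    · exact (no _ (mul_mem hu ⟨hz, D.zA⟩) k fun i => by rw [cA D.zA, e, D.zc, ← o, map_mul, sg_neg]).elim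
  have p : ∀ g, D.π g = 1 := fun g => by
    have : ∀ k i, ek k (D.π g i) * ek k i = ek k (D.π g 0) * ek k 0 := fun k => by
      obtain ⟨u, hu, e⟩ : ek k ∈ D.R := hR.ge trivial
      obtain ⟨v, hv, e'⟩ := comm1 hW hu e g
      exact key v hv _ e'
    exact (by decide +kernel : ∀ p : Perm (Fin 3), (∀ k i, ek k (p i) * ek k i = ek k (p 0) * ek k 0) → p = 1) _ this
  obtain ⟨a, ea⟩ := hB ⟨hz, D.zA⟩
  have ca : ∀ i, D.c a i * D.c a i = -1 := fun i => by rw [← cA a.2, ← D.zc i, ← ea]; rfl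
  have tt : ∀ g i, D.t g i = D.t g 0 := fun g => by
    obtain ⟨u, hu, e⟩ := comm0 hW (p g) a.2.1
    refine key u hu _ fun i => ?_
    have := e i
    rw [a.2.2, mul_right_comm, Units.val_one, zpow_one, mul_comm (D.c g i), mul_left_inj] at this
    rcases Int.units_eq_one_or (D.t g i) with s | s <;> rw [s] at this ⊢
    · simpa using this
    · rw [sg_neg, ← ca i]; simpa [inv_mul_eq_iff_eq_mul] using this
  let τ : G →* ℤˣ := .mk' (fun x => D.t x 0) fun x y => by rw [D.tm, p]; rfl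
  have l : τ.ker ≤ D.A := fun x m => ⟨p x, fun i => (tt x i).trans m⟩
  have h3 : Nat.card τ.range ≤ 2 := (card_le_card_group _).trans (by simp)
  rw [← τ.ker.card_mul_index, index_ker, mul_comm]
  exact Nat.mul_le_mul h3 (card_le_of_le l)

set_option synthInstance.maxSize 1000 in
theorem caseB (hR : D.R = ⊤) (h2 : ∀ u ∈ W ⊓ D.A, ∀ v ∈ W ⊓ D.A, u ∉ D.sqr.range → v ∉ D.sqr.range →
    u * v ∈ D.sqr.range) {k : Fin 3} (hk : ∀ x, D.π x k = k) (hx : ∀ j, (∀ x, D.π x j = j) → ∃ x, D.Rf x j) :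
    False := by
  have nq : ∀ {x j}, D.Rf x j → x * x ∉ D.sqr.range := fun {x j} h m => by
    obtain ⟨y, hy, c⟩ := h.red (one_mem _) (by rwa [mul_one])
    exact (hy.bad fun i n => by simpa [c1] using c i n).top hR
  have fin : ∀ u ∈ W ⊓ D.A, ¬ ∀ i, D.c u i = sg K (ek k i) := fun u hu e => by
    obtain ⟨x, h⟩ := hx k hk
    obtain ⟨y, hy, c⟩ := h.red hu.2 (h2 _ ⟨hW x, sqA h.p⟩ u hu (nq h) fun m => by
      obtain ⟨b, -, h⟩ := bad_of_sq (k := k) m (by simp [e, ek, sg_neg]) fun i n => by simp [e, ek, n]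
      exact h.top hR)
    exact (hy.bad fun i n => by simpa [e, ek, n] using c i n).top hR
  have fin' : ∀ u ∈ W ⊓ D.A, ¬ ∀ i, D.c u i * -1 = sg K (ek k i) := fun u hu e =>
    fin _ (mul_mem hu ⟨hz, D.zA⟩) fun i => by rw [cA D.zA, D.zc, e]
  by_cases p : ∀ g, D.π g = 1
  · by_cases hs : D.z ∈ D.sqr.range
    · obtain ⟨a, ea⟩ := hs
      have ca : ∀ i, D.c a i * D.c a i = -1 := fun i => by rw [← cA a.2, ← D.zc i, ← ea]; rfl
      obtain ⟨x, h⟩ := hx k hk
      obtain ⟨u, hu, e⟩ := comm0 hW h.p a.2.1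
      refine fin u hu fun i => ?_
      have := e i
      rw [a.2.2, mul_right_comm, Units.val_one, zpow_one, mul_comm (D.c x i), mul_left_inj] at this
      by_cases o : i = k
      · subst o
        rw [h.k] at this
        rw [ek, if_pos rfl, sg_neg, ← ca i]; simpa [inv_mul_eq_iff_eq_mul] using this
      · rw [h.t i o] at this
        simpa [ek, o] using this
    · have ex : ∀ j, ∃ y, D.Rf y j ∧ ∀ i, i ≠ j → D.c y i * D.c y i = -1 := fun j => by
        obtain ⟨x, h⟩ := hx j fun x => by rw [p]; rfl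
        obtain ⟨y, hy, c⟩ := h.red D.zA (h2 _ ⟨hW x, sqA h.p⟩ _ ⟨hz, D.zA⟩ (nq h) hs)
        exact ⟨y, hy, fun i n => by simpa [D.zc, neg_eq_iff_eq_neg] using c i n⟩
      obtain ⟨i, j, ni, nj, ij, o⟩ :=
        (by decide : ∀ k : Fin 3, ∃ i j, k ≠ i ∧ k ≠ j ∧ i ≠ j ∧ ∀ l, l = k ∨ l = i ∨ l = j) k
      obtain ⟨x, h, c⟩ := ex i
      obtain ⟨y, h', c'⟩ := ex j
      obtain ⟨u, hu, e⟩ := comm0 hW h.p h'.p
      refine fin' u hu fun l => ?_
      have := e l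
      rcases o l with rfl | rfl | rfl
      · rw [h.t l ni, h'.t l nj, Units.val_one, zpow_one, zpow_one, mul_comm (D.c y l), mul_eq_left] at this
        simp [this, ek, sg_neg]
      · rw [h.k, h'.t l ij, mul_right_comm, Units.val_one, zpow_one, mul_comm (D.c x l), mul_left_inj] at this
        have e' : D.c u l = -1 := by rw [← c' l ij]; simpa [inv_mul_eq_iff_eq_mul] using this
        simp [e', ek, ni.symm]
      · rw [h'.k, h.t l ij.symm, Units.val_one, zpow_one, mul_assoc, mul_comm (D.c y l), mul_left_inj] at this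
        have e' : D.c x l * D.c x l * D.c u l = 1 := by rw [mul_assoc, this]; simp
        rw [c l ij.symm, neg_one_mul, neg_eq_iff_eq_neg] at e'
        simp [e', ek, nj.symm]
  · obtain ⟨g, p⟩ := not_forall.1 p
    obtain ⟨j, o⟩ := (by decide +kernel : ∀ (k : Fin 3) (p : Perm (Fin 3)), p ≠ 1 → p k = k →
      ∃ j, ∀ i, ek j (p i) * ek j i * -1 = ek k i) k _ p (hk g)
    obtain ⟨u, hu, e⟩ : ek j ∈ D.R := hR.ge trivial
    obtain ⟨v, hv, e'⟩ := comm1 hW hu e g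
    exact fin' v hv fun i => by rw [e', ← o, map_mul _ _ (-1), sg_neg]

theorem main [Finite G] (hG : IsPGroup 2 G) : Nat.card G ≤ 16 * Nat.card W := by
  by_contra! h
  let := MulAction.compHom (Fin 3) D.π
  obtain ⟨k, hk⟩ := hG.nonempty_fixed_point_of_prime_not_dvd_card (Fin 3) (by simp)
  have l : D.sqr.range ≤ W ⊓ D.A := by rintro _ ⟨a, rfl⟩; exact ⟨hW _, mul_mem a.2 a.2⟩
  have h1 := card_A (D := D)
  have h2 := card_R (D := D)
  have h3 := (D.sqr.range.subgroupOf (W ⊓ D.A)).card_mul_index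
  rw [Nat.card_congr (subgroupOfEquivOfLe l).toEquiv] at h3
  have p : 0 < Nat.card D.sqr.range := Nat.card_pos
  have h4 := card_le_of_le l
  obtain ⟨c1, c2⟩ := cnt hW hG h hk
  by_cases hB : W ⊓ D.A ≤ D.sqr.range
  · have c3 := c2.resolve_right fun ⟨x, h⟩ => h.no hW hB
    have := caseA hW hz (R_top (by nlinarith)) hB
    have := card_le_of_le (inf_le_left : W ⊓ D.A ≤ W)
    nlinarith
  · have n1 := one_lt_index_of_ne_top (H := D.sqr.range.subgroupOf (W ⊓ D.A)) (by rwa [Ne, subgroupOf_eq_top])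
    obtain ⟨e, he⟩ := (hG.to_subgroup (W ⊓ D.A)).index (D.sqr.range.subgroupOf (W ⊓ D.A))
    have n4 : (D.sqr.range.subgroupOf (W ⊓ D.A)).index < 4 := by nlinarith
    have n2 : (D.sqr.range.subgroupOf (W ⊓ D.A)).index = 2 := by
      rw [he] at n1 n4 ⊢
      rcases e with _ | _ | e
      · omega
      · rfl
      · rw [pow_succ, pow_succ] at n4; have := Nat.two_pow_pos e; omega
    rw [n2] at h3
    refine caseB hW hz (R_top (by nlinarith)) (fun u hu v hv a b => ?_) hk fun j hj =>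
      (cnt hW hG h hj).2.resolve_left (by nlinarith)
    exact (mul_mem_iff_of_index_two n2 (a := ⟨u, hu⟩) (b := ⟨v, hv⟩)).2 (iff_of_false a b)

end Dat

end Cfsg.Lib.S6Q.SR
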