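import Cfsg.Agent.Lib.S6Q.T2b
import Cfsg.Agent.Lib.S6Q.SectA
import Cfsg.Agent.Lib.Transfer.SylowIn

/-!
# The monomial subgroup of `Sp₆(q)` has odd index for `q ≡ 1 mod 4`
-/

set_option autoImplicit false

namespace Cfsg.Lib.S6Q.SR

open scoped MatrixGroups Matrix
open Cfsg.Geo Cfsg.Lib.Asch Cfsg.Lib.Linear Cfsg.Lib.Symp Equiv
open Cfsg.Lib.Q4R (dg NN pp mon_apply mon_mul mon_inj)

variable {K : Type*} [Field K]

/-- The sign in the alternating form. -/
def sj (K : Type*) [Field K] : I6 → Kˣ := Sum.elim (fun _ => -1) fun _ => 1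

theorem J_eq (p q : I6) : Matrix.J (Fin 3) K p q = if q = p.swap then (sj K p : K) else 0 := by
  rcases p with p | p <;> rcases q with q | q <;> simp [Matrix.J, sj, Matrix.one_apply, eq_comm, apply_ite]

theorem mon_sp {a : I6 → Kˣ} {σ : Perm I6} : (dg a * Q4R.pm σ : G6 K) ∈ Sp K ↔
    ∀ j, σ j.swap = (σ j).swap ∧ a (σ j) * a (σ j.swap) * sj K (σ j) = sj K j := by
  have e : ∀ i j, ((dg a * Q4R.pm σ : G6 K).1ᵀ * Matrix.J (Fin 3) K * (dg a * Q4R.pm σ : G6 K).1) i j =
      if σ j = (σ i).swap then ((a (σ i) * a (σ j) * sj K (σ i) : Kˣ) : K) else 0 := fun i j => by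
    simp only [Matrix.mul_apply, Matrix.transpose_apply, mon_apply, mul_ite, ite_mul, mul_zero, zero_mul,
      Finset.sum_ite_eq', Finset.mem_univ, if_true]
    rw [J_eq]
    split_ifs <;> simp [mul_right_comm]
  rw [mem_Sp']
  refine ⟨fun h j => ?_, fun h => Matrix.ext fun i j => ?_⟩
  · have := congrFun (congrFun h j) j.swap
    rw [e, J_eq, if_pos rfl] at this
    split_ifs at this with o
    · exact ⟨o, Units.ext this⟩
    · exact absurd this.symm (Units.ne_zero _)
  · rw [e, J_eq, ← (h i).1]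
    simp only [σ.apply_eq_iff_eq]
    split_ifs with o
    · rw [o, (h i).2]
    · rfl

/-- The Weyl group. -/
def Wy : Subgroup (Perm I6) := Subgroup.centralizer {Equiv.sumComm (Fin 3) (Fin 3)}

theorem card_Wy : Nat.card Wy = 48 := by
  have : Nat.card Wy = Fintype.card {σ : Perm I6 // ∀ j, σ j.swap = (σ j).swap} := by
    rw [← Nat.card_eq_fintype_card]
    refine Nat.card_congr (Equiv.subtypeEquivRight fun σ => ?_)
    rw [Wy, Subgroup.mem_centralizer_singleton_iff, Equiv.ext_iff]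
    rfl
  rw [this]
  decide +kernel

theorem exists_mon {σ : Perm I6} (h : σ ∈ Wy) : ∃ a, (dg a * Q4R.pm σ : G6 K) ∈ Sp K := by
  have h' : ∀ j, σ j.swap = (σ j).swap := Equiv.ext_iff.1 (Subgroup.mem_centralizer_singleton_iff.1 h)
  refine ⟨fun i => (σ.symm i).elim (fun _ => 1) fun j => -sj K (σ (.inl j)), mon_sp.2 fun j => ⟨h' j, ?_⟩⟩
  rcases j with j | j
  · simp only [Equiv.symm_apply_apply, Sum.swap_inl, Sum.elim_inl, Sum.elim_inr]
    rcases σ (.inl j) with _ | _ <;> simp [sj]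
  · have := h' (.inl j)
    simp only [Equiv.symm_apply_apply, Sum.swap_inl, Sum.swap_inr, Sum.elim_inl, Sum.elim_inr] at this ⊢
    rw [this]
    rcases σ (.inl j) with _ | _ <;> simp [sj]

theorem tor_inj : Function.Injective (tor : (Fin 3 → Kˣ) → G6 K) := fun _ _ e =>
  funext fun i => congrFun (Q4R.dg_inj e) (.inl i)

theorem tor_sp (μ : Fin 3 → Kˣ) : (tor μ : G6 K) ∈ Sp K := by
  have := (mon_sp (a := Sum.elim μ fun i => (μ i)⁻¹) (σ := 1)).2 fun j => ⟨rfl, by rcases j with j | j <;> simp⟩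
  rwa [map_one, mul_one] at this

theorem dvd_card [Finite K] : (Nat.card K - 1) ^ 3 * 48 ∣ Nat.card ↥(NN I6 K ⊓ Sp K) := by
  let φ : ↥(NN I6 K ⊓ Sp K) →* Perm I6 := .mk' (fun g => pp g.1) fun a b => Q4R.pp_mul a.2.1 b.2.1
  rw [← φ.ker.card_mul_index, Subgroup.index_ker]
  refine mul_dvd_mul ?_ (card_Wy ▸ Subgroup.card_dvd_of_le fun σ h => ?_)
  · have := Subgroup.card_dvd_of_injective
      ((tor.codRestrict (NN I6 K ⊓ Sp K) fun μ => Subgroup.mem_inf.2 ⟨Q4R.dg_mem _, tor_sp μ⟩).codRestrict φ.ker fun μ => Q4R.pp_dg _)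
      fun a b e => tor_inj (congrArg (·.1.1) e)
    rwa [Nat.card_fun, Nat.card_units, Nat.card_eq_fintype_card (α := Fin 3), Fintype.card_fin] at this
  · obtain ⟨a, ha⟩ := exists_mon (K := K) h
    exact ⟨⟨_, Q4R.mon_mem a σ, ha⟩, Q4R.pp_mon a σ⟩

theorem odd_index [Finite K] (h : Nat.card K % 4 = 1) : ¬ 2 ∣ (NN I6 K ⊓ Sp K).relIndex (Sp K) := by
  have e := Transfer.card_mul_relIndex (inf_le_right : NN I6 K ⊓ Sp K ≤ Sp K)
  obtain ⟨r, hr⟩ := dvd_card (K := K)
  obtain ⟨m, hm⟩ : ∃ m, Nat.card K = 4 * m + 1 := ⟨Nat.card K / 4, by omega⟩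
  have m0 : 0 < m := by have : 1 < Nat.card K := Finite.one_lt_card; omega
  rw [card_Sp, hr, hm] at e
  simp only [Finset.prod_range_succ, Finset.prod_range_zero, one_mul, Nat.add_sub_cancel] at e
  have e1 : (4 * m + 1) ^ (2 * (0 + 1)) - 1 = 4 * m * (2 * (2 * m + 1)) := Nat.sub_eq_of_eq_add (by ring)
  have e2 : (4 * m + 1) ^ (2 * (1 + 1)) - 1 = 4 * m * (4 * ((2 * m + 1) * (2 * (4 * m ^ 2 + 2 * m) + 1))) :=
    Nat.sub_eq_of_eq_add (by ring)
  have e3 : (4 * m + 1) ^ (2 * (2 + 1)) - 1 =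
      4 * m * (2 * ((2 * m + 1) * (2 * (128 * m ^ 4 + 128 * m ^ 3 + 56 * m ^ 2 + 12 * m + 1) + 1))) :=
    Nat.sub_eq_of_eq_add (by ring)
  rw [e1, e2, e3] at e
  rintro ⟨c, hc⟩
  have : 2 * (3 * r * c) = (4 * m + 1) ^ 9 * ((2 * m + 1) * ((2 * m + 1) * (2 * (4 * m ^ 2 + 2 * m) + 1)) *
      ((2 * m + 1) * (2 * (128 * m ^ 4 + 128 * m ^ 3 + 56 * m ^ 2 + 12 * m + 1) + 1))) :=
    Nat.eq_of_mul_eq_mul_left (by positivity : 0 < (4 * m) ^ 3 * 16) (by rw [hc] at e; linarith)
  have o : ∀ n : ℕ, Odd (2 * n + 1) := odd_two_mul_add_one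
  refine Nat.not_even_iff_odd.2 ?_ (this ▸ even_two_mul _)
  exact Odd.mul (Odd.pow ⟨2 * m, by ring⟩) (((o _).mul ((o _).mul (o _))).mul ((o _).mul (o _)))

theorem un_of (h2 : (2 : K) ≠ 0) {a : I6 → Kˣ} {σ : Perm I6} {k : Fin 3}
    (h : ∀ j, j.elim id id ≠ k → σ j = j ∧ a j = 1)
    (e : (dg a * Q4R.pm σ : G6 K) * (dg a * Q4R.pm σ) = dg fun j => if j.elim id id = k then -1 else 1) :
    Un (dg a * Q4R.pm σ : G6 K) := by
  set g : G6 K := dg a * Q4R.pm σ with hg
  let P : Matrix I6 I6 K := Matrix.diagonal fun j => if j.elim id id = k then 1 else 0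
  have e1 : (g.1 + 1) * (g.1 - 1) = (-2 : K) • P := by
    rw [add_mul, mul_sub, mul_one, one_mul, ← Units.val_mul, e, Q4R.dg_val, sub_add_sub_cancel]
    ext i j
    by_cases o : i = j
    · subst o; by_cases o : i.elim id id = k <;> simp [P, o]; ring
    · simp [P, o]
  have e2 : (g.1 - 1) * P = g.1 - 1 := by
    ext i j
    rw [Matrix.mul_diagonal]
    split_ifs with o
    · rw [mul_one]
    · rw [mul_zero, Matrix.sub_apply, hg, mon_apply, (h j o).1, Matrix.one_apply]
      split_ifs with o'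
      · rw [o', (h j o).2]; simp
      · simp
  have rP : P.rank = 2 := by
    classical
    rw [Matrix.rank_diagonal]
    simp only [ne_eq, ite_eq_right_iff, one_ne_zero, imp_false, not_not]
    convert (by decide : ∀ k : Fin 3, Fintype.card {i : I6 // i.elim id id = k} = 2) k
  have n : (-1 : Kˣ) ≠ 1 := fun o => h2 (by have := congrArg Units.val o; simp at this; linear_combination -this)
  refine ⟨le_antisymm ?_ ?_, ?_, fun o => ?_⟩
  · rw [rk, ← e2, ← rP]; exact Matrix.rank_mul_le_right _ _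
  · have : P = ((-2 : K)⁻¹ • (g.1 + 1)) * (g.1 - 1) := by
      rw [smul_mul_assoc, e1, smul_smul, inv_mul_cancel₀ (neg_ne_zero.2 h2), one_smul]
    rw [rk, ← rP, this]; exact Matrix.rank_mul_le_right _ _
  · rw [show g ^ 4 = g * g * (g * g) by rw [← pow_two, ← pow_two, ← pow_mul], e, ← map_mul, ← map_one dg]
    exact congrArg _ (funext fun j => by by_cases o : j.elim id id = k <;> simp [o])
  · rw [pow_two, e, ← map_one dg] at o
    exact n (by simpa using congrFun (Q4R.dg_inj o) (.inl k))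

theorem dat (h2 : (2 : K) ≠ 0) {G : Type*} [Group G] (ρ : G →* G6 K) (inj : Function.Injective ρ)
    (hM : ∀ x, ρ x ∈ NN I6 K ⊓ Sp K) {z : G} (hz : ρ z = -1) (nu : ∀ x, ¬ Un (ρ x)) :
    ∃ D : Dat G K, D.z = z := by
  choose a σ e using fun x => Q4R.mem_NN.1 (hM x).1
  have sp := fun x => mon_sp.1 (e x ▸ (hM x).2)
  have mu : ∀ x y j, σ (x * y) j = σ x (σ y j) ∧ a (x * y) (σ (x * y) j) = a x (σ x (σ y j)) * a y (σ y j) :=
    fun x y j => by
      obtain ⟨e1, e2⟩ := mon_inj ((e (x * y)).symm.trans ((map_mul ρ x y).trans (by rw [e x, e y, mon_mul])))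
      rw [e1, e2]; simp
  have r : ∀ x i, σ x (.inr i) = (σ x (.inl i)).swap := fun x i => (sp x (.inl i)).1
  have r' : ∀ x i, a x (σ x (.inr i)) = -sj K (σ x (.inl i)) * (a x (σ x (.inl i)))⁻¹ := fun x i => by
    have := (sp x (.inl i)).2
    rw [Sum.swap_inl] at this
    rw [eq_mul_inv_iff_mul_eq, mul_comm]
    revert this
    generalize a x (σ x (.inl i)) * a x (σ x (.inr i)) = u
    rcases σ x (.inl i) with _ | _ <;> simp [sj]
  obtain ⟨a1, s1⟩ := mon_inj (b := 1) (τ := 1) ((e 1).symm.trans ((map_one ρ).trans (by simp)))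
  obtain ⟨az, sz⟩ := mon_inj (b := fun _ => -1) (τ := 1) ((e z).symm.trans (hz.trans (Units.ext (by
    rw [map_one, mul_one, Q4R.dg_val]; ext i j; by_cases o : i = j <;> simp [o]))))
  let p : G → Fin 3 → Fin 3 := fun x i => (σ x (.inl i)).elim id id
  let t : G → Fin 3 → ℤˣ := fun x i => (σ x (.inl i)).elim (fun _ => 1) fun _ => -1
  have pt : ∀ {u v : I6}, u.elim id id = v.elim id id →
      u.elim (fun _ => (1 : ℤˣ)) (fun _ => -1) = v.elim (fun _ => 1) (fun _ => -1) → u = v := by decide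
  have n : (-1 : Kˣ) ≠ 1 := fun o => h2 (by have := congrArg Units.val o; simp at this; linear_combination -this)
  refine ⟨⟨MonoidHom.toHomPerm ⟨⟨p, funext fun i => by simp [p, s1]; rfl⟩, fun x y => funext fun i => ?_⟩, t,
    fun x i => a x (σ x (.inl i)), z, n, fun x y i => ?_, fun x y i => ?_, fun x y h => inj ?_,
    Perm.ext fun i => (by simp [p, sz] : p z i = i), fun i => by simp [t, sz], fun i => by simp [az], fun y k h1 h b => ?_⟩, rfl⟩
  · change p (x * y) i = p x (p y i)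
    simp only [p, (mu x y _).1]
    rcases σ y (.inl i) with j | j
    · rfl
    · rw [r]; simp only [Sum.elim_inr, id]; rcases σ x (.inl j) with _ | _ <;> rfl
  · change t (x * y) i = t x (p y i) * t y i
    simp only [p, t, (mu x y _).1]
    rcases σ y (.inl i) with j | j
    · simp
    · rw [r]; simp only [Sum.elim_inr, id]; rcases σ x (.inl j) with _ | _ <;> simp
  · change _ = a x (σ x (.inl (p y i))) ^ _ * _ * if t x (p y i) = -1 ∧ _ then _ else _
    rw [(mu x y _).2]
    rcases o : σ y (.inl i) with j | j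
    · simp [p, t, o]
    · rw [r']; rcases o' : σ x (.inl j) with _ | _ <;> simp [p, t, o, o', sj]
  · have s : ∀ i, σ x (.inl i) = σ y (.inl i) := fun i => pt (h i).1 (h i).2.1
    have s' : σ x = σ y := Perm.ext (by rintro (i | i); exacts [s i, by rw [r, r, s]])
    have c : ∀ j, a x (σ x j) = a y (σ y j) := by
      rintro (i | i)
      · exact (h i).2.2
      · rw [r', r', show a x (σ x (.inl i)) = a y (σ y (.inl i)) from (h i).2.2, s]
    rw [e, e, ← s', show a x = a y from funext fun j => by simpa [← s'] using c ((σ x)⁻¹ j)]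
  · have q : ∀ i, (σ y (.inl i)).elim id id = i := fun i => Perm.ext_iff.1 h1 i
    have s : ∀ i, i ≠ k → σ y (.inl i) = .inl i := fun i o => pt (q i) (h i o).1
    have h' : ∀ j : I6, j.elim id id ≠ k → σ y j = j ∧ a y j = 1 := by
      rintro (i | i) o
      · exact ⟨s i o, by simpa [s i o] using (h i o).2⟩
      · have o1 : σ y (.inr i) = .inr i := by rw [r, s i o]; rfl
        have := r' y i
        rw [o1, show a y (σ y (.inl i)) = 1 from (h i o).2, s i o] at this
        exact ⟨o1, by simpa [sj] using this⟩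
    refine nu y (e y ▸ un_of h2 h' ?_)
    have k2 : ∀ j : I6, j.elim id id = k → σ y (σ y j) = j ∧ a y (σ y (σ y j)) * a y (σ y j) = -1 := by
      have r1 := r y k
      have r2 := r' y k
      replace b : (σ y (.inl k)).elim (fun _ => (1 : ℤˣ)) (fun _ => -1) = -1 ∨
        a y (σ y (.inl k)) * a y (σ y (.inl k)) = -1 := b
      have := q k
      rcases o : σ y (.inl k) with l | l <;> rw [o] at this r1 r2 b <;> obtain rfl : l = k := this <;>
        rintro (j | j) rfl <;> simp only [Sum.elim_inl, Sum.elim_inr, id, Sum.swap_inl, Sum.swap_inr] at *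
      · rw [o, o]; exact ⟨rfl, b.resolve_left n1⟩
      · rw [r1] at r2
        rw [r1, r1, r2, mul_mul_mul_comm, ← mul_inv, b.resolve_left n1]; simp [sj]
      · rw [o, r2, r1]; simp [sj]
      · rw [r2, r1, o]; simp [sj]
    rw [← e y, ← map_mul, e]
    have s2 : σ (y * y) = 1 := Perm.ext fun j => by
      rw [(mu y y j).1]
      by_cases o : j.elim id id = k
      exacts [(k2 j o).1, by rw [(h' j o).1, (h' j o).1]; rfl]
    rw [s2, map_one, mul_one]
    refine congrArg _ (funext fun j => ?_)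
    have := (mu y y j).2
    rw [s2, Perm.one_apply] at this
    rw [this]
    split_ifs with o
    · exact (k2 j o).2
    · rw [(h' j o).1, (h' j o).1, (h' j o).2, mul_one]

end Cfsg.Lib.S6Q.SR
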