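import Cfsg.Agent.Lib.S6Q.T3
import Cfsg.Agent.Lib.S6Q.SectB
import Cfsg.Agent.Lib.O7.SR

/-!
# Sectional `2`-rank

After extending the field, a `2`-subgroup of `Sp₆` is monomial (`SectB`); then `SectA`.
-/

set_option autoImplicit false

namespace Cfsg.Lib.S6Q

open scoped MatrixGroups Matrix commutatorElement
open Cfsg.Geo Cfsg.Lib.Asch Cfsg.Lib.Linear Cfsg.Lib.Q4 Cfsg.Lib.Symp Module
open Cfsg.Lib.Q4R (Sq HasTv sc dg)

variable {F : Type*} [Field F] [Finite F] {X : Type*} [Group X] {Y : Subgroup (G6 F)} {π : Y →* X}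

theorem Cv.sect1 (h : Cv Y π) (h4 : Nat.card F % 4 = 1) : SectionalPRankLE 2 4 X := by
  have := h.fin
  have := h.finX
  obtain ⟨S, hS⟩ := BG.Syl.exists (p := 2) (⊤ : Subgroup X)
  refine Harada.sectional_of_sr hS fun W V l s => ?_
  have hk : IsPGroup 2 π.ker := fun g => ⟨1, Subtype.ext (Subtype.ext (by
    change g.1.1 ^ 2 ^ 1 = 1
    rcases (h.ker _).1 g.2 with e | e <;> simp [e]))⟩
  have hG : IsPGroup 2 (V.comap π) := (hS.pgroup.to_le l).comap_of_ker_isPGroup π hk
  obtain ⟨k, -, hk⟩ := Transfer.exists_conj_le_of_not_dvd_relIndex' (SR.odd_index h4) (hG.map Y.subtype)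
    ((Subgroup.map_subtype_le _).trans h.sp)
  have z1 : π ⟨-1, h.neg⟩ = 1 := (h.ker _).2 (.inr rfl)
  obtain ⟨D, hz⟩ := SR.dat h.two ((MulAut.conj k).toMonoidHom.comp (Y.subtype.comp (V.comap π).subtype))
    ((MulAut.conj k).injective.comp (Y.subtype_injective.comp (V.comap π).subtype_injective))
    (fun x => hk ⟨_, ⟨x.1, x.2, rfl⟩, rfl⟩) (z := ⟨⟨-1, h.neg⟩, by rw [Subgroup.mem_comap, z1]; exact one_mem _⟩)
    (by simp) fun x ⟨a, b, c⟩ => h.nu x.1.1 x.1.2 ⟨(rk_conj _ k).symm.trans a, (MulAut.conj k).injective (by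
      rw [map_pow, map_one]; exact b), fun e => c (by
      change (MulAut.conj k x.1.1) ^ 2 = 1
      rw [← map_pow, e, map_one])⟩
  have := SR.Dat.main (D := D) (W := (W.comap π).subgroupOf (V.comap π))
    (fun x => by simpa [pow_two, Subgroup.mem_subgroupOf] using s.pow _ x.2)
    (by rw [hz, Subgroup.mem_subgroupOf, Subgroup.mem_comap, z1]; exact one_mem _) hG
  rw [Nat.card_congr (Subgroup.subgroupOfEquivOfLe (Subgroup.comap_mono s.le)).toEquiv] at this
  have c : ∀ U : Subgroup X, Nat.card (U.comap π) = Nat.card U * Nat.card π.ker := fun U => by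
    rw [← Core.card_map_mul_card_inf_ker π, Subgroup.map_comap_eq_self_of_surjective h.surj,
      inf_eq_right.2 (Subgroup.ker_le_comap π U)]
  rw [c, c, ← mul_assoc] at this
  exact Nat.le_of_mul_le_mul_right this Nat.card_pos

theorem Cv.sect (h : Cv Y π) : SectionalPRankLE 2 4 X := by
  obtain ⟨p, hp⟩ := CharP.exists F
  have := Fact.mk (CharP.char_is_prime F p)
  obtain ⟨π', h', -⟩ := h.ext (algebraMap F (FiniteField.Extension F p 2))
  refine h'.sect1 ?_
  have := Fintype.ofFinite F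
  obtain ⟨m, hm⟩ : Odd (Nat.card F) := by
    rw [Nat.card_eq_fintype_card, Nat.odd_iff]
    exact FiniteField.odd_card_of_char_ne_two fun e => h.two (by exact_mod_cast (ringChar.spec F 2).2 (e ▸ dvd_rfl))
  rw [FiniteField.natCard_extension, hm, show (2 * m + 1) ^ 2 = 4 * (m ^ 2 + m) + 1 by ring, Nat.mul_add_mod]

end Cfsg.Lib.S6Q
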