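import Cfsg.Agent.Lib.S6Q.Geo2
import Cfsg.Agent.Lib.O7.Tor

/-!
# The spin module in characteristic two
-/

set_option autoImplicit false
set_option linter.unusedSectionVars false

namespace Cfsg.Lib.S6Q

open scoped MatrixGroups Matrix commutatorElement
open QuadraticMap Module Cfsg.Lib.Orth Cfsg.Lib.Asch
open Cfsg.Lib.O7 (V W Q N I7 Spin phi act gam sU dm fx stabS stabV dgV)

variable {K : Type*} [Field K] {M : Subgroup (O (Q K))} {a y b z s s' p : V K} {g t h : O (Q K)}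

theorem neg_two (h2 : (2 : K) = 0) {U : Type*} [AddCommGroup U] [Module K U] (u : U) : -u = u := by
  rw [neg_eq_iff_add_eq_zero, ← two_smul K, h2, zero_smul]

theorem phi_inj (h2 : (2 : K) = 0) : Function.Injective (phi (K := K)) :=
  (injective_iff_map_eq_one _).2 fun _ e => (O7.phi_eq_one.1 e).elim id fun e =>
    e.trans (O7.act_injective (O.ext fun w => neg_two h2 w))

theorem phi_surj (h2 : (2 : K) = 0) (hK : ∀ x : K, IsSquare x) : Function.Surjective (phi (K := K)) := fun g => by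
  have k : Sp K ≤ ((sp2 h2).comp phi).range := alt_om.iso_le fun v c => ⟨alt_om.zero_left _, by
    rcases eq_or_ne c 0 with rfl | hc
    · exact ⟨1, one_mem _, fun x => by simp [alt_om.zero_right]⟩
    obtain ⟨d, hd⟩ := hK (c⁻¹ - Q K (inc v))
    have q : Q K (inc v + d • sU K) = c⁻¹ := by
      rw [Q_add, Q_smul, Q_sU, polar_smul_right', polar_comm]
      have := B_sU h2 (inc v)
      linear_combination -hd + d * this
    obtain ⟨e, he⟩ := hK c⁻¹
    obtain ⟨s, hs, -⟩ := O7.exists_refl_refl (a := inc v + d • sU K) (b := sU K) (c := e)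
      (by rw [q]; exact inv_ne_zero hc) (by rw [Q_sU]; exact one_ne_zero) (by rw [q, Q_sU, he]; ring)
    refine ⟨_, ⟨s, rfl⟩, fun x => ?_⟩
    have p : pr (inc v + d • sU K) = v := by rw [map_add, map_smul, pr_sU, smul_zero, add_zero, pr_inc]
    have b := B_eq h2 (inc v + d • sU K) (inc x)
    rw [p, pr_inc, alt_om.skew, neg_two h2] at b
    conv_lhs => rw [← pr_inc x]
    rw [MonoidHom.comp_apply, sp2_pr, hs, O.mul_apply, refl_apply_of_perp (B_sU h2 _), refl_apply, map_sub, map_smul,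
      p, q, inv_inv, pr_inc, sub_eq_add_neg, neg_two h2, alt_om.zero_right, smul_zero, add_zero, zero_add]
    exact congrArg (fun t => x + (c * t) • v) b⟩
  obtain ⟨s, hs⟩ := k (sp2_mem h2 g)
  exact ⟨s, sp2_inj h2 hs⟩

/-- `O₇ = Sp₆` is generated by reflections (`Alt.iso_le`, `sp2_inj`), `refl sU = 1`, `O7.exists_refl_refl`; `phi` is
injective as `ng = 1`. -/
theorem exists_sig (h2 : (2 : K) = 0) (hK : ∀ x : K, IsSquare x) :
    ∃ σ : O (Q K) →* Spin K, (∀ g, phi (σ g) = g) ∧ ∀ s, σ (phi s) = s := by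
  let e := MulEquiv.ofBijective phi ⟨phi_inj h2, phi_surj h2 hK⟩
  exact ⟨e.symm.toMonoidHom, e.apply_symm_apply, e.symm_apply_apply⟩

theorem isSquare_closed [IsAlgClosed K] (x : K) : IsSquare x := by
  exact IsAlgClosed.exists_eq_mul_self x

variable [IsAlgClosed K]

/-- The action on the spin module. -/
noncomputable def aw (h2 : (2 : K) = 0) : O (Q K) →* O (N K) :=
  act.comp (exists_sig h2 isSquare_closed).choose

variable (h2 : (2 : K) = 0)

theorem aw_phi (s : Spin K) : aw h2 (phi s) = act s := by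
  exact congrArg act ((exists_sig h2 isSquare_closed).choose_spec.2 s)

theorem aw_gam (g : O (Q K)) (v : V K) (w : W K) : (aw h2 g).1 (gam v w) = gam (g.1 v) ((aw h2 g).1 w) := by
  obtain ⟨s, rfl⟩ := phi_surj h2 isSquare_closed g
  rw [aw_phi, O7.act_gam]

theorem aw_wd (l : Ln a y) (w : W K) : (aw h2 (wd a y)).1 w = w + gam a (gam y w) := by
  have an : ∀ (u v : V K) (w : W K), gam u (gam v w) = gam v (gam u w) + B u v • w := fun u v w => by
    rw [← O7.gam_anti, add_comm, add_assoc, ← two_smul K, h2, zero_smul, add_zero]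
  have ga : ∀ w, gam a (gam a w) = 0 := fun w => by rw [O7.gam_gam, l.qa, zero_smul]
  have gy : ∀ w, gam y (gam y w) = 0 := fun w => by rw [O7.gam_gam, l.qy, zero_smul]
  have ay : ∀ w, gam y (gam a w) = gam a (gam y w) := fun w => by rw [an a, l.p, zero_smul, add_zero]
  have adj : ∀ (v : V K) (u w : W K), polar (N K) u (gam v w) = -polar (N K) (gam v u) w := fun v u w => by
    simp [O7.polar_N, Oct.bl_apply, O7.gam_apply, Oct.mul_eq, O7.jv_apply, Oct.mk]
    ring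
  let s : Spin K := ⟨(O.ofLinear O7.nd_N (1 + gam a * gam y) fun w => by
    have k := O7.N_gam (a + y) w
    rw [map_add, LinearMap.add_apply, Q_add, Q_add, O7.N_gam, O7.N_gam, l.qa, l.qy, show polar (Q K) a y = 0 from l.p] at k
    change N K (w + gam a (gam y w)) = _
    rw [Q_add, O7.N_gam, l.qa, adj]
    linear_combination -k, wd a y), fun v w => by
    change gam v w + gam a (gam y (gam v w)) = gam ((wd a y).1 v) (w + gam a (gam y w))
    rw [l.apply h2]
    simp only [map_add, map_smul, LinearMap.add_apply, LinearMap.smul_apply, ga, ay, gy, map_zero, smul_zero]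
    rw [an y v, map_add, map_smul, an a v]
    abel⟩
  exact congrArg (fun g : O (N K) => g.1 w) (aw_phi h2 s)

theorem dm_aw_inv (h : t * t = 1) : dm (aw h2 t) ≤ 4 := by
  have : CharP K 2 := (CharP.charP_iff_prime_eq_zero Nat.prime_two).2 (by exact_mod_cast h2)
  have e := O7.le_mul_fx 2 (g := aw h2 t) (n := 1) (by rw [pow_one, pow_two, ← map_mul, h, map_one])
  have := O7.dm_add_fx (aw h2 t)
  rw [O7.finrank_W] at e this
  omega

omit [IsAlgClosed K] in
theorem sp2_dgV (μ : Fin 3 → Kˣ) : sp2 h2 (dgV μ) = tor μ := Linear.GL_ext_mulVec fun x => by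
  conv_lhs => rw [← pr_inc x]
  rw [sp2_pr, tor_eq, Q4R.dg_val]
  ext i
  rw [Matrix.mulVec_diagonal]
  exact O7.dgV_apply μ (inc x) (.inr i)

omit [IsAlgClosed K] in
include h2 in
theorem odd_ne {m : ℕ} (hm : Odd m) : (m : K) ≠ 0 := by
  obtain ⟨k, rfl⟩ := hm
  push_cast
  rw [h2, zero_mul, zero_add]
  exact one_ne_zero

/-- Torus data (`exists_conj_tor` of `S6Q/Tor`, `sp2_surj`, `O7.exists_tor`; square roots are unique). -/
theorem aw_tor {m : ℕ} (hm : Odd m) (o : g ^ m = 1) : ∃ (k : O (Q K)) (l : Fin 4 → Kˣ), l 0 * l 1 * l 2 * l 3 = 1 ∧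
    (∀ i, l i ^ m = 1) ∧ k * g * k⁻¹ = dgV (fun i => l 0 * l i.succ) ∧
      ∀ w i, (aw h2 (k * g * k⁻¹)).1 w i = O7.wW l i * w i := by
  obtain ⟨k₀, hk, μ, -, e⟩ := exists_conj_tor (sp2_mem h2 g) (n := m) (by rw [← map_pow, o, map_one]) (odd_ne h2 hm)
  obtain ⟨k, rfl⟩ := sp2_surj h2 isSquare_closed hk
  replace e : k * g * k⁻¹ = dgV μ := sp2_inj h2 (by rw [sp2_dgV, ← e, map_mul, map_mul, map_inv])
  obtain ⟨c, hc⟩ := IsAlgClosed.exists_pow_nat_eq ((μ 0 * μ 1 * μ 2 : Kˣ) : K) two_pos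
  have c0 : c ≠ 0 := fun e => (μ 0 * μ 1 * μ 2).ne_zero (by rw [← hc, e, zero_pow two_ne_zero])
  have key : ∀ u : Kˣ, u * u = μ 0 * μ 1 * μ 2 → ∃ l : Fin 4 → Kˣ, l 0 * l 1 * l 2 * l 3 = 1 ∧
      (fun i : Fin 3 => l 0 * l i.succ) = μ := fun u hu => by
    refine ⟨![u, u⁻¹ * μ 0, u⁻¹ * μ 1, u⁻¹ * μ 2], ?_, ?_⟩
    · simp only [Matrix.cons_val_zero, Matrix.cons_val_one, Matrix.cons_val]
      calc u * (u⁻¹ * μ 0) * (u⁻¹ * μ 1) * (u⁻¹ * μ 2) = (u * u⁻¹) * (u⁻¹ * u⁻¹) * (μ 0 * μ 1 * μ 2) := by ac_rfl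
        _ = 1 := by rw [← hu]; group
    · ext1 i
      fin_cases i <;> simp
  obtain ⟨l, h1, h3⟩ := key (Units.mk0 c c0) (Units.ext (by rw [← hc, pow_two]; rfl))
  obtain ⟨t, t1, t2⟩ := O7.exists_tor h1
  have h4 : ∀ w i, (aw h2 (k * g * k⁻¹)).1 w i = O7.wW l i * w i := by rw [e, ← h3, ← t1, aw_phi]; exact t2
  have p := O7.tor_one (O7.tor_pow h4 m) (by rw [← map_pow, conj_pow, o, mul_one, mul_inv_cancel, map_one])
  refine ⟨k, l, h1, fun i => ?_, h3 ▸ e, h4⟩
  fin_cases i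
  exacts [p 0, p 1, p 2, p 3]

open Classical in
theorem aw_data {m : ℕ} (hm : Odd m) (o : g ^ m = 1) : ∃ a b c d : Kˣ, a * b * c * d = 1 ∧
    (a ^ m = 1 ∧ b ^ m = 1 ∧ c ^ m = 1 ∧ d ^ m = 1) ∧
    (dm g = 2 * ((if a * b = 1 then 0 else 1) + (if a * c = 1 then 0 else 1) + if a * d = 1 then 0 else 1)) ∧
    (fx (aw h2 g) = 2 * ((if a = 1 then 1 else 0) + (if b = 1 then 1 else 0) + (if c = 1 then 1 else 0) +
      if d = 1 then 1 else 0)) ∧ IsConj g (dgV ![a * b, a * c, a * d]) := by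
  obtain ⟨k, l, h1, p, h3, h4⟩ := aw_tor h2 hm o
  refine ⟨l 0, l 1, l 2, l 3, h1, ⟨p 0, p 1, p 2, p 3⟩, ?_, ?_, isConj_iff.2 ⟨k, ?_⟩⟩
  · rw [← O7.dm_conj _ k, h3, O7.dm_dgV, Finset.card_filter, Fin.sum_univ_three]
    simp only [ite_not]
    rfl
  · rw [← O7.fx_conj _ (aw h2 k), ← map_inv, ← map_mul, ← map_mul, O7.tor_fx h4, Fin.sum_univ_eight]
    simp only [O7.wW, Matrix.cons_val_zero, Matrix.cons_val_one, Matrix.cons_val, inv_eq_one]
    by_cases a : l 0 = 1 <;> by_cases b : l 1 = 1 <;> by_cases c : l 2 = 1 <;> by_cases d : l 3 = 1 <;>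
      simp only [a, b, c, d, if_true, if_false]
  · rw [h3]
    congr 1
    ext1 i
    fin_cases i <;> rfl

theorem dm_aw_three (o : g ^ 3 = 1) (d : dm g = 4) : dm (aw h2 g) = 4 := by
  obtain ⟨a, b, c, d', e, ⟨p1, p2, p3, p4⟩, h5, h6, -⟩ := aw_data h2 (by decide) o
  suffices fx (aw h2 g) = 4 by
    have k := O7.dm_add_fx (aw h2 g)
    rw [O7.finrank_W] at k
    omega
  rw [d] at h5
  rw [h6]
  by_cases e1 : a * b = 1 <;> by_cases e2 : a * c = 1 <;> by_cases e3 : a * d' = 1 <;>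
    simp only [e1, e2, e3, if_true, if_false] at h5 <;> try omega
  · rcases O7.tor_cube' p1 p3 (c := d') (d := b) (by rw [← e]; ac_rfl) e2 e3 e1 with
      ⟨k1, k2, k3, k4⟩ | ⟨k1, k2, k3, k4⟩ <;> simp [k1, k2, k3, k4]
  · rcases O7.tor_cube' p1 p2 (c := d') (d := c) (by rw [← e]; ac_rfl) e1 e3 e2 with
      ⟨k1, k2, k3, k4⟩ | ⟨k1, k2, k3, k4⟩ <;> simp [k1, k2, k3, k4]
  · rcases O7.tor_cube' p1 p2 e e1 e2 e3 with ⟨k1, k2, k3, k4⟩ | ⟨k1, k2, k3, k4⟩ <;> simp [k1, k2, k3, k4]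

/-- `O7.tor_nine`. -/
theorem dm_aw_nine {r m : ℕ} (hr : r.Prime) (h5 : 5 ≤ r) (o : g ^ r = 1) (d : r ∣ m ^ 2 + m + 1)
    (c : IsConj g (g ^ m)) : dm (aw h2 g) ≤ 6 := by
  classical
  rename' d => hm, c => cj
  obtain ⟨a, b, c, d, e, ⟨p1, p2, p3, p4⟩, -, h6, h7⟩ := aw_data h2 (hr.odd_of_ne_two (by omega)) o
  suffices a = 1 ∨ b = 1 ∨ c = 1 ∨ d = 1 by
    have k := O7.dm_add_fx (aw h2 g)
    rw [O7.finrank_W, h6] at k
    rcases this with k' | k' | k' | k' <;> rw [if_pos k'] at k <;> omega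
  have c2 : Nat.Coprime 2 r := (Nat.coprime_primes Nat.prime_two hr).2 (by omega)
  have c3 : Nat.Coprime 3 r := (Nat.coprime_primes Nat.prime_three hr).2 (by omega)
  have k2 : ∀ u : Kˣ, u ^ r = 1 → u * u = 1 → u = 1 := fun u hu h =>
    (pow_eq_one_iff_of_coprime c2).1 ⟨by rw [pow_two, h], hu⟩
  suffices a * b * (a * c) * (a * d) = 1 ∨ a * b * (a * c) * (a * d)⁻¹ = 1 ∨ a * b * (a * c)⁻¹ * (a * d) = 1 ∨
      a * b * (a * c)⁻¹ * (a * d)⁻¹ = 1 by
    obtain rfl : d = (a * b * c)⁻¹ := eq_inv_of_mul_eq_one_right e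
    rcases this with k | k | k | k
    · exact .inl (k2 _ p1 (by rw [← k]; ext; push_cast; field_simp))
    · exact .inr (.inr (.inr (k2 _ p4 (by rw [← inv_eq_one, ← k]; ext; push_cast; field_simp))))
    · exact .inr (.inr (.inl (k2 _ p3 (by rw [← inv_eq_one, ← k]; ext; push_cast; field_simp))))
    · exact .inr (.inl (k2 _ p2 (by rw [← k]; ext; push_cast; field_simp)))
  have q1 : (a * b) ^ r = 1 := by rw [mul_pow, p1, p2, mul_one]
  have q2 : (a * c) ^ r = 1 := by rw [mul_pow, p1, p3, mul_one]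
  have q3 : (a * d) ^ r = 1 := by rw [mul_pow, p1, p4, mul_one]
  generalize a * b = x at *
  generalize a * c = y at *
  generalize a * d = z at *
  obtain ⟨k, hk⟩ := isConj_iff.1 ((h7.symm.trans cj).trans (h7.pow m))
  have cl : ∀ u, (∃ i, O7.wV ![x, y, z] i = u) → ∃ i, O7.wV ![x, y, z] i = u ^ m := by
    rintro _ ⟨i, rfl⟩
    have h1 : (dgV ![x, y, z]).1 ((k⁻¹).1 (Pi.single i 1)) =
        (O7.wV ![x, y, z] i ^ m : Kˣ) • (k⁻¹).1 (Pi.single i 1) := by
      rw [Units.smul_def, ← map_smul, eq_comm, O.inv_apply_eq, ← O.mul_apply, ← O.mul_apply, hk]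
      ext j
      rw [O7.tor_pow (O7.dgV_apply _), Pi.smul_apply, Pi.single_apply]
      split_ifs with h
      · rw [h]; rfl
      · simp
    obtain ⟨j, hj⟩ := Function.ne_iff.1 (O.apply_ne_zero k⁻¹ (v := Pi.single i 1) (by simp))
    have := congrFun h1 j
    rw [O7.dgV_apply, Units.smul_def, Pi.smul_apply, smul_eq_mul] at this
    exact ⟨j, Units.ext (mul_right_cancel₀ hj this)⟩
  have en : ∀ u, (∃ i, O7.wV ![x, y, z] i = u) →
      u = 1 ∨ u = x ∨ u = y ∨ u = z ∨ u = x⁻¹ ∨ u = y⁻¹ ∨ u = z⁻¹ := by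
    rintro _ ⟨_ | i | i, rfl⟩
    · exact .inl rfl
    · fin_cases i <;> simp [O7.wV]
    · fin_cases i <;> simp [O7.wV]
  by_cases x1 : x = 1
  swap
  · exact O7.tor_nine c3 hm q1 x1 en ⟨.inr (.inl 0), rfl⟩ cl
  by_cases y1 : y = 1
  swap
  · rcases O7.tor_nine (y := x) (z := z) c3 hm q2 y1 (fun u hu => by have := en u hu; tauto)
      ⟨.inr (.inl 1), rfl⟩ cl with k | k | k | k <;> subst x1 <;>
      simp only [inv_one, mul_one, one_mul] at k ⊢ <;> simp only [k, true_or, or_true]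
  by_cases z1 : z = 1
  swap
  · rcases O7.tor_nine (y := x) (z := y) c3 hm q3 z1 (fun u hu => by have := en u hu; tauto)
      ⟨.inr (.inl 2), rfl⟩ cl with k | k | k | k <;> subst x1 y1 <;>
      simp only [inv_one, mul_one, one_mul] at k ⊢ <;> simp only [k, true_or, or_true]
  · simp [x1, y1, z1]

omit h2

theorem Ev.fixW' (h : Ev M) {w : W K} (hw : ∀ g ∈ M, (aw h.two g).1 w = w) : w = 0 :=
  h.nfW w fun s hs => by rw [← aw_phi h.two, hw _ hs]

theorem Ev.conj (h : Ev M) (k : O (Q K)) : Ev (M.map (MulAut.conj k).toMonoidHom) := by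
  have m : ∀ g, g ∈ M.map (MulAut.conj k).toMonoidHom ↔ k⁻¹ * g * k⁻¹⁻¹ ∈ M := fun g => by
    rw [inv_inv]; exact Subgroup.mem_map_equiv
  refine ⟨h.toEv0.conj k, fun w hw => ?_, fun a y c l e => ?_⟩
  · rw [← (aw h.two k⁻¹).1.map_eq_zero_iff]
    refine h.fixW' fun g hg => ?_
    obtain ⟨s, hs⟩ := phi_surj h.two isSquare_closed (k * g * k⁻¹)
    have := hw s (by rw [hs]; exact ⟨g, hg, rfl⟩)
    rw [← aw_phi h.two, hs, map_mul, map_mul, O.mul_apply, O.mul_apply] at this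
    conv_rhs => rw [← this, map_inv, O.inv_apply_apply, ← map_inv]
  · refine h.nb (k⁻¹.1 a) (k⁻¹.1 y) c ⟨l.1.conj _, ?_⟩ ?_
    · rw [wd, ← conj_eich]; exact (m _).1 l.2
    · rw [wd, ← fix_sU h.two k⁻¹, ← map_smul, ← conj_eich]; exact (m _).1 e

theorem Ev.fixW (h : Ev M) {S : Set (O (Q K))} (hS : M ≤ Subgroup.closure S) {w : W K}
    (hw : ∀ g ∈ S, (aw h.two g).1 w = w) : w = 0 := by
  exact h.fixW' fun g hg => (Subgroup.closure_le ((stabV w).comap (aw h.two))).2 hw (hS hg)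

/-- Scott's lemma (`scott_gen`); `W` is self-dual. -/
theorem Ev.scottW (h : Ev M) {g g' : O (Q K)} (e : M = Subgroup.closure {g, g'}) :
    16 ≤ dm (aw h.two g) + dm (aw h.two g') + dm (aw h.two (g * g')) := by
  have f : O.fix (aw h.two g) ⊓ O.fix (aw h.two g') = ⊥ := (Submodule.eq_bot_iff _).2 fun w hw =>
    h.fixW e.le (by rintro _ (rfl | rfl); exacts [O.mem_fix.1 hw.1, O.mem_fix.1 hw.2])
  have c : O.comm (aw h.two g) ⊔ O.comm (aw h.two g') = ⊤ := perp_inj O7.nd_N (by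
    rw [perp_sup, O.perp_comm O7.nd_N, O.perp_comm O7.nd_N, f, perp_top O7.nd_N])
  have k : fx (aw h.two g) + fx (aw h.two g') + fx (aw h.two g * aw h.two g') +
      finrank K ↥(O.comm (aw h.two g) ⊔ O.comm (aw h.two g')) ≤ 2 * finrank K (W K) +
        finrank K ↥(O.fix (aw h.two g) ⊓ O.fix (aw h.two g')) := T2.scott_gen₂ _ _
  rw [f, c, finrank_top, finrank_bot, ← map_mul] at k
  have := O7.dm_add_fx (aw h.two g)
  have := O7.dm_add_fx (aw h.two g')
  have := O7.dm_add_fx (aw h.two (g * g'))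
  rw [O7.finrank_W] at *
  omega

/-- A singular spinor is annihilated by a singular vector; its annihilator is totally singular. -/
theorem Ev0.nm_ne (h : Ev0 M) {w : W K} (w0 : w ≠ 0) (hw : ∀ g ∈ M, (aw h.two g).1 w ∈ K ∙ w) : N K w ≠ 0 := by
  intro n
  let f : V K →ₗ[K] W K := gam.flip w
  have ts : TS (N K) (LinearMap.range f) := by
    rintro _ ⟨v, rfl⟩
    exact (O7.N_gam v w).trans (by rw [n, mul_zero])
  have d := TS.two_mul_finrank_le O7.nd_N ts
  have d' := f.finrank_range_add_finrank_ker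
  rw [O7.finrank_W] at d
  rw [O7.finrank_V] at d'
  have q : ∀ v ∈ LinearMap.ker f, Q K v = 0 := fun v hv => by
    have := O7.gam_gam v w
    rw [show gam v w = 0 from hv, map_zero] at this
    exact (smul_eq_zero.1 this.symm).resolve_right w0
  obtain ⟨a, ha, a0⟩ := Submodule.exists_mem_ne_zero_of_ne_bot (p := LinearMap.ker f) fun e => by
    rw [e, finrank_bot] at d'; omega
  have t := h.eq_top (X := LinearMap.ker f) (fun g hg v hv => by
    obtain ⟨c, hc⟩ := Submodule.mem_span_singleton.1 (hw g hg)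
    have := aw_gam h.two g v w
    rw [show gam v w = 0 from hv, map_zero, ← hc, map_smul] at this
    refine (smul_eq_zero.1 this.symm).resolve_left fun c0 => O.apply_ne_zero (aw h.two g) w0 ?_
    rw [← hc, c0, zero_smul]) ha (q a ha) a0
  exact one_ne_zero (Q_sU.symm.trans (q _ (t ▸ trivial)))

end Cfsg.Lib.S6Q
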