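import Cfsg.Agent.Lib.S6Q.Tor

/-!
# Scott's lemma and rigidity

Models: `O7/T3` (`Irr.scott`, `exists_fix_of_sum`), `Q5/T2b`, `Q5/T3`.  General form of Scott's lemma: for
`ρ : G →* (U ≃ₗ U)` and generators `a₁ … a_n` with product one,
`Σ dim C_U(a_i) ≤ (n - 2) dim U + dim U^G + dim (U*)^G`; prove it once for an arbitrary finite dimensional `U`.
-/

set_option autoImplicit false

namespace Cfsg.Lib.S6Q

open scoped MatrixGroups Matrix commutatorElement
open Cfsg.Geo Cfsg.Lib.Asch Cfsg.Lib.Linear Cfsg.Lib.Q4 Cfsg.Lib.Symp Module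
open Cfsg.Lib.Q4R (Sq HasTv sc dg)

variable {K : Type*} [Field K] {a b c a' b' : G6 K}

namespace T2

section Gen

variable {U U' : Type*} [AddCommGroup U] [Module K U] [FiniteDimensional K U] [AddCommGroup U'] [Module K U']
  [FiniteDimensional K U']

theorem fr_le (f : U →ₗ[K] U') {X Q : Submodule K U} {P : Submodule K U'} (h1 : ∀ v ∈ X, f v ∈ P)
    (h2 : ∀ v ∈ X, f v = 0 → v ∈ Q) : finrank K X ≤ finrank K P + finrank K Q := by
  rw [← LinearMap.finrank_range_add_finrank_ker (f.domRestrict X), LinearMap.range_domRestrict,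
    LinearMap.ker_domRestrict, ← Submodule.finrank_map_subtype_eq, Submodule.map_comap_subtype]
  exact add_le_add (Submodule.finrank_mono (Submodule.map_le_iff_le_comap.2 h1))
    (Submodule.finrank_mono fun v hv => h2 v hv.1 hv.2)

/-- Scott's lemma for three endomorphisms. -/
theorem scott_gen (f g h : End K U) :
    finrank K (LinearMap.ker (f * g * h - 1)) +
        finrank K ↥(LinearMap.range (f - 1) ⊔ LinearMap.range (g - 1) ⊔ LinearMap.range (h - 1)) ≤
      finrank K (LinearMap.range (f - 1)) + finrank K (LinearMap.range (g - 1)) + finrank K (LinearMap.range (h - 1)) +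
        finrank K ↥(LinearMap.ker (f - 1) ⊓ LinearMap.ker (g - 1) ⊓ LinearMap.ker (h - 1)) := by
  have mk : ∀ {k : End K U} {v}, v ∈ LinearMap.ker (k - 1) ↔ k v = v := sub_eq_zero
  have mr : ∀ (k : End K U) v, v - k v ∈ LinearMap.range (k - 1) := fun k v => ⟨-v, by rw [map_neg, LinearMap.sub_apply, neg_sub]; rfl⟩
  have h1 := fr_le (h - 1) (X := LinearMap.ker (f * g * h - 1))
    (P := (LinearMap.range (f - 1) ⊔ LinearMap.range (g - 1)) ⊓ LinearMap.range (h - 1))
    (Q := LinearMap.ker (f * g * h - 1) ⊓ LinearMap.ker (h - 1)) (fun v hv => ⟨by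
      have := add_mem (Submodule.mem_sup_right (S := LinearMap.range (f - 1)) (mr g (h v)))
        (Submodule.mem_sup_left (mr f (g (h v))))
      rwa [sub_add_sub_cancel, show f (g (h v)) = v from mk.1 hv] at this, v, rfl⟩) fun v hv e => ⟨hv, e⟩
  have fx : ∀ v ∈ LinearMap.ker (f * g * h - 1) ⊓ LinearMap.ker (h - 1), f (g v) = v := fun v hv => by
    have : f (g (h v)) = v := mk.1 hv.1
    rwa [mk.1 hv.2] at this
  have h2 := fr_le (g - 1) (X := LinearMap.ker (f * g * h - 1) ⊓ LinearMap.ker (h - 1))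
    (P := LinearMap.range (f - 1) ⊓ LinearMap.range (g - 1))
    (Q := LinearMap.ker (f - 1) ⊓ LinearMap.ker (g - 1) ⊓ LinearMap.ker (h - 1)) (fun v hv => ⟨by
      have := mr f (g v)
      rwa [fx v hv] at this, v, rfl⟩) fun v hv e => ⟨⟨mk.2 (by
        have := fx v hv
        rwa [mk.1 e] at this), e⟩, hv.2⟩
  have h3 := Submodule.finrank_sup_add_finrank_inf_eq (LinearMap.range (f - 1)) (LinearMap.range (g - 1))
  have h4 := Submodule.finrank_sup_add_finrank_inf_eq (LinearMap.range (f - 1) ⊔ LinearMap.range (g - 1))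
    (LinearMap.range (h - 1))
  omega

theorem scott_gen₂ (f g : End K U) :
    finrank K (LinearMap.ker (f - 1)) + finrank K (LinearMap.ker (g - 1)) + finrank K (LinearMap.ker (f * g - 1)) +
        finrank K ↥(LinearMap.range (f - 1) ⊔ LinearMap.range (g - 1)) ≤
      2 * finrank K U + finrank K ↥(LinearMap.ker (f - 1) ⊓ LinearMap.ker (g - 1)) := by
  have h := scott_gen f g 1
  rw [mul_one, sub_self, LinearMap.range_zero, LinearMap.ker_zero, sup_bot_eq, inf_top_eq, finrank_bot] at h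
  have h1 := LinearMap.finrank_range_add_finrank_ker (f - 1)
  have h2 := LinearMap.finrank_range_add_finrank_ker (g - 1)
  omega

end Gen

theorem fr6 : finrank K (I6 → K) = 6 := by simp

theorem fr36 : finrank K (Matrix I6 I6 K) = 36 := by simp [Module.finrank_matrix]

/-- The endomorphism of `V`. -/
def lv : G6 K →* End K (I6 → K) where
  toFun g := g.1.mulVecLin
  map_one' := Matrix.mulVecLin_one
  map_mul' g h := Matrix.mulVecLin_mul g.1 h.1

theorem lv_apply (g : G6 K) (v : I6 → K) : lv g v = g.1 *ᵥ v := rfl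

theorem lv_sub (g : G6 K) : lv g - 1 = (g.1 - 1).mulVecLin :=
  LinearMap.ext fun v => by simp [lv_apply]

theorem rk_eq (g : G6 K) : rk g = finrank K (LinearMap.range (lv g - 1)) := by rw [lv_sub]; rfl

theorem rk_add_ker (g : G6 K) : rk g + finrank K (LinearMap.ker (lv g - 1)) = 6 := by
  rw [rk_eq, LinearMap.finrank_range_add_finrank_ker, fr6]

theorem irr_sub {S : Set (G6 K)} (hi : Irr (Subgroup.closure S)) {W : Submodule K (I6 → K)}
    (h : ∀ g ∈ S, ∀ v ∈ W, g.1 *ᵥ v ∈ W) : W = ⊥ ∨ W = ⊤ := hi W fun g hg => by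
  induction hg using Subgroup.closure_induction with
  | mem x hx => exact h x hx
  | one => simp
  | mul x y _ _ hx hy => exact fun v hv => by rw [Units.val_mul, ← Matrix.mulVec_mulVec]; exact hx _ (hy v hv)
  | inv x _ hx =>
    intro v hv
    obtain ⟨w, hw⟩ := LinearMap.injective_iff_surjective.1 (show Function.Injective ((lv x).restrict hx) from
      fun u w e => Subtype.ext (by
        rw [← Asch.inv_mulVec_mulVec x u, ← Asch.inv_mulVec_mulVec x w]
        exact congrArg _ (congrArg Subtype.val e))) ⟨v, hv⟩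
    rw [← show x.1 *ᵥ w = v from congrArg Subtype.val hw, Asch.inv_mulVec_mulVec]
    exact w.2

theorem irr_fix {S : Set (G6 K)} (hi : Irr (Subgroup.closure S)) {v : I6 → K} (h : ∀ g ∈ S, g.1 *ᵥ v = v) :
    v = 0 := by
  rcases irr_sub hi (W := K ∙ v) (fun g hg w hw => by
    obtain ⟨c, rfl⟩ := Submodule.mem_span_singleton.1 hw
    rwa [Matrix.mulVec_smul, h g hg]) with e | e
  · exact Submodule.span_singleton_eq_bot.1 e
  by_contra k
  have := finrank_span_singleton (K := K) k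
  rw [e, finrank_top, fr6] at this
  omega

theorem irr_top {S : Set (G6 K)} (hi : Irr (Subgroup.closure S)) {W : Submodule K (I6 → K)}
    (h : ∀ g ∈ S, LinearMap.range (lv g - 1) ≤ W) : W = ⊤ := by
  have k : ∀ g ∈ S, ∀ v, g.1 *ᵥ v - v ∈ W := fun g hg v => h g hg ⟨v, rfl⟩
  refine (irr_sub hi fun g hg v hv => by simpa using add_mem (k g hg v) hv).resolve_left fun e => ?_
  exact one_ne_zero (congrFun (irr_fix hi (v := 1) fun g hg => sub_eq_zero.1 (e.le (k g hg _))) (.inl 0))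

/-- `X ↦ a X a'⁻¹`. -/
def cj2 (a a' : G6 K) : End K (Matrix I6 I6 K) := LinearMap.mulLeftRight K (a.1, (a'⁻¹).1)

theorem cj2_apply (X : Matrix I6 I6 K) : cj2 a a' X = a.1 * X * (a'⁻¹).1 := rfl

theorem cj2_mul : cj2 a a' * cj2 b b' = cj2 (a * b) (a' * b') :=
  LinearMap.ext fun X => by simp only [End.mul_apply, cj2_apply, mul_inv_rev, Units.val_mul, mul_assoc]

theorem ker_cj2 : LinearMap.ker (cj2 a a' - 1) = Hm a a' := Submodule.ext fun X => by
  rw [mem_Hm, ← Units.mul_inv_eq_iff_eq_mul]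
  exact sub_eq_zero

theorem scott_hom (a b a' b' : G6 K) : hd a a' + hd b b' + hd (a * b) (a' * b') ≤
    36 + finrank K ↥(Hm a a' ⊓ Hm b b') + finrank K ↥(Hm a' a ⊓ Hm b' b) := by
  have h := scott_gen₂ (cj2 a a') (cj2 b b')
  rw [cj2_mul, ker_cj2, ker_cj2, ker_cj2, fr36] at h
  set W := LinearMap.range (cj2 a a' - 1) ⊔ LinearMap.range (cj2 b b' - 1)
  have k : ∀ {a a' : G6 K} {Y : Matrix I6 I6 K}, (∀ X, (Y * (cj2 a a' - 1) X).trace = 0) → Y ∈ Hm a' a :=
    fun {a a' Y} e => by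
    rw [mem_Hm, eq_comm, ← Units.inv_mul_eq_iff_eq_mul, Matrix.ext_iff_trace_mul_right]
    intro X
    have := e X
    rw [LinearMap.sub_apply, mul_sub, Matrix.trace_sub, sub_eq_zero, cj2_apply, ← mul_assoc,
      Matrix.trace_mul_comm] at this
    simpa only [mul_assoc, End.one_apply] using this
  have h1 := fr_le (((LinearMap.mul K (Matrix I6 I6 K)).compr₂ (Matrix.traceLinearMap I6 K K)).domRestrict₂ W)
    (X := ⊤) (P := ⊤) (Q := Hm a' a ⊓ Hm b' b) (fun _ _ => trivial) fun Y _ e =>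
      ⟨k fun X => LinearMap.congr_fun e ⟨_, Submodule.mem_sup_left ⟨X, rfl⟩⟩,
        k fun X => LinearMap.congr_fun e ⟨_, Submodule.mem_sup_right ⟨X, rfl⟩⟩⟩
  rw [finrank_top, finrank_top, fr36, Subspace.dual_finrank_eq] at h1
  unfold hd
  omega

theorem unit_of_ker (hi : Irr (Subgroup.closure {a, b})) {X : Matrix I6 I6 K} (h0 : X ≠ 0)
    (h : X ∈ Hm a' a ⊓ Hm b' b) : IsUnit X := by
  rw [← Matrix.mulVec_injective_iff_isUnit]
  refine LinearMap.ker_eq_bot.1 ((irr_sub hi (W := LinearMap.ker X.mulVecLin) ?_).resolve_right fun e =>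
    h0 (mat_eq_zero_of_mulVec fun v => e.ge (Submodule.mem_top (x := v))))
  rintro _ (rfl | rfl) v (hv : X *ᵥ v = 0) <;> change X *ᵥ _ = 0
  · rw [Matrix.mulVec_mulVec, ← mem_Hm.1 h.1, ← Matrix.mulVec_mulVec, hv, Matrix.mulVec_zero]
  · rw [Matrix.mulVec_mulVec, ← mem_Hm.1 h.2, ← Matrix.mulVec_mulVec, hv, Matrix.mulVec_zero]

theorem unit_of_range (hi : Irr (Subgroup.closure {a, b})) {X : Matrix I6 I6 K} (h0 : X ≠ 0)
    (h : X ∈ Hm a a' ⊓ Hm b b') : IsUnit X := by
  rw [← Matrix.mulVec_surjective_iff_isUnit]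
  refine LinearMap.range_eq_top.1 ((irr_sub hi (W := LinearMap.range X.mulVecLin) ?_).resolve_left fun e =>
    h0 (mat_eq_zero_of_mulVec fun v => e.le ⟨v, rfl⟩))
  rintro _ (rfl | rfl) _ ⟨v, rfl⟩
  · exact ⟨a'.1 *ᵥ v, by simp only [Matrix.mulVecLin_apply, Matrix.mulVec_mulVec, mem_Hm.1 h.1]⟩
  · exact ⟨b'.1 *ᵥ v, by simp only [Matrix.mulVecLin_apply, Matrix.mulVec_mulVec, mem_Hm.1 h.2]⟩

theorem schur [IsAlgClosed K] (hi : Irr (Subgroup.closure {a, b})) : finrank K ↥(Hm a a ⊓ Hm b b) ≤ 1 := by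
  refine (Submodule.finrank_mono (t := K ∙ (1 : Matrix I6 I6 K)) fun X hX => ?_).trans
    (finrank_span_singleton one_ne_zero).le
  obtain ⟨c, hc⟩ := spectrum.nonempty_of_isAlgClosed_of_finiteDimensional K X
  have h1 : (1 : Matrix I6 I6 K) ∈ Hm a a ⊓ Hm b b := ⟨mem_Hm.2 (by simp), mem_Hm.2 (by simp)⟩
  refine Submodule.mem_span_singleton.2 ⟨c, sub_eq_zero.1 (by_contra fun k => spectrum.mem_iff.1 hc ?_)⟩
  rw [Algebra.algebraMap_eq_smul_one]
  exact unit_of_ker hi k (sub_mem (Submodule.smul_mem _ _ h1) hX)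

end T2

open T2

theorem exists_fix (l : List (G6 K)) (h : (l.map rk).sum < 6) :
    ∃ v : I6 → K, v ≠ 0 ∧ ∀ g ∈ l, g.1 *ᵥ v = v := by
  have k : ∃ X : Submodule K (I6 → K), (∀ v ∈ X, ∀ g ∈ l, g.1 *ᵥ v = v) ∧ 6 ≤ finrank K X + (l.map rk).sum := by
    clear h
    induction l with
    | nil => exact ⟨⊤, by simp, by simp⟩
    | cons a l ih =>
      obtain ⟨X, h1, h2⟩ := ih
      refine ⟨X ⊓ LinearMap.ker (lv a - 1), fun v hv g hg => ?_, ?_⟩
      · rcases List.mem_cons.1 hg with rfl | hg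
        exacts [sub_eq_zero.1 hv.2, h1 v hv.1 g hg]
      have := fr_le (lv a - 1) (X := X) (P := LinearMap.range (lv a - 1)) (Q := X ⊓ LinearMap.ker (lv a - 1))
        (fun v _ => ⟨v, rfl⟩) fun v hv e => ⟨hv, e⟩
      rw [List.map_cons, List.sum_cons, rk_eq]
      omega
  obtain ⟨X, h1, h2⟩ := k
  obtain ⟨v, hv, v0⟩ := X.exists_mem_ne_zero_of_ne_bot fun e => by
    rw [e, finrank_bot] at h2
    omega
  exact ⟨v, v0, h1 v hv⟩

theorem irr_le_sum {l : List (G6 K)} (hi : Irr (Subgroup.closure {g | g ∈ l})) : 6 ≤ (l.map rk).sum := by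
  by_contra! n
  obtain ⟨v, v0, hv⟩ := exists_fix l n
  exact v0 (irr_fix hi hv)

theorem T2.scott3' (hi : Irr (Subgroup.closure {a, b, c})) : 12 ≤ rk a + rk b + rk c + rk (a * b * c) := by
  have h := scott_gen (lv a) (lv b) (lv c)
  rw [irr_top hi (W := _ ⊔ _ ⊔ _) (by
    rintro _ (rfl | rfl | rfl)
    exacts [le_sup_left.trans le_sup_left, le_sup_right.trans le_sup_left, le_sup_right]),
    show LinearMap.ker (lv a - 1) ⊓ LinearMap.ker (lv b - 1) ⊓ LinearMap.ker (lv c - 1) = ⊥ from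
      eq_bot_iff.2 fun v hv => irr_fix hi (by
        rintro _ (rfl | rfl | rfl)
        exacts [sub_eq_zero.1 hv.1.1, sub_eq_zero.1 hv.1.2, sub_eq_zero.1 hv.2]),
    finrank_top, finrank_bot, fr6, ← map_mul, ← map_mul, ← rk_eq, ← rk_eq, ← rk_eq] at h
  have := rk_add_ker (a * b * c)
  omega

theorem scott (hi : Irr (Subgroup.closure {a, b})) : 12 ≤ rk a + rk b + rk (a * b) := by
  have := scott3' (a := a) (b := b) (c := 1)
    (hi.mono (Subgroup.closure_mono (Set.insert_subset_insert (by simp))))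
  rwa [rk_one, mul_one] at this

theorem scott3 (hi : Irr (Subgroup.closure {a, b, c})) : 12 ≤ rk a + rk b + rk c + rk (a * b * c) :=
  scott3' hi

/-- Scott on `Hom(V', V)`, `g • X = ρ g X (ρ' g)⁻¹` for the free group on two letters; the dual module is
`Hom(V, V')` (trace form).  A nonzero fixed point of either is a nonzero intertwiner `X` (resp. `X'`) between the
irreducible `V` and `V'` of the same dimension: its image (resp. kernel) is invariant, so it is invertible. -/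
theorem rigid (hi : Irr (Subgroup.closure {a, b}))
    (h : 36 < hd a a' + hd b b' + hd (a * b) (a' * b')) :
    ∃ k : G6 K, a = k * a' * k⁻¹ ∧ b = k * b' * k⁻¹ := by
  have h1 := scott_hom a b a' b'
  by_cases e : Hm a a' ⊓ Hm b b' = ⊥
  · obtain ⟨X, hX, h0⟩ := (Hm a' a ⊓ Hm b' b).exists_mem_ne_zero_of_ne_bot fun e' => by
      rw [e, e', finrank_bot] at h1
      omega
    obtain ⟨k, rfl⟩ := unit_of_ker hi h0 hX
    refine ⟨k⁻¹, ?_, ?_⟩ <;> rw [inv_inv, mul_assoc, eq_inv_mul_iff_mul_eq]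
    exacts [Units.ext (mem_Hm.1 hX.1).symm, Units.ext (mem_Hm.1 hX.2).symm]
  obtain ⟨X, hX, h0⟩ := (Hm a a' ⊓ Hm b b').exists_mem_ne_zero_of_ne_bot e
  obtain ⟨k, rfl⟩ := unit_of_range hi h0 hX
  exact ⟨k, eq_mul_inv_of_mul_eq (Units.ext (mem_Hm.1 hX.1)), eq_mul_inv_of_mul_eq (Units.ext (mem_Hm.1 hX.2))⟩

/-- Scott on `End V` (Schur: both fixed spaces are lines). -/
theorem scott_gl [IsAlgClosed K] (hi : Irr (Subgroup.closure {a, b})) :
    hd a a + hd b b + hd (a * b) (a * b) ≤ 38 := by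
  have h1 := scott_hom a b a b
  have h2 := schur hi
  omega

open Polynomial in
/-- If `V_b = ⊕ K[T] / m i` (generators `v i`), then `Hom(V_b, V_a) = ⊕ ker (m i)(a)`: for `w i ∈ ker (m i)(a)`
define `X` on the basis by `X (b ^ j v i) = a ^ j w i`. -/
theorem hd_ge {ι : Type} [Fintype ι] (m : ι → K[X]) (hm : ∀ i, (m i).Monic) (v : ι → I6 → K)
    (hv : ∀ i, aeval b.1 (m i) *ᵥ v i = 0) (hs : ∑ i, (m i).natDegree = 6)
    (li : LinearIndependent K fun x : Σ i, Fin (m i).natDegree => (b.1 ^ x.2.1) *ᵥ v x.1) :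
    ∑ i, finrank K (LinearMap.ker (aeval a.1 (m i)).mulVecLin) ≤ hd a b := by
  classical
  have : Nonempty (Σ i, Fin (m i).natDegree) := Fintype.card_pos_iff.1 (by simp [hs])
  let bs := basisOfLinearIndependentOfCardEqFinrank li (by simp [hs])
  have hb : ∀ x, bs x = (b.1 ^ x.2.1) *ᵥ v x.1 := fun x => by simp [bs]
  let φ : (∀ i, LinearMap.ker (aeval a.1 (m i)).mulVecLin) →ₗ[K] Matrix I6 I6 K :=
    LinearMap.toMatrix'.toLinearMap ∘ₗ (bs.constr K).toLinearMap ∘ₗ LinearMap.pi fun x =>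
      (a.1 ^ x.2.1).mulVecLin ∘ₗ (Submodule.subtype _) ∘ₗ LinearMap.proj x.1
  have h1 : ∀ w x, φ w *ᵥ bs x = (a.1 ^ x.2.1) *ᵥ (w x.1).1 := fun w x => by
    simp [φ, LinearMap.toMatrix'_mulVec]
  have red : ∀ (g : Matrix I6 I6 K) i u, aeval g (m i) *ᵥ u = 0 → ∀ p : K[X], aeval g p *ᵥ u =
      ∑ j : Fin (m i).natDegree, (p %ₘ m i).coeff j • (g ^ j.1) *ᵥ u := fun g i u hu p => by
    have e : aeval g p *ᵥ u = aeval g (p %ₘ m i) *ᵥ u := by
      conv_lhs => rw [← modByMonic_add_div p (m i), mul_comm, map_add, map_mul, Matrix.add_mulVec,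
        ← Matrix.mulVec_mulVec, hu, Matrix.mulVec_zero, add_zero]
    have e' := (sum_modByMonic_coeff (p := p) (hm i) (n := (m i).natDegree) degree_le_natDegree).symm
    rw [e]
    conv_lhs => rw [e', map_sum, Matrix.sum_mulVec]
    exact Finset.sum_congr rfl fun j _ => by
      rw [aeval_monomial, ← Algebra.smul_def, Matrix.smul_mulVec]
  have h2 : ∀ w i (p : K[X]), φ w *ᵥ aeval b.1 p *ᵥ v i = aeval a.1 p *ᵥ (w i).1 := fun w i p => by
    rw [red _ i _ (hv i), red _ i _ (w i).2, Matrix.mulVec_sum]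
    exact Finset.sum_congr rfl fun j _ => by rw [Matrix.mulVec_smul, ← hb ⟨i, j⟩, h1]
  have h3 : ∀ w, φ w ∈ Hm a b := fun w => mem_Hm.2 (Matrix.toLin'.injective (bs.ext fun x => by
    have := h2 w x.1 (X * X ^ x.2.1)
    simp only [map_mul, map_pow, aeval_X, ← Matrix.mulVec_mulVec] at this
    rw [Matrix.toLin'_apply, Matrix.toLin'_apply, ← Matrix.mulVec_mulVec, ← Matrix.mulVec_mulVec, h1, hb, this]))
  rw [← Module.finrank_pi_fintype]
  refine LinearMap.finrank_le_finrank_of_injective (f := φ.codRestrict _ h3)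
    ((injective_iff_map_eq_zero _).2 fun w hw => funext fun i => Subtype.ext ?_)
  have := h2 w i 1
  rw [show φ w = 0 from congrArg Subtype.val hw] at this
  simpa using this.symm

/-- `X ↦ a X b⁻¹` is unipotent with `(· - 1) ^ p = 0`. -/
theorem hd_char (p : ℕ) [Fact p.Prime] [CharP K p] (ha : a ^ p = 1) (hb : b ^ p = 1) : 36 ≤ p * hd a b := by
  have h := O7.T3.le_pow (LinearMap.mulLeft K a.1 - LinearMap.mulRight K b.1) (p ^ 1)
  rwa [O7.T3.unip p (LinearMap.commute_mulLeft_right _ _), pow_one, LinearMap.pow_mulLeft, LinearMap.pow_mulRight,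
    ← Units.val_pow_eq_pow_val, ← Units.val_pow_eq_pow_val, ha, hb, Units.val_one, LinearMap.mulLeft_one,
    LinearMap.mulRight_one, sub_self, LinearMap.range_zero, finrank_bot, zero_add, fr36] at h

theorem rk_char (p : ℕ) [Fact p.Prime] [CharP K p] {n : ℕ} (ha : a ^ p ^ n = 1) :
    6 ≤ p ^ n * (6 - rk a) := by
  have h := O7.T3.le_pow (lv a - 1) (p ^ n)
  rw [O7.T3.unip p (Commute.one_right _), ← map_pow, ha, map_one, one_pow, sub_self, LinearMap.range_zero,
    finrank_bot, zero_add, fr6] at h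
  rwa [Nat.sub_eq_of_eq_add' (rk_add_ker a).symm]

/-- Semisimple symplectic elements have even rank. -/
theorem even_rk [IsAlgClosed K] (ha : a ∈ Sp K) {n : ℕ} (h : a ^ n = 1) (hn : (n : K) ≠ 0) : Even (rk a) := by
  obtain ⟨k, -, μ, -, e⟩ := exists_conj_tor ha h hn
  rw [← rk_conj a k, e, rk_tor]
  exact even_two_mul _

/-- A symplectic element of rank one is a transvection. -/
theorem isTv_of_rk (ha : a ∈ Sp K) (h : rk a = 1) : IsTv a := by
  obtain ⟨v, v0, hv⟩ := finrank_eq_one_iff'.1 ((rk_eq a).symm.trans h)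
  choose c hc using fun j => hv ⟨_, Pi.single j 1, rfl⟩
  have e : a.1 = 1 + Matrix.vecMulVec v.1 c := by
    rw [← sub_eq_iff_eq_add']
    ext i j
    have := congrFun (congrArg Subtype.val (hc j)) i
    simp only [lv_sub] at this
    simpa [Matrix.vecMulVec_apply, mul_comm, Matrix.one_apply, Pi.single_apply] using this.symm
  have ap : ∀ x, a.1 *ᵥ x = x + (c ⬝ᵥ x) • v.1 := fun x => by
    rw [e, Matrix.add_mulVec, Matrix.one_mulVec, Matrix.vecMulVec_mulVec, op_smul_eq_smul]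
  have v0' : v.1 ≠ 0 := fun k => v0 (Subtype.ext k)
  refine ⟨v.1, c, v0', fun k => ?_, by_contra fun k => v0' (alt_om.nondeg _ fun x => ?_), e⟩
  · rw [rk, e, k] at h
    simp at h
  have := mem_Sp.1 ha x v.1
  rw [ap, ap, alt_om.add_left, alt_om.add_right, alt_om.add_right, alt_om.smul_left, alt_om.smul_left,
    alt_om.smul_right', alt_om.smul_right', alt_om.alt] at this
  exact (mul_eq_zero.1 (by linear_combination this)).resolve_left k

theorem rk_eq_zero : rk a = 0 ↔ a = 1 := by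
  refine ⟨fun h => Units.ext (sub_eq_zero.1 (mat_eq_zero_of_mulVec fun v => ?_)), fun h => h ▸ rk_one⟩
  exact (Submodule.finrank_eq_zero.1 h).le ⟨v, rfl⟩

theorem rk_inv : rk a⁻¹ = rk a := by
  have : (a⁻¹).1 - 1 = (-a⁻¹).1 * (a.1 - 1) := by
    rw [Units.val_neg, neg_mul, mul_sub, Units.inv_mul, mul_one, neg_sub]
  rw [rk, this, Matrix.rank_mul_eq_right_of_isUnit_det _ _ (Matrix.isUnits_det_units _), rk]

theorem rk_mul_le : rk (a * b) ≤ rk a + rk b := by
  rw [rk_eq, rk_eq, rk_eq]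
  refine (Submodule.finrank_mono (t := LinearMap.range (lv a - 1) ⊔ LinearMap.range (lv b - 1)) ?_).trans
    (Submodule.finrank_add_le_finrank_add_finrank _ _)
  rintro _ ⟨v, rfl⟩
  exact Submodule.mem_sup.2 ⟨_, ⟨lv b v, rfl⟩, _, ⟨v, rfl⟩, by
    simp only [map_mul, LinearMap.sub_apply, End.mul_apply, End.one_apply, sub_add_sub_cancel]⟩

theorem tr_inv (ha : a ∈ Sp K) : tr a⁻¹ = tr a := by
  have e : Matrix.J (Fin 3) K * (a⁻¹).1 = a.1ᵀ * Matrix.J (Fin 3) K := by
    rw [Units.mul_inv_eq_iff_eq_mul, mem_Sp'.1 ha]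
  have := congrArg (fun X => (Matrix.J (Fin 3) K * X).trace) e
  simp only [← mul_assoc, Matrix.trace_mul_cycle _ a.1ᵀ, Matrix.J_squared, neg_mul, one_mul, Matrix.trace_neg,
    neg_inj, Matrix.trace_transpose] at this
  exact this

end Cfsg.Lib.S6Q
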