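import Cfsg.Agent.Lib.S6Q.T2
import Cfsg.Agent.Lib.S6Q.T1

/-!
# Involutions (odd characteristic)
-/

set_option autoImplicit false
set_option linter.unusedSectionVars false

namespace Cfsg.Lib.S6Q

open scoped MatrixGroups Matrix commutatorElement
open Cfsg.Geo Cfsg.Lib.Asch Cfsg.Lib.Linear Cfsg.Lib.Q4 Cfsg.Lib.Symp Module
open Cfsg.Lib.Q4R (Sq HasTv sc dg)

variable {K : Type*} [Field K] [IsAlgClosed K] {X : Type*} [Group X] {Y : Subgroup (G6 K)} {π : Y →* X}
  {s t g : G6 K}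

section Aux

omit [IsAlgClosed K]

open Classical in
/-- The number of entries equal to `c`. -/
noncomputable def t3n {J : Type} [Fintype J] (a : J → Kˣ) (c : Kˣ) : ℕ := (Finset.univ.filter fun i => a i = c).card

theorem t3_ne (h2 : (2 : K) ≠ 0) (c : Kˣ) : c ≠ -c := fun e => h2 (mul_right_cancel₀ c.ne_zero (by
  have := congrArg Units.val e
  rw [Units.val_neg] at this
  linear_combination this))

theorem t3_ne' (h2 : (2 : K) ≠ 0) (g : G6 K) : g ≠ -g := fun e => h2 (by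
  have := congrArg (fun g : G6 K => g.1 (.inl 0) (.inl 0)) (show (1 : G6 K) = -1 from
    mul_right_cancel (b := g) (by rw [one_mul, neg_one_mul]; exact e))
  simp only [Units.val_neg, Units.val_one, Matrix.neg_apply, Matrix.one_apply_eq] at this
  linear_combination this)

theorem t3_pm {a c : Kˣ} (h : a * a = c * c) : a = c ∨ a = -c := by
  have := congrArg Units.val h
  rw [Units.val_mul, Units.val_mul] at this
  exact (mul_self_eq_mul_self_iff.1 this).imp Units.ext fun e => Units.ext e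

theorem t3n_add (h2 : (2 : K) ≠ 0) {J : Type} [Fintype J] {a : J → Kˣ} {c : Kˣ} (h : ∀ i, a i = c ∨ a i = -c) :
    t3n a c + t3n a (-c) = Fintype.card J := by
  classical
  rw [← Finset.card_univ, ← Finset.card_filter_add_card_filter_not (s := Finset.univ) fun i => a i = c, t3n, t3n]
  congr 2
  exact Finset.filter_congr fun i _ => ⟨fun e e' => t3_ne h2 c (e'.symm.trans e), (h i).resolve_left⟩

theorem dg_neg (a : I6 → Kˣ) : (dg (-a) : G6 K) = -dg a :=
  Units.ext (by rw [Units.val_neg, Q4R.dg_val, Q4R.dg_val, Matrix.diagonal_neg]; rfl)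

theorem tor_neg (μ : Fin 3 → Kˣ) : (tor (-μ) : G6 K) = -tor μ := by
  rw [← neg_one_mul (tor μ), ← tor_neg_one, ← map_mul]
  congr 1
  ext i
  simp

theorem rk_dg (h2 : (2 : K) ≠ 0) {a : I6 → Kˣ} (h : ∀ i, a i = 1 ∨ a i = -1) : rk (dg a) = t3n a (-1) := by
  classical
  rw [rk, Q4R.dg_val, ← Matrix.diagonal_one, Matrix.diagonal_sub, Matrix.rank_diagonal, Fintype.card_subtype, t3n]
  congr 1
  ext i
  simp only [Finset.mem_filter, Finset.mem_univ, true_and, sub_ne_zero, ne_eq, Units.val_eq_one]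
  exact ⟨(h i).resolve_left, fun e e' => t3_ne h2 1 (e'.symm.trans e)⟩

theorem hd_two {a b : I6 → Kˣ} {c : Kˣ} (ha : ∀ i, a i = c ∨ a i = -c) (hb : ∀ i, b i = c ∨ b i = -c) :
    hd (dg a) (dg b) = t3n a c * t3n b c + (6 - t3n a c) * (6 - t3n b c) := by
  classical
  have e : ∀ d : I6 → Kˣ, 6 - t3n d c = (Finset.univ.filter fun i => ¬ d i = c).card := fun d => by
    have := Finset.card_filter_add_card_filter_not (s := Finset.univ) fun i => d i = c
    rw [t3n]
    simp only [Finset.card_univ, Fintype.card_sum, Fintype.card_fin] at this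
    convert Nat.sub_eq_of_eq_add' this.symm
  rw [hd_dg, e, e, t3n, t3n, ← Finset.card_product, ← Finset.card_product, ← Finset.card_union_of_disjoint]
  · congr 1
    ext ⟨i, j⟩
    simp only [Finset.mem_filter, Finset.mem_univ, true_and, Finset.mem_union, Finset.mem_product]
    by_cases h : a i = c <;> by_cases h' : b j = c
    · simp [h, h']
    · simp [h, h', Ne.symm h']
    · simp [h, h']
    · exact iff_of_true (((ha i).resolve_left h).trans ((hb j).resolve_left h').symm) (.inr ⟨h, h'⟩)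
  · exact Finset.disjoint_left.2 fun x h h' =>
      (Finset.mem_filter.1 (Finset.mem_product.1 h').1).2 (Finset.mem_filter.1 (Finset.mem_product.1 h).1).2

theorem t3n_three (h2 : (2 : K) ≠ 0) {μ : Fin 3 → Kˣ} {c : Kˣ} (hc : c * c = -1) (h : ∀ i, μ i * μ i = -1) :
    t3n (Sum.elim μ fun i => (μ i)⁻¹) c = 3 := by
  classical
  have e : ∀ i, (if μ i = c then 1 else 0) + (if (μ i)⁻¹ = c then 1 else 0) = 1 := fun i => by
    have k : (μ i)⁻¹ = -μ i := inv_eq_of_mul_eq_one_right (by rw [mul_neg, h, neg_neg])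
    rcases t3_pm ((h i).trans hc.symm) with e | e
    · rw [k, e, if_pos rfl, if_neg (t3_ne h2 c).symm]
    · rw [k, e, if_neg (t3_ne h2 c).symm, neg_neg, if_pos rfl]
  rw [t3n, Finset.card_filter, Fintype.sum_sum_type, ← Finset.sum_add_distrib]
  exact (Finset.sum_congr rfl fun i _ => by convert e i <;> rfl).trans (by simp)

/-- The elements commuting with `P`. -/
def cenP (P : Matrix I6 I6 K) : Subgroup (G6 K) where
  carrier := {g | Commute g.1 P}
  one_mem' := Commute.one_left P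
  mul_mem' ha hb := ha.mul_left hb
  inv_mem' ha := ha.units_inv_left

/-- `g` on the image of `P`, the identity on its kernel. -/
def phi {P : Matrix I6 I6 K} (hP : P * P = P) : cenP P →* G6 K :=
  MonoidHom.toHomUnits
    { toFun g := g.1.1 * P + (1 - P)
      map_one' := by simp
      map_mul' a b := by
        have e : P * (b.1.1 * P) = b.1.1 * P := by rw [← mul_assoc, ← Commute.eq b.2, mul_assoc, hP]
        simp only [Subgroup.coe_mul, Units.val_mul, add_mul, mul_add, sub_mul, mul_sub, mul_assoc, e, hP, one_mul,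
          mul_one]
        abel }

theorem phi_val {P : Matrix I6 I6 K} (hP : P * P = P) (g : cenP P) : (phi hP g).1 = g.1.1 * P + (1 - P) := rfl

/-- A commutator in the centraliser has determinant one on every eigenspace. -/
theorem det_blk {d e : I6 → Kˣ} (c : Kˣ) {a b : G6 K} (ha : Commute a (dg d)) (hb : Commute b (dg d))
    (h : ⁅a, b⁆ = dg e) {x : Kˣ} (he : ∀ i, d i = c → e i = x) : x ^ t3n d c = 1 := by
  classical
  let P : Matrix I6 I6 K := Matrix.diagonal fun i => if d i = c then 1 else 0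
  have hP : P * P = P := by
    rw [Matrix.diagonal_mul_diagonal]
    congr 1
    ext i
    split_ifs <;> simp
  have m : ∀ a : G6 K, Commute a (dg d) → a ∈ cenP P := fun a ha => Matrix.ext fun i j => by
    rw [Matrix.mul_diagonal, Matrix.diagonal_mul, mul_comm]
    by_cases h0 : a.1 i j = 0
    · simp [h0]
    · rw [wt_of_comm ha h0]
  have k : (phi hP ⁅(⟨a, m a ha⟩ : cenP P), ⟨b, m b hb⟩⁆).1.det = 1 := by
    rw [← Matrix.GeneralLinearGroup.val_det_apply, map_commutatorElement, map_commutatorElement,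
      commutatorElement_eq_one_iff_mul_comm.2 (mul_comm _ _), Units.val_one]
  have z : ((⁅(⟨a, m a ha⟩ : cenP P), (⟨b, m b hb⟩ : cenP P)⁆ : cenP P) : G6 K) = ⁅a, b⁆ := rfl
  rw [phi_val, z, h, Q4R.dg_val, Matrix.diagonal_mul_diagonal, ← Matrix.diagonal_one, Matrix.diagonal_sub, Matrix.diagonal_add,
    Matrix.det_diagonal] at k
  refine Units.ext ?_
  rw [Units.val_pow_eq_pow_val, Units.val_one, ← k, t3n, ← Finset.prod_const, Finset.prod_filter]
  refine Finset.prod_congr rfl fun i _ => ?_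
  by_cases q : d i = c
  · simp [q, he i q]
  · simp [q]

end Aux

theorem inv_dg (h2 : (2 : K) ≠ 0) (h : t * t = 1) :
    ∃ (k : G6 K) (a : I6 → Kˣ), (∀ i, a i = 1 ∨ a i = -1) ∧ k * t * k⁻¹ = dg a ∧ rk t = t3n a (-1) := by
  obtain ⟨k, e⟩ := exists_dg (fun _ : Unit => t) (fun _ _ => .refl _) fun _ => ⟨2, by exact_mod_cast h2, by rw [sq, h]⟩
  obtain ⟨a, e⟩ := e ()
  have q : ∀ i, a i = 1 ∨ a i = -1 := fun i => t3_pm (congrFun (Q4R.dg_inj (show (dg (a * a) : G6 K) = dg (1 * 1) by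
    rw [map_mul, ← e, conj_mul, h]; simp)) i)
  exact ⟨k, a, q, e, by rw [← rk_conj t k, e, rk_dg h2 q]⟩

theorem rk_add_neg (h2 : (2 : K) ≠ 0) (h : t * t = 1) : rk t + rk (-t) = 6 := by
  classical
  obtain ⟨k, a, q, e, r⟩ := inv_dg h2 h
  have := t3n_add h2 q
  rw [r, ← rk_conj (-t) k, mul_neg, neg_mul, e, ← dg_neg, rk_dg h2 fun i => by simpa [neg_eq_iff_eq_neg] using (q i).symm,
    add_comm]
  rw [show t3n (-a) (-1) = t3n a 1 by simp only [t3n, Pi.neg_apply, neg_inj], this]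
  simp

theorem ti_or (h2 : (2 : K) ≠ 0) (ht : t ∈ Sp K) (h : t * t = 1) : t = 1 ∨ t = -1 ∨ TI t ∨ TI (-t) := by
  have e := rk_add_neg h2 h
  obtain ⟨m, hm⟩ := even_rk ht (n := 2) (by rw [sq, h]) (by exact_mod_cast h2)
  have : rk t = 0 ∨ rk (-t) = 0 ∨ rk t = 2 ∨ rk (-t) = 2 := by omega
  exact this.imp rk_eq_zero.1 (.imp (fun e => neg_eq_iff_eq_neg.1 (rk_eq_zero.1 e))
    (.imp (⟨h, ·⟩) (⟨by rw [neg_mul_neg, h], ·⟩)))

theorem TI.tr (h2 : (2 : K) ≠ 0) (h : TI t) : tr t = 2 := by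
  classical
  obtain ⟨k, a, q, e, r⟩ := inv_dg h2 h.1
  have e1 := t3n_add h2 q
  rw [← r, h.2] at e1
  have e2 : t3n a 1 = 4 := by simp at e1; omega
  have : ∀ i, (a i : K) = (if a i = 1 then 1 else 0) - if a i = -1 then 1 else 0 := fun i => by
    rcases q i with e | e <;> simp [e, t3_ne h2 1, (t3_ne h2 1).symm]
  rw [← tr_conj t k, e, tr_dg, Finset.sum_congr rfl fun i _ => this i, Finset.sum_sub_distrib, Finset.sum_boole,
    Finset.sum_boole]
  change ((t3n a 1 : ℕ) : K) - (t3n a (-1) : ℕ) = 2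
  rw [e2, ← r, h.2]
  norm_num

theorem TI.rk_neg (h2 : (2 : K) ≠ 0) (h : TI t) : rk (-t) = 4 := by
  have := rk_add_neg h2 h.1
  have := h.2
  omega

theorem TI.conj (h : TI t) (k : G6 K) : TI (k * t * k⁻¹) := ⟨by rw [conj_mul, h.1]; group, (rk_conj _ _).trans h.2⟩

theorem TI.hd (h2 : (2 : K) ≠ 0) (hs : TI s) (ht : TI t) : hd s t = 20 := by
  obtain ⟨k, a, q, e, r⟩ := inv_dg h2 hs.1
  obtain ⟨l, b, q', e', r'⟩ := inv_dg h2 ht.1
  rw [← hd_conj s t k l, e, e', hd_two (c := -1) (fun i => by simpa using (q i).symm)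
    (fun i => by simpa using (q' i).symm), ← r, ← r', hs.2, ht.2]

theorem exists_sqrt_neg_one : ∃ c : Kˣ, c * c = -1 := by
  obtain ⟨c, hc⟩ := IsAlgClosed.exists_eq_mul_self (-1 : K)
  exact ⟨Units.mk0 c (by rintro rfl; simp at hc), Units.ext hc.symm⟩

theorem TII.tor (h2 : (2 : K) ≠ 0) (ht : t ∈ Sp K) (h : TII t) :
    ∃ (k : G6 K) (μ : Fin 3 → Kˣ), (∀ i, μ i * μ i = -1) ∧ k * t * k⁻¹ = tor μ := by
  obtain ⟨k, -, μ, -, e⟩ := exists_conj_tor ht (n := 4) (by rw [show 4 = 2 * 2 from rfl, pow_mul, sq t, h, neg_one_sq])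
    (by rw [show ((4 : ℕ) : K) = 2 * 2 by norm_num]; exact mul_ne_zero h2 h2)
  exact ⟨k, μ, congrFun (tor_inj (show S6Q.tor (μ * μ) = S6Q.tor fun _ => -1 by
    rw [map_mul, ← e, conj_mul, h, tor_neg_one]; simp)), e⟩

omit [IsAlgClosed K] in
theorem t3_two {μ : Fin 3 → Kˣ} {c : Kˣ} (hc : c * c = -1) (h : ∀ i, μ i * μ i = -1) (i : I6) :
    Sum.elim μ (fun i => (μ i)⁻¹) i = c ∨ Sum.elim μ (fun i => (μ i)⁻¹) i = -c := by
  rcases i with i | i
  · exact t3_pm ((h i).trans hc.symm)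
  · exact t3_pm (by rw [Sum.elim_inr, ← mul_inv, h, hc, inv_neg, inv_one])

theorem TII.hd (h2 : (2 : K) ≠ 0) (hs : s ∈ Sp K) (ht : t ∈ Sp K) (h : TII s) (h' : TII t) : hd s t = 18 := by
  obtain ⟨k, μ, q, e⟩ := h.tor h2 hs
  obtain ⟨l, ν, q', e'⟩ := h'.tor h2 ht
  obtain ⟨c, hc⟩ := exists_sqrt_neg_one (K := K)
  rw [← hd_conj s t k l, e, e', tor_eq, tor_eq, hd_two (t3_two hc q) (t3_two hc q'), t3n_three h2 hc q,
    t3n_three h2 hc q']

theorem TII.tr (h2 : (2 : K) ≠ 0) (ht : t ∈ Sp K) (h : TII t) : tr t = 0 ∧ rk t = 6 ∧ S6Q.hd t t = 18 := by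
  classical
  obtain ⟨k, μ, q, e⟩ := h.tor h2 ht
  refine ⟨?_, ?_, h.hd h2 ht ht h⟩
  · rw [← tr_conj t k, e, tr_tor]
    refine Finset.sum_eq_zero fun i _ => ?_
    rw [← Units.val_inv_eq_inv_val, inv_eq_of_mul_eq_one_right (show μ i * -μ i = 1 by rw [mul_neg, q, neg_neg])]
    simp
  · rw [← rk_conj t k, e, rk_tor, Finset.filter_true_of_mem (p := fun i => μ i ≠ 1) fun i _ e => t3_ne h2 1 (by simpa [e] using q i)]
    simp

/-- Elementary abelian `2`-subgroups lie in a torus. -/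
theorem card_le_eight (h2 : (2 : K) ≠ 0) {E : Subgroup (G6 K)} (hE : E ≤ Sp K) (h : ∀ a ∈ E, a * a = 1) :
    Nat.card E ≤ 8 := by
  classical
  have i : ∀ a ∈ E, a⁻¹ = a := fun a ha => inv_eq_of_mul_eq_one_right (h a ha)
  obtain ⟨k, -, e⟩ := tw_main (A := fun a : E => a.1) (fun a => hE a.2)
    (fun a b => show _ = _ by rw [← i _ (mul_mem a.2 b.2), mul_inv_rev, i _ a.2, i _ b.2])
    fun a => ⟨2, by exact_mod_cast h2, by rw [sq, h _ a.2]⟩
  choose μ e using e
  have q : ∀ a i, μ a i = 1 ∨ μ a i = -1 := fun a => fun i => t3_pm (congrFun (tor_inj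
    (show (tor (μ a * μ a) : G6 K) = tor (1 * 1) by rw [map_mul, ← e, conj_mul, h _ a.2]; simp)) i)
  refine (Nat.card_le_card_of_injective (fun a i => decide (μ a i = 1)) fun a b f => ?_).trans (by simp)
  have : μ a = μ b := funext fun i => by
    have := congrFun f i
    simp only [decide_eq_decide] at this
    rcases q a i with e | e
    · rw [e, this.1 e]
    · exact (q b i).elim (fun e' => by rw [e', this.2 e']) fun e' => by rw [e, e']
  exact Subtype.ext (mul_left_cancel (mul_right_cancel ((e a).trans (this ▸ (e b).symm))))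

omit [IsAlgClosed K] in
theorem perm_tor (σ : Equiv.Perm (Fin 3)) : ∃ w ∈ Sp K, ∀ μ, w * tor μ * w⁻¹ = tor (μ ∘ σ) := by
  refine ⟨Q4R.pm (Equiv.sumCongr σ σ)⁻¹, mem_Sp.2 fun u v => ?_, fun μ => ?_⟩
  · have e : ∀ (u : I6 → K) i, ((Q4R.pm (Equiv.sumCongr σ σ)⁻¹ : G6 K).1 *ᵥ u) i = u (Equiv.sumCongr σ σ i) :=
      fun u i => by
        simp only [Matrix.mulVec, dotProduct, Q4R.pm_apply, ite_mul, one_mul, zero_mul]
        rw [Finset.sum_eq_single (Equiv.sumCongr σ σ i) (fun j _ n => if_neg fun q => n (by rw [q]; simp)) (by simp)]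
        simp
    have f : ∀ u v : I6 → K, om K u v = ∑ i, (u (.inr i) * v (.inl i) - u (.inl i) * v (.inr i)) := fun u v => by
      simp [om, sympForm, Matrix.J, dotProduct, Matrix.mulVec, Fin.sum_univ_three, Matrix.one_apply]
      ring
    rw [f, f]
    simp only [e, Equiv.sumCongr_apply, Sum.map_inl, Sum.map_inr]
    exact Equiv.sum_comp σ fun i => u (.inr i) * v (.inl i) - u (.inl i) * v (.inr i)
  · rw [tor_eq, Q4R.pm_dg_conj, tor_eq]
    congr 1
    ext i
    rcases i with i | i <;> simp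

theorem TI.one {μ : Fin 3 → Kˣ} (h : TI (S6Q.tor μ)) : ∃ i, μ = Function.update (1 : Fin 3 → Kˣ) i (-1) := by
  classical
  have q : ∀ i, μ i = 1 ∨ μ i = -1 := fun i => t3_pm (congrFun (tor_inj
    (show (tor (μ * μ) : G6 K) = tor (1 * 1) by rw [map_mul, h.1, mul_one, map_one])) i)
  have := h.2
  rw [rk_tor] at this
  obtain ⟨i, e⟩ := Finset.card_eq_one.1 (Nat.eq_of_mul_eq_mul_left two_pos (this.trans (mul_one 2).symm))
  have e := fun j => (Finset.ext_iff.1 e j)
  simp only [Finset.mem_filter, Finset.mem_univ, true_and, Finset.mem_singleton] at e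
  refine ⟨i, funext fun j => ?_⟩
  by_cases j1 : j = i
  · rw [j1, Function.update_self]; exact (q i).resolve_left ((e i).2 rfl)
  · rw [Function.update_of_ne j1]; exact not_not.1 fun n => j1 ((e j).1 n)

theorem TI.frame (h2 : (2 : K) ≠ 0) (hs : TI s) (ht : TI t) (s6 : s ∈ Sp K) (t6 : t ∈ Sp K) (c : Commute s t)
    (ne : s ≠ t) : ∃ k ∈ Sp K, k * s * k⁻¹ = tor ![-1, 1, 1] ∧ k * t * k⁻¹ = tor ![1, -1, 1] := by
  obtain ⟨k, hk, μ, ν, e, e'⟩ := exists_conj_tor₂ s6 t6 (n := 2) (by rw [sq, hs.1]) (by rw [sq, ht.1])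
    (by exact_mod_cast h2) c
  obtain ⟨i, rfl⟩ := TI.one (e ▸ hs.conj k)
  obtain ⟨j, rfl⟩ := TI.one (e' ▸ ht.conj k)
  have n : i ≠ j := by
    rintro rfl
    exact ne (by simpa using e.trans e'.symm)
  obtain ⟨σ, a, b⟩ : ∃ σ : Equiv.Perm (Fin 3), σ 0 = i ∧ σ 1 = j := by clear e e'; revert i j; decide
  obtain ⟨w, hw, f⟩ := perm_tor (K := K) σ
  refine ⟨w * k, mul_mem hw hk, ?_, ?_⟩
  · rw [show w * k * s * (w * k)⁻¹ = w * (k * s * k⁻¹) * w⁻¹ by group, e, f, ← a,
      Function.update_comp_eq_of_injective _ σ.injective]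
    congr 1
    ext i
    fin_cases i <;> simp
  · rw [show w * k * t * (w * k)⁻¹ = w * (k * t * k⁻¹) * w⁻¹ by group, e', f, ← b,
      Function.update_comp_eq_of_injective _ σ.injective]
    congr 1
    ext i
    fin_cases i <;> simp

/-- Two commuting anticommuting pairs need `4 ∣ dim` (eigenspaces of `x` have dimension three, but carry an
anticommuting pair: determinants). -/
theorem no_extra (h2 : (2 : K) ≠ 0) {x y u v : G6 K} (hx : x * x = 1 ∨ x * x = -1) (e : x * y = -(y * x))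
    (e' : u * v = -(v * u)) (xu : Commute x u) (xv : Commute x v) : False := by
  classical
  obtain ⟨k, f⟩ := exists_dg (fun _ : Unit => x) (fun _ _ => .refl _) fun _ => ⟨2 * 2, by
    exact_mod_cast mul_ne_zero h2 h2, by rcases hx with h | h <;> rw [pow_mul, sq x, h] <;> simp⟩
  obtain ⟨d, f⟩ := f ()
  have c : ∀ u, Commute x u → Commute (k * u * k⁻¹) (dg d) := fun u h => f ▸ (h.symm.conj k)
  let i₀ : I6 := .inl 0
  have q : ∀ i, d i = d i₀ ∨ d i = -d i₀ := fun i => t3_pm (by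
    have : (dg (d * d) : G6 K) = k * (x * x) * k⁻¹ := by rw [map_mul, ← f, conj_mul]
    rcases hx with h | h
    · have := Q4R.dg_inj (this.trans (show _ = dg 1 by simp [h]))
      exact (congrFun this i).trans (congrFun this i₀).symm
    · have := Q4R.dg_inj (this.trans (show _ = dg (-1) by simp [h, dg_neg]))
      exact (congrFun this i).trans (congrFun this i₀).symm)
  have a := t3n_add h2 q
  obtain ⟨σ, -, w⟩ := Q4.exists_wt (k * y * k⁻¹)
  have w := w d (-d) (by
    rw [dg_neg, ← f, conj_inv, conj_mul, conj_mul, ← neg_neg (y * x), ← e]; simp)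
  have b : t3n d (d i₀) = t3n d (-d i₀) := Finset.card_equiv σ fun i => by
    simp only [Finset.mem_filter, Finset.mem_univ, true_and, ← w i, Pi.neg_apply, neg_eq_iff_eq_neg]
  have := det_blk (d i₀) (e := -1) (x := -1) (c u xu) (c v xv) (by
    rw [← conjugate_commutatorElement, commutatorElement_def, e', dg_neg]; simp [mul_assoc]) fun _ _ => rfl
  rw [show t3n d (d i₀) = 3 by simp at a; omega] at this
  exact t3_ne h2 1 (by simpa [pow_succ] using this.symm)

/-- If `t² = -1` then `± t = ⁅a, b⁆` has determinant one on the `i`-eigenspace of `t` (dimension three), but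
`(± i)³ ≠ 1`. -/
theorem ti_of_comm (h2 : (2 : K) ≠ 0) (ht : t ∈ Sp K) {a b : G6 K} (e : ⁅a, b⁆ = t ∨ ⁅a, b⁆ = -t)
    (ca : Commute a t) (cb : Commute b t) : ¬ TII t := fun h => by
  obtain ⟨k, μ, q, f⟩ := h.tor h2 ht
  obtain ⟨c, hc⟩ := exists_sqrt_neg_one (K := K)
  rw [tor_eq] at f
  have m : ∀ x : Kˣ, x * x = -1 → x ^ 3 ≠ 1 := fun x hx e => t3_ne h2 1 (by
    rw [pow_succ, sq, hx, neg_one_mul, neg_eq_iff_eq_neg] at e
    simpa [e] using hx)
  rcases e with e | e
  · exact m c hc (t3n_three h2 hc q ▸ det_blk c (f ▸ ca.conj k) (f ▸ cb.conj k)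
      (by rw [← conjugate_commutatorElement, e, f]) fun _ h => h)
  · exact m (-c) (by rw [neg_mul_neg, hc]) (t3n_three h2 hc q ▸ det_blk c (f ▸ ca.conj k) (f ▸ cb.conj k)
      (by rw [← conjugate_commutatorElement, e, mul_neg, neg_mul, f]; exact (dg_neg _).symm) fun _ h => congrArg Neg.neg h)

/-- Three conjugate commuting involutions with product one and a common fixed vector. -/
theorem klein (h2 : (2 : K) ≠ 0) (s6 : s ∈ Sp K) (t6 : t ∈ Sp K) (hs : s * s = 1) (ht : t * t = 1) (c : Commute s t)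
    (r : rk t = rk s) (r' : rk (s * t) = rk s) {v : I6 → K} (h0 : v ≠ 0) (sv : s.1 *ᵥ v = v) (tv : t.1 *ᵥ v = v) :
    s = 1 := by
  classical
  obtain ⟨k, -, μ, ν, e, e'⟩ := exists_conj_tor₂ s6 t6 (n := 2) (by rw [sq, hs]) (by rw [sq, ht])
    (by exact_mod_cast h2) c
  have q : ∀ {s : G6 K} {μ}, s * s = 1 → k * s * k⁻¹ = tor μ → ∀ i, μ i = 1 ∨ μ i = -1 := fun {s μ} h e i =>
    t3_pm (congrFun (tor_inj (show (tor (μ * μ) : G6 K) = tor (1 * 1) by rw [map_mul, ← e, conj_mul, h]; simp)) i)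
  obtain ⟨i, hi⟩ : ∃ i, (k.1 *ᵥ v) i ≠ 0 := Function.ne_iff.1 fun z => h0 (by
    rw [← Matrix.one_mulVec v, ← k.inv_mul, ← Matrix.mulVec_mulVec, z]; exact Matrix.mulVec_zero _)
  have f : ∀ {s : G6 K} {μ}, s.1 *ᵥ v = v → k * s * k⁻¹ = tor μ → μ (Sum.elim id id i) = 1 := fun {s μ} h e => by
    have : (tor μ).1 *ᵥ (k.1 *ᵥ v) = k.1 *ᵥ v := by
      rw [← e, Matrix.mulVec_mulVec, ← Units.val_mul, inv_mul_cancel_right, Units.val_mul, ← Matrix.mulVec_mulVec, h]
    have := congrFun this i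
    rw [tor_eq, Q4R.dg_val, Matrix.mulVec_diagonal, mul_eq_right₀ hi, Units.val_eq_one] at this
    rcases i with i | i
    · exact this
    · exact inv_eq_one.1 this
  have f1 := f sv e
  have f2 := f tv e'
  generalize Sum.elim id id i = j at f1 f2
  rw [← rk_eq_zero]
  rw [← rk_conj (s * t) k, ← conj_mul, e, e', ← map_mul] at r'
  rw [← rk_conj t k, e'] at r
  rw [← rk_conj s k, e] at r r' ⊢
  have n := t3_ne h2 1
  have q1 := q hs e
  have q2 := q ht e'
  have kb : ∀ a b : Fin 3 → Bool, ∀ j, a j = true → b j = true →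
      (Finset.univ.filter fun i => ¬ b i).card = (Finset.univ.filter fun i => ¬ a i).card →
      (Finset.univ.filter fun i => ¬ a i = b i).card = (Finset.univ.filter fun i => ¬ a i).card →
      (Finset.univ.filter fun i => ¬ a i).card = 0 := by decide
  have := kb (fun i => decide (μ i = 1)) (fun i => decide (ν i = 1)) j (decide_eq_true f1) (decide_eq_true f2)
  simp only [decide_eq_true_eq, decide_eq_decide] at this
  rw [rk_tor, rk_tor, Nat.mul_right_inj two_ne_zero] at r r'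
  rw [rk_tor, this r (r' ▸ congrArg Finset.card (Finset.filter_congr fun i _ => by
    rcases q1 i with a | a <;> rcases q2 i with b | b <;> simp [a, b, n.symm]))]

theorem Cv.le_four (h : Cv Y π) {E : Subgroup X} (e : ∀ g : Y, π g ∈ E → g.1 * g.1 = 1) : Nat.card E ≤ 4 := by
  have := h.fin
  have := h.finX
  let F := (E.comap π).map Y.subtype
  have : Finite F := .of_injective _ (Subgroup.inclusion_injective (Subgroup.map_subtype_le (E.comap π)))
  have k := card_le_eight h.two (E := F) ((Subgroup.map_subtype_le _).trans h.sp) (by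
    rintro _ ⟨g, hg, rfl⟩; exact e g hg)
  choose l hl using h.surj
  have n : ∀ a, π ⟨-(l a).1, h.neg_mem (l a).2⟩ = a := fun a => (h.eq_iff.2 (.inr rfl)).trans (hl a)
  let m : X × Bool → Y := fun p => cond p.2 (l p.1) ⟨-(l p.1).1, h.neg_mem (l p.1).2⟩
  have hm : ∀ p, π (m p) = p.1 := fun ⟨a, b⟩ => by cases b; exacts [n a, hl a]
  have := Nat.card_le_card_of_injective (fun p : E × Bool => (⟨(m (p.1, p.2)).1, m (p.1, p.2),
      show π _ ∈ E by rw [hm]; exact p.1.2, rfl⟩ : F)) fun ⟨a, b⟩ ⟨a', b'⟩ q => by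
    have q : m (a, b) = m (a', b') := Subtype.ext (congrArg (fun z : F => z.1) q)
    obtain rfl : a = a' := Subtype.ext (by simpa [hm] using congrArg π q)
    have q := congrArg Subtype.val q
    cases b <;> cases b'
    exacts [rfl, (t3_ne' h.two _ q.symm).elim, (t3_ne' h.two _ q).elim, rfl]
  rw [Nat.card_prod, Nat.card_eq_fintype_card (α := Bool), Fintype.card_bool] at this
  omega

omit [IsAlgClosed K] in
theorem t3_exists {E : Subgroup X} (l : List X) (h : l.length < Nat.card E) : ∃ a ∈ E, a ∉ l := by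
  classical
  by_contra! c
  have := Nat.card_le_card_of_injective (fun a : E => (⟨a.1, List.mem_toFinset.2 (c _ a.2)⟩ : l.toFinset))
    fun a b e => Subtype.ext (congrArg (fun z : l.toFinset => z.1) e)
  rw [Nat.card_eq_fintype_card (α := l.toFinset), Fintype.card_coe] at this
  exact (this.trans l.toFinset_card_le).not_gt h

omit [IsAlgClosed K] in
theorem t3_comm {E : Subgroup X} (h2 : ∀ a ∈ E, a * a = 1) {a b : X} (ha : a ∈ E) (hb : b ∈ E) : a * b = b * a := by
  have i : ∀ a ∈ E, a⁻¹ = a := fun a ha => inv_eq_of_mul_eq_one_right (h2 a ha)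
  rw [← i _ (mul_mem ha hb), mul_inv_rev, i _ ha, i _ hb]

omit [IsAlgClosed K] in
theorem Cv.pm_comm (h : Cv Y π) {a b : Y} (c : π a * π b = π b * π a) :
    a.1 * b.1 = b.1 * a.1 ∨ a.1 * b.1 = -(b.1 * a.1) :=
  h.eq_iff.1 (show π (a * b) = π (b * a) by rw [map_mul, map_mul, c])

omit [IsAlgClosed K] in
theorem Cv.pm_sq (h : Cv Y π) {a : Y} (c : π a * π a = 1) : a.1 * a.1 = 1 ∨ a.1 * a.1 = -1 :=
  (h.ker (a * a)).1 (by rw [map_mul, c])

/-- Let `q a = (ã² = -1)`, `B a b = (ã, b̃ anticommute)`; `q` is a quadratic form on `E` with polar form `B`, and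
it is constant on `E^#`.  If `q = 1` then `B a b = 1` for all `a ≠ b`, not bilinear; if `q = 0` the preimage is
elementary abelian of order sixteen. -/
theorem Cv.no_pure8 (h : Cv Y π) {E : Subgroup X} (h8 : Nat.card E = 8) (h2 : ∀ a ∈ E, a * a = 1)
    (c : ∀ a ∈ E, ∀ b ∈ E, a ≠ 1 → b ≠ 1 → IsConj a b) : False := by
  by_cases q : ∀ g : Y, π g ∈ E → g.1 * g.1 = 1
  · have := h.le_four q
    omega
  push Not at q
  obtain ⟨g, hg, q⟩ := q
  have g1 : π g ≠ 1 := fun e => q (by rcases (h.ker g).1 e with e | e <;> simp [e])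
  have k : ∀ a : Y, π a ∈ E → π a ≠ 1 → a.1 * a.1 = -1 := fun a ha a1 => by
    obtain ⟨x, e⟩ := isConj_iff.1 (c _ hg _ ha g1 a1)
    obtain ⟨x, rfl⟩ := h.surj x
    have := (h.pm_sq (h2 _ hg)).resolve_left q
    rcases h.eq_iff.1 (show π a = π (x * g * x⁻¹) by simp [e]) with e | e <;>
      simp [e, conj_mul, this]
  have an : ∀ a b : Y, π a ∈ E → π b ∈ E → π a ≠ 1 → π b ≠ 1 → π a ≠ π b → a.1 * b.1 = -(b.1 * a.1) :=
    fun a b ha hb a1 b1 n => (h.pm_comm (t3_comm h2 ha hb)).resolve_left fun e => t3_ne' h.two 1 (by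
      have := k (a * b) (by rw [map_mul]; exact mul_mem ha hb) (by
        rw [map_mul]; exact fun e => n (mul_right_cancel (e.trans (h2 _ hb).symm)))
      rwa [Subgroup.coe_mul, Commute.mul_mul_mul_comm e.symm, k a ha a1, k b hb b1, neg_mul_neg, one_mul] at this)
  obtain ⟨b, hb, nb⟩ := t3_exists (E := E) [1, π g] (by simp [h8])
  obtain ⟨d, hd, nd⟩ := t3_exists (E := E) [1, π g, b, b * π g] (by simp [h8])
  obtain ⟨b, rfl⟩ := h.surj b
  obtain ⟨d, rfl⟩ := h.surj d
  simp only [List.mem_cons, List.not_mem_nil, or_false, not_or] at nb nd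
  have e := an g (b * d) hg (by rw [map_mul]; exact mul_mem hb hd) g1
    (by rw [map_mul]; exact fun e => nd.2.2.1 (mul_left_cancel (e.trans (h2 _ hb).symm)))
    (by rw [map_mul]; exact fun e => nd.2.2.2 (by rw [e, ← mul_assoc, h2 _ hb, one_mul]))
  rw [Subgroup.coe_mul, ← mul_assoc, an g b hg hb g1 nb.1 (Ne.symm nb.2), neg_mul, mul_assoc,
    an g d hg hd g1 nd.1 (Ne.symm nd.2.1), mul_neg, neg_neg, mul_assoc] at e
  exact t3_ne' h.two _ e

omit [IsAlgClosed K] in
theorem t3_mod {R : Subgroup X} [Finite R] {x : X} (hx : x ^ 5 = 1) (n : ∀ a ∈ R, x * a * x⁻¹ ∈ R) :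
    Nat.card R ≡ Nat.card (R ⊓ Subgroup.centralizer {x} : Subgroup X) [MOD 5] := by
  classical
  have := Fintype.ofFinite R
  have : Fact (Nat.Prime 5) := ⟨by norm_num⟩
  let f : Function.End R := fun a => ⟨_, n a a.2⟩
  have e : ∀ (m : ℕ) (a : R), ((f ^ m) a).1 = x ^ m * a * (x ^ m)⁻¹ := fun m => by
    induction m with
    | zero => intro a; simp [Function.End.one_def]
    | succ m ih => intro a; refine (ih (f a)).trans ?_; simp only [f]; group
  have := Equiv.Perm.card_fixedPoints_modEq (f := f) (p := 5) (n := 1) (funext fun a => Subtype.ext (by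
    rw [e]; simp [hx, Function.End.one_def]))
  rw [← Nat.card_eq_fintype_card, ← Nat.card_eq_fintype_card] at this
  rwa [Nat.card_congr (β := (R ⊓ Subgroup.centralizer {x} : Subgroup X)) ⟨fun a : f.fixedPoints => ⟨a.1.1, a.1.2,
    Subgroup.mem_centralizer_singleton_iff.2 (mul_inv_eq_iff_eq_mul.1 (congrArg Subtype.val a.2)).symm⟩,
    fun a => ⟨⟨a.1, a.2.1⟩, Subtype.ext (mul_inv_eq_iff_eq_mul.2
      (Subgroup.mem_centralizer_singleton_iff.1 a.2.2).symm)⟩, fun _ => rfl, fun _ => rfl⟩] at this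

omit [IsAlgClosed K] in
theorem t3_irr {E : Subgroup X} (h16 : Nat.card E = 16) {x : X} (hx : x ^ 5 = 1) (n : ∀ a ∈ E, x * a * x⁻¹ ∈ E)
    (nc : ∃ a ∈ E, ¬ Commute x a) {R : Subgroup X} (l : R ≤ E) (m : ∀ a ∈ R, x * a * x⁻¹ ∈ R) : R = ⊥ ∨ R = E := by
  have : Finite E := Nat.finite_of_card_ne_zero (by omega)
  have k : ∀ R ≤ E, Nat.card R ≡ 1 [MOD 5] → R = ⊥ ∨ R = E := fun R l e => by
    have d := h16 ▸ Subgroup.card_dvd_of_le l
    have := Nat.le_of_dvd (by norm_num) d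
    have : Nat.card R = 1 ∨ Nat.card R = 16 := by
      generalize Nat.card R = r at *
      interval_cases r <;> simp_all [Nat.ModEq]
    exact this.imp Subgroup.card_eq_one.1 fun e => Subgroup.eq_of_le_of_card_ge l (by omega)
  have c := (k _ inf_le_left ((t3_mod hx n).symm.trans (by rw [h16]; decide))).resolve_right fun e => by
    obtain ⟨a, ha, n⟩ := nc
    exact n (Subgroup.mem_centralizer_singleton_iff.1 (e.ge ha).2).symm
  have : Finite R := .of_injective _ (Subgroup.inclusion_injective l)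
  refine k R l ((t3_mod hx m).trans ?_)
  rw [eq_bot_iff.2 ((inf_le_inf_right _ l).trans c.le), Subgroup.card_bot]

/-- `x` has no fixed point on `E^#`, so the radical of `B` is `1` or `E`; nondegenerate contradicts `no_extra`,
`B = 0` makes `q` an invariant homomorphism, so `q = 0`. -/
theorem Cv.no_16_5 (h : Cv Y π) {E : Subgroup X} (h16 : Nat.card E = 16) (h2 : ∀ a ∈ E, a * a = 1) {x : X}
    (hx : x ^ 5 = 1) (n : ∀ a ∈ E, x * a * x⁻¹ ∈ E) (nc : ∃ a ∈ E, ¬ Commute x a) : False := by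
  have irr := @t3_irr _ _ _ h16 _ hx n nc
  obtain ⟨x, rfl⟩ := h.surj x
  let F := E.comap π
  have n1 : ∀ a ∈ F, x * a * x⁻¹ ∈ F := fun a ha => show π _ ∈ E by simpa using n _ ha
  have n2 : ∀ m : ℕ, ∀ a ∈ F, x ^ m * a * (x ^ m)⁻¹ ∈ F := fun m => by
    induction m with
    | zero => simp
    | succ m ih => intro a ha; convert n1 _ (ih a ha) using 1; group
  have n3 : ∀ a ∈ F, x⁻¹ * a * x ∈ F := fun a ha => show π _ ∈ E by
    have : π _ ∈ E := n2 4 a ha
    rw [map_mul, map_mul, map_inv, map_pow, eq_inv_of_mul_eq_one_left ((pow_succ _ 4).symm.trans hx)] at this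
    simpa using this
  have pm : ∀ a ∈ F, ∀ b ∈ F, _ := fun a ha b hb => h.pm_comm (t3_comm h2 ha hb)
  have inv : ∀ R : Subgroup Y, R ≤ F → (∀ a ∈ R, x * a * x⁻¹ ∈ R) → R.map π = ⊥ ∨ R.map π = E := fun R l m =>
    irr (Subgroup.map_le_iff_le_comap.2 l) (by
      rintro _ ⟨a, ha, rfl⟩; exact ⟨_, m a ha, by simp⟩)
  obtain ⟨a, ha, na⟩ := t3_exists (E := E) [1] (by simp [h16])
  obtain ⟨a, rfl⟩ := h.surj a
  simp only [List.mem_cons, List.not_mem_nil, or_false] at na
  rcases inv (F ⊓ Subgroup.centralizer F) inf_le_left (fun a ha => ⟨n1 a ha.1, fun b hb => by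
    have := ha.2 _ (n3 b hb)
    calc b * (x * a * x⁻¹) = x * (x⁻¹ * b * x * a) * x⁻¹ := by group
      _ = _ := by rw [this]; group⟩) with r | r
  · have nd : ∀ a ∈ F, π a ≠ 1 → ∃ b ∈ F, a.1 * b.1 = -(b.1 * a.1) := fun a ha a1 => by
      by_contra! c
      exact a1 (r.le ⟨a, ⟨ha, fun b hb => Subtype.ext ((pm a ha b hb).resolve_right (c b hb)).symm⟩, rfl⟩)
    obtain ⟨b, hb, ab⟩ := nd a ha na
    have fix : ∀ {a b c : Y}, a ∈ F → b ∈ F → c ∈ F → a.1 * b.1 = -(b.1 * a.1) →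
        ∃ u ∈ F, (u = c ∨ u = c * b) ∧ Commute a.1 u.1 := fun {a b c} ha hb hc e =>
      (pm a ha c hc).elim (fun q => ⟨c, hc, .inl rfl, q⟩) fun q => ⟨c * b, mul_mem hc hb, .inr rfl, show _ = _ by
        rw [Subgroup.coe_mul, ← mul_assoc, q, neg_mul, mul_assoc, e, mul_neg, neg_neg, mul_assoc]⟩
    obtain ⟨c, hc, nc⟩ := t3_exists (E := E) [1, π a, π b, π a * π b] (by simp [h16])
    obtain ⟨c, rfl⟩ := h.surj c
    simp only [List.mem_cons, List.not_mem_nil, or_false, not_or] at nc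
    obtain ⟨u, hu, e, au⟩ := fix ha hb hc ab
    obtain ⟨u', hu', e', bu⟩ := fix hb ha hu (by rw [ab, neg_neg])
    have au' : Commute a.1 u'.1 := by
      rcases e' with rfl | rfl
      exacts [au, au.mul_right (.refl _)]
    obtain ⟨d, hd, ud⟩ := nd u' hu' (by
      have ia := inv_eq_of_mul_eq_one_right (h2 _ ha)
      have ib := inv_eq_of_mul_eq_one_right (h2 _ hb)
      rcases e' with rfl | rfl <;> rcases e with rfl | rfl <;>
        simp only [map_mul, ne_eq, mul_assoc, mul_eq_one_iff_eq_inv, mul_inv_rev, ia, ib]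
      exacts [nc.1, nc.2.2.1, nc.2.1, nc.2.2.2])
    obtain ⟨v, -, e, av⟩ := fix ha hb hd ab
    refine no_extra h.two (h.pm_sq (h2 _ ha)) ab ?_ au' av
    rcases e with rfl | rfl
    · exact ud
    · rw [Subgroup.coe_mul, ← mul_assoc, ud, neg_mul, mul_assoc, ← bu.eq, mul_assoc]
  · have cm : ∀ a ∈ F, ∀ b ∈ F, Commute a.1 b.1 := fun a ha b hb => by
      obtain ⟨c, hc, e⟩ := r.ge hb
      have : Commute a.1 c.1 := congrArg Subtype.val (hc.2 a ha)
      rcases h.eq_iff.1 e.symm with e | e <;> rw [e]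
      exacts [this, this.neg_right]
    let R : Subgroup Y :=
      { carrier := {a | a ∈ F ∧ a.1 * a.1 = 1}
        one_mem' := ⟨one_mem _, mul_one _⟩
        mul_mem' := fun {a b} ha hb => ⟨mul_mem ha.1 hb.1, by
          rw [Subgroup.coe_mul, (cm _ hb.1 _ ha.1).mul_mul_mul_comm, ha.2, hb.2, mul_one]⟩
        inv_mem' := fun {a} ha => ⟨inv_mem ha.1, by rw [Subgroup.coe_inv, ← mul_inv_rev, ha.2, inv_one]⟩ }
    rcases inv R (fun _ h => h.1) (fun a ha => ⟨n1 a ha.1, by simp [conj_mul, ha.2]⟩) with r | r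
    · obtain ⟨b, hb, nb⟩ := t3_exists (E := E) [1, π a] (by simp [h16])
      obtain ⟨b, rfl⟩ := h.surj b
      simp only [List.mem_cons, List.not_mem_nil, or_false, not_or] at nb
      have k : ∀ a ∈ F, π a ≠ 1 → a.1 * a.1 = -1 := fun a ha a1 =>
        (h.pm_sq (h2 _ ha)).resolve_left fun e => a1 (r.le ⟨a, ⟨ha, e⟩, rfl⟩)
      have : π (a * b) = 1 := r.le ⟨a * b, ⟨mul_mem ha hb, by
        rw [Subgroup.coe_mul, (cm _ hb _ ha).mul_mul_mul_comm, k a ha na, k b hb nb.1]; simp⟩, rfl⟩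
      exact nb.2 (mul_left_cancel ((map_mul π a b ▸ this).trans (h2 _ ha).symm))
    · have := h.le_four (E := E) fun g hg => by
        obtain ⟨c, hc, e⟩ := r.ge hg
        rcases h.eq_iff.1 e.symm with e | e <;> simp [e, hc.2]
      omega

theorem eq_of_ti (h2 : (2 : K) ≠ 0) (hs : TI (-s)) (ht : TI (-t)) (e : s = t ∨ s = -t) : s = t :=
  e.resolve_right fun e => by
    have a := hs.rk_neg h2
    rw [neg_neg, e, ht.2] at a
    omega

omit [IsAlgClosed K] in
theorem phi_mem {P : Matrix I6 I6 K} (hP : P * P = P) (ad : ∀ u v, om K (P *ᵥ u) v = om K u (P *ᵥ v)) {g : cenP P}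
    (hg : g.1 ∈ Sp K) : phi hP g ∈ Sp K := mem_Sp.2 fun u v => by
  have H := alt_om (K := K)
  have c : ∀ u, P *ᵥ g.1.1 *ᵥ P *ᵥ u = g.1.1 *ᵥ P *ᵥ u := fun u => by
    rw [Matrix.mulVec_mulVec, Matrix.mulVec_mulVec, ← Commute.eq g.2, mul_assoc, hP, Matrix.mulVec_mulVec]
  have p : ∀ u, P *ᵥ P *ᵥ u = P *ᵥ u := fun u => by rw [Matrix.mulVec_mulVec, hP]
  have e1 : om K (g.1.1 *ᵥ P *ᵥ u) (P *ᵥ v) = om K (g.1.1 *ᵥ P *ᵥ u) v := by rw [← ad, c]
  have e2 : om K (P *ᵥ u) (g.1.1 *ᵥ P *ᵥ v) = om K u (g.1.1 *ᵥ P *ᵥ v) := by rw [ad, c]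
  have e3 : om K (P *ᵥ u) (P *ᵥ v) = om K u (P *ᵥ v) := by rw [ad, p]
  simp only [phi_val, Matrix.add_mulVec, Matrix.sub_mulVec, Matrix.one_mulVec, ← Matrix.mulVec_mulVec, H.add_left,
    H.add_right, H.sub_left, H.sub_right, mem_Sp.1 hg, e1, e2, e3, ad u v]
  ring

/-- `Q₈` with central involution `a²`, normalised by `y`: trivial on the fixed space of `a²`. -/
theorem q8_fix (h2 : (2 : K) ≠ 0) {a b y : G6 K} (a6 : a ∈ Sp K) (y6 : y ∈ Sp K) (ya : y * a * y⁻¹ = b)
    (yb : y * b * y⁻¹ = a * b) (e : b * b = a * a) (e' : ⁅a, b⁆ = a * a) (h4 : a * a * (a * a) = 1) (h1 : a * a ≠ 1) :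
    a.1 * (1 + (a * a).1) = 1 + (a * a).1 := by
  set z := a * a with hz
  let P : Matrix I6 I6 K := (2⁻¹ : K) • (1 + z.1)
  have zP : z.1 * P = P := by rw [Matrix.mul_smul, mul_add, mul_one, ← Units.val_mul, h4, add_comm, Units.val_one]
  have hP : P * P = P := by
    rw [Matrix.smul_mul, add_mul, one_mul, zP, ← two_smul K, smul_smul, inv_mul_cancel₀ h2, one_smul]
  have m : ∀ g : G6 K, Commute g z → g ∈ cenP P := fun g c =>
    ((Commute.one_right _).add_right (c.map (Units.coeHom _))).smul_right _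
  have ma := m a ((Commute.refl a).mul_right (.refl a))
  have mb := m b (e ▸ (Commute.refl b).mul_right (.refl b))
  have my := m y (mul_inv_eq_iff_eq_mul.1 (by rw [hz, ← conj_mul, ya, e]))
  have b6 : b ∈ Sp K := ya ▸ mul_mem (mul_mem y6 a6) (inv_mem y6)
  have ad : ∀ u v, om K (P *ᵥ u) v = om K u (P *ᵥ v) := fun u v => by
    have := mem_Sp.1 (mul_mem a6 a6) u (z.1 *ᵥ v)
    rw [Matrix.mulVec_mulVec, ← Units.val_mul, h4, Units.val_one, Matrix.one_mulVec] at this
    simp only [P, Matrix.smul_mulVec, Matrix.add_mulVec, Matrix.one_mulVec, alt_om.smul_left, alt_om.smul_right',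
      alt_om.add_left, alt_om.add_right, this, hz]
  have pz : phi hP (⟨a, ma⟩ * ⟨a, ma⟩) = 1 := Units.ext (by rw [phi_val]; exact (congrArg (· + _) zP).trans (by simp))
  obtain ⟨w, hw⟩ : ∃ w, z.1 *ᵥ w ≠ w := by
    by_contra! c
    exact h1 (Units.ext (Matrix.ext_of_mulVec_single fun i => by rw [c, Units.val_one, Matrix.one_mulVec]))
  have fx : ∀ g, (phi hP g).1 *ᵥ (z.1 *ᵥ w - w) = z.1 *ᵥ w - w := fun g => by
    have : P *ᵥ (z.1 *ᵥ w - w) = 0 := by
      rw [Matrix.mulVec_sub, Matrix.mulVec_mulVec, ← (m z (.refl _)).eq, zP, sub_self]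
    rw [phi_val, Matrix.add_mulVec, ← Matrix.mulVec_mulVec, this, Matrix.sub_mulVec, this]
    simp
  have cj : ∀ g g' : cenP P, y * g * y⁻¹ = g' → rk (phi hP g') = rk (phi hP g) := fun g g' e => by
    rw [show g' = ⟨y, my⟩ * g * ⟨y, my⟩⁻¹ from Subtype.ext e.symm, map_mul, map_mul, map_inv, rk_conj]
  have k := klein h2 (phi_mem hP ad (g := ⟨a, ma⟩) a6) (phi_mem hP ad (g := ⟨b, mb⟩) b6) (by rw [← map_mul, pz])
    (by rw [← map_mul, ← pz]; exact congrArg _ (Subtype.ext e))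
    (commutatorElement_eq_one_iff_commute.1 (by rw [← map_commutatorElement, ← pz]; exact congrArg _ (Subtype.ext e')))
    (cj ⟨a, ma⟩ ⟨b, mb⟩ ya) (by rw [← map_mul, cj ⟨b, mb⟩ (⟨a, ma⟩ * ⟨b, mb⟩) yb, cj ⟨a, ma⟩ ⟨b, mb⟩ ya]) (sub_ne_zero.2 hw) (fx _) (fx _)
  have k := congrArg Units.val k
  rw [phi_val, Units.val_one, ← eq_sub_iff_add_eq, sub_sub_cancel, Matrix.mul_smul] at k
  exact smul_right_injective _ (inv_ne_zero h2) k

/-- `SL₂(3) = Q₈ : 3` in `X`, with `z = ⁅a, b⁆`.  With `b' = y a y⁻¹ = ± b`, `y b' y⁻¹ = ± a b'` and `z = ± a²` one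
gets `z² = 1` (`ti_of_comm`) and `a² = (a b')² = z`; `q8_fix` shows that `± a` is trivial on the fixed space of `z`.
If `TI z` then `± a` would be a unit. -/
theorem Cv.q8 (h : Cv Y π) {a b y : Y} (y3 : π y ^ 3 = 1) (ya : π y * π a * (π y)⁻¹ = π b)
    (yb : π y * π b * (π y)⁻¹ = π a * π b) (e : π a * π a = π b * π b) (e' : ⁅π a, π b⁆ = π a * π a)
    (h4 : π a ^ 4 = 1) (h1 : π a * π a ≠ 1) : TI (-⁅a.1, b.1⁆) ∧ a.1 * a.1 = ⁅a.1, b.1⁆ ∧
      ∃ ε : K, ∀ v, ⁅a.1, b.1⁆.1 *ᵥ v = v → a.1.1 *ᵥ v = ε • v := by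
  have _ := y3
  have h2 := h.two
  set z := ⁅a.1, b.1⁆ with hz
  have πz : π ⁅a, b⁆ = π (a * a) := by rw [map_commutatorElement, e', map_mul]
  have za : z = a * a ∨ z = -(a * a) := h.eq_iff.1 πz
  have zb : z = b * b ∨ z = -(b * b) := h.eq_iff.1 (show π ⁅a, b⁆ = π (b * b) by rw [πz, map_mul, map_mul, e])
  have c : ∀ a : G6 K, z = a * a ∨ z = -(a * a) → Commute a z := fun a e => by
    rcases e with e | e <;> rw [e]
    exacts [(Commute.refl a).mul_right (.refl a), ((Commute.refl a).mul_right (.refl a)).neg_right]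
  have z6 : z ∈ Sp K := h.sp ⁅a, b⁆.2
  have zz : z * z = 1 := (h.pm_sq (a := ⁅a, b⁆) (by rw [πz, map_mul, ← sq, ← sq, ← pow_mul, h4])).resolve_right
    (ti_of_comm h2 z6 (.inl rfl) (c _ za) (c _ zb))
  have z1 : ¬ (z = 1 ∨ z = -1) := fun q => h1 (by rw [← map_mul, ← πz]; exact (h.ker _).2 q)
  have ti : TI z ∨ TI (-z) := by
    rcases ti_or h2 z6 zz with q | q | q
    exacts [(z1 (.inl q)).elim, (z1 (.inr q)).elim, q]
  obtain ⟨b', hb'⟩ : ∃ b', y.1 * a.1 * y.1⁻¹ = b' := ⟨_, rfl⟩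
  have bb : b' = b ∨ b' = -b := hb' ▸ h.eq_iff.1 (show π (y * a * y⁻¹) = π b by simpa using ya)
  have yb' : y.1 * b' * y.1⁻¹ = a * b' ∨ y.1 * b' * y.1⁻¹ = -(a * b') := by
    have := h.eq_iff.1 (show π (y * b * y⁻¹) = π (a * b) by simpa using yb)
    rcases bb with e | e <;> rw [e]
    · exact this
    · exact this.imp (fun e => by simpa using e) fun e => by simpa [neg_eq_iff_eq_neg] using e
  have zb' : ⁅a.1, b'⁆ = z := by rcases bb with e | e <;> simp [e, hz, commutatorElement_def]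
  have yz : y.1 * z * y.1⁻¹ = z := by
    have : y.1 * z * y.1⁻¹ = z ∨ y.1 * z * y.1⁻¹ = -z := h.eq_iff.1 (show π (y * ⁅a, b⁆ * y⁻¹) = π ⁅a, b⁆ by
      rw [map_mul, map_mul, πz, map_mul, map_inv, ← conj_mul, ya, e])
    refine this.resolve_right fun q => ?_
    have := rk_add_neg h2 zz
    have := q ▸ rk_conj z y
    rcases ti with t | t <;> have := t.2 <;> omega
  have ys : y.1 * (a * a) * y.1⁻¹ = a * a := by
    rcases za with e | e
    · rw [← e, yz]
    · rw [← neg_inj, ← neg_mul, ← mul_neg, ← e, yz]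
  have sb : b' * b' = a * a := by rw [← hb', conj_mul, ys]
  have a4 : a.1 * a * (a * a) = 1 := by rcases za with e | e <;> simpa [e] using zz
  have sa : a.1 * a = z := by
    have : a * b' * (a * b') = a * a := by
      rw [← ys, ← sb, ← conj_mul]; rcases yb' with e | e <;> simp [e]
    have q : b' * a = z⁻¹ * (a * b') := by rw [← zb', commutatorElement_def]; group
    rw [← this, mul_assoc, ← mul_assoc b', q, inv_eq_of_mul_eq_one_right zz, mul_assoc, mul_assoc, sb, ← mul_assoc,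
      (c _ za).eq, mul_assoc, ← mul_assoc a.1, a4, mul_one]
  have z1' : a.1 * a ≠ 1 := fun q => z1 (.inl (sa ▸ q))
  obtain ⟨a₁, m, s, k⟩ : ∃ a₁ ∈ Y, (a₁ = a ∨ a₁ = -a) ∧ a₁.1 * (1 + z.1) = 1 + z.1 := by
    rcases yb' with q | q
    · exact ⟨a, a.2, .inl rfl, sa ▸ q8_fix h2 (h.sp a.2) (h.sp y.2) hb' q sb (zb'.trans sa.symm) a4 z1'⟩
    · have := q8_fix h2 (a := -a) (b := -b') (h.sp (h.neg_mem a.2)) (h.sp y.2) (by simp [hb']) (by simp [q])
        (by simp [sb]) (by simpa [commutatorElement_def] using zb'.trans sa.symm) (by simp [a4]) (by simpa)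
      exact ⟨-a, h.neg_mem a.2, .inr rfl, by rwa [neg_mul_neg, sa] at this⟩
  have s1 : a₁ * a₁ = z := by rcases s with e | e <;> simp [e, sa]
  refine ⟨ti.resolve_left fun t => h.nu a₁ m ⟨le_antisymm ?_ ?_, by rw [← zz, ← s1, ← sq, ← sq, ← pow_mul],
    by rw [sq, s1]; exact fun q => z1 (.inl q)⟩, sa, ?_⟩
  · have : a₁.1 - 1 = (-2⁻¹ : K) • (a₁.1 - 1) * (z.1 - 1) := by
      have e : (a₁.1 - 1) * z.1 = -(a₁.1 - 1) := by
        rw [eq_neg_iff_add_eq_zero, add_comm, ← mul_one_add, sub_mul, k, one_mul, sub_self]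
      rw [Matrix.smul_mul, mul_sub, e, mul_one, ← neg_add', ← two_smul K, smul_neg, smul_smul, neg_mul,
        inv_mul_cancel₀ h2, neg_smul, one_smul, neg_neg]
    rw [rk, this, ← t.2]
    exact Matrix.rank_mul_le_right _ _
  · rw [← t.2, ← s1, rk, rk, Units.val_mul, show a₁.1 * a₁.1 - 1 = (a₁.1 + 1) * (a₁.1 - 1) by noncomm_ring]
    exact Matrix.rank_mul_le_right _ _
  · have k : ∀ v, z.1 *ᵥ v = v → a₁.1 *ᵥ v = v := fun v hv => by
      have := congrArg (· *ᵥ v) k
      simp only [← Matrix.mulVec_mulVec, Matrix.add_mulVec, Matrix.one_mulVec, hv, ← two_smul K v,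
        Matrix.mulVec_smul] at this
      exact smul_right_injective _ h2 this
    rcases s with rfl | rfl
    · exact ⟨1, fun v hv => by rw [k v hv, one_smul]⟩
    · exact ⟨-1, fun v hv => by simpa [Matrix.neg_mulVec, neg_eq_iff_eq_neg] using k v hv⟩

omit [IsAlgClosed K] in
theorem t3_closure {G : Type*} [Group G] {S : Set G} (h : ∀ a ∈ S, a * a = 1) (c : ∀ a ∈ S, ∀ b ∈ S, Commute a b) :
    ∀ g ∈ Subgroup.closure S, g * g = 1 := fun g hg => by
  have c1 : Subgroup.closure S ≤ Subgroup.centralizer S := (Subgroup.closure_le _).2 fun a ha b hb => c b hb a ha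
  have c2 : ∀ a ∈ Subgroup.closure S, Subgroup.closure S ≤ Subgroup.centralizer {a} := fun a ha =>
    (Subgroup.closure_le _).2 fun b hb => Subgroup.mem_centralizer_singleton_iff.2 (c1 ha b hb)
  induction hg using Subgroup.closure_induction with
  | mem a ha => exact h a ha
  | one => simp
  | mul a b ha hb e e' =>
    rw [Commute.mul_mul_mul_comm (Subgroup.mem_centralizer_singleton_iff.1 (c2 a ha hb)), e, e', mul_one]
  | inv a _ e => rw [← mul_inv_rev, e, inv_one]

/-- Two commuting `SL₂(3)` with the same central involution: the lifts commute (the sign is a bicharacter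
invariant under `y`), `z = ⁅a, b⁆ = ⁅u, v⁆` by `q8` (both `-z` have type I), and `⟨-1, z, a u, b v⟩` is elementary
abelian of order sixteen. -/
theorem Cv.no_q8q8 (h : Cv Y π) {a b y u v w : X} (y3 : y ^ 3 = 1) (ya : y * a * y⁻¹ = b)
    (yb : y * b * y⁻¹ = a * b) (e : a * a = b * b) (e' : ⁅a, b⁆ = a * a) (h4 : a ^ 4 = 1) (h1 : a * a ≠ 1)
    (w3 : w ^ 3 = 1) (wu : w * u * w⁻¹ = v) (wv : w * v * w⁻¹ = u * v) (f : u * u = v * v)
    (f' : ⁅u, v⁆ = u * u) (z : u * u = a * a) (c1 : Commute a u) (c2 : Commute a v) (c3 : Commute y u)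
    (c4 : Commute y v) (n : ∀ x ∈ ({a * u, b * v, a * u * (b * v)} : Set X), x ≠ 1 ∧ x ≠ a * a) : False := by
  classical
  have h2 := h.two
  obtain ⟨a, rfl⟩ := h.surj a
  obtain ⟨y, rfl⟩ := h.surj y
  obtain ⟨u, rfl⟩ := h.surj u
  obtain ⟨w, rfl⟩ := h.surj w
  obtain ⟨b, yb', rfl⟩ : ∃ b' : Y, y.1 * a * y.1⁻¹ = b' ∧ π b' = b := ⟨y * a * y⁻¹, rfl, by simpa using ya⟩
  obtain ⟨v, wu', rfl⟩ : ∃ v' : Y, w.1 * u * w.1⁻¹ = v' ∧ π v' = v := ⟨w * u * w⁻¹, rfl, by simpa using wu⟩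
  have u4 : π u ^ 4 = 1 := by rw [show 4 = 2 * 2 from rfl, pow_mul, sq (π u), z, ← sq, ← pow_mul, h4]
  obtain ⟨t1, s1, -⟩ := h.q8 y3 ya yb e e' h4 h1
  obtain ⟨t2, s2, -⟩ := h.q8 w3 wu wv f f' u4 (z ▸ h1)
  rw [← s1] at t1
  rw [← s2] at t2
  have sq' : ∀ {a b y : Y}, TI (-(a.1 * a.1)) → y.1 * a.1 * y.1⁻¹ = b.1 → π a * π a = π b * π b →
      b.1 * b.1 = a.1 * a.1 :=
    fun {a b y} t e q => eq_of_ti h2 (by rw [← e, conj_mul, ← neg_mul, ← mul_neg]; exact t.conj y) t
      (h.eq_iff.1 (show π (b * b) = π (a * a) by rw [map_mul, map_mul, q]))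
  have sb := sq' t1 yb' e
  have sv := sq' t2 wu' f
  have su : u.1 * u = a * a := eq_of_ti h2 t2 t1 (h.eq_iff.1 (show π (u * u) = π (a * a) by rw [map_mul, map_mul, z]))
  have zz : a.1 * a * (a * a) = 1 := by simpa using t1.1
  have cm : ∀ u : Y, Commute (π a) (π u) → Commute (π y) (π u) → Commute a.1 u ∧ Commute b.1 u := fun u p q => by
    have k : ∀ {a b : G6 K} (s : G6 K), s = 1 ∨ s = -1 → y.1 * a * y.1⁻¹ = b → a * u * a⁻¹ = s * u →
        b * u * b⁻¹ = s * u := fun {a b} s hs e q' => by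
      rcases h.pm_comm q.eq with r | r
      · have r' : y.1⁻¹ * u * y = u := by rw [mul_assoc, ← r, inv_mul_cancel_left]
        calc b * u * b⁻¹ = y * (a * (y.1⁻¹ * u * y) * a⁻¹) * y.1⁻¹ := by rw [← e]; group
          _ = _ := by rw [r', q']; rcases hs with rfl | rfl <;> simp [r]
      · have r' : y.1⁻¹ * u * y = -u := by rw [mul_assoc, ← neg_neg (u.1 * y), ← r, mul_neg, inv_mul_cancel_left]
        calc b * u * b⁻¹ = y * (a * (y.1⁻¹ * u * y) * a⁻¹) * y.1⁻¹ := by rw [← e]; group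
          _ = _ := by rw [r', mul_neg, neg_mul, q']; rcases hs with rfl | rfl <;> simp [r]
    rcases h.pm_comm p.eq with r | r
    · exact ⟨r, mul_inv_eq_iff_eq_mul.1 (by simpa using k 1 (.inl rfl) yb' (by simp [r]))⟩
    · have k1 : a.1 * u * a.1⁻¹ = -1 * u := by simp [r]
      have k2 := k _ (.inr rfl) yb' k1
      have k3 := k _ (.inr rfl) rfl k2
      have k4 : a.1 * b * u * (a.1 * b)⁻¹ = u := by
        rw [show a.1 * b * u * (a.1 * b)⁻¹ = a * (b * u * b.1⁻¹) * a.1⁻¹ by group, k2, neg_one_mul, mul_neg, neg_mul, k1]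
        simp
      refine (t3_ne' h2 u.1 ?_).elim
      rcases h.eq_iff.1 (show π (y * b * y⁻¹) = π (a * b) by simpa using yb) with q | q <;>
        rw [show y.1 * b * y.1⁻¹ = _ from q] at k3
      · rw [← neg_one_mul, ← k3]; exact k4.symm
      · rw [← neg_one_mul, ← k3, inv_neg, neg_mul, neg_mul_neg]; exact k4.symm
  obtain ⟨au, bu⟩ := cm u c1 c3
  obtain ⟨av, bv⟩ := cm v c2 c4
  have aa : Commute a.1 (a * a) := (Commute.refl _).mul_right (.refl _)
  have ba : Commute b.1 (a * a) := sb ▸ (Commute.refl _).mul_right (.refl _)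
  have ua : Commute u.1 (a * a) := au.symm.mul_right au.symm
  have va : Commute v.1 (a * a) := av.symm.mul_right av.symm
  have ab : a.1 * b = a * a * (b * a) := by rw [s1, commutatorElement_def]; group
  have uv : u.1 * v = a * a * (v * u) := by rw [← su, s2, commutatorElement_def]; group
  have cc : Commute (a.1 * u) (b * v) := show _ = _ by
    rw [bu.symm.mul_mul_mul_comm, av.symm.mul_mul_mul_comm, ab, uv, (ba.mul_left aa).mul_mul_mul_comm, zz, one_mul]
  let S : Set Y := {a * a, a * u, b * v}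
  have := h.finX
  have k := h.le_four (E := (Subgroup.closure S).map π) (by
    rintro g ⟨g', hg, q⟩
    have := congrArg Subtype.val (t3_closure (S := S) (by
      rintro _ (rfl | rfl | rfl) <;> refine Subtype.ext ?_
      · exact zz
      · exact au.symm.mul_mul_mul_comm _ _ |>.trans (su ▸ zz)
      · exact bv.symm.mul_mul_mul_comm _ _ |>.trans (by rw [sb, sv, su, zz]; rfl)) (by
      have p1 := aa.mul_left ua
      have p2 := ba.mul_left va
      rintro _ (rfl | rfl | rfl) _ (rfl | rfl | rfl) <;> refine Subtype.ext ?_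
      exacts [rfl, p1.symm, p2.symm, p1, rfl, cc, p2, cc.symm, rfl]) g' hg)
    rcases h.eq_iff.1 q.symm with q | q <;> simpa [q] using this)
  have m : ∀ s ∈ S, π s ∈ (Subgroup.closure S).map π := fun s hs => ⟨s, Subgroup.subset_closure hs, rfl⟩
  have m1 := m _ (.inl rfl)
  have m2 := m _ (.inr (.inl rfl))
  have m3 := m _ (.inr (.inr rfl))
  rw [map_mul] at m1 m2 m3
  have n1 := n _ (.inl rfl)
  have n2 := n _ (.inr (.inl rfl))
  have n3 := n _ (.inr (.inr rfl))
  have t2 : π b * π v * (π b * π v) = 1 := by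
    rw [← map_mul, ← map_mul, h.ker]
    exact .inl (bv.symm.mul_mul_mul_comm _ _ |>.trans (by rw [sb, sv, su, zz]))
  clear m
  generalize π a * π u = s, π b * π v = t, π a * π a = r, (Subgroup.closure S).map π = E at *
  have st : s ≠ t := fun q => n3.1 (q ▸ q ▸ t2)
  have := Set.ncard_le_ncard (s := (({1, r, s, t, s * t} : Finset X) : Set X)) (t := (E : Set X)) (by
    simp [Set.insert_subset_iff, m1, m2, m3, mul_mem])
  rw [Set.ncard_coe_finset, Finset.card_insert_of_notMem (by simp [h1.symm, n1.1.symm, n2.1.symm, n3.1.symm]),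
    Finset.card_insert_of_notMem (by simp [n1.2.symm, n2.2.symm, n3.2.symm]),
    Finset.card_insert_of_notMem (by simp [st, n2.1]), Finset.card_pair (by simp [n1.1])] at this
  exact absurd (this.trans k) (by norm_num)

/-- `a, b` fix a subspace `C` of dimension `≥ 2`; `t = a b`, `a t a⁻¹`, `a² t a⁻²` are commuting involutions with
product one (signs: all fix `C`), permuted by `a`: eigenspaces of the same even dimension `d`, `3 d ≤ 4`. -/
theorem Cv.no_a4 (h : Cv Y π) {a b : Y} (ha : a.1 ^ 3 = 1) (hb : b.1 ^ 3 = 1) (ra : rk a.1 = 2)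
    (rb : rk b.1 = 2) (e : (π a * π b) ^ 2 = 1) (h1 : π a * π b ≠ 1) : False := by
  obtain ⟨v, v0, hv⟩ := exists_fix [a.1, b.1] (by simp [ra, rb])
  have av := hv a (by simp)
  have bv := hv b (by simp)
  have m : ∀ {a b : G6 K}, a.1 *ᵥ v = v → b.1 *ᵥ v = v → (a * b).1 *ᵥ v = v := fun p q => by
    rw [Units.val_mul, ← Matrix.mulVec_mulVec, q, p]
  have tt : a.1 * b * (a * b) = 1 := (h.pm_sq (a := a * b) (by rw [map_mul, ← sq, e])).resolve_right fun q => by
    have := m (m av bv) (m av bv)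
    rw [show a.1 * b * (a * b) = -1 from q, Units.val_neg, Units.val_one, Matrix.neg_mulVec, Matrix.one_mulVec,
      neg_eq_iff_add_eq_zero, ← two_smul K] at this
    exact v0 ((smul_eq_zero.1 this).resolve_left h.two)
  have e2 : b.1 * a = a.1⁻¹ * (a * b) * a.1⁻¹⁻¹ := by group
  have ia : a.1⁻¹ = a * a := inv_eq_of_mul_eq_one_right (by rw [← ha, pow_three])
  have ib : b.1⁻¹ = b * b := inv_eq_of_mul_eq_one_right (by rw [← hb, pow_three])
  have e1 : a.1 * b * (b * a) = a * (a * b) * a.1⁻¹ := by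
    have : b.1 = (a.1 * b * a)⁻¹ := eq_inv_of_mul_eq_one_right (by rw [← tt]; group)
    calc a.1 * b * (b * a) = a * (b * b) * a := by group
      _ = a * (a * (a.1⁻¹ * b.1⁻¹ * a.1⁻¹) * (a * a)) := by rw [← ib]; group
      _ = _ := by rw [← ia, ← mul_inv_rev, ← mul_inv_rev, ← mul_assoc a.1 b.1, ← this]; group
  have t2 : b.1 * a * (b * a) = 1 := by rw [e2, conj_mul, tt]; group
  have t1 : a.1 * b * (b * a) * (a * b * (b * a)) = 1 := by rw [e1, conj_mul, tt]; group
  refine h1 (by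
    rw [← map_mul, h.ker]
    exact .inl (klein (s := a.1 * b.1) (t := b.1 * a.1) h.two (h.sp (a * b).2) (h.sp (b * a).2) tt t2 (show _ = _ by
      rw [← inv_eq_of_mul_eq_one_right t1, mul_inv_rev, inv_eq_of_mul_eq_one_right tt, inv_eq_of_mul_eq_one_right t2])
      (by rw [e2, rk_conj]) (by rw [e1, rk_conj]) v0 (m av bv) (m bv av)))

/-- `Cw.a6` and `no_a4` (both classes contain a pair generating `A₄`). -/
theorem Cv.three_of_A6 (h : Cv Y π) {f : alternatingGroup (Fin 6) →* X} (hf : Function.Injective f) :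
    (3 : K) = 0 := by
  by_contra h3
  obtain ⟨Y', -, π', h', -⟩ := h.sub hf
  have k : ∀ A B : alternatingGroup (Fin 6), A ^ 3 = 1 → B ^ 3 = 1 → (A * B) ^ 2 = 1 → A * B ≠ 1 →
      (∀ g : Y', g.1 ^ 3 = 1 → π' g = A ∨ π' g = B → rk g.1 = 2) → False := fun A B p q r s t => by
    obtain ⟨a, rfl, ha⟩ := h'.lift (by decide : Odd 3) p
    obtain ⟨b, rfl, hb⟩ := h'.lift (by decide : Odd 3) q
    exact h'.no_a4 ha hb (t a ha (.inl rfl)) (t b hb (.inr rfl)) r s
  rcases h'.cw.a6 h3 with q | q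
  · refine k ⟨c[3, 4, 5], Equiv.Perm.mem_alternatingGroup.2 (by decide)⟩ ⟨c[2, 3, 4], Equiv.Perm.mem_alternatingGroup.2 (by decide)⟩ (by decide) (by decide) (by decide)
      (by decide) fun g hg e => q g hg ?_
    rcases e with e | e <;> rw [e, ← card_support_eq_three_iff] <;> decide
  · refine k ⟨c[0, 1, 2] * c[3, 4, 5], Equiv.Perm.mem_alternatingGroup.2 (by decide)⟩ ⟨c[0, 2, 4] * c[1, 3, 5], Equiv.Perm.mem_alternatingGroup.2 (by decide)⟩ (by decide)
      (by decide) (by decide) (by decide) fun g hg e => q g hg ?_ ?_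
    · rcases e with e | e <;> rw [e] <;> decide
    · rcases e with e | e <;> rw [e, ← card_support_eq_three_iff] <;> decide

/-- Over the closure `g` has eigenvalues `μ_j^{± 1}` with `μ_j⁴ = -1`; `x ↦ x ^ |F|` changes the sign of
`μ_j + μ_j⁻¹`, but fixes `det (g - c) = ∏ (- c (μ_j + μ_j⁻¹))` (`c² = -1`), as `tor μ` and `tor (μ ^ |F|)` are conjugate. -/
theorem no_eight {F : Type*} [Field F] [Fintype F] (hq : Fintype.card F % 8 = 3 ∨ Fintype.card F % 8 = 5)
    {g : G6 F} (hg : g ∈ Sp F) (h : g ^ 4 = -1) : False := by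
  let L := AlgebraicClosure F
  let f := algebraMap F L
  let φ : L →+* L := (FiniteField.frobeniusAlgHom F L).toRingHom
  have hφ : ∀ x, φ x = x ^ Fintype.card F := fun _ => rfl
  have h2 : (2 : L) ≠ 0 := by
    rw [← map_ofNat f 2, map_ne_zero]
    exact Ring.two_ne_zero fun e => by have := FiniteField.even_card_of_char_two e; omega
  have h4 : mp f g ^ 4 = -1 := by rw [← map_pow, h, mp_neg, map_one]
  obtain ⟨k, -, μ, -, e⟩ := exists_conj_tor (mp_mem_Sp f hg) (n := 4 * 2) (by rw [pow_mul, h4, neg_one_sq]) (by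
    rw [show ((4 * 2 : ℕ) : L) = 2 ^ 3 by norm_num]; exact pow_ne_zero _ h2)
  have q : ∀ i, (μ i : L) ^ 4 = -1 := fun i => by
    simpa using congrArg Units.val (congrFun (tor_inj (show tor (μ ^ 4) = tor fun _ => -1 by
      rw [map_pow, ← e, conj_pow, h4, tor_neg_one]; simp)) i)
  have e1 : mp φ (mp f g) = mp f g := Units.ext (Matrix.ext fun i j => (FiniteField.frobeniusAlgHom F L).commutes _)
  have e2 : mp φ (tor μ) = tor (μ ^ Fintype.card F) := Units.ext (by
    rw [mp_val, tor_eq, tor_eq, Q4R.dg_val, Q4R.dg_val, Matrix.diagonal_map (map_zero φ)]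
    congr 1
    ext i
    rcases i with i | i <;> simp [hφ])
  obtain ⟨c, hc⟩ := exists_sqrt_neg_one (K := L)
  have hc : (c : L) * c = -1 := by simpa using congrArg Units.val hc
  have d1 : ∀ g k : G6 L, ((k * g * k⁻¹).1 - (c : L) • 1).det = (g.1 - (c : L) • 1).det := fun g k => by
    rw [← Matrix.det_units_conj k (g.1 - _), mul_sub, sub_mul, Matrix.mul_smul, mul_one, Matrix.smul_mul, Units.mul_inv, Units.val_mul,
      Units.val_mul]
  have d2 : ∀ μ : Fin 3 → Lˣ, ((tor μ).1 - (c : L) • 1).det = ∏ i, -(c * ((μ i : L) + (μ i : L)⁻¹)) := fun μ => by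
    rw [tor_eq, Q4R.dg_val, Matrix.smul_one_eq_diagonal, Matrix.diagonal_sub, Matrix.det_diagonal,
      Fintype.prod_sum_type, ← Finset.prod_mul_distrib]
    refine Finset.prod_congr rfl fun i _ => ?_
    simp only [Sum.elim_inl, Sum.elim_inr, Units.val_inv_eq_inv_val]
    linear_combination hc + mul_inv_cancel₀ (μ i).ne_zero
  have i3 : ∀ i, (μ i : L)⁻¹ = -(μ i : L) ^ 3 := fun i =>
    inv_eq_of_mul_eq_one_right (by linear_combination -q i)
  have s : ∀ i, ((μ ^ Fintype.card F) i : L) + ((μ ^ Fintype.card F) i : L)⁻¹ = -((μ i : L) + (μ i : L)⁻¹) := fun i => by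
    have q8 : (μ i : L) ^ 8 = 1 := by linear_combination ((μ i : L) ^ 4 - 1) * q i
    rw [Pi.pow_apply, Units.val_pow_eq_pow_val, pow_eq_pow_mod _ q8, ← inv_pow, i3]
    rcases hq with r | r <;> rw [r]
    · linear_combination (-(μ i : L) ^ 5 + (μ i : L)) * q i
    · linear_combination (-(μ i : L) ^ 11 + (μ i : L) ^ 7 - (μ i : L) ^ 3 + (μ i : L)) * q i
  have := d2 (μ ^ Fintype.card F)
  rw [← e2, ← e, map_mul, map_mul, map_inv, e1, d1, ← d1 _ k, e, d2] at this
  simp only [s, Fin.prod_univ_three] at this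
  have z : ∏ i, (c * ((μ i : L) + (μ i : L)⁻¹)) = 0 := mul_left_cancel₀ h2 (by
    rw [Fin.prod_univ_three]; linear_combination -this)
  obtain ⟨i, -, z⟩ := Finset.prod_eq_zero_iff.1 z
  have z := (mul_eq_zero.1 z).resolve_left c.ne_zero
  rw [i3] at z
  exact h2 (by linear_combination ((μ i : L) - (μ i : L) ^ 3) * z + (2 - (μ i : L) ^ 2) * q i)

end Cfsg.Lib.S6Q
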