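import Cfsg.Agent.Lib.S6Q.T2
import Cfsg.Agent.Lib.S6Q.T1

/-!
# `A₄`, `A₆`, elements of order eight (last three lemmas of `S6Q/T3`)
-/

set_option autoImplicit false

namespace Cfsg.Lib.S6Q

open scoped MatrixGroups Matrix commutatorElement
open Cfsg.Geo Cfsg.Lib.Asch Cfsg.Lib.Linear Cfsg.Lib.Q4 Cfsg.Lib.Symp Module
open Cfsg.Lib.Q4R (Sq HasTv sc dg)

variable {K : Type*} [Field K] [IsAlgClosed K] {X : Type*} [Group X] {Y : Subgroup (G6 K)} {π : Y →* X}

omit [IsAlgClosed K] in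
theorem t3b_fix {μ : Fin 3 → Kˣ} {w : I6 → K} {j : I6} (hw : w j ≠ 0) (h : (tor μ).1 *ᵥ w = w) :
    μ (j.elim id id) = 1 := by
  have := congrFun h j
  rw [tor_eq, Q4R.dg_val, Matrix.mulVec_diagonal] at this
  have e := Units.val_eq_one.1 ((mul_eq_right₀ hw).1 this)
  rcases j with j | j
  · exact e
  · exact inv_eq_one.1 e

/-- A four-group of conjugate involutions has no fixed vector. -/
theorem t3b_four (h2 : (2 : K) ≠ 0) {s t : G6 K} (hs : s ∈ Sp K) (ht : t ∈ Sp K) (s2 : s ^ 2 = 1)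
    (t2 : t ^ 2 = 1) (c : Commute s t) (r1 : rk s = rk t) (r2 : rk (s * t) = rk s) {v : I6 → K} (hv : v ≠ 0)
    (sv : s.1 *ᵥ v = v) (tv : t.1 *ᵥ v = v) : s = 1 := by
  classical
  obtain ⟨k, -, μ, ν, e1, e2⟩ := exists_conj_tor₂ hs ht s2 t2 (by exact_mod_cast h2) c
  have e3 : k * (s * t) * k⁻¹ = tor (μ * ν) := by rw [map_mul, ← e1, ← e2]; group
  obtain ⟨j, hj⟩ : ∃ j, (k.1 *ᵥ v) j ≠ 0 := by
    by_contra! z
    exact hv (by rw [← Asch.inv_mulVec_mulVec k v, show k.1 *ᵥ v = 0 from funext z, Matrix.mulVec_zero])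
  have fx : ∀ {g : G6 K} {μ}, k * g * k⁻¹ = tor μ → g.1 *ᵥ v = v → μ (j.elim id id) = 1 := fun {g μ} e gv =>
    t3b_fix hj (by
      rw [← e, Units.val_mul, Units.val_mul, ← Matrix.mulVec_mulVec, Asch.inv_mulVec_mulVec,
        ← Matrix.mulVec_mulVec, gv])
  have sq : ∀ {g : G6 K} {μ}, k * g * k⁻¹ = tor μ → g ^ 2 = 1 → ∀ i, μ i = 1 ∨ μ i = -1 := fun {g μ} e g2 i => by
    have : μ ^ 2 = 1 := tor_inj (by rw [map_pow, ← e, conj_pow, g2, map_one, mul_one, mul_inv_cancel])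
    have := congrArg Units.val (congrFun this i)
    rw [Pi.pow_apply, Units.val_pow_eq_pow_val, Pi.one_apply, Units.val_one, sq_eq_one_iff] at this
    exact this.imp Units.ext Units.ext
  have n : (-1 : Kˣ) ≠ 1 := fun e => h2 (by
    have := congrArg Units.val e
    rw [Units.val_neg, Units.val_one] at this
    linear_combination -this)
  rw [← rk_eq_zero]
  rw [← rk_conj s k, e1, rk_tor] at r1 r2 ⊢
  rw [← rk_conj t k, e2, rk_tor] at r1
  rw [← rk_conj _ k, e3, rk_tor] at r2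
  simp only [Finset.card_filter, Fin.sum_univ_three, Pi.mul_apply] at r1 r2 ⊢
  have a := fx e1 sv
  have b := fx e2 tv
  generalize j.elim id id = i at a b
  have k : ∀ i, (if μ i ≠ 1 then 1 else 0) + (if ν i ≠ 1 then 1 else 0) + (if μ i * ν i ≠ 1 then 1 else 0) =
      2 * if μ i = 1 ∧ ν i = 1 then 0 else 1 := fun i => by
    rcases sq e1 s2 i with e | e <;> rcases sq e2 t2 i with e' | e' <;> simp [e, e', n]
  have k0 := k 0
  have k1 := k 1
  have k2 := k 2
  have l : ∀ i, (if μ i = 1 ∧ ν i = 1 then 0 else 1) ≤ 1 := fun i => by split_ifs <;> omega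
  have l0 := l 0
  have l1 := l 1
  have l2 := l 2
  have z : (if μ i = 1 ∧ ν i = 1 then 0 else 1) = 0 := if_pos ⟨a, b⟩
  obtain rfl | rfl | rfl : i = 0 ∨ i = 1 ∨ i = 2 := by fin_cases i <;> simp
  all_goals omega

theorem Cv.no_a4' (h : Cv Y π) {a b : Y} (ha : a.1 ^ 3 = 1) (hb : b.1 ^ 3 = 1) (ra : rk a.1 = 2)
    (rb : rk b.1 = 2) (e : (π a * π b) ^ 2 = 1) (h1 : π a * π b ≠ 1) : False := by
  obtain ⟨v, hv, fx⟩ := exists_fix [a.1, b.1] (by simp [ra, rb])
  have av := fx a.1 (by simp)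
  have bv := fx b.1 (by simp)
  have iv : (a.1⁻¹).1 *ᵥ v = v := by
    have := Asch.inv_mulVec_mulVec a.1 v
    rwa [av] at this
  set t := a.1 * b.1 with ht
  have tv : t.1 *ᵥ v = v := by rw [ht, Units.val_mul, ← Matrix.mulVec_mulVec, bv, av]
  have t2 : t ^ 2 = 1 := ((h.ker ((a * b) ^ 2)).1 (by rw [map_pow, map_mul, e])).resolve_right fun z => by
    have z : t ^ 2 = -1 := z
    have : (t ^ 2).1 *ᵥ v = v := by rw [sq, Units.val_mul, ← Matrix.mulVec_mulVec, tv, tv]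
    rw [z, Units.val_neg, Units.val_one, Matrix.neg_mulVec, Matrix.one_mulVec, neg_eq_iff_add_eq_zero,
      ← two_smul K, smul_eq_zero] at this
    exact this.elim h.two hv
  have a3 : a.1⁻¹ * a.1⁻¹ = a.1 := by
    rw [← mul_inv_rev, inv_eq_iff_mul_eq_one, ← pow_three', ha]
  have p : t * (a.1⁻¹ * t * a.1⁻¹⁻¹) * (a.1 * t * a.1⁻¹) = 1 := by
    calc _ = t * a.1⁻¹ * t * (a.1⁻¹ * a.1⁻¹) * (a.1⁻¹ * a.1⁻¹) * t * a.1⁻¹ := by rw [a3]; group
      _ = t * a.1⁻¹ * t * a.1⁻¹ * (a.1⁻¹ ^ 3) * t * a.1⁻¹ := by group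
      _ = a.1 * b.1 ^ 3 * a.1⁻¹ := by rw [inv_pow, ha, ht]; simp [pow_three, mul_assoc]
      _ = 1 := by rw [hb]; group
  have cj : ∀ k : G6 K, (k * t * k⁻¹) ^ 2 = 1 := fun k => by rw [conj_pow, t2]; group
  have iv2 : ∀ {g : G6 K}, g ^ 2 = 1 → g⁻¹ = g := fun g2 => inv_eq_of_mul_eq_one_right (by rw [← sq, g2])
  have p' : t * (a.1⁻¹ * t * a.1⁻¹⁻¹) = a.1 * t * a.1⁻¹ := by
    rw [eq_inv_of_mul_eq_one_left p, iv2 (cj _)]
  have ts : t ∈ Sp K := h.sp (a * b).2
  have as : a.1 ∈ Sp K := h.sp a.2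
  refine h1 ((map_mul π a b).symm.trans ((h.ker _).2 (.inl (t3b_four (s := t) h.two ts
    (mul_mem (mul_mem (inv_mem as) ts) (inv_mem (inv_mem as))) t2 (cj _) ?_ (rk_conj _ _).symm
    (by rw [p', rk_conj]) hv tv ?_))))
  · have := iv2 (cj a.1)
    rw [← p', mul_inv_rev, iv2 t2, iv2 (cj _)] at this
    exact this.symm
  · rw [inv_inv, Units.val_mul, Units.val_mul, ← Matrix.mulVec_mulVec, ← Matrix.mulVec_mulVec, av, tv, iv]

theorem Cv.three_of_A6' (h : Cv Y π) {f : alternatingGroup (Fin 6) →* X} (hf : Function.Injective f) :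
    (3 : K) = 0 := by
  by_contra h3
  obtain ⟨Y', -, π', h', -⟩ := h.sub hf
  have key : ∀ x y : alternatingGroup (Fin 6), x ^ 3 = 1 → y ^ 3 = 1 → (x * y) ^ 2 = 1 → x * y ≠ 1 →
      (∀ g : Y', g.1 ^ 3 = 1 → π' g = x ∨ π' g = y → rk g.1 = 2) → False := fun x y x3 y3 e n r => by
    obtain ⟨a, rfl, ha⟩ := h'.lift (n := 3) (by decide) x3
    obtain ⟨b, rfl, hb⟩ := h'.lift (n := 3) (by decide) y3
    exact h'.no_a4' ha hb (r a ha (.inl rfl)) (r b hb (.inr rfl)) e n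
  rcases h'.cw.a6 h3 with r | r
  · refine key ⟨Equiv.swap 0 1 * Equiv.swap 0 2, by simp⟩ ⟨Equiv.swap 0 1 * Equiv.swap 0 3, by simp⟩
      (Subtype.ext (by decide)) (Subtype.ext (by decide)) (Subtype.ext (by decide))
      (fun e => absurd (congrArg Subtype.val e) (by decide)) fun g g3 e => r g g3 ?_
    rcases e with e | e <;> rw [e] <;> unfold Equiv.Perm.IsThreeCycle <;> decide +kernel
  · refine key ⟨Equiv.swap 0 1 * Equiv.swap 0 2 * (Equiv.swap 3 4 * Equiv.swap 3 5), by simp⟩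
      ⟨Equiv.swap 0 2 * Equiv.swap 0 3 * (Equiv.swap 1 5 * Equiv.swap 1 4), by simp⟩
      (Subtype.ext (by decide)) (Subtype.ext (by decide)) (Subtype.ext (by decide))
      (fun e => absurd (congrArg Subtype.val e) (by decide)) fun g g3 e => r g g3 ?_ ?_
    · rcases e with e | e <;> rw [e] <;> exact fun e => absurd (congrArg Subtype.val e) (by decide)
    · rcases e with e | e <;> rw [e] <;> unfold Equiv.Perm.IsThreeCycle <;> decide +kernel

theorem no_eight' {F : Type*} [Field F] [Fintype F] (hq : Fintype.card F % 8 = 3 ∨ Fintype.card F % 8 = 5)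
    {g : G6 F} (hg : g ∈ Sp F) (h : g ^ 4 = -1) : False := by
  classical
  let L := AlgebraicClosure F
  let f : F →+* L := algebraMap F L
  let σ : L →+* L := (FiniteField.frobeniusAlgHom F L : L →ₐ[F] L)
  have hσ : ∀ x, σ x = x ^ Fintype.card F := fun x => rfl
  have h2F : (2 : F) ≠ 0 := fun z => by
    have := (FiniteField.even_card_iff_char_two (F := F)).1 (by
      haveI := ringChar.charP F
      exact ringChar.eq_iff.2 (by
        haveI : Fact (Nat.Prime 2) := ⟨Nat.prime_two⟩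
        exact (CharP.charP_iff_prime_eq_zero Nat.prime_two).2 (by exact_mod_cast z)))
    omega
  have h2 : (2 : L) ≠ 0 := by rw [← map_ofNat f 2]; exact (map_ne_zero f).2 h2F
  have G4 : mp f g ^ 4 = -1 := by rw [← map_pow, h, mp_neg, map_one]
  obtain ⟨k, -, μ, -, e⟩ := exists_conj_tor (mp_mem_Sp f hg) (n := 8)
    (by rw [show 8 = 4 * 2 from rfl, pow_mul, G4, neg_one_sq])
    (by rw [show ((8 : ℕ) : L) = 2 ^ 3 by norm_num]; exact pow_ne_zero _ h2)
  have m4 : ∀ j, (t1w μ j : L) ^ 4 = -1 := fun j => by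
    have : μ ^ 4 = fun _ => -1 := tor_inj (by rw [map_pow, ← e, conj_pow, G4, tor_neg_one]; simp)
    have : ∀ i, (μ i : L) ^ 4 = -1 := fun i => by simpa using congrArg Units.val (congrFun this i)
    rcases j with j | j
    · exact this j
    · simp [this j]
  have e1 : mp σ (mp f g) = mp f g := Units.ext (Matrix.ext fun i j =>
    (FiniteField.frobeniusAlgHom F L).commutes _)
  have e2 : mp σ (tor μ) = dg fun j => t1w μ j ^ Fintype.card F := Units.ext (by
    rw [mp_val, tor_eq, Q4R.dg_val, Q4R.dg_val, Matrix.diagonal_map (map_zero σ)]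
    simp only [hσ, Units.val_pow_eq_pow_val])
  have e3 : mp σ k * k⁻¹ * dg (t1w μ) * (mp σ k * k⁻¹)⁻¹ = dg fun j => t1w μ j ^ Fintype.card F := by
    rw [← e2, ← tor_eq, ← e, map_mul, map_mul, e1, map_inv]; group
  obtain ⟨s, hs⟩ := exists_diag (mp σ k * k⁻¹)
  let c : I6 → L := fun j => t1w μ j + (t1w μ j : L)⁻¹
  have c1 : ∀ j, c (s j) = -c j := fun j => by
    have := congrArg Units.val (dg_entry e3 (hs j))
    rw [Units.val_pow_eq_pow_val] at this
    have x4 := m4 (s j)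
    have x0 : (t1w μ (s j) : L) ≠ 0 := Units.ne_zero _
    simp only [c, ← this]
    generalize (t1w μ (s j) : L) = x at *
    have x8 : x ^ 8 = 1 := by rw [show 8 = 4 * 2 from rfl, pow_mul, x4, neg_one_sq]
    rw [D3.pow_mod_of x8]
    rcases hq with q | q <;> rw [q]
    · have : x ^ 3 = -x⁻¹ := mul_right_cancel₀ x0 (by rw [neg_mul, inv_mul_cancel₀ x0, ← x4, ← pow_succ])
      rw [this, inv_neg, inv_inv]; ring
    · have : x ^ 5 = -x := by linear_combination x * x4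
      rw [this, inv_neg]; ring
  have c2 : ∀ j, c j ^ 2 = 2 := fun j => by
    have x4 := m4 j
    have x0 : (t1w μ j : L) ≠ 0 := Units.ne_zero _
    have i := mul_inv_cancel₀ x0
    simp only [c]
    generalize (t1w μ j : L)⁻¹ = y at i ⊢
    generalize (t1w μ j : L) = x at *
    linear_combination y ^ 2 * x4 + (2 - x ^ 2 * (x * y + 1)) * i
  have c3 : ∀ i, c (.inr i) = c (.inl i) := fun i => by
    change ((μ i)⁻¹ : Lˣ).1 + ((μ i)⁻¹ : Lˣ).1⁻¹ = (μ i).1 + (μ i).1⁻¹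
    rw [Units.val_inv_eq_inv_val, inv_inv, add_comm]
  let ε : I6 → ℤ := fun j => if c j = c (.inl 0) then 1 else -1
  have d : ∀ j, ε (s j) = -ε j := fun j => by
    have n : c (.inl 0) ≠ -c (.inl 0) := fun z => h2 (by
      have := c2 (.inl 0)
      rw [eq_neg_iff_add_eq_zero, ← two_mul, mul_eq_zero] at z
      rcases z with z | z
      · exact z
      · rw [← this, z, zero_pow two_ne_zero])
    simp only [ε, c1]
    rcases sq_eq_sq_iff_eq_or_eq_neg.1 ((c2 j).trans (c2 (.inl 0)).symm) with q | q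
    · rw [q, if_neg n.symm, if_pos rfl]
    · rw [q, neg_neg, if_pos rfl, if_neg n.symm, neg_neg]
  have z := Equiv.sum_comp s ε
  simp only [d, Finset.sum_neg_distrib] at z
  simp only [ε, Fintype.sum_sum_type, c3, Fin.sum_univ_three] at z
  split_ifs at z <;> omega

end Cfsg.Lib.S6Q
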