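import Cfsg.Agent.Lib.S6Q.T3
import Cfsg.Agent.Lib.S6Q.T2b
import Cfsg.Agent.Lib.O7.Hur
import Cfsg.Agent.S2117
import Cfsg.Agent.S2118

/-!
# Tools for the endings: the finite field half
-/

set_option autoImplicit false

namespace Cfsg.Lib.S6Q

open scoped MatrixGroups Matrix commutatorElement
open Cfsg.Geo Cfsg.Lib.Asch Cfsg.Lib.Linear Cfsg.Lib.Q4 Cfsg.Lib.Symp Module
open Cfsg.Lib.Q4R (Sq HasTv sc dg)

variable {F : Type*} [Field F] [Fintype F] {H P : Subgroup (G6 F)}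

/-- As `no_eight`: `λ ↦ λ ^ 9 = -λ` changes the sign of `det (g - c)`, `c² = -1`. -/
theorem no_sixteen' (hq : Fintype.card F = 9) {g : G6 F} (hg : g ∈ Sp F) (h : g ^ 8 = -1) : False := by
  let L := AlgebraicClosure F
  let f := algebraMap F L
  let φ : L →+* L := (FiniteField.frobeniusAlgHom F L).toRingHom
  have hφ : ∀ x, φ x = x ^ Fintype.card F := fun _ => rfl
  have h2 : (2 : L) ≠ 0 := by
    rw [← map_ofNat f 2, map_ne_zero]
    exact Ring.two_ne_zero fun e => by have := FiniteField.even_card_of_char_two e; omega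
  have h4 : mp f g ^ 8 = -1 := by rw [← map_pow, h, mp_neg, map_one]
  obtain ⟨k, -, μ, -, e⟩ := exists_conj_tor (mp_mem_Sp f hg) (n := 8 * 2) (by rw [pow_mul, h4, neg_one_sq]) (by
    rw [show ((8 * 2 : ℕ) : L) = 2 ^ 4 by norm_num]; exact pow_ne_zero _ h2)
  have q : ∀ i, (μ i : L) ^ 8 = -1 := fun i => by
    simpa using congrArg Units.val (congrFun (tor_inj (show tor (μ ^ 8) = tor fun _ => -1 by
      rw [map_pow, ← e, conj_pow, h4, tor_neg_one]; simp)) i)
  have e1 : mp φ (mp f g) = mp f g := Units.ext (Matrix.ext fun i j => (FiniteField.frobeniusAlgHom F L).commutes _)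
  have e2 : mp φ (tor μ) = tor (μ ^ Fintype.card F) := Units.ext (by
    rw [mp_val, tor_eq, tor_eq, Q4R.dg_val, Q4R.dg_val, Matrix.diagonal_map (map_zero φ)]
    congr 1
    ext i
    rcases i with i | i <;> simp [hφ])
  obtain ⟨c, hc⟩ := exists_sqrt_neg_one (K := L)
  have hc : (c : L) * c = -1 := by simpa using congrArg Units.val hc
  have d1 : ∀ g k : G6 L, ((k * g * k⁻¹).1 - (c : L) • 1).det = (g.1 - (c : L) • 1).det := fun g k => by
    rw [← Matrix.det_units_conj k (g.1 - _), mul_sub, sub_mul, Matrix.mul_smul, mul_one, Matrix.smul_mul, Units.mul_inv,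
      Units.val_mul, Units.val_mul]
  have d2 : ∀ μ : Fin 3 → Lˣ, ((tor μ).1 - (c : L) • 1).det = ∏ i, -(c * ((μ i : L) + (μ i : L)⁻¹)) := fun μ => by
    rw [tor_eq, Q4R.dg_val, Matrix.smul_one_eq_diagonal, Matrix.diagonal_sub, Matrix.det_diagonal,
      Fintype.prod_sum_type, ← Finset.prod_mul_distrib]
    refine Finset.prod_congr rfl fun i _ => ?_
    simp only [Sum.elim_inl, Sum.elim_inr, Units.val_inv_eq_inv_val]
    linear_combination hc + mul_inv_cancel₀ (μ i).ne_zero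
  have i3 : ∀ i, (μ i : L)⁻¹ = -(μ i : L) ^ 7 := fun i =>
    inv_eq_of_mul_eq_one_right (by linear_combination -q i)
  have s : ∀ i, ((μ ^ Fintype.card F) i : L) + ((μ ^ Fintype.card F) i : L)⁻¹ = -((μ i : L) + (μ i : L)⁻¹) := fun i => by
    have q9 : (μ i : L) ^ 9 = -(μ i : L) := by linear_combination (μ i : L) * q i
    rw [Pi.pow_apply, Units.val_pow_eq_pow_val, hq, q9, inv_neg, neg_add]
  have := d2 (μ ^ Fintype.card F)
  rw [← e2, ← e, map_mul, map_mul, map_inv, e1, d1, ← d1 _ k, e, d2] at this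
  simp only [s, Fin.prod_univ_three] at this
  have z : ∏ i, (c * ((μ i : L) + (μ i : L)⁻¹)) = 0 := mul_left_cancel₀ h2 (by
    rw [Fin.prod_univ_three]; linear_combination -this)
  obtain ⟨i, -, z⟩ := Finset.prod_eq_zero_iff.1 z
  have z := (mul_eq_zero.1 z).resolve_left c.ne_zero
  have z2 : (μ i : L) ^ 2 = -1 := by linear_combination (μ i : L) * z - mul_inv_cancel₀ (μ i).ne_zero
  have := q i
  rw [show 8 = 2 * 4 from rfl, pow_mul, z2] at this
  exact h2 (by linear_combination this)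

/-- The stabiliser of `D` is proper: if `t` has plane `U = ⟨u, a⟩`, `om a u = 1`, the transvections along `u + w`, `w ⟂ U`, move `U`
to `q⁴` different planes. -/
theorem Mx.mem_of_ti' (m : Mx H P) (h2 : (2 : F) ≠ 0) {D : Set (G6 F)} (hD : D.Finite) (c : D.ncard < Fintype.card F ^ 4)
    {t : G6 F} (ht : t ∈ D) (s : t ∈ Sp F) (i : TI t) (hH : ∀ g ∈ H, ∀ d ∈ D, g * d * g⁻¹ ∈ D) {x : G6 F} (hx : x ∈ Sp F)
    (e : ∀ d ∈ D, x * d * x⁻¹ ∈ D) : x ∈ H := by
  classical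
  let N₀ : Submonoid (G6 F) :=
    { carrier := {x | x ∈ Sp F ∧ ∀ d ∈ D, x * d * x⁻¹ ∈ D}
      one_mem' := ⟨one_mem _, fun d hd => by simpa using hd⟩
      mul_mem' := fun {a b} ha hb => ⟨mul_mem ha.1 hb.1, fun d hd => by
        simpa only [mul_inv_rev, mul_assoc] using ha.2 _ (hb.2 d hd)⟩ }
  let N : Subgroup (G6 F) :=
    ⟨N₀, fun {a} ha => (Submonoid.powers_le.2 ha : _ ≤ N₀)
      ((isOfFinOrder_of_finite a).mem_powers_iff_mem_zpowers.2 (inv_mem (Subgroup.mem_zpowers a)))⟩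
  rcases m.max.2 N (fun g hg => ⟨m.max.1.le hg, hH g hg⟩) (fun g hg => hg.1) with k | k
  · exact k.le ⟨hx, e⟩
  exfalso
  have A := alt_om (K := F)
  have tt : ∀ v, t.1 *ᵥ t.1 *ᵥ v = v := fun v => by
    rw [Matrix.mulVec_mulVec, ← Units.val_mul, i.1, Units.val_one, Matrix.one_mulVec]
  have ts := mem_Sp.1 s
  obtain ⟨v, hv⟩ : ∃ v, t.1 *ᵥ v - v ≠ 0 := by
    by_contra! z
    have : t = 1 := Units.ext (sub_eq_zero.1 (mat_eq_zero_of_mulVec fun v => by
      rw [Matrix.sub_mulVec, Units.val_one, Matrix.one_mulVec, z]))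
    have r := i.2
    rw [this, rk_one] at r
    omega
  obtain ⟨u, u0, tu⟩ : ∃ u, u ≠ 0 ∧ t.1 *ᵥ u = -u := ⟨_, hv, by rw [Matrix.mulVec_sub, tt, neg_sub]⟩
  obtain ⟨a, au, ta⟩ : ∃ a, om F a u = 1 ∧ t.1 *ᵥ a = -a := by
    obtain ⟨b, hb⟩ := exists_form_ne_zero A.toSForm u0
    have e1 : om F (t.1 *ᵥ b) u = -om F b u := by
      have := ts (t.1 *ᵥ b) u
      rw [tt, tu] at this
      exact this.symm.trans (map_neg (A.bilin b) u)
    refine ⟨(2 * om F b u)⁻¹ • (b - t.1 *ᵥ b), ?_, by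
      rw [Matrix.mulVec_smul, Matrix.mulVec_sub, tt, ← smul_neg, neg_sub]⟩
    rw [A.smul_left, show om F (b - t.1 *ᵥ b) u = om F b u - om F (t.1 *ᵥ b) u from A.bilin.sub_left _ _ _, e1]
    field_simp
    norm_num
  let W := LinearMap.ker (T2.lv t - 1)
  have tw : ∀ w : W, t.1 *ᵥ w.1 = w.1 := fun w => sub_eq_zero.1 w.2
  have pp : ∀ (w : W) {y}, t.1 *ᵥ y = -y → A.bilin y w.1 = 0 ∧ A.bilin w.1 y = 0 := fun w y hy => by
    have := ts y w.1
    rw [hy, tw] at this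
    have e1 : A.bilin (-y) w.1 = A.bilin y w.1 := this
    rw [map_neg, LinearMap.neg_apply] at e1
    have e2 : A.bilin y w.1 = 0 := (mul_eq_zero.1 (by linear_combination -e1)).resolve_left h2
    exact ⟨e2, (A.skew _ _).trans (neg_eq_zero.2 e2)⟩
  choose τ hτ hτ' using fun w : W => (Ei.iso A (u := u + w.1) (z := 0) (A.bilin.zero_left _) 1).2
  have hτ'' : ∀ w y, (τ w).1 *ᵥ y = y + A.bilin y (u + w.1) • (u + w.1) := fun w y => by
    rw [hτ', smul_zero, add_zero, one_mul, show om F y 0 = 0 from A.bilin.zero_right _, zero_add]; rfl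
  have hN : ∀ w, τ w ∈ N := fun w => k.ge ((spGL_eq 3).ge (hτ w))
  have inj : Function.Injective fun w : W => (⟨τ w * t * (τ w)⁻¹, (hN w).2 t ht⟩ : D) := fun w w' e => by
    have e1 : τ w * t * (τ w)⁻¹ = τ w' * t * (τ w')⁻¹ := congrArg Subtype.val e
    have aa : A.bilin a u = 1 := au
    have z : ∀ y, A.bilin y y = 0 := A.alt
    let l := A.bilin (a + (u + w.1)) (u + w'.1)
    let y := a + (u + w.1) - l • (u + w'.1)
    have e2 : (τ w).1 *ᵥ a = a + (u + w.1) := by rw [hτ'', map_add, aa, (pp w ta).1, add_zero, one_smul]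
    have e3 : (τ w').1 *ᵥ y = a + (u + w.1) := by
      rw [hτ'', map_sub, map_smul, LinearMap.sub_apply, LinearMap.smul_apply, z, smul_zero, sub_zero, sub_add_cancel]
    have e4 : (τ w' * t * (τ w')⁻¹).1 *ᵥ (τ w').1 *ᵥ y = (τ w * t * (τ w)⁻¹).1 *ᵥ (τ w).1 *ᵥ a := by rw [e1, e2, e3]
    simp only [Matrix.mulVec_mulVec, ← Units.val_mul, inv_mul_cancel_right] at e4
    simp only [Units.val_mul, ← Matrix.mulVec_mulVec] at e4
    rw [ta, Matrix.mulVec_neg, e2, ← e3, ← Matrix.mulVec_neg] at e4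
    have e5 : t.1 *ᵥ y = -y := (Matrix.mulVec_injective_iff_isUnit.2 (τ w').isUnit) e4
    simp only [y, Matrix.mulVec_sub, Matrix.mulVec_add, Matrix.mulVec_smul, ta, tu, tw] at e5
    have e6 : w.1 = l • w'.1 := smul_right_injective _ h2 (by
      change (2 : F) • w.1 = (2 : F) • l • w'.1
      linear_combination (norm := module) e5)
    have e7 : l = 1 := by
      have : A.bilin w.1 w'.1 = 0 := by rw [e6, map_smul, LinearMap.smul_apply, z, smul_zero]
      simp only [l, map_add, LinearMap.add_apply, aa, z, this, (pp w' ta).1, (pp w' tu).1, (pp w tu).2, add_zero]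
    exact Subtype.ext (by rw [e6, e7, one_smul])
  have := hD.to_subtype
  have e1 := Nat.card_le_card_of_injective _ inj
  have e2 := T2.rk_add_ker t
  rw [Module.natCard_eq_pow_finrank (K := F), Nat.card_eq_fintype_card, show finrank F W = 4 by
    rw [i.2] at e2; change 2 + finrank F W = 6 at e2; omega, Nat.card_coe_set_eq] at e1
  omega

omit [Fintype F] in
/-- `O7.hur_split` with `S2117`, `S2118`. -/
theorem Od.exists_sl' {E : Type*} [Field E] [Fintype E] (h5 : 5 ≤ Fintype.card E) {π : pm P →* PSL(2, E)} (h : Od P π) :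
    ∃ ρ : SL(2, E) →* pm P, (∀ g, π (ρ g) = PSL2.toL g) ∧ ∀ g ∈ pm P, ∃ s, g = ρ s ∨ g = -ρ s := by
  have k : ∀ n, HasCyclicSchurMultiplier SL(2, E) n → Odd n → ∃ ρ : SL(2, E) →* pm P, ∀ g, π (ρ g) = PSL2.toL g :=
    fun n hn o => O7.hur_split π (z := ⟨-1, neg_mem_pm P⟩) (fun s => Subtype.ext (by simp)) (Subtype.ext (by simp))
      (fun s e => ((h.cv.ker s).1 e).imp Subtype.ext Subtype.ext)
      (commutator_SL_eq_top (.inr (exists_ne_zero_sq_ne_one (by rw [Nat.card_eq_fintype_card]; omega)))) hn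
      (by rwa [Nat.card_congr Multiplicative.toAdd, Nat.card_zmod]) _ fun x => h.cv.surj _
  obtain ⟨ρ, hρ⟩ : ∃ ρ : SL(2, E) →* pm P, ∀ g, π (ρ g) = PSL2.toL g := by
    by_cases e : Fintype.card E = 9
    exacts [k 3 (Agent.S2118.result e) (by decide), k 1 (Agent.S2117.result (by omega) e) odd_one]
  refine ⟨ρ, hρ, fun g hg => ?_⟩
  obtain ⟨s, e⟩ := PSL2.toL_surjective (π ⟨g, hg⟩)
  exact ⟨s, h.cv.eq_iff.1 (e.symm.trans (hρ s).symm)⟩

omit [Fintype F] in
/-- If the image of `n ∈ H` acts on `X` with square the conjugation by `π y`, then `n² = ± y`. -/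
theorem Od.sq_eq' {X : Type*} [Group X] {π : pm P →* X} (h : Od P π) (m : Mx H P) {n : G6 F} (hn : n ∈ H) {φ : MulAut X}
    (e : ∀ (g : pm P) (hg : n * g.1 * n⁻¹ ∈ pm P), φ (π g) = π ⟨_, hg⟩) {y : pm P}
    (hy : ∀ x, φ (φ x) = π y * x * (π y)⁻¹) : n * n = y ∨ n * n = -y := by
  obtain ⟨-, -, nm, -⟩ := h.exists_aut m hn
  have tH : y.1⁻¹ * (n * n) ∈ H := mul_mem (inv_mem (m.pm_le y.2)) (mul_mem hn hn)
  have := m.cen _ tH fun x hx => by
    have h1 := nm x (le_pm P hx)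
    have h3 := hy (π ⟨x, le_pm P hx⟩)
    rw [e ⟨x, le_pm P hx⟩ h1, e ⟨_, h1⟩ (nm _ h1)] at h3
    have := (h.cv.ker (y⁻¹ * ⟨_, nm _ h1⟩ * y * ⟨x, le_pm P hx⟩⁻¹)).1 (by
      rw [map_mul, map_mul, map_mul, h3, map_inv, map_inv]; group)
    rw [show y.1⁻¹ * (n * n) * x * (y.1⁻¹ * (n * n))⁻¹ * x⁻¹ =
      (y⁻¹ * ⟨_, nm _ h1⟩ * y * ⟨x, le_pm P hx⟩⁻¹ : pm P).1 by
        simp only [Subgroup.coe_mul, Subgroup.coe_inv]; group]
    rcases this with e | e <;> rw [e]
    exacts [one_mem _, neg_one_scalar]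
  refine (pm_of_scalar (m.max.1.le tH) this).imp (fun e => (inv_mul_eq_one.1 e).symm) fun e => ?_
  rw [inv_mul_eq_iff_eq_mul.1 e, mul_neg_one]

/-- Non-maximality from a model: `g i` generate `P`, the `g' i` lie in `L ≤ Sp₆(F)`, and they are conjugate over `K`
(`conj_desc`, `conj_sp`, `Mx.eq_of_card`). -/
theorem Od.card_eq_of_model' {X : Type*} [Group X] {π : pm P →* X} (h : Od P π) (m : Mx H P) (hH : H ≤ pm P)
    {K : Type*} [Field K] (f : F →+* K) {ι : Type*} (g g' : ι → G6 F) (hg : pm (Subgroup.closure (Set.range g)) = pm P)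
    {L : Subgroup (G6 F)} (hL : L ≤ Sp F) (n : -1 ∈ L) (hg' : ∀ i, g' i ∈ L) {k : G6 K}
    (e : ∀ i, mp f (g i) = k * mp f (g' i) * k⁻¹) (c : ¬ Nat.card F ^ 6 ∣ Nat.card L) : Nat.card L = 2 * Nat.card X := by
  have he : env (pm P) = ⊤ := eq_top_iff.2 (h.env.ge.trans (env_mono (le_pm P)))
  obtain ⟨l, hl⟩ := conj_desc f g g' (fun W hW => irr_of_env he W fun x hx v hv => by
    rcases hg.ge hx with hx | hx
    · exact hW x hx v hv
    · simpa [Matrix.neg_mulVec] using hW _ hx v hv) e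
  let L' := L.map (MulAut.conj l).toMonoidHom
  have l1 : pm P ≤ L' := hg ▸ pm_le ((Subgroup.closure_le _).2 (by rintro _ ⟨i, rfl⟩; exact ⟨g' i, hg' i, (hl i).symm⟩))
    ⟨-1, n, by simp⟩
  have l2 : L' ≤ Sp F := by
    rintro _ ⟨x, hx, rfl⟩
    refine conj_sp he h.cv.sp (fun y hy => ?_) x (hL hx)
    obtain ⟨y, hy', rfl⟩ := l1 hy
    simpa [mul_assoc] using hL hy'
  have c' : Nat.card L' = Nat.card L := Subgroup.card_map_of_injective (MulAut.conj l).injective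
  have e1 : L' = pm P := (m.eq_of_card (hH.trans l1) l2 (c' ▸ c)).trans (le_antisymm hH m.pm_le)
  rw [← c', e1, ← π.ker.card_mul_index, Subgroup.index_ker, MonoidHom.range_eq_top.2 h.cv.surj, Subgroup.card_top]
  congr 1
  refine Nat.card_eq_two_iff.2 ⟨1, ⟨⟨-1, neg_mem_pm P⟩, (h.cv.ker _).2 (.inr rfl)⟩,
    fun e => h.cv.neg_ne (congrArg (·.1.1) e).symm, Set.eq_univ_of_forall fun x => ?_⟩
  exact ((h.cv.ker _).1 x.2).imp (fun e => Subtype.ext (Subtype.ext e)) fun e => Subtype.ext (Subtype.ext e)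

end Cfsg.Lib.S6Q
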