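import Cfsg.Agent.Lib.S6Q.T3
import Cfsg.Agent.Lib.S6Q.T2b

/-!
# Tools for the endings: traces
-/

set_option autoImplicit false

namespace Cfsg.Lib.S6Q

open scoped MatrixGroups Matrix commutatorElement
open Cfsg.Geo Cfsg.Lib.Asch Cfsg.Lib.Linear Cfsg.Lib.Q4 Cfsg.Lib.Symp Module
open Cfsg.Lib.Q4R (Sq HasTv sc dg)

variable {K : Type*} [Field K] {a b c g t : G6 K}

/-- The matrix of `X ↦ a X - X b`. -/
def t4m (a b : G6 K) : Matrix (I6 × I6) (I6 × I6) K := .of fun p q =>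
  (if p.2 = q.2 then a.1 p.1 q.1 else 0) - if p.1 = q.1 then b.1 q.2 p.2 else 0

theorem t4m_rank (a b : G6 K) : (t4m a b).rank + hd a b = 36 := by
  let e : Matrix I6 I6 K ≃ₗ[K] (I6 × I6 → K) := (LinearEquiv.curry K K I6 I6).symm
  have : (Hm a b).map e.toLinearMap = LinearMap.ker (t4m a b).mulVecLin := by
    ext X
    obtain ⟨X, rfl⟩ := e.surjective X
    rw [Submodule.mem_map_equiv, e.symm_apply_apply, mem_Hm, LinearMap.mem_ker, ← Matrix.ext_iff, funext_iff, Prod.forall]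
    refine forall₂_congr fun i j => ?_
    have e1 : ∀ p, e X p = X p.1 p.2 := fun _ => rfl
    rw [← sub_eq_zero, Matrix.mulVecLin_apply, Matrix.mulVec, dotProduct, Fintype.sum_prod_type, Matrix.mul_apply,
      Matrix.mul_apply]
    simp only [t4m, e1, Matrix.of_apply, sub_mul, Finset.sum_sub_distrib, ite_mul, zero_mul, Finset.sum_ite_eq,
      Finset.mem_univ, if_true, Finset.sum_ite_irrel, Finset.sum_const_zero, mul_comm (b.1 _ j), Pi.zero_apply]
  rw [hd, ← e.finrank_map_eq, this, Matrix.rank, LinearMap.finrank_range_add_finrank_ker]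
  simp

theorem hd_mp' {L : Type*} [Field L] (f : K →+* L) : hd (mp f a) (mp f b) = hd a b := by
  have := t4m_rank (mp f a) (mp f b)
  rw [show t4m (mp f a) (mp f b) = (t4m a b).map f by ext p q; simp [t4m, mp_val, apply_ite f], O7.sp_rank,
    ← t4m_rank a b] at this
  exact Nat.add_left_cancel this

theorem t4_int {x : K} (x0 : x ≠ 0) (h : x ^ 4 = 1 ∨ x ^ 6 = 1) : ∃ n : ℤ, x + x⁻¹ = n := by
  have : (x + x⁻¹) * (x + x⁻¹ - 2) * (x + x⁻¹ + 2) * (x + x⁻¹ - 1) * (x + x⁻¹ + 1) = 0 := by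
    field_simp
    rcases h with h | h
    · linear_combination (x ^ 6 - 1) * h
    · linear_combination (x ^ 4 - 1) * h
  simp only [mul_eq_zero, sub_eq_zero, add_eq_zero_iff_eq_neg (a := x + x⁻¹)] at this
  rcases this with (((h | h) | h) | h) | h
  exacts [⟨0, by simpa using h⟩, ⟨2, by simpa using h⟩, ⟨-2, by simpa using h⟩, ⟨1, by simpa using h⟩,
    ⟨-1, by simpa using h⟩]

theorem tr_int' (hg : g ∈ Sp K) (h : g ^ 4 = 1 ∨ g ^ 6 = 1) : ∃ n : ℤ, tr g = n := by
  let L := AlgebraicClosure K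
  let f := algebraMap K L
  have k : ∀ {x : G6 L} {n : ℕ}, x ∈ Sp L → x ^ n = 1 → (n : L) ≠ 0 → x ^ 4 = 1 ∨ x ^ 6 = 1 → ∃ n : ℤ, tr x = n :=
    fun {x n} hx h hn h' => by
      obtain ⟨k, -, μ, -, e⟩ := exists_conj_tor hx h hn
      have q : ∀ m i, x ^ m = 1 → (μ i : L) ^ m = 1 := fun m i h => by
        simpa using congrArg Units.val (congrFun (tor_inj (show tor (μ ^ m) = tor 1 by
          rw [map_pow, ← e, conj_pow, h, map_one]; simp)) i)
      choose z hz using fun i => t4_int (μ i).ne_zero (h'.imp (q _ i) (q _ i))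
      exact ⟨∑ i, z i, by rw [← tr_conj _ k, e, tr_tor, Int.cast_sum]; simp only [hz]⟩
  have h' : ∀ m, (mp f g ^ m) ^ 4 = 1 ∨ (mp f g ^ m) ^ 6 = 1 := fun m =>
    h.imp (fun h => by rw [pow_right_comm, ← map_pow, h, map_one, one_pow]) fun h => by
      rw [pow_right_comm, ← map_pow, h, map_one, one_pow]
  have o : mp f g ^ 12 = 1 := by
    rcases h' 1 with h | h <;> rw [pow_one] at h
    · rw [show 12 = 4 * 3 from rfl, pow_mul, h, one_pow]
    · rw [show 12 = 6 * 2 from rfl, pow_mul, h, one_pow]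
  obtain ⟨n, hn⟩ : ∃ n : ℤ, tr (mp f g) = n := by
    obtain ⟨p, hp⟩ := CharP.exists L
    rcases CharP.char_is_prime_or_zero L p with pp | rfl
    · haveI := Fact.mk pp
      obtain ⟨m, c, e⟩ := exists_reg p (isOfFinOrder_iff_pow_eq_one.2 ⟨12, by norm_num, o⟩)
      exact e ▸ k (pow_mem (mp_mem_Sp f hg) m) (pow_orderOf_eq_one _) (fun z =>
        (pp.coprime_iff_not_dvd).1 c.symm ((CharP.cast_eq_zero_iff L p _).1 z)) (h' m)
    · haveI := CharP.charP_to_charZero L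
      exact k (mp_mem_Sp f hg) o (by norm_num) (by simpa using h' 1)
  exact ⟨n, f.injective (by rw [← tr_map, hn, map_intCast])⟩

theorem tr_eight' (h2 : (2 : K) ≠ 0) (hg : g ∈ Sp K) (h : g ^ 4 = -1) {s : K} (hs : s ^ 2 = 2) :
    tr g = s ∨ tr g = -s ∨ tr g = 3 * s ∨ tr g = -3 * s := by
  let L := AlgebraicClosure K
  let f := algebraMap K L
  have h4 : mp f g ^ 4 = -1 := by rw [← map_pow, h, mp_neg, map_one]
  obtain ⟨k, -, μ, -, e⟩ := exists_conj_tor (mp_mem_Sp f hg) (n := 4 * 2) (by rw [pow_mul, h4, neg_one_sq]) (by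
    rw [show ((4 * 2 : ℕ) : L) = f 2 ^ 3 by rw [map_ofNat]; norm_num]; exact pow_ne_zero _ ((map_ne_zero f).2 h2))
  have q : ∀ i, (μ i : L) + (μ i : L)⁻¹ = f s ∨ (μ i : L) + (μ i : L)⁻¹ = -f s := fun i => by
    have : (μ i : L) ^ 4 = -1 := by
      simpa using congrArg Units.val (congrFun (tor_inj (show tor (μ ^ 4) = tor fun _ => -1 by
        rw [map_pow, ← e, conj_pow, h4, tor_neg_one]; simp)) i)
    rw [← sq_eq_sq_iff_eq_or_eq_neg, ← map_pow, hs, map_ofNat]
    have j := mul_inv_cancel₀ (μ i).ne_zero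
    linear_combination (μ i : L)⁻¹ ^ 2 * this + (2 - (μ i : L) ^ 2 * ((μ i : L) * (μ i : L)⁻¹ + 1)) * j
  have := tr_tor μ
  rw [← e, tr_conj, tr_map, Fin.sum_univ_three] at this
  simp only [← f.injective.eq_iff (a := tr g), this, map_neg, map_mul, map_ofNat]
  rcases q 0 with a | a <;> rcases q 1 with b | b <;> rcases q 2 with c | c <;> rw [a, b, c] <;>
    first | (left; ring1) | (right; left; ring1) | (right; right; left; ring1) | (right; right; right; ring1)

theorem tr_seven' (h7 : (7 : K) ≠ 0) (hc : c ∈ Sp K) (h : c ^ 7 = 1) (h1 : c ≠ 1) (e : IsConj c (c ^ 2)) :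
    tr c = -1 := by
  let L := AlgebraicClosure K
  let f := algebraMap K L
  obtain ⟨x, e⟩ := isConj_iff.1 e
  obtain ⟨l, -, ζ, z, -, e⟩ := six_wt (mp_mem_Sp f hc) (x := mp f x) (r := 7) (k := 2) (by norm_num)
    (by rw [Nat.cast_ofNat, ← map_ofNat f 7]; exact (map_ne_zero f).2 h7) (by rw [← map_pow, h, map_one])
    (fun e => h1 (mp_inj f (e.trans (map_one _).symm))) (by rw [← map_inv, ← map_mul, ← map_mul, e, map_pow]) (by decide)
  have z := IsPrimitiveRoot.coe_units_iff.2 z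
  have s := z.geom_sum_eq_zero (by norm_num)
  have i : (ζ : L)⁻¹ = ζ ^ 6 := inv_eq_of_mul_eq_one_right (by rw [← pow_succ', z.pow_eq_one])
  apply f.injective
  rw [← tr_map, ← tr_conj _ l, e, tr_tor, map_neg, map_one]
  simp only [Fin.sum_univ_three, Finset.sum_range_succ, Finset.sum_range_zero, Matrix.cons_val, Units.val_pow_eq_pow_val,
    ← inv_pow, i, ← pow_mul] at s ⊢
  rw [pow_eq_pow_mod (2 ^ 4) z.pow_eq_one, pow_eq_pow_mod (6 * 2 ^ 2) z.pow_eq_one,
    pow_eq_pow_mod (6 * 2 ^ 4) z.pow_eq_one]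
  linear_combination s

end Cfsg.Lib.S6Q
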