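import Cfsg.Agent.Lib.S6Q.T3
import Cfsg.Agent.Lib.S6Q.T2b
import Cfsg.Agent.Lib.O7.Hur
import Cfsg.Agent.S2117
import Cfsg.Agent.S2118
import Cfsg.Agent.Lib.S6Q.T4b
import Cfsg.Agent.Lib.S6Q.T4c

/-!
# Tools for the endings
-/

set_option autoImplicit false

namespace Cfsg.Lib.S6Q

open scoped MatrixGroups Matrix commutatorElement
open Cfsg.Geo Cfsg.Lib.Asch Cfsg.Lib.Linear Cfsg.Lib.Q4 Cfsg.Lib.Symp Module
open Cfsg.Lib.Q4R (Sq HasTv sc dg)

variable {K : Type*} [Field K] {a b c g t : G6 K}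

/-- The symmetric matrices fixed by `a` (the fixed points on `S² V`). -/
def Sm (a : G6 K) : Submodule K (Matrix I6 I6 K) where
  carrier := {X | Xᵀ = X ∧ a.1 * X * a.1ᵀ = X}
  add_mem' := fun h h' => ⟨by rw [Matrix.transpose_add, h.1, h'.1], by rw [mul_add, add_mul, h.2, h'.2]⟩
  zero_mem' := ⟨Matrix.transpose_zero, by rw [mul_zero, zero_mul]⟩
  smul_mem' := fun c _ h => ⟨by rw [Matrix.transpose_smul, h.1], by rw [mul_smul_comm, smul_mul_assoc, h.2]⟩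

/-- The dimension of the fixed space on `S² V`. -/
noncomputable def sd (a : G6 K) : ℕ := finrank K (Sm a)

theorem mem_Sm {X : Matrix I6 I6 K} : X ∈ Sm a ↔ Xᵀ = X ∧ a.1 * X * a.1ᵀ = X := Iff.rfl

theorem sd_neg : sd (-a) = sd a := by
  rw [sd, sd, show Sm (-a) = Sm a from Submodule.ext fun X => by simp [mem_Sm]]

theorem t4_le (a k : G6 K) : sd a ≤ sd (k * a * k⁻¹) := by
  have k3 : k.1ᵀ * (k⁻¹).1ᵀ = 1 := by rw [← Matrix.transpose_mul, Units.inv_mul, Matrix.transpose_one]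
  have hm : ∀ X ∈ Sm a, LinearMap.mulLeftRight K (k.1, k.1ᵀ) X ∈ Sm (k * a * k⁻¹) := fun X hX => by
    rw [LinearMap.mulLeftRight_apply]
    refine ⟨by simp only [Matrix.transpose_mul, Matrix.transpose_transpose, hX.1, mul_assoc], ?_⟩
    simp only [Units.val_mul, Matrix.transpose_mul]
    calc k.1 * a.1 * (k⁻¹).1 * (k.1 * X * k.1ᵀ) * ((k⁻¹).1ᵀ * (a.1ᵀ * k.1ᵀ))
        = k.1 * (a.1 * ((k⁻¹).1 * k.1) * X * (k.1ᵀ * (k⁻¹).1ᵀ) * a.1ᵀ) * k.1ᵀ := by simp only [mul_assoc]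
      _ = _ := by rw [k3, Units.inv_mul, mul_one, mul_one, hX.2]
  refine LinearMap.finrank_le_finrank_of_injective (f := (LinearMap.mulLeftRight K (k.1, k.1ᵀ)).restrict hm)
    ((injective_iff_map_eq_zero _).2 fun X hX => Subtype.ext ?_)
  have e : k.1 * X.1 * k.1ᵀ = 0 := congrArg Subtype.val hX
  calc X.1 = ((k⁻¹).1 * k.1) * X.1 * (k.1ᵀ * (k⁻¹).1ᵀ) := by rw [k3, Units.inv_mul, one_mul, mul_one]
    _ = (k⁻¹).1 * (k.1 * X.1 * k.1ᵀ) * (k⁻¹).1ᵀ := by simp only [mul_assoc]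
    _ = 0 := by rw [e, mul_zero, zero_mul]

theorem sd_conj (k : G6 K) : sd (k * a * k⁻¹) = sd a := by
  refine le_antisymm ?_ (t4_le a k)
  have := t4_le (k * a * k⁻¹) k⁻¹
  rwa [show k⁻¹ * (k * a * k⁻¹) * k⁻¹⁻¹ = a by group] at this

/-- An enumeration of the index set. -/
def t4o : I6 → ℕ := Sum.elim (fun i => i.1) fun i => i.1 + 3

theorem t4o_inj : ∀ i j, t4o i ≤ t4o j → t4o j ≤ t4o i → i = j := by decide

/-- The entries at the positions in `T`. -/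
def t4r (T : Finset (I6 × I6)) : Matrix I6 I6 K →ₗ[K] (T → K) where
  toFun X p := X p.1.1 p.1.2
  map_add' _ _ := rfl
  map_smul' _ _ := rfl

theorem sd_dg_ge (d : I6 → Kˣ) (T : Finset (I6 × I6)) (h : ∀ p ∈ T, t4o p.1 ≤ t4o p.2 ∧ d p.1 * d p.2 = 1) :
    T.card ≤ sd (dg d) := by
  classical
  rw [← Fintype.card_coe, ← Module.finrank_fintype_fun_eq_card K]
  refine LinearMap.finrank_le_finrank_of_surjective (f := (t4r T).domRestrict (Sm (dg d))) fun w => ?_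
  let X : Matrix I6 I6 K := Matrix.of fun i j =>
    if e : (i, j) ∈ T then w ⟨_, e⟩ else if e : (j, i) ∈ T then w ⟨_, e⟩ else 0
  refine ⟨⟨X, ?_, ?_⟩, funext fun p => dif_pos p.2⟩
  · ext i j
    simp only [X, Matrix.transpose_apply, Matrix.of_apply]
    by_cases e : (i, j) ∈ T <;> by_cases e' : (j, i) ∈ T
    · obtain rfl := t4o_inj i j (h _ e).1 (h _ e').1
      rfl
    · rw [dif_neg e', dif_pos e, dif_pos e]
    · rw [dif_pos e', dif_neg e, dif_pos e']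
    · rw [dif_neg e', dif_neg e, dif_neg e, dif_neg e']
  · ext i j
    rw [Q4R.dg_val, Matrix.diagonal_transpose, Matrix.mul_diagonal, Matrix.diagonal_mul, mul_right_comm,
      ← Units.val_mul]
    simp only [X, Matrix.of_apply]
    split_ifs with e e'
    · rw [(h _ e).2, Units.val_one, one_mul]
    · rw [mul_comm (d i), (h _ e').2, Units.val_one, one_mul]
    · rw [mul_zero]

theorem mem_Sm_one {X : Matrix I6 I6 K} : X ∈ Sm (1 : G6 K) ↔ Xᵀ = X := by simp [mem_Sm]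

theorem sd_one : sd (1 : G6 K) = 21 := by
  let T : Finset (I6 × I6) := Finset.univ.filter fun p => t4o p.1 ≤ t4o p.2
  have c : T.card = 21 := by decide
  refine le_antisymm ?_ ?_
  · rw [← c, ← Fintype.card_coe, ← Module.finrank_fintype_fun_eq_card K]
    refine LinearMap.finrank_le_finrank_of_injective (f := (t4r T).domRestrict (Sm 1))
      ((injective_iff_map_eq_zero _).2 fun X hX => Subtype.ext (Matrix.ext fun i j => ?_))
    rcases le_total (t4o i) (t4o j) with e | e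
    · exact congrFun hX ⟨(i, j), by simpa [T] using e⟩
    · rw [← X.2.1]
      exact congrFun hX ⟨(j, i), by simpa [T] using e⟩
  · rw [← c, ← map_one (dg (ι := I6) (K := K))]
    exact sd_dg_ge 1 T fun p hp => ⟨by simpa [T] using hp, mul_one _⟩

/-- The action on symmetric matrices. -/
def t4a : G6 K →* End K (Sm (1 : G6 K)) where
  toFun g := (LinearMap.mulLeftRight K (g.1, g.1ᵀ)).restrict fun X hX => mem_Sm_one.2 (by
    simp only [LinearMap.mulLeftRight_apply, Matrix.transpose_mul, Matrix.transpose_transpose, hX.1, mul_assoc])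
  map_one' := LinearMap.ext fun X => Subtype.ext (by simp)
  map_mul' g h := LinearMap.ext fun X => Subtype.ext (by simp [Matrix.transpose_mul, mul_assoc])

theorem t4a_val (g : G6 K) (X : Sm (1 : G6 K)) : (t4a g X).1 = g.1 * X.1 * g.1ᵀ := rfl

theorem t4a_ker {X : Sm (1 : G6 K)} : X ∈ LinearMap.ker (t4a g - 1) ↔ g.1 * X.1 * g.1ᵀ = X.1 := by
  rw [LinearMap.mem_ker, LinearMap.sub_apply, sub_eq_zero, Subtype.ext_iff]; rfl

theorem t4a_sd (g : G6 K) : finrank K (LinearMap.ker (t4a g - 1)) = sd g := by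
  have : (LinearMap.ker (t4a g - 1)).map (Sm (1 : G6 K)).subtype = Sm g := by
    ext X
    constructor
    · rintro ⟨X, hX, rfl⟩
      exact ⟨X.2.1, t4a_ker.1 hX⟩
    · exact fun hX => ⟨⟨X, mem_Sm_one.2 hX.1⟩, t4a_ker.2 hX.2, rfl⟩
  rw [← Submodule.finrank_map_subtype_eq, sd, this]

theorem t4_scal [IsAlgClosed K] (hi : Irr (Subgroup.closure {a, b})) {Z : Matrix I6 I6 K} (ha : a.1 * Z = Z * a.1)
    (hb : b.1 * Z = Z * b.1) : ∃ c : K, Z = c • 1 := by
  obtain ⟨c, hc⟩ := spectrum.nonempty_of_isAlgClosed_of_finiteDimensional K Z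
  have h1 : (1 : Matrix I6 I6 K) ∈ Hm a a ⊓ Hm b b := ⟨mem_Hm.2 (by simp), mem_Hm.2 (by simp)⟩
  have hZ : Z ∈ Hm a a ⊓ Hm b b := ⟨mem_Hm.2 ha, mem_Hm.2 hb⟩
  refine ⟨c, (sub_eq_zero.1 (by_contra fun k => spectrum.mem_iff.1 hc ?_)).symm⟩
  rw [Algebra.algebraMap_eq_smul_one]
  exact T2.unit_of_ker hi k (sub_mem (Submodule.smul_mem _ _ h1) hZ)

theorem t4_zero (h2 : (2 : K) ≠ 0) {X : Matrix I6 I6 K} (h : Xᵀ = X) {c : K} (e : X = c • Matrix.J (Fin 3) K) :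
    X = 0 := by
  have : X = -X := by
    conv_lhs => rw [← h, e, Matrix.transpose_smul, Matrix.J_transpose, smul_neg, ← e]
  rw [eq_neg_iff_add_eq_zero, ← two_smul K] at this
  exact (smul_eq_zero.1 this).resolve_left h2

/-- `T2.scott_gen₂` on the `21`-dimensional space of symmetric matrices.  A fixed `X` gives `X J` commuting with `a`, `b`, so `X J` is
scalar (`T2.schur`) and `X` is symmetric and alternating; dually (`tr (X Y)` is nondegenerate on symmetric matrices) a `Y`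
perpendicular to all `g X gᵀ - X` has `gᵀ Y g = Y`, and `J Y` commutes with `a`, `b`. -/
theorem scott_sp [IsAlgClosed K] (h2 : (2 : K) ≠ 0) (ha : a ∈ Sp K) (hb : b ∈ Sp K) (hi : Irr (Subgroup.closure {a, b})) :
    sd a + sd b + sd (a * b) ≤ 21 := by
  have h := T2.scott_gen₂ (t4a a) (t4a b)
  have JJ : Matrix.J (Fin 3) K * Matrix.J (Fin 3) K = -1 := Matrix.J_squared _ _
  have e1 : LinearMap.ker (t4a a - 1) ⊓ LinearMap.ker (t4a b - 1) = ⊥ := eq_bot_iff.2 fun X hX => by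
    have k : ∀ g ∈ Sp K, X ∈ LinearMap.ker (t4a g - 1) →
        g.1 * (X.1 * Matrix.J (Fin 3) K) = X.1 * Matrix.J (Fin 3) K * g.1 := fun g hg e => by
      conv_lhs => rw [← mem_Sp'.1 hg]
      conv_rhs => rw [← t4a_ker.1 e]
      simp only [mul_assoc]
    obtain ⟨c, hc⟩ := t4_scal hi (k a ha hX.1) (k b hb hX.2)
    refine Subtype.ext (t4_zero h2 X.2.1 (c := -c) ?_)
    calc X.1 = -(X.1 * Matrix.J (Fin 3) K * Matrix.J (Fin 3) K) := by rw [mul_assoc, JJ, mul_neg, mul_one, neg_neg]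
      _ = _ := by rw [hc, smul_mul_assoc, one_mul, neg_smul]
  rw [← map_mul, t4a_sd, t4a_sd, t4a_sd, e1, finrank_bot] at h
  set W := LinearMap.range (t4a a - 1) ⊔ LinearMap.range (t4a b - 1)
  have k : ∀ g ∈ Sp K, ∀ Y : Sm (1 : G6 K), (∀ X, (Y.1 * ((t4a g - 1) X).1).trace = 0) →
      g.1 * (Matrix.J (Fin 3) K * Y.1) = Matrix.J (Fin 3) K * Y.1 * g.1 := fun g hg Y e => by
    have zs : (g.1ᵀ * Y.1 * g.1 - Y.1)ᵀ = g.1ᵀ * Y.1 * g.1 - Y.1 := by
      simp only [Matrix.transpose_sub, Matrix.transpose_mul, Matrix.transpose_transpose, Y.2.1, mul_assoc]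
    have z1 : ∀ X : Matrix I6 I6 K, Xᵀ = X → ((g.1ᵀ * Y.1 * g.1 - Y.1) * X).trace = 0 := fun X hX => by
      have := e ⟨X, mem_Sm_one.2 hX⟩
      rw [LinearMap.sub_apply, Submodule.coe_sub, t4a_val, mul_sub, Matrix.trace_sub, ← mul_assoc,
        Matrix.trace_mul_comm] at this
      rw [sub_mul, Matrix.trace_sub]
      simpa only [mul_assoc, End.one_apply] using this
    have z2 : g.1ᵀ * Y.1 * g.1 - Y.1 = 0 := eq_zero_of_trace_mul _ fun X => by
      have := z1 (X + Xᵀ) (by rw [Matrix.transpose_add, Matrix.transpose_transpose, add_comm])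
      rw [mul_add, Matrix.trace_add, ← Matrix.trace_transpose (_ * Xᵀ), Matrix.transpose_mul,
        Matrix.transpose_transpose, zs, Matrix.trace_mul_comm X, ← two_mul] at this
      exact (mul_eq_zero.1 this).resolve_left h2
    have a' : g.1 * Matrix.J (Fin 3) K * g.1ᵀ = Matrix.J (Fin 3) K :=
      SymplecticGroup.mem_iff.1 (SymplecticGroup.mem_iff'.2 (mem_Sp'.1 hg))
    conv_lhs => rw [← sub_eq_zero.1 z2]
    conv_rhs => rw [← a']
    simp only [mul_assoc]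
  have h1 := T2.fr_le ((((LinearMap.mul K (Matrix I6 I6 K)).compr₂ (Matrix.traceLinearMap I6 K K)).domRestrict₁₂
    (Sm (1 : G6 K)) (Sm (1 : G6 K))).domRestrict₂ W) (X := ⊤) (P := ⊤) (Q := ⊥) (fun _ _ => trivial) fun Y _ e => by
      obtain ⟨c, hc⟩ := t4_scal hi
        (k a ha Y fun X => LinearMap.congr_fun e ⟨_, Submodule.mem_sup_left ⟨X, rfl⟩⟩)
        (k b hb Y fun X => LinearMap.congr_fun e ⟨_, Submodule.mem_sup_right ⟨X, rfl⟩⟩)
      refine Subtype.ext (t4_zero h2 Y.2.1 (c := -c) ?_)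
      calc Y.1 = -(Matrix.J (Fin 3) K * (Matrix.J (Fin 3) K * Y.1)) := by
            rw [← mul_assoc, JJ, neg_mul, one_mul, neg_neg]
        _ = _ := by rw [hc, mul_smul_comm, mul_one, neg_smul]
  have h4 : finrank K (W →ₗ[K] K) = finrank K W := Subspace.dual_finrank_eq (K := K) (V := W)
  rw [finrank_top, finrank_top, finrank_bot, h4] at h1
  have h3 : finrank K (Sm (1 : G6 K)) = 21 := sd_one
  omega

theorem t4_log [IsAlgClosed K] {r : ℕ} (hr : r.Prime) (h : (r : K) ≠ 0) : ∃ E : AddChar (ZMod r) Kˣ,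
    Function.Injective E ∧ ∀ ξ : Kˣ, ξ ^ r = 1 → ∃ u, E u = ξ := by
  have : NeZero (r : K) := ⟨h⟩
  have : NeZero r := ⟨hr.ne_zero⟩
  obtain ⟨ζ, hζ⟩ := HasEnoughRootsOfUnity.exists_primitiveRoot K r
  have hu := hζ.isUnit hr.ne_zero
  have p : IsPrimitiveRoot hu.unit r := IsPrimitiveRoot.coe_units_iff.1 (by simpa using hζ)
  obtain ⟨E, -, h1, h2⟩ := t1_log hr p.pow_eq_one (p.ne_one hr.one_lt)
  exact ⟨E, h1, h2⟩

theorem sd_log {r : ℕ} [NeZero r] (E : AddChar (ZMod r) Kˣ) (e : I6 → ZMod r) :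
    (Finset.univ.filter fun p : I6 × I6 => t4o p.1 ≤ t4o p.2 ∧ e p.1 + e p.2 = 0).card ≤ sd (dg fun i => E (e i)) :=
  sd_dg_ge _ _ fun p hp => by
    rw [Finset.mem_filter] at hp
    exact ⟨hp.2.1, by rw [← E.map_add_eq_mul, hp.2.2, E.map_zero_eq_one]⟩

theorem t4_dec2 : ∀ e : I6 → ZMod 2, (Finset.univ.filter fun i => e i = 1).card = 2 →
    13 ≤ (Finset.univ.filter fun p : I6 × I6 => t4o p.1 ≤ t4o p.2 ∧ e p.1 + e p.2 = 0).card := by
  decide +kernel

theorem TI.sd [IsAlgClosed K] (h2 : (2 : K) ≠ 0) (h : TI t) : 13 ≤ sd t := by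
  classical
  obtain ⟨k, d, q, e, r⟩ := inv_dg h2 h.1
  obtain ⟨E, i, s⟩ := t4_log (K := K) Nat.prime_two (by exact_mod_cast h2)
  choose u hu using fun j => s (d j) (by rcases q j with z | z <;> simp [z])
  obtain rfl : d = fun j => E (u j) := funext fun j => (hu j).symm
  rw [← sd_conj k, e]
  refine (t4_dec2 u ?_).trans (sd_log E u)
  have e1 : E 1 = -1 := by
    obtain ⟨v, hv⟩ := s (-1) (by simp)
    rcases (by decide : ∀ v : ZMod 2, v = 0 ∨ v = 1) v with rfl | rfl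
    · exact absurd (E.map_zero_eq_one.symm.trans hv) (t3_ne h2 1)
    · exact hv
  refine Eq.trans ?_ (r.symm.trans h.2)
  rw [t3n]
  congr 1
  ext j
  simp only [Finset.mem_filter, ← e1, i.eq_iff]

theorem t4_dec3 : ∀ e : Fin 3 → ZMod 3, 7 ≤ (Finset.univ.filter fun p : I6 × I6 => t4o p.1 ≤ t4o p.2 ∧
    Sum.elim e (fun i => -e i) p.1 + Sum.elim e (fun i => -e i) p.2 = 0).card := by
  decide +kernel

theorem t4_tor [IsAlgClosed K] {r : ℕ} (hc : c ∈ Sp K) (h : c ^ r = 1) (hr : (r : K) ≠ 0) (E : AddChar (ZMod r) Kˣ)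
    (s : ∀ ξ : Kˣ, ξ ^ r = 1 → ∃ u, E u = ξ) :
    ∃ (k : G6 K) (e : Fin 3 → ZMod r), k * c * k⁻¹ = dg fun j => E (Sum.elim e (fun i => -e i) j) := by
  obtain ⟨k, -, μ, q, e⟩ := exists_conj_tor hc h hr
  choose u hu using fun j => s (μ j) (q j)
  obtain rfl : μ = fun j => E (u j) := funext fun j => (hu j).symm
  exact ⟨k, u, e.trans (congrArg dg (funext (t1w_log E u)))⟩

theorem t4_char {p : ℕ} (hp : p.Prime) (h : (p : K) = 0) : CharP K p := (CharP.charP_iff_prime_eq_zero hp).2 h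

/-- (A linear map with `f ^ 3 = 1` in characteristic three fixes a third; otherwise `exists_conj_tor`.) -/
theorem sd_three [IsAlgClosed K] (h2 : (2 : K) ≠ 0) (hb : b ∈ Sp K) (h : b ^ 3 = 1) : 7 ≤ sd b := by
  by_cases h3 : ((3 : ℕ) : K) = 0
  · have := t4_char Nat.prime_three h3
    have : Fact (Nat.Prime 3) := ⟨Nat.prime_three⟩
    have h1 := O7.T3.le_pow (t4a b - 1) (3 ^ 1)
    have e : (t4a b - 1) ^ 3 ^ 1 = 0 := by
      rw [O7.T3.unip 3 (Commute.one_right _), pow_one, ← map_pow, h, map_one, one_pow]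
      exact sub_self (1 : End K (Sm (1 : G6 K)))
    rw [e, LinearMap.range_zero, finrank_bot, zero_add, t4a_sd] at h1
    have h3 : finrank K (Sm (1 : G6 K)) = 21 := sd_one
    omega
  · obtain ⟨E, -, s⟩ := t4_log (K := K) Nat.prime_three h3
    obtain ⟨k, u, e⟩ := t4_tor hb h h3 E s
    rw [← sd_conj k, e]
    exact (t4_dec3 u).trans (sd_log E _)

theorem sd_ge [IsAlgClosed K] (hc : c ∈ Sp K) {n : ℕ} (h : c ^ n = 1) (hn : (n : K) ≠ 0) : 3 ≤ sd c := by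
  obtain ⟨k, -, μ, -, e⟩ := exists_conj_tor hc h hn
  rw [← sd_conj k, e, tor_eq]
  refine le_trans (by decide) (sd_dg_ge _ (Finset.univ.image fun i : Fin 3 => (.inl i, .inr i)) fun p hp => ?_)
  obtain ⟨i, -, rfl⟩ := Finset.mem_image.1 hp
  exact ⟨Nat.le_add_right _ _, mul_inv_cancel _⟩

/-- The multiplicities. -/
def t4n {r : ℕ} (e : I6 → ZMod r) (u : ZMod r) : ℕ := (Finset.univ.filter fun i => e i = u).card

theorem t4n_sum {r : ℕ} [NeZero r] (e : I6 → ZMod r) : ∑ u, t4n e u = 6 :=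
  (Finset.card_eq_sum_card_fiberwise (f := e) (s := Finset.univ) (t := Finset.univ) fun _ _ => Finset.mem_univ _).symm

theorem hd_log {r : ℕ} [NeZero r] {E : AddChar (ZMod r) Kˣ} (i : Function.Injective E) (e f : I6 → ZMod r) :
    hd (dg fun j => E (e j)) (dg fun j => E (f j)) = ∑ u, t4n e u * t4n f u := by
  classical
  rw [hd_dg]
  simp only [i.eq_iff, t4n, Finset.card_filter, Finset.sum_mul_sum, Fintype.sum_prod_type]
  rw [Finset.sum_comm (γ := ZMod r)]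
  refine Finset.sum_congr rfl fun j _ => ?_
  rw [Finset.sum_comm (γ := ZMod r)]
  refine Finset.sum_congr rfl fun l _ => ?_
  simp [eq_comm]

theorem t4_dg [IsAlgClosed K] {r : ℕ} (h : c ^ r = 1) (hr : (r : K) ≠ 0) (E : AddChar (ZMod r) Kˣ)
    (s : ∀ ξ : Kˣ, ξ ^ r = 1 → ∃ u, E u = ξ) : ∃ (k : G6 K) (e : I6 → ZMod r), k * c * k⁻¹ = dg fun j => E (e j) := by
  obtain ⟨k, e⟩ := exists_dg (fun _ : Unit => c) (fun _ _ => .refl _) fun _ => ⟨r, hr, h⟩
  obtain ⟨d, e⟩ := e ()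
  have q : d ^ r = 1 := Q4R.dg_inj (K := K) (by rw [map_pow, ← e, conj_pow, h, map_one]; group)
  choose u hu using fun j => s (d j) (congrFun q j)
  exact ⟨k, u, e.trans (congrArg dg (funext fun j => (hu j).symm))⟩

theorem t4_sum3 (x : ZMod 3 → ℕ) : ∑ u, x u = x 0 + x 1 + x 2 := Fin.sum_univ_three x

theorem t4_sum5 (x : ZMod 5 → ℕ) : ∑ u, x u = x 0 + x 1 + x 2 + x 3 + x 4 := Fin.sum_univ_five x

theorem t4_three {x y z : ℕ} (h : x + y + z = 6) :
    12 ≤ x * x + y * y + z * z ∧ (x * x + y * y + z * z ≤ 12 → x = 2 ∧ y = 2 ∧ z = 2) := by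
  obtain rfl : z = 6 - x - y := by omega
  have hx : x ≤ 6 := by omega
  have hy : y ≤ 6 := by omega
  interval_cases x <;> interval_cases y <;> omega

theorem hd_three [IsAlgClosed K] (h : b ^ 3 = 1) : 12 ≤ hd b b := by
  by_cases h3 : ((3 : ℕ) : K) = 0
  · have := t4_char Nat.prime_three h3
    have : Fact (Nat.Prime 3) := ⟨Nat.prime_three⟩
    have := hd_char 3 h h
    omega
  · obtain ⟨E, i, s⟩ := t4_log (K := K) Nat.prime_three h3
    obtain ⟨k, u, e⟩ := t4_dg h h3 E s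
    rw [← hd_conj b b k k, e, hd_log i, t4_sum3]
    exact (t4_three ((t4_sum3 _).symm.trans (t4n_sum u))).1

/-- Both have eigenvalues `1, 1, ω, ω, ω², ω²` (or `hd_char`). -/
theorem hd_three' [IsAlgClosed K] (ha : a ^ 3 = 1) (hb : b ^ 3 = 1) (h : hd a a ≤ 12) (h' : hd b b ≤ 12) : 12 ≤ hd a b := by
  by_cases h3 : ((3 : ℕ) : K) = 0
  · have := t4_char Nat.prime_three h3
    have : Fact (Nat.Prime 3) := ⟨Nat.prime_three⟩
    have := hd_char 3 ha hb
    omega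
  · obtain ⟨E, i, s⟩ := t4_log (K := K) Nat.prime_three h3
    obtain ⟨k, u, e⟩ := t4_dg ha h3 E s
    obtain ⟨l, v, e'⟩ := t4_dg hb h3 E s
    rw [← hd_conj a a k k, e, hd_log i, t4_sum3] at h
    rw [← hd_conj b b l l, e', hd_log i, t4_sum3] at h'
    obtain ⟨a1, a2, a3⟩ := (t4_three ((t4_sum3 _).symm.trans (t4n_sum u))).2 h
    obtain ⟨b1, b2, b3⟩ := (t4_three ((t4_sum3 _).symm.trans (t4n_sum v))).2 h'
    rw [← hd_conj a b k l, e, e', hd_log i, t4_sum3, a1, a2, a3, b1, b2, b3]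

theorem hd_five [IsAlgClosed K] (h5 : (5 : K) ≠ 0) (h : c ^ 5 = 1) : 8 ≤ hd c c := by
  obtain ⟨E, i, s⟩ := t4_log (K := K) Nat.prime_five (by exact_mod_cast h5)
  obtain ⟨k, u, e⟩ := t4_dg h (by exact_mod_cast h5) E s
  rw [← hd_conj c c k k, e, hd_log i, t4_sum5]
  have h1 := (t4_sum5 _).symm.trans (t4n_sum u)
  have h2 : ∀ x : ℕ, 3 * x ≤ x * x + 2 := fun x => by
    rcases x with _ | _ | x
    · omega
    · omega
    · nlinarith
  have := h2 (t4n u 0)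
  have := h2 (t4n u 1)
  have := h2 (t4n u 2)
  have := h2 (t4n u 3)
  have := h2 (t4n u 4)
  omega

theorem t4_dec5 : ∀ e : Fin 3 → ZMod 5,
    ∑ u, t4n (Sum.elim e fun i => -e i) u * t4n (Sum.elim e fun i => -e i) u ≤ 8 →
      ∀ u, t4n (Sum.elim e fun i => -e i) u = if u = 0 then 2 else 1 := by
  decide +kernel

/-- Both have eigenvalues `1, 1, ζ, ζ², ζ³, ζ⁴`. -/
theorem hd_five' [IsAlgClosed K] (h5 : (5 : K) ≠ 0) (sa : a ∈ Sp K) (sb : b ∈ Sp K) (ha : a ^ 5 = 1) (hb : b ^ 5 = 1)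
    (h : hd a a ≤ 8) (h' : hd b b ≤ 8) : 8 ≤ hd a b := by
  obtain ⟨E, i, s⟩ := t4_log (K := K) Nat.prime_five (by exact_mod_cast h5)
  obtain ⟨k, u, e⟩ := t4_tor sa ha (by exact_mod_cast h5) E s
  obtain ⟨l, v, e'⟩ := t4_tor sb hb (by exact_mod_cast h5) E s
  rw [← hd_conj a a k k, e, hd_log i] at h
  rw [← hd_conj b b l l, e', hd_log i] at h'
  rw [← hd_conj a b k l, e, e', hd_log i]
  simp only [t4_dec5 u h, t4_dec5 v h']
  decide

theorem hd_mp {L : Type*} [Field L] (f : K →+* L) : hd (mp f a) (mp f b) = hd a b :=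
  hd_mp' f

/-- (Any field and characteristic: go to the algebraic closure; `tr_unip`, `exists_conj_tor`.) -/
theorem tr_int (hg : g ∈ Sp K) (h : g ^ 4 = 1 ∨ g ^ 6 = 1) : ∃ n : ℤ, tr g = n :=
  tr_int' hg h

theorem tr_eight (h2 : (2 : K) ≠ 0) (hg : g ∈ Sp K) (h : g ^ 4 = -1) {s : K} (hs : s ^ 2 = 2) :
    tr g = s ∨ tr g = -s ∨ tr g = 3 * s ∨ tr g = -3 * s :=
  tr_eight' h2 hg h hs

/-- `six_wt`. -/
theorem tr_seven (h7 : (7 : K) ≠ 0) (hc : c ∈ Sp K) (h : c ^ 7 = 1) (h1 : c ≠ 1) (e : IsConj c (c ^ 2)) : tr c = -1 :=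
  tr_seven' h7 hc h h1 e

variable {F : Type*} [Field F] [Fintype F] (p : ℕ) [Fact p.Prime] [CharP F p] {H P : Subgroup (G6 F)}

/-- The eigenvalues are permuted freely by `λ ↦ λ⁻¹` and `λ ↦ λ ^ 9 = -λ` (compare `no_eight`). -/
theorem no_sixteen (hq : Fintype.card F = 9) {g : G6 F} (hg : g ∈ Sp F) (h : g ^ 8 = -1) : False :=
  no_sixteen' hq hg h

/-- The stabiliser of `D` is proper: if `t` has plane `U = ⟨u, a⟩`, `om u a = 1`, the transvections along `u + w`, `w ⟂ U`, move `U`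
to `q⁴` different planes `⟨u, a ± w⟩`. -/
theorem Mx.mem_of_ti (m : Mx H P) (h2 : (2 : F) ≠ 0) {D : Set (G6 F)} (hD : D.Finite) (c : D.ncard < Fintype.card F ^ 4)
    {t : G6 F} (ht : t ∈ D) (s : t ∈ Sp F) (i : TI t) (hH : ∀ g ∈ H, ∀ d ∈ D, g * d * g⁻¹ ∈ D) {x : G6 F} (hx : x ∈ Sp F)
    (e : ∀ d ∈ D, x * d * x⁻¹ ∈ D) : x ∈ H :=
  m.mem_of_ti' h2 hD c ht s i hH hx e

/-- `O7.hur_split` with `S2117`, `S2118`. -/
theorem Od.exists_sl {E : Type*} [Field E] [Fintype E] (h5 : 5 ≤ Fintype.card E) {π : pm P →* PSL(2, E)} (h : Od P π) :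
    ∃ ρ : SL(2, E) →* pm P, (∀ g, π (ρ g) = PSL2.toL g) ∧ ∀ g ∈ pm P, ∃ s, g = ρ s ∨ g = -ρ s :=
  h.exists_sl' h5

/-- If the image of `n ∈ H` acts on `X` with square the conjugation by `π y`, then `n² = ± y`. -/
theorem Od.sq_eq {X : Type*} [Group X] {π : pm P →* X} (h : Od P π) (m : Mx H P) {n : G6 F} (hn : n ∈ H) {φ : MulAut X}
    (e : ∀ (g : pm P) (hg : n * g.1 * n⁻¹ ∈ pm P), φ (π g) = π ⟨_, hg⟩) {y : pm P}
    (hy : ∀ x, φ (φ x) = π y * x * (π y)⁻¹) : n * n = y ∨ n * n = -y :=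
  h.sq_eq' m hn e hy

/-- Non-maximality from a model: `g i` generate `P`, the `g' i` lie in `L ≤ Sp₆(F)`, and they are conjugate over `K`
(`conj_desc`, `conj_sp`, `Mx.eq_of_card`). -/
theorem Od.card_eq_of_model {X : Type*} [Group X] {π : pm P →* X} (h : Od P π) (m : Mx H P) (hH : H ≤ pm P)
    {K : Type*} [Field K] (f : F →+* K) {ι : Type*} (g g' : ι → G6 F) (hg : pm (Subgroup.closure (Set.range g)) = pm P)
    {L : Subgroup (G6 F)} (hL : L ≤ Sp F) (n : -1 ∈ L) (hg' : ∀ i, g' i ∈ L) {k : G6 K}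
    (e : ∀ i, mp f (g i) = k * mp f (g' i) * k⁻¹) (c : ¬ Nat.card F ^ 6 ∣ Nat.card L) : Nat.card L = 2 * Nat.card X :=
  h.card_eq_of_model' m hH f g g' hg hL n hg' e c

end Cfsg.Lib.S6Q
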