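import Cfsg.Agent.Lib.S6Q.Cw
import Cfsg.Agent.Lib.O7.Tor
import Cfsg.Agent.Lib.Q4.Lin

/-!
# The torus of `Sp₆(K)` (any characteristic)

Port of the first half of `O7/Tor` (model: `exists_wt`, `dm_dgV`, `chi_dgV`, `tor_eig`, `tor_pair`).
-/

set_option autoImplicit false

namespace Cfsg.Lib.S6Q

open scoped MatrixGroups Matrix commutatorElement
open Cfsg.Geo Cfsg.Lib.Asch Cfsg.Lib.Linear Cfsg.Lib.Q4 Cfsg.Lib.Symp Module
open Cfsg.Lib.Q4R (Sq HasTv sc dg)

variable {K : Type*} [Field K]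

theorem tor_mem (μ : Fin 3 → Kˣ) : tor μ ∈ Sp K := by
  rw [mem_Sp', tor_eq, Q4R.dg_val, Matrix.diagonal_transpose]
  ext i j
  rw [Matrix.mul_diagonal, Matrix.diagonal_mul]
  rcases i with i | i <;> rcases j with j | j <;> simp [Matrix.J, Matrix.one_apply]
  all_goals split_ifs with e <;> simp [e]

theorem tor_inj : Function.Injective (tor (K := K)) := by
  intro μ ν e
  exact funext fun i => congrFun (Q4R.dg_inj e) (.inl i)

theorem tor_neg_one : (tor fun _ => -1 : G6 K) = -1 := by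
  refine Units.ext (Matrix.ext fun i j => ?_)
  rw [tor_eq, Q4R.dg_val]
  rcases i with i | i <;> rcases j with j | j <;> simp [Matrix.diagonal_apply, Matrix.one_apply]
  all_goals split_ifs <;> simp

open Classical in
theorem rk_tor (μ : Fin 3 → Kˣ) : rk (tor μ) = 2 * (Finset.univ.filter fun i => μ i ≠ 1).card := by
  rw [rk, tor_eq, Q4R.dg_val, ← Matrix.diagonal_one, Matrix.diagonal_sub, Matrix.rank_diagonal, Fintype.card_subtype]
  simp only [Finset.card_filter, Fintype.sum_sum_type, Sum.elim_inl, Sum.elim_inr, Ne, sub_eq_zero, Units.val_eq_one, inv_eq_one,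
    two_mul]
  congr!

theorem tr_tor (μ : Fin 3 → Kˣ) : tr (tor μ) = ∑ i, ((μ i : K) + (μ i : K)⁻¹) := by
  rw [tor_eq, tr_dg]
  simp [Fintype.sum_sum_type, Finset.sum_add_distrib]

open Classical in
/-- `X` intertwines two diagonal matrices iff `X i j = 0` whenever the `i`-th entry of the first differs
from the `j`-th entry of the second. -/
theorem hd_dg (a b : I6 → Kˣ) :
    hd (dg a) (dg b) = (Finset.univ.filter fun ij : I6 × I6 => a ij.1 = b ij.2).card := by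
  let e : Matrix I6 I6 K ≃ₗ[K] (I6 × I6 → K) := (LinearEquiv.curry K K I6 I6).symm
  let f : End K (I6 × I6 → K) := LinearMap.pi fun p => ((a p.1 : K) - b p.2) • LinearMap.proj p
  have : (Hm (dg a) (dg b)).map e.toLinearMap = f.eigenspace 0 := by
    ext X
    obtain ⟨X, rfl⟩ := e.surjective X
    rw [Submodule.mem_map_equiv, e.symm_apply_apply, mem_Hm, End.mem_eigenspace_iff, zero_smul, ← Matrix.ext_iff, funext_iff,
      Prod.forall]
    simp only [Q4R.dg_val, Matrix.diagonal_mul, Matrix.mul_diagonal]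
    exact forall₂_congr fun i j => by rw [mul_comm (X i j), ← sub_eq_zero, ← sub_mul]; rfl
  rw [hd, ← e.finrank_map_eq, this, O7.tor_finrank_eigen (d := fun p => (a p.1 : K) - b p.2) fun _ _ => rfl]
  simp only [sub_eq_zero, Units.val_inj]

theorem hd_conj (a b k l : G6 K) : hd (k * a * k⁻¹) (l * b * l⁻¹) = hd a b := by
  let e : Matrix I6 I6 K ≃ₗ[K] Matrix I6 I6 K := (Units.mulLeftLinearEquiv K _ k⁻¹).trans (Units.mulRightLinearEquiv K l)
  have : (Hm (k * a * k⁻¹) (l * b * l⁻¹)).map e.toLinearMap = Hm a b := by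
    ext X
    rw [Submodule.mem_map_equiv, mem_Hm, mem_Hm, show e.symm X = k.1 * (X * (l⁻¹).1) from rfl]
    simp only [Units.val_mul, mul_assoc, Units.inv_mul_cancel_left, Units.mul_right_inj]
    simp only [← mul_assoc, Units.mul_left_inj]
  rw [hd, hd, ← this, e.finrank_map_eq]

theorem hd_neg (a b : G6 K) : hd (-a) (-b) = hd a b := by
  rw [hd, hd, show Hm (-a) (-b) = Hm a b from Submodule.ext fun X => by simp [mem_Hm]]

section Wt

variable {J : Type*} {A : J → G6 K}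

theorem tw_pair (hA : ∀ a, A a ∈ Sp K) {χ ψ : J → Kˣ} {u v : I6 → K} (hu : ∀ a, (A a).1 *ᵥ u = (χ a : K) • u)
    (hv : ∀ a, (A a).1 *ᵥ v = (ψ a : K) • v) (h : om K u v ≠ 0) (a : J) : χ a * ψ a = 1 := by
  have := mem_Sp.1 (hA a) u v
  rw [hu, hv, alt_om.smul_left, alt_om.smul_right', ← mul_assoc] at this
  exact Units.ext (mul_right_cancel₀ h (this.trans (one_mul _).symm))

/-- `v` is a family of weight vectors spanning the perpendicular space of `C`: split off a hyperbolic pair. -/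
theorem tw_step (hA : ∀ a, A a ∈ Sp K) {w : I6 → J → Kˣ} {v : I6 → I6 → K} (hv : ∀ i a, (A a).1 *ᵥ v i = (w i a : K) • v i)
    {C : List (I6 → K)} (hC : C.length < 6) (h0 : ∀ i, ∀ c ∈ C, om K c (v i) = 0)
    (h1 : ∀ x, (∀ i, om K (v i) x = 0) → (∀ c ∈ C, om K c x = 0) → x = 0) :
    ∃ (e f : I6 → K) (χ : J → Kˣ), (∀ a, (A a).1 *ᵥ e = (χ a : K) • e) ∧ (∀ a, (A a).1 *ᵥ f = (((χ a)⁻¹ : Kˣ) : K) • f) ∧
      om K f e = 1 ∧ (∀ c ∈ C, om K c e = 0 ∧ om K c f = 0) ∧ ∃ v' : I6 → I6 → K,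
        (∀ i a, (A a).1 *ᵥ v' i = (w i a : K) • v' i) ∧ (∀ i, ∀ c ∈ e :: f :: C, om K c (v' i) = 0) ∧
          ∀ x, (∀ i, om K (v' i) x = 0) → (∀ c ∈ e :: f :: C, om K c x = 0) → x = 0 := by
  have H := alt_om (K := K)
  obtain ⟨x, hx, x0⟩ := Submodule.exists_mem_ne_zero_of_ne_bot (LinearMap.ker_ne_bot_of_finrank_lt
    (f := LinearMap.pi fun i : Fin C.length => H.bilin C[i]) (by simpa using hC))
  obtain ⟨i, hi⟩ := not_forall.1 fun k => x0 (h1 x k fun c hc => by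
    obtain ⟨j, rfl⟩ := List.mem_iff_get.1 hc
    exact congrFun hx j)
  obtain ⟨j, hj⟩ := not_forall.1 fun k => hi (by rw [h1 _ k (h0 i), H.zero_left])
  have wf : ∀ a, (A a).1 *ᵥ ((om K (v j) (v i))⁻¹ • v j) = (((w i a)⁻¹ : Kˣ) : K) • (om K (v j) (v i))⁻¹ • v j := fun a => by
    rw [Matrix.mulVec_smul, hv, smul_comm, eq_inv_of_mul_eq_one_left (tw_pair hA (hv j) (hv i) hj a)]
  have p : om K ((om K (v j) (v i))⁻¹ • v j) (v i) = 1 := by rw [H.smul_left, inv_mul_cancel₀ hj]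
  have q : ∀ c ∈ C, om K c ((om K (v j) (v i))⁻¹ • v j) = 0 := fun c hc => by rw [H.smul_right', h0 j c hc, mul_zero]
  generalize (om K (v j) (v i))⁻¹ • v j = f at wf p q
  refine ⟨v i, f, w i, hv i, wf, p, fun c hc => ⟨h0 i c hc, q c hc⟩, fun l => v l - om K f (v l) • v i + om K (v i) (v l) • f,
    fun l a => ?_, fun l c hc => ?_, fun y h2 h3 => h1 y (fun l => ?_) fun c hc => h3 c (by simp [hc])⟩
  · have e1 : om K f (v l) * w i a = w l a * om K f (v l) := by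
      by_cases z : om K f (v l) = 0
      · rw [z, zero_mul, mul_zero]
      · rw [inv_mul_eq_one.1 (tw_pair hA wf (hv l) z a), mul_comm]
    have e2 : om K (v i) (v l) * ((w i a)⁻¹ : Kˣ) = w l a * om K (v i) (v l) := by
      by_cases z : om K (v i) (v l) = 0
      · rw [z, zero_mul, mul_zero]
      · rw [← eq_inv_of_mul_eq_one_right (tw_pair hA (hv i) (hv l) z a), mul_comm]
    simp only [Matrix.mulVec_add, Matrix.mulVec_sub, Matrix.mulVec_smul, hv, wf, smul_smul, smul_add, smul_sub, e1, e2]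
  · rw [H.add_right, H.sub_right, H.smul_right', H.smul_right']
    rcases List.mem_cons.1 hc with rfl | hc
    · rw [H.alt, H.skew _ f, p]; ring
    rcases List.mem_cons.1 hc with rfl | hc
    · rw [H.alt, p]; ring
    · rw [h0 l c hc, h0 i c hc, q c hc]; ring
  · have := h2 l
    rwa [H.add_left, H.sub_left, H.smul_left, H.smul_left, h3 (v i) (by simp), h3 f (by simp), mul_zero, mul_zero, sub_zero,
      add_zero] at this

theorem tw_main [IsAlgClosed K] (hA : ∀ a, A a ∈ Sp K) (hc : ∀ i j, Commute (A i) (A j))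
    (h : ∀ i, ∃ n : ℕ, (n : K) ≠ 0 ∧ A i ^ n = 1) : ∃ k ∈ Sp K, ∀ a, ∃ μ, k * A a * k⁻¹ = tor μ := by
  have H := alt_om (K := K)
  obtain ⟨B, hB⟩ := Q4.exists_dg A hc h
  choose d hd using hB
  obtain ⟨e₀, f₀, χ₀, a₀, b₀, p₀, -, v₁, h₁, k₁, l₁⟩ := tw_step hA (w := fun i a => d a i)
    (v := fun i => (B⁻¹).1 *ᵥ Pi.single i 1) (C := []) (fun i a => by
      rw [Matrix.mulVec_mulVec, ← Units.val_mul, show A a * B⁻¹ = B⁻¹ * dg (d a) by rw [← hd]; group, Units.val_mul,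
        ← Matrix.mulVec_mulVec, Q4R.dg_val, Matrix.diagonal_mulVec_single, ← Matrix.mulVec_smul, ← Pi.single_smul, smul_eq_mul])
    (by simp) (by simp) fun x hx _ => H.nondeg x fun y => by
      have : y = ∑ i, (B.1 *ᵥ y) i • (B⁻¹).1 *ᵥ Pi.single i 1 := by
        simp only [← Matrix.mulVec_smul, ← Matrix.mulVec_sum, ← Pi.single_smul, smul_eq_mul, mul_one, Finset.univ_sum_single,
          Matrix.mulVec_mulVec, Units.inv_mul, Matrix.one_mulVec]
      rw [this, H.sum_left]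
      exact Finset.sum_eq_zero fun i _ => by rw [H.smul_left, hx, mul_zero]
  obtain ⟨e₁, f₁, χ₁, a₁, b₁, p₁, q₁, v₂, h₂, k₂, l₂⟩ := tw_step hA h₁ (by simp) k₁ l₁
  obtain ⟨e₂, f₂, χ₂, a₂, b₂, p₂, q₂, -⟩ := tw_step hA h₂ (by simp) k₂ l₂
  simp only [List.mem_cons, List.not_mem_nil, or_false, forall_eq_or_imp, forall_eq] at q₁ q₂
  let b : I6 → I6 → K := Sum.elim ![e₀, e₁, e₂] ![f₀, f₁, f₂]
  have G : ∀ i j, om K (b i) (b j) = Matrix.J (Fin 3) K i j := by
    rintro (i | i) (j | j) <;> fin_cases i <;> fin_cases j <;>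
      simp [b, Matrix.J, H.alt, p₀, p₁, p₂, q₁, q₂, H.skew e₀ f₀, H.skew e₁ f₁, H.skew e₂ f₂, H.skew e₁ e₀, H.skew e₁ f₀,
        H.skew f₁ e₀, H.skew f₁ f₀, H.skew e₂ e₀, H.skew e₂ f₀, H.skew f₂ e₀, H.skew f₂ f₀, H.skew e₂ e₁, H.skew e₂ f₁,
        H.skew f₂ e₁, H.skew f₂ f₁]
  obtain ⟨g, hg, e⟩ := H.exists_iso_of_linear (Fintype.linearCombination K b) fun x y => by
    simp only [Fintype.linearCombination_apply, H.sum_left, H.sum_right, H.smul_left, H.smul_right', G]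
    simp only [om, sympForm, dotProduct, Matrix.mulVec, mul_comm, Finset.mul_sum]
  refine ⟨g⁻¹, inv_mem hg, fun a => ⟨![χ₀ a, χ₁ a, χ₂ a], ?_⟩⟩
  rw [inv_inv, mul_assoc, inv_mul_eq_iff_eq_mul]
  refine Units.ext (Matrix.ext_of_mulVec_single fun j => ?_)
  rw [Units.val_mul, Units.val_mul, ← Matrix.mulVec_mulVec, ← Matrix.mulVec_mulVec, tor_eq, Q4R.dg_val,
    Matrix.diagonal_mulVec_single, e, e, Fintype.linearCombination_apply_single, Fintype.linearCombination_apply_single, one_smul,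
    mul_one]
  rcases j with j | j <;> fin_cases j
  exacts [a₀ a, a₁ a, a₂ a, b₀ a, b₁ a, b₂ a]

end Wt

/-- A finite abelian `p'`-subgroup of `Sp₆(K)` is conjugate in `Sp₆(K)` into the torus.  Induction on a
nondegenerate invariant subspace `Z`: take a weight vector `e` of weight `χ`; by averaging (or complete
reducibility) there is a weight vector `f` of weight `χ⁻¹` with `om e f = 1` (no exception for `χ² = 1`);
pass to `Z ⊓ ⟨e, f⟩^⊥`.  The basis so obtained is symplectic: `Alt.exists_iso_of_family`. -/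
theorem exists_wt [IsAlgClosed K] {A : Subgroup (G6 K)} [Finite A] (hA : A ≤ Sp K)
    (hc : ∀ a ∈ A, ∀ b ∈ A, a * b = b * a) (hp : (Nat.card A : K) ≠ 0) :
    ∃ k ∈ Sp K, ∃ μ : A →* Fin 3 → Kˣ, ∀ a : A, k * a.1 * k⁻¹ = tor (μ a) := by
  obtain ⟨k, hk, e⟩ := tw_main (A := fun a : A => a.1) (fun a => hA a.2) (fun a b => hc _ a.2 _ b.2) fun a =>
    ⟨_, hp, by rw [← Subgroup.coe_pow, pow_card_eq_one', Subgroup.coe_one]⟩
  choose μ e using e
  exact ⟨k, hk, .mk' μ fun a b => tor_inj (by rw [map_mul, ← e, ← e, ← e, Subgroup.coe_mul]; group), e⟩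

theorem exists_conj_tor [IsAlgClosed K] {g : G6 K} (hg : g ∈ Sp K) {n : ℕ} (h : g ^ n = 1)
    (hn : (n : K) ≠ 0) : ∃ k ∈ Sp K, ∃ μ : Fin 3 → Kˣ, (∀ i, μ i ^ n = 1) ∧ k * g * k⁻¹ = tor μ := by
  obtain ⟨k, hk, e⟩ := tw_main (A := fun _ : Unit => g) (fun _ => hg) (fun _ _ => .refl _) fun _ => ⟨n, hn, h⟩
  obtain ⟨μ, e⟩ := e ()
  exact ⟨k, hk, μ, congrFun (tor_inj (show tor (μ ^ n) = tor 1 by rw [map_pow, ← e, conj_pow, h, map_one]; group)), e⟩

/-- Two commuting elements. -/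
theorem exists_conj_tor₂ [IsAlgClosed K] {g g' : G6 K} (hg : g ∈ Sp K) (hg' : g' ∈ Sp K) {n : ℕ}
    (h : g ^ n = 1) (h' : g' ^ n = 1) (hn : (n : K) ≠ 0) (c : Commute g g') :
    ∃ k ∈ Sp K, ∃ μ μ' : Fin 3 → Kˣ, k * g * k⁻¹ = tor μ ∧ k * g' * k⁻¹ = tor μ' := by
  obtain ⟨k, hk, e⟩ := tw_main (A := fun b : Bool => cond b g g') (Bool.rec hg' hg)
    (Bool.rec (Bool.rec (.refl _) c.symm) (Bool.rec c (.refl _))) (Bool.rec ⟨n, hn, h'⟩ ⟨n, hn, h⟩)
  exact ⟨k, hk, _, _, (e true).choose_spec, (e false).choose_spec⟩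

/-- The entries of an intertwiner of weights: `n a n⁻¹ = b` and a nonzero entry force equal weights. -/
theorem dg_entry {a b : I6 → Kˣ} {n : G6 K} (e : n * dg a * n⁻¹ = dg b) {i j : I6} (h : n.1 i j ≠ 0) :
    b i = a j := by
  have := congrArg (fun g : G6 K => g.1 i j) (mul_inv_eq_iff_eq_mul.1 e)
  simp only [Units.val_mul, Q4R.dg_val, Matrix.mul_diagonal, Matrix.diagonal_mul] at this
  exact Units.ext (mul_right_cancel₀ h (this.symm.trans (mul_comm _ _)))

/-- ... and an invertible matrix has a nonzero generalised diagonal (expand the determinant). -/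
theorem exists_diag (n : G6 K) : ∃ σ : Equiv.Perm I6, ∀ j, n.1 (σ j) j ≠ 0 := by
  exact (Q4.exists_wt n).imp fun _ h => h.1

end Cfsg.Lib.S6Q
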