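import Cfsg.Agent.Lib.S6Q.T2b
import Cfsg.Agent.Lib.TVn.Main
import Cfsg.Agent.Lib.TVn.Glue
import Cfsg.Agent.Lib.Symp.MaxBase

/-!
# Transvections, odd characteristic
-/

set_option autoImplicit false

namespace Cfsg.Lib.S6Q

open scoped MatrixGroups Matrix commutatorElement
open Cfsg.Geo Cfsg.Lib.Asch Cfsg.Lib.Linear Cfsg.Lib.Q4 Cfsg.Lib.Symp Module
open Cfsg.Lib.Q4R (Sq HasTv sc dg)

variable {F : Type*} [Field F] [Finite F] {P : Subgroup (G6 F)}

/-- `(-u) ^ (p + 1) = u`. -/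
theorem hasTv_of_pm (h2 : (2 : F) ≠ 0) (h : HasTv (pm P)) : HasTv P := by
  obtain ⟨g, hg | hg, v, φ, hv, hφ, h0, e⟩ := h
  · exact ⟨g, hg, v, φ, hv, hφ, h0, e⟩
  · refine ⟨_, P.mul_mem hg hg, v, (2 : F) • φ, hv, smul_ne_zero h2 hφ, by simp [h0], ?_⟩
    rw [neg_mul_neg, Units.val_mul, e, add_mul, mul_add, mul_add, Matrix.vecMulVec_mul_vecMulVec, h0, two_smul,
      Matrix.vecMulVec_add]
    simp [add_assoc]

section Gen

open TVn

variable {ι : Type} [Fintype ι] [DecidableEq ι] {f : (ι → F) → (ι → F) → F} {M : Subgroup (GL ι F)} {k : Subfield F}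
  (h : Alt f) (hM : M ≤ iso f)
include h
omit [Finite F]

theorem tv_ei {v : ι → F} {c : F} (t : Tv M v (c • dv (RingHom.id F) f v)) : Ei M f v 0 c :=
  ⟨h.zero_left v, _, t.2, fun x => by rw [tvGL_mulVec]; simp [dv_dot h.toSForm, h.zero_right]⟩

include hM

theorem tv_alt {v φ : ι → F} (hv : v ≠ 0) (hφ : φ ≠ 0) (t : Tv M v φ) :
    ∃ c : F, c ≠ 0 ∧ φ = c • dv (RingHom.id F) f v := by
  obtain ⟨y, hy⟩ := exists_dot_eq_one hφ
  rw [dotProduct_comm] at hy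
  have k1 : ∀ x, f x v = -f v y * φ ⬝ᵥ x := fun x => by
    have := hM t.2 x y
    simp only [tvGL_mulVec, h.add_left, h.add_right, h.smul_left, h.smul_right', h.alt, hy] at this
    linear_combination this
  have n : f v y ≠ 0 := fun e => hv (h.nondeg v fun x => by rw [k1, e, neg_zero, zero_mul])
  refine ⟨-(f v y)⁻¹, neg_ne_zero.2 (inv_ne_zero n), dotProduct_eq _ _ fun x => ?_⟩
  rw [smul_dotProduct, dv_dot h.toSForm, k1, smul_eq_mul]
  field_simp

theorem tv_top (h0 : Fam0 M k) {X : Submodule F (ι → F)} (hX : X ≠ ⊥)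
    (H : ∀ w ψ, Fl M k w ψ → w ∈ X ∨ ∀ y ∈ X, f y w = 0) : X = ⊤ := by
  have l : M ≤ subspaceStabilizer X := h0.gen _ fun w ψ a => ⟨a.dot, mem_subspaceStabilizer_of_le fun y hy => by
    obtain ⟨c, -, e⟩ := tv_alt h hM a.1 a.2.1 a.tv
    rw [tvGL_mulVec]
    rcases H w ψ a with r | r
    · exact add_mem hy (X.smul_mem _ r)
    · rwa [e, smul_dotProduct, dv_dot h.toSForm, r y hy, smul_zero, zero_smul, add_zero]⟩
  exact h0.ir.eq_top X hX fun g hg w hw => (l hg w).1 hw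

theorem tv_field (h2 : (2 : F) ≠ 0) (hF : Fam M k) (ht : TrTop M) : k = ⊤ := by
  obtain ⟨x, ξ, fx⟩ := hF.ex
  refine ht k (trace_mem (O := {a | Fl M k a.1 a.2 ∧ ξ ⬝ᵥ a.1 = 1 ∧ a.2 ⬝ᵥ x = -1}) (fun a ha => ha.1.dot) ?_
    fun N hN => hF.gen_opp (.inr fun a b e => ?_) fx N fun v φ a e1 e2 => hN (v, φ) ⟨a, e1, e2⟩)
  · rintro ⟨v, φ⟩ ⟨fa, a1, a2⟩ ⟨w, χ⟩ ⟨fb, b1, b2⟩
    have e3 := hF.three fx fb fa
    dsimp only at *
    rw [a1, a2, b1, b2] at e3
    obtain ⟨c, -, rfl⟩ := tv_alt h hM fx.1 fx.2.1 fx.tv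
    obtain ⟨a, -, rfl⟩ := tv_alt h hM fa.1 fa.2.1 fa.tv
    obtain ⟨b, -, rfl⟩ := tv_alt h hM fb.1 fb.2.1 fb.tv
    simp only [smul_dotProduct, dv_dot h.toSForm, smul_eq_mul, h.skew x, h.skew v w] at *
    obtain rfl : c = a := by grind
    obtain rfl : c = b := by grind
    convert k.div_mem e3 (k.neg_mem (ofNat_mem k 2)) using 1
    field_simp
    ring
  · obtain ⟨c, c0, rfl⟩ := tv_alt h hM a.1 a.2.1 a.tv
    obtain ⟨d, -, rfl⟩ := tv_alt h hM b.1 b.2.1 b.tv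
    simp only [smul_dotProduct, dv_dot h.toSForm, smul_eq_mul] at e ⊢
    rw [h.skew, (mul_eq_zero.1 e).resolve_left c0, neg_zero, mul_zero]

theorem tv_full [Finite F] (h2 : (2 : F) ≠ 0) (h0 : Fam0 M ⊤) : iso f ≤ M := by
  have lr : ∀ {w ψ}, Fl M ⊤ w ψ → Lr M f w := fun a d => by
    obtain ⟨c, c0, rfl⟩ := tv_alt h hM a.1 a.2.1 a.tv
    exact tv_ei h (by simpa [smul_smul, c0] using a.2.2 (d / c) trivial)
  obtain ⟨v, φ, a⟩ := h0.ex
  obtain ⟨u, ψ, b, -, n⟩ := h0.mid a.1 a.2.1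
  obtain ⟨c, -, rfl⟩ := tv_alt h hM a.1 a.2.1 a.tv
  replace n : f u v ≠ 0 := fun e => n (by simp [dv_dot h.toSForm, e])
  have m : v ∈ Submodule.span F {u, v} := Submodule.subset_span (by simp)
  obtain ⟨X, l, h1, h3⟩ := exists_max_lr (M := M) h (W := Submodule.span F {u, v})
    (.inl ⟨⟨-1, by simp, fun e => h2 (by linear_combination -e)⟩, v, m, u, Submodule.subset_span (by simp), n⟩)
    fun x hx => by
      obtain ⟨s, t, rfl⟩ := Submodule.mem_span_pair.1 hx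
      by_cases hs : s = 0
      · simpa [hs] using (lr a).smul h t
      · exact ((lr b).smul h s).add_smul h (lr a) (by rw [h.smul_left]; exact mul_ne_zero hs n) t
  obtain rfl := tv_top h hM h0 ((Submodule.ne_bot_iff X).2 ⟨v, l m, a.1⟩) fun w ψ a => h3 w (lr a)
  exact h.iso_le fun v => h1 v trivial

/-- The exception `SL₂(5) < SL₂(9)` does not extend: with `w = w₀ + r`, `T_w T_{-w₀ + r}⁻¹` is an Eichler element with
centre `r`; commutators of its conjugates give `T(r, λ)` and `T(r, i λ)`. -/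
theorem tv_nine (h3 : (3 : F) = 0) {u v r : ι → F} {c d e α β : F} (hu : Ei M f u 0 c) (hv : Ei M f v 0 d)
    (hi : (c * d * f u v ^ 2) ^ 2 = -1) (ru : f u r = 0) (rv : f v r = 0) (e0 : e ≠ 0) (n : α ≠ 0 ∨ β ≠ 0)
    (hw : Ei M f (α • u + β • v + r) 0 e) : ∃ l, l ≠ 0 ∧ Ei M f r 0 l ∧ Ei M f r 0 ((1 + c * d * f u v ^ 2) * l) := by
  obtain ⟨g, hg, gi, hg'⟩ := hu.exists_iso h
  obtain ⟨g', hk, ki, hk'⟩ := hv.exists_iso h
  simp only [smul_zero, add_zero, h.zero_right, zero_add] at hg' hk'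
  have ur := h.map_eq_zero.1 ru
  have vr := h.map_eq_zero.1 rv
  have st : ∀ {α β}, Ei M f (α • u + β • v + r) 0 e →
      Ei M f ((α - c * f u v * (β + d * f u v * α)) • u + (β + d * f u v * α) • v + r) 0 e := fun t => by
    convert (t.conj hk ki).conj hg gi using 1
    · simp only [hg', hk', h.add_left, h.smul_left, h.alt, ur, vr, h.skew v u]
      module
    · simp
  have pr : ∀ α β : F, f (α • u + β • v) r = 0 := fun α β => by simp [h.add_left, h.smul_left, ru, rv]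
  have w' : Ei M f ((-α) • u + (-β) • v + r) 0 e := by
    convert st (st (st (st (st hw)))) using 4 <;> clear * - h3 hi <;> grind
  let S : F → F → Prop := fun α β => ∃ x, Ei M f r (α • u + β • v) x
  have s0 : S (2 * e * α) (2 * e * β) := by
    obtain ⟨-, a, ha, ha'⟩ := hw
    obtain ⟨-, b, hb, hb'⟩ := w'.inv h
    refine ⟨0, pr _ _, a * b, M.mul_mem ha hb, fun x => ?_⟩
    simp only [GL_mul_mulVec, ha', hb', h.add_left, h.add_right, h.smul_left, h.smul_right', h.alt, ru, rv, ur, vr,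
      h.skew v u, neg_zero, h.zero_right, h.zero_left]
    module
  have s1 : ∀ {α β}, S α β → S (-(c * f u v * β)) 0 := fun ⟨x, t⟩ => ⟨_, by
    have := t.conj hg gi
    rw [hg' r, ur, mul_zero, zero_smul, add_zero] at this
    convert this.div h t using 1
    simp only [hg', h.add_left, h.smul_left, h.alt, h.skew v u]
    module⟩
  have s2 : ∀ {α β}, S α β → S 0 (d * f u v * α) := fun ⟨x, t⟩ => ⟨_, by
    have := t.conj hk ki
    rw [hk' r, vr, mul_zero, zero_smul, add_zero] at this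
    convert this.div h t using 1
    simp only [hk', h.add_left, h.smul_left, h.alt]
    module⟩
  have cm : ∀ {α β}, S α 0 → S 0 β → Ei M f r 0 (2 * (α * β * f u v)) := fun ⟨x, t⟩ ⟨y, t'⟩ => by
    convert (t'.mul h t).div h (t.mul h t') using 1
    · abel
    · simp only [h.add_left, h.add_right, h.alt, h.smul_left, h.smul_right', h.skew v u]
      ring
  have h2 : (2 : F) ≠ 0 := fun e => one_ne_zero (by linear_combination h3 - e : (1 : F) = 0)
  have p0 : c * d * f u v ^ 2 ≠ 0 := fun e => by simp [e] at hi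
  have c0 : c ≠ 0 := fun e => by simp [e] at p0
  have d0 : d ≠ 0 := fun e => by simp [e] at p0
  have m0 : f u v ≠ 0 := fun e => by simp [e] at p0
  obtain ⟨γ, γ0, s⟩ : ∃ γ, γ ≠ 0 ∧ S γ 0 := by
    by_cases b : β = 0
    · exact ⟨2 * e * α, by simp [h2, e0, n.resolve_right (not_not.2 b)], by simpa [b] using s0⟩
    · exact ⟨_, by simp [h2, e0, b, c0, m0], s1 s0⟩
  refine ⟨_, ?_, cm s (s2 s), ?_⟩
  · simp [h2, γ0, d0, m0]
  convert (cm s (s2 s)).div h (cm (s1 (s2 s)) (s2 s)) using 1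
  · simp
  · rw [h.alt]
    ring

theorem tv_all [Finite F] (h2 : (2 : F) ≠ 0) (H : Hyp M) (h3 : 3 ≤ Fintype.card ι) {v φ : ι → F} (hv : v ≠ 0)
    (hφ : φ ≠ 0) (t : Tv M v φ) : iso f ≤ M := by
  have fin : ∀ {k}, Fam M k → iso f ≤ M := fun hF => tv_full h hM h2 (tv_field h hM h2 hF H.top ▸ hF.toFam0)
  have h0 := H.fam0 (fl_bot hv hφ t)
  rcases H.exists_fam Fam0.mid hv hφ t with ⟨k, -, hF⟩ | ⟨e, -⟩ | ⟨c3, h5⟩
  exacts [fin hF, (h2 e).elim, fin ⟨h0, fun {x ξ y η} fx fy => by_contra fun n => by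
    have t := h5 fx.tv fy.tv
    obtain ⟨c, -, rfl⟩ := tv_alt h hM fx.1 fx.2.1 fx.tv
    obtain ⟨d, -, rfl⟩ := tv_alt h hM fy.1 fy.2.1 fy.tv
    simp only [smul_dotProduct, dv_dot h.toSForm, smul_eq_mul, h.skew y x] at n t
    have hi : (c * d * f x y ^ 2) ^ 2 = -1 := by
      generalize hτ : c * -f x y * (d * f x y) = i at n t
      have i0 : i ≠ 0 := fun e => n (e ▸ zero_mem _)
      have i1 : i - 1 ≠ 0 := sub_ne_zero.2 fun e => n (e ▸ one_mem _)
      have i2 : i + 1 ≠ 0 := fun e => n (eq_neg_of_add_eq_zero_left e ▸ neg_mem (one_mem _))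
      refine mul_left_cancel₀ (mul_ne_zero i0 (mul_ne_zero i1 i2)) ?_
      rw [show c * d * f x y ^ 2 = -i by linear_combination -hτ]
      linear_combination t
    have m0 : f x y ≠ 0 := fun e => by simp [e] at hi
    obtain ⟨w, ψ, fw, n1, n2⟩ : ∃ w ψ, Fl M ⊥ w ψ ∧ w ∉ Submodule.span F {x, y} ∧
        ¬ ∀ z ∈ Submodule.span F {x, y}, f z w = 0 := by
      by_contra! k
      have := finrank_le_of_span_eq_top (R := F) (v := ![x, y]) (by
        simpa [Set.pair_comm y] using tv_top h hM h0 ((Submodule.ne_bot_iff (Submodule.span F {x, y})).2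
          ⟨x, Submodule.subset_span (by simp), fx.1⟩) fun w ψ a => or_iff_not_imp_left.2 (k w ψ a))
      simp at this
      omega
    obtain ⟨e, e0, rfl⟩ := tv_alt h hM fw.1 fw.2.1 fw.tv
    obtain ⟨l, l0, a, b⟩ := tv_nine h hM c3 (tv_ei h fx.tv) (tv_ei h fy.tv) hi (α := f w y / f x y)
      (β := f x w / f x y) (r := w - ((f w y / f x y) • x + (f x w / f x y) • y))
      (by simp [h.sub_right, h.add_right, h.smul_right', h.alt, m0])
      (by simp [h.sub_right, h.add_right, h.smul_right', h.alt, m0, h.skew y]) e0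
      (by_contra fun k => n2 fun z hz => by
        obtain ⟨s, t, rfl⟩ := Submodule.mem_span_pair.1 hz
        simp [m0] at k
        simp [h.add_left, h.smul_left, h.skew y, k]) (by simpa using tv_ei h fw.tv)
    generalize hr : w - ((f w y / f x y) • x + (f x w / f x y) • y) = r at a b
    have r0 : r ≠ 0 := fun e => n1 (Submodule.mem_span_pair.2 ⟨_, _, (sub_eq_zero.1 (hr.trans e)).symm⟩)
    obtain ⟨z, ζ, fz, n3, -⟩ := h0.mid r0 hφ
    have t1 := h5 (a.tv h) fz.tv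
    have t2 := h5 (b.tv h) fz.tv
    obtain ⟨s, s0, rfl⟩ := tv_alt h hM fz.1 fz.2.1 fz.tv
    simp only [smul_dotProduct, dv_dot h.toSForm, smul_eq_mul, h.skew z r] at n3 t1 t2
    have q : l * -f r z * (s * f r z) ≠ 0 := mul_ne_zero (mul_ne_zero l0 (neg_ne_zero.2 (right_ne_zero_of_mul n3))) n3
    rw [mul_assoc (1 + _), mul_assoc (1 + _), mul_pow, t1] at t2
    have := mul_right_cancel₀ q t2
    grind⟩]

end Gen

/-- `TVn.hyp_of_qs`, `Hyp.exists_fam Fam0.mid`.  Write `T(u, c) x = x + c om x u • u`.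
*Family over `k`.*  Fix `(v₀, c₀)`, let `Φ = {u | ∀ λ ∈ k, T(u, λ c₀) ∈ P}`, `ω = c₀ om`; `ω(u, v)² ∈ k` on `Φ`; every
centre not perpendicular to `v₀` can be scaled into `Φ` with `ω(u, v₀) = 1`.  If `ω(u, w), ω(v, w) ∈ k^*` then
`ω(T(v, λ c₀) u, w)² ∈ k` for all `λ` gives `ω(u, v) ∈ k`.  So the `k`-span of a suitable invariant `Φ₁` is a `k`-form (or: all
cyclic products lie in `k`, so traces do: `TVn/Cyc`, `Hyp.top`), `k = ⊤`.  Then every centre is `Symp.Lr`, and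
`exists_max_lr` (`Symp/MaxBase`, as in `Symp/MaxRed`) gives all of `Sp`.
*Exception `p = 3`, `τ⁵ = τ`.*  If all `τ ∈ F₃` we have `Fam P ⊥`.  Else let `Φ = {x | T(x, c) ∈ P}`, `ω = c om`, with
`u, v ∈ Φ`, `a = ω(u, v)`, `a⁴ = -1` (`τ = -ω²`, so all pairings on `Φ` satisfy `x⁹ = x`; `i Φ = Φ`).  `z = (T_u T_v)⁵` is `-1` on
`Π = ⟨u, v⟩`, `1` on `Π^⊥`.  The orbit of `u` spans and is connected: there is `w = w₀ + r ∈ Φ`, `0 ≠ w₀ ∈ Π`,
`0 ≠ r ∈ Π^⊥`; `T_w T_{z w}⁻¹` maps `x ↦ x + 2 ω(x, w₀) r` on `Π + ⟨r⟩`; the `s ∈ Π` for which `x ↦ x + ω(x, s) r` is induced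
by `P` form an additive group, stable under `T_u, T_v`, containing `α u ⇒ α a v ⇒ α a² u`; so `u + μ r ∈ Φ` for all
`μ ∈ F₉`.  Take `y ∈ Φ` with `ρ = ω(r, y) ≠ 0` (in `F₉`), `x = u + μ₀ r ⟂ y`.  The commuting `T_{x + μ r}` map `y` to all
`y + α x + β r`.  `T_{y + β r} y = (1 ± β ρ) y + * r`; choosing `1 ± β ρ = a` we get `y', a y' ∈ Φ`, so
`T(y', (1 + a²) c) ∈ P`, and `τ⁵ ≠ τ` for it and `y` or another `y + β r`. -/
theorem Core.tv (h : Core P) (h2 : (2 : F) ≠ 0) (ht : HasTv (pm P)) : P = Sp F := by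
  obtain ⟨g, hg, v, φ, hv, hφ, h0, e⟩ := hasTv_of_pm h2 ht
  exact le_antisymm h.sp (tv_all alt_om h.sp h2 (TVn.hyp_of_qs h.toQS h.ns) (by simp) hv hφ
    ⟨h0, (Units.ext e : g = tvGL v φ h0) ▸ hg⟩)

end Cfsg.Lib.S6Q
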