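import Cfsg.Agent.Lib.S6Q.U31

/-!
# `U₃(q)`, `q > 3` odd
-/

set_option autoImplicit false

namespace Cfsg.Lib.S6Q

open scoped MatrixGroups Matrix commutatorElement
open Cfsg.Geo Cfsg.Lib.Asch Cfsg.Lib.Linear Cfsg.Lib.Q4 Cfsg.Lib.Symp Module
open Cfsg.Lib.Q4R (Sq HasTv sc dg)

variable {K : Type*} [Field K] [IsAlgClosed K] {X : Type*} [Group X] {Y : Subgroup (G6 K)} {π : Y →* X}
  {E : Type*} [Field E] [Fintype E]

namespace Ux

open Cfsg.Lib.Unitary Cfsg.Lib.U3 T2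

variable {σ : E →+* E} {q : ℕ} [Fact (Function.Involutive σ)]

omit [Fintype E] in
theorem cross (h : Cw Y π) (N : Model σ q X) (h3 : 3 < q) {r f : ℕ} (hr : r.Prime) [CharP E r] (ro : Odd r)
    (hq : q = r ^ f) (n : (r : K) ≠ 0) : False := by
  have b := N.bar
  haveI := h.finX
  haveI : Fact r.Prime := ⟨hr⟩
  have sk : ∀ {d}, Hs σ 0 d → ∀ {x y}, Hs σ x y → Commute (N.u x y) (N.u 0 d) := fun hd _ _ hx => by
    rw [Commute, SemiconjBy, N.u_mul hx hd, N.u_mul hd hx]; simp [add_comm]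
  by_cases h5 : 5 ≤ r
  · obtain ⟨x, hx⟩ := b.exists_ne
    obtain ⟨y, hy⟩ := exists_hs' b x
    obtain ⟨y', hy'⟩ := exists_hs' b 1
    have hd : Hs σ 0 (x - σ x) := by simp [Hs, bb]
    have c := h.heis hr h5 n (u_pow_char N r hr ro x y) (u_pow_char N r hr ro 1 y') (z := N.u 0 (x - σ x)) (by
      rw [mul_inv_eq_iff_eq_mul, N.u_mul hy hy', N.u_mul hy' hd, N.u_mul (hy'.mul hd) hy]
      congr 1
      · ring
      · rw [map_zero, map_one]; ring) (sk hd hy) (sk hd hy')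
    exact hx (sub_eq_zero.1 ((N.u_eq_one hd).1 c)).symm
  have r3 : r = 3 := by
    have := hr.two_le
    interval_cases r
    · exact absurd ro (by decide)
    · rfl
    · exact absurd hr (by decide)
  have q9 : 9 ≤ q := by
    rw [hq, r3] at h3 ⊢
    rcases f with _ | _ | f
    · omega
    · omega
    · have := Nat.one_le_pow f 3 (by norm_num)
      rw [pow_succ, pow_succ]; omega
  let A : Subgroup X :=
    { carrier := {x | ∃ d, Hs σ 0 d ∧ x = N.u 0 d}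
      mul_mem' := by
        rintro _ _ ⟨d, hd, rfl⟩ ⟨d', hd', rfl⟩
        exact ⟨_, by simpa using hd.mul hd', by rw [N.u_mul hd hd']; simp⟩
      one_mem' := ⟨0, .zero, N.u_zero.symm⟩
      inv_mem' := by
        rintro _ ⟨d, hd, rfl⟩
        exact ⟨_, by simpa using hd.inv, by rw [N.u_inv hd, neg_zero]⟩ }
  have pA : IsPGroup r A := by
    rintro ⟨_, d, hd, rfl⟩
    exact ⟨1, Subtype.ext (by rw [pow_one]; exact u_pow_char N r hr ro 0 d)⟩
  obtain ⟨m, hm⟩ := pA.exists_card_eq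
  haveI := b.finite
  obtain ⟨g, hg⟩ := IsCyclic.exists_generator (α := (fixedField σ)ˣ)
  have og : orderOf g = q - 1 := by
    rw [orderOf_eq_card_of_forall_mem_zpowers hg, Nat.card_units, b.card_fixedField]
  obtain ⟨a, ha⟩ := b.exists_norm_eq (μ := g.1.1) g.1.2
  have a0 : a ≠ 0 := fun e0 => g.ne_zero (Subtype.ext (by rw [← ha, e0, zero_mul]; rfl))
  obtain ⟨d, d0, hd⟩ := b.exists_skew
  have hd' : Hs σ 0 d := by simp [Hs, hd]
  have key : ∀ j, j ≠ 0 → (∀ x ∈ A, Commute (N.h a ^ j) x) → q - 1 ≤ j := fun j j0 c => by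
    have c1 := (c _ ⟨d, hd', rfl⟩).eq
    have e1 : N.h a ^ j = N.h (a ^ j) := (map_pow N.hHom (Units.mk0 a a0) j).symm
    rw [e1, ← mul_inv_eq_iff_eq_mul, N.h_conj_u (pow_ne_zero j a0) hd',
      N.u_inj (hd'.tor (pow_ne_zero j a0)) hd', map_pow, ← mul_pow, ha] at c1
    refine og ▸ Nat.le_of_dvd (Nat.pos_of_ne_zero j0) (orderOf_dvd_of_pow_eq_one (Units.ext (Subtype.ext ?_)))
    simpa using mul_right_cancel₀ d0 (c1.2.trans (one_mul d).symm)
  rcases h.pow (A := A) (by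
      rintro _ ⟨d, hd, rfl⟩ _ ⟨d', hd', rfl⟩
      exact (sk hd' hd).eq)
    (by rw [hm]; exact ro.pow) (by rw [hm, Nat.cast_pow]; exact pow_ne_zero _ n) (x := N.h a) (by
      rintro _ ⟨d, hd, rfl⟩
      exact ⟨_, by simpa using hd.tor a0, by rw [N.h_conj_u a0 hd, mul_zero]⟩)
    with c | c <;> have := key _ (by norm_num) c <;> omega

theorem defn (h : Cv Y π) (hi : Irr Y) (N : Model σ q X) (h3 : 3 < q) (ho : Odd q) (p : ℕ) [hp : Fact p.Prime]
    [CharP K p] [CharP E p] (po : Odd p) : False := by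
  have b := N.bar
  have k2 := h.two
  have h2 : (2 : E) ≠ 0 := fun e => k2 (by
    have := (CharP.cast_eq_zero_iff K p 2).2 ((CharP.cast_eq_zero_iff E p 2).1 (by exact_mod_cast e))
    exact_mod_cast this)
  have s2 : σ 2 = 2 := map_ofNat σ 2
  obtain ⟨δ, d0, hd⟩ := b.exists_skew
  obtain ⟨F, F1, Fu⟩ := exists_sl2 d0 hd
  haveI := Fintype.ofFinite (fixedField σ)
  have cF : Fintype.card (fixedField σ) = q := by rw [← Nat.card_eq_fintype_card, b.card_fixedField]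
  have m1 : (-1 : E) ≠ 0 := neg_ne_zero.2 one_ne_zero
  have hs : ∀ x, Hs σ x (x * σ x / 2) := fun x => by
    simp only [Hs, map_div₀, map_mul, bb, s2]; field_simp; ring
  have hz : ∀ {d}, σ d = -d → Hs σ 0 d := fun e => by simp [Hs, e]
  have ut : ∀ x, N.h (-1) * N.u x (x * σ x / 2) * (N.h (-1))⁻¹ = N.u (-x) (-x * σ (-x) / 2) := fun x => by
    rw [N.h_conj_u m1 (hs x)]; congr 1 <;> simp only [map_neg, map_one] <;> ring
  have ui : ∀ x, (N.u x (x * σ x / 2))⁻¹ = N.u (-x) (-x * σ (-x) / 2) := fun x => by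
    rw [N.u_inv (hs x)]; congr 1; simp only [map_neg, map_div₀, map_mul, bb, s2]; ring
  have f1 : (N.π.comp F) (-1) = N.h (-1) := congrArg N.π F1
  obtain ⟨t, ht, ti, -⟩ := h.sl2 (cF ▸ ho) (N.π.comp F) fun e => by
    have := ut 1
    rw [← f1, e, one_mul, inv_one, mul_one, N.u_inj (hs _) (hs _)] at this
    exact h2 (by linear_combination this.1)
  choose L hL Lp using fun x y => h.lift po (u_pow_char N p hp.out po x y)
  have sp : ∀ g : Y, g.1 ∈ Sp K := fun g => h.sp g.2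
  have Zt : ∀ {d}, σ d = -d → ∀ v, t.1.1 *ᵥ v = -v → (L 0 d).1.1 *ᵥ v = v := fun {d} e v hv =>
    h.sl2_odd (cF ▸ ho) (cF ▸ h3) _ ht ti (by
      obtain ⟨g, hg⟩ := Fu d e
      exact ⟨g, by rw [hL]; exact congrArg N.π hg⟩) po (Lp 0 d) hv
  rw [f1] at ht
  have cz : ∀ g : Y, π g ∈ N.U → ∀ {d}, σ d = -d → Commute g.1 (L 0 d).1 := fun g hg d e =>
    h.cw.commute po (Lp 0 d) (by
      obtain ⟨x, y, hx, e'⟩ := N.mem_U.1 hg
      rw [hL, e', Commute, SemiconjBy, N.u_mul hx (hz e), N.u_mul (hz e) hx]; simp [add_comm])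
  obtain ⟨s, hs'⟩ : ∃ s : E → Y, ∀ x, s x = L x (x * σ x / 2) := ⟨_, fun _ => rfl⟩
  have πs : ∀ x, π (s x) = N.u x (x * σ x / 2) := fun x => by rw [hs', hL]
  have ps : ∀ x, (s x).1 ^ p = 1 := fun x => by rw [hs', Lp]
  have sU : ∀ x, π (s x) ∈ N.U := fun x => πs x ▸ N.u_mem_U (hs x)
  have si : ∀ x, (s x).1⁻¹ = (s (-x)).1 := fun x => congrArg Subtype.val (h.lift_unique (g := (s x)⁻¹) po
    (by rw [map_inv, πs, πs, ui]) (by rw [Subgroup.coe_inv, inv_pow, ps, inv_one]) (ps _))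
  have st : ∀ x, t.1 * (s x).1 * t.1⁻¹ = (s (-x)).1 := fun x =>
    h.cw.conj po (ps x) (ps _) (by rw [ht, πs, πs, ut])
  have tt : ∀ x, t.1 * ((s x).1 * t.1 * (s x).1⁻¹) = (s (-x) * s (-x)).1 := fun x => by
    rw [si, Subgroup.coe_mul, ← st x, inv_eq_of_mul_eq_one_right ti.1]; simp only [mul_assoc]
  -- two disjoint planes fixed by `Z`
  have pc : ∀ x {d}, σ d = -d → ∀ v, ((s x).1 * t.1 * (s x).1⁻¹).1 *ᵥ v = -v → (L 0 d).1.1 *ᵥ v = v := by
    intro x d e v hv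
    have h1 := congrArg (((s x).1⁻¹).1 *ᵥ ·) hv
    simp only [mv, mv_inv, Matrix.mulVec_neg] at h1
    have h4 := congrArg ((s x).1.1 *ᵥ ·) (Zt e _ h1)
    simp only [← mv _ (L 0 d).1, (cz _ (sU x) e).eq] at h4
    simpa only [mv, mv_inv'] using h4
  obtain ⟨W, W4, hW⟩ : ∃ W : Submodule K (I6 → K), finrank K W = 4 ∧
      ∀ d, σ d = -d → W ≤ LinearMap.ker (lv (L 0 d).1 - 1) := by
    obtain ⟨x, hx⟩ := b.exists_ne
    by_contra n
    have k : ∀ {t₁ t₂ : G6 K}, TI t₁ → TI t₂ → (∀ {d}, σ d = -d → ∀ v, t₁.1 *ᵥ v = -v → (L 0 d).1.1 *ᵥ v = v) →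
        (∀ {d}, σ d = -d → ∀ v, t₂.1 *ᵥ v = -v → (L 0 d).1.1 *ᵥ v = v) →
        ∃ v ≠ 0, t₁.1 *ᵥ v = -v ∧ t₂.1 *ᵥ v = -v := fun a1 a2 c1 c2 => by_contra fun m => by
      obtain ⟨W, W4, hW⟩ := four a1 a2 m
      exact n ⟨W, W4, fun d e => hW _ (c1 e) (c2 e)⟩
    have cs : ∀ x, (s x).1 * t.1 * (s x).1⁻¹ ∈ Sp K := fun x => sp (s x * t * (s x)⁻¹)
    have up : ∀ x, (t.1 * ((s x).1 * t.1 * (s x).1⁻¹)) ^ p = 1 := fun x => by
      rw [tt, Subgroup.coe_mul, ← sq, ← pow_mul, mul_comm, pow_mul, ps, one_pow]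
    have r := rk_comm_le k2 p (sp t) (cs 1) (cs x) ti (ti.conj _) (ti.conj _) (up 1) (up x)
      (k ti (ti.conj _) Zt (pc 1)) (k ti (ti.conj _) Zt (pc x)) (k (ti.conj _) (ti.conj _) (pc 1) (pc x))
    rw [tt, tt] at r
    let c : Y := ⁅s (-1) * s (-1), s (-x) * s (-x)⁆
    change rk c.1 ≤ 1 at r
    rcases Nat.le_one_iff_eq_zero_or_eq_one.1 r with r | r
    · have := (h.ker c).2 (.inl (rk_eq_zero.1 r))
      rw [map_commutatorElement, commutatorElement_eq_one_iff_mul_comm, map_mul, map_mul, πs, πs,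
        N.u_mul (hs _) (hs _), N.u_mul (hs _) (hs _), N.u_mul ((hs _).mul (hs _)) ((hs _).mul (hs _)),
        N.u_mul ((hs _).mul (hs _)) ((hs _).mul (hs _)), N.u_inj (((hs _).mul (hs _)).mul ((hs _).mul (hs _)))
          (((hs _).mul (hs _)).mul ((hs _).mul (hs _)))] at this
      have e := this.2
      simp only [map_add, map_neg, map_one] at e
      exact hx (mul_left_cancel₀ (mul_ne_zero h2 h2) (by linear_combination e))
    · exact h.ntv ⟨c.1, c.2, isTv_of_rk (sp c) r⟩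
  have r2 : rk (L 0 δ).1 = 2 := by
    have e1 := Submodule.finrank_mono (hW δ hd)
    have e2 := rk_add_ker (L 0 δ).1
    have e3 : rk (L 0 δ).1 ≠ 0 := fun r => d0 ((N.u_eq_one (hz hd)).1
      ((hL 0 δ).symm.trans ((h.ker _).2 (.inl (rk_eq_zero.1 r)))))
    have e4 : rk (L 0 δ).1 ≠ 1 := fun r => h.ntv ⟨_, (L 0 δ).2, isTv_of_rk (sp _) r⟩
    omega
  have fZ : ∀ {d}, σ d = -d → ∀ v, (L 0 δ).1.1 *ᵥ v = v → (L 0 d).1.1 *ᵥ v = v := fun {d} e v hv => by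
    have e2 := rk_add_ker (L 0 δ).1
    have := hW d e
    rw [Submodule.eq_of_le_of_finrank_eq (hW δ hd) (by omega)] at this
    exact sub_eq_zero.1 (this (sub_eq_zero.2 hv))
  obtain ⟨a, c, qd⟩ := exists_qd k2 p (sp _) (Lp 0 δ) r2
  have fa : ∀ g : Y, π g ∈ N.U → g.1 ^ p = 1 → g.1.1 *ᵥ a = a ∧ g.1.1 *ᵥ c = c := fun g hg o =>
    ⟨qd_fix k2 p po qd (sp g) (cz g hg hd) o, qd_fix k2 p po qd.symm (sp g) (cz g hg hd) o⟩
  -- the opposite root element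
  have c0 : -δ⁻¹ ≠ 0 := neg_ne_zero.2 (inv_ne_zero d0)
  have sd : σ δ ≠ 0 := (map_ne_zero σ).2 d0
  obtain ⟨k, hk⟩ := h.surj (N.w * N.h (-δ⁻¹))
  obtain ⟨z, zk⟩ : ∃ z : Y, z = k * L 0 δ * k⁻¹ := ⟨_, rfl⟩
  have qd' : Qd z.1 (k.1.1 *ᵥ a) (k.1.1 *ᵥ c) := zk ▸ qd.conj (sp k)
  have zp : z.1 ^ p = 1 := by
    rw [zk, Subgroup.coe_mul, Subgroup.coe_mul, Subgroup.coe_inv, conj_pow, Lp, mul_one, mul_inv_cancel]
  have ta : t.1.1 *ᵥ k.1.1 *ᵥ a = k.1.1 *ᵥ a := by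
    rw [← mv, ← (h.comm_ti (g := k) ti ?_).eq, mv, ti_fix qd (sp t) ti.1 (Zt hd)]
    rw [hk, ht, Commute, SemiconjBy, mul_assoc, N.h_mul c0 m1, mul_comm (-δ⁻¹), ← N.h_mul m1 c0, ← mul_assoc,
      N.w_mul_h m1, map_neg, map_one, inv_neg_one, mul_assoc]
  have πz : N.u 0 δ * π z * N.u 0 δ = π k := by
    have e1 : Hs σ 0 (-δ⁻¹) := hz (by rw [map_neg, map_inv₀, hd, inv_neg])
    have e2 : π z = N.w * N.u 0 (-δ⁻¹) * N.w := by
      have : -δ⁻¹ * σ (-δ⁻¹) * δ = -δ⁻¹ := by rw [map_neg, map_inv₀, hd]; field_simp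
      rw [← this, ← mul_zero ((-δ⁻¹) ^ 2 / σ (-δ⁻¹)), ← N.h_conj_u c0 (hz hd), zk, map_mul, map_mul, map_inv, hk,
        hL, mul_inv_rev, N.w_inv]
      simp only [mul_assoc]
    have e3 : N.u 0 (-δ) = (N.u 0 δ)⁻¹ := by rw [N.u_inv (hz hd), hd, neg_zero]
    rw [e2, N.w_u_w e1 c0, hk, neg_zero, zero_div, zero_div, inv_neg, inv_inv, e3]
    group
  have br : (L 0 δ).1 * z.1 * (L 0 δ).1 = z.1 * (L 0 δ).1 * z.1 := by
    have := h.cw.conj (y := L 0 δ * z * L 0 δ) po (Lp 0 δ) zp (by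
      rw [map_mul, map_mul, hL, πz, zk, map_mul, map_mul, map_inv, hL])
    rw [mul_inv_eq_iff_eq_mul, Subgroup.coe_mul, Subgroup.coe_mul, ← mul_assoc, ← mul_assoc] at this
    exact mul_right_cancel this
  have ir := h.cw.irr_of_closure hi (s := {g | (π g ∈ N.U ∧ g.1 ^ p = 1) ∨ g = z}) (by
    have hU : N.U ≤ Subgroup.closure (π '' {g | (π g ∈ N.U ∧ g.1 ^ p = 1) ∨ g = z}) := fun g hg => by
      obtain ⟨x, y, hx, rfl⟩ := N.mem_U.1 hg
      exact Subgroup.subset_closure ⟨_, .inl ⟨by rwa [hL], Lp x y⟩, hL x y⟩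
    refine gen N hU ?_ c0
    rw [← hk, ← πz]
    exact mul_mem (mul_mem (hU (N.u_mem_U (hz hd))) (Subgroup.subset_closure ⟨z, .inr rfl, rfl⟩))
      (hU (N.u_mem_U (hz hd))))
  generalize k.1.1 *ᵥ a = a', k.1.1 *ᵥ c = c' at qd' ta
  have fx : ∀ {g : G6 K} {u u' v}, g.1 *ᵥ u = u → g.1 *ᵥ u' = u' → v ∈ Submodule.span K {u, u'} →
      g.1 *ᵥ v = v := fun e e' hv => by
    obtain ⟨i, j, rfl⟩ := Submodule.mem_span_pair.1 hv
    rw [Matrix.mulVec_add, Matrix.mulVec_smul, Matrix.mulVec_smul, e, e']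
  have γd : om K a' ((L 0 δ).1.1 *ᵥ a') = 0 := by
    have := qd.braid k2 qd' br ((Submodule.eq_bot_iff _).2 fun v hv => irr_fix ir (by
      rintro _ ⟨g, ⟨hg, o⟩ | rfl, rfl⟩
      · exact fx (fa g hg o).1 (fa g hg o).2 hv.1
      · exact fx ((fix_iff qd').2 ⟨alt_om.alt _, qd'.p⟩) ((fix_iff qd').2 ⟨qd'.symm.p, alt_om.alt _⟩) hv.2))
    rw [qd.eq, oar, oar, osr, osr, alt_om.alt, alt_om.skew a' a, alt_om.skew a' c]
    rcases this with e | e
    · rw [e.1]; ring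
    · rw [e.2.1]; ring
  -- the function `om a' (g a')` vanishes on `S`
  have fs : ∀ x, om K ((s x).1.1 *ᵥ a') a' = 0 := fun x => by
    have e1 := mem_Sp.1 (sp t) ((s x).1.1 *ᵥ a') a'
    have e2 : t.1.1 *ᵥ (s x).1.1 *ᵥ a' = (s (-x)).1.1 *ᵥ a' := by
      rw [← st, mv, mv, inv_eq_of_mul_eq_one_right ti.1, ta]
    rw [e2, ta, ← si, ← om_inv (sp _), alt_om.skew] at e1
    exact mul_left_cancel₀ k2 (by linear_combination -e1)
  have fz : ∀ x {d}, σ d = -d →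
      om K ((s x).1.1 *ᵥ a') ((L 0 d).1.1 *ᵥ a') = om K a' ((L 0 d).1.1 *ᵥ a') := fun x d e => by
    have e1 := fa _ (sU x) (ps x)
    have e2 := fZ e ((s x).1.1 *ᵥ a' - a') ((fix_iff qd).2
      ⟨by rw [odl, sub_eq_zero, ← mem_Sp.1 (sp (s x)) a' a, e1.1],
        by rw [odl, sub_eq_zero, ← mem_Sp.1 (sp (s x)) a' c, e1.2]⟩)
    rw [← sub_eq_zero, ← odl, ← e2, mem_Sp.1 (sp _), odl, fs, alt_om.alt, sub_zero]
  have G : ∀ x y d, d = (y * σ x - x * σ y) / 2 →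
      om K ((s x).1.1 *ᵥ a') ((s y).1.1 *ᵥ a') = om K a' ((L 0 d).1.1 *ᵥ a') := fun x y d e => by
    have e1 : σ d = -d := by rw [e]; simp only [map_div₀, map_sub, map_mul, bb, s2]; ring
    have e2 : π (s (-x) * s y) = π (s (y - x) * L 0 d) := by
      rw [map_mul, map_mul, πs, πs, πs, hL, N.u_mul (hs _) (hs _), N.u_mul (hs _) (hz e1), e]
      congr 1
      · ring
      · rw [map_sub, map_neg, map_zero]; field_simp; ring
    have e3 : (s (-x)).1 * (s y).1 = (s (y - x)).1 * (L 0 d).1 := (h.eq_iff.1 e2).resolve_right fun e4 => by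
      have := congrArg (fun g : G6 K => g.1 *ᵥ a) e4
      simp only [Subgroup.coe_mul, Units.val_neg, Matrix.neg_mulVec, mv, (fa _ (sU _) (ps _)).1,
        (fa (L 0 d) (by rw [hL]; exact N.u_mem_U (hz e1)) (Lp _ _)).1] at this
      exact ne_zero qd ((smul_eq_zero_iff_right k2).1 (by rw [two_smul]; exact add_eq_zero_iff_eq_neg.2 this))
    rw [← mem_Sp.1 (inv_mem (sp (s x))), mv_inv, si, ← mv, e3, mv, om_inv (sp _), si, fz _ e1]
  have γn : ∀ {d}, σ d = -d → om K a' ((L 0 (-d)).1.1 *ᵥ a') = -om K a' ((L 0 d).1.1 *ᵥ a') := fun {d} e => by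
    rw [← G 1 d d (by rw [map_one, e]; field_simp; ring), ← G d 1 (-d) (by rw [map_one, e]; field_simp; ring),
      alt_om.skew]
  have tu : ∀ x, t.1.1 *ᵥ ((s x).1.1 *ᵥ a' - (s (-x)).1.1 *ᵥ a') =
      -((s x).1.1 *ᵥ a' - (s (-x)).1.1 *ᵥ a') := fun x => by
    have e2 : ∀ x, t.1.1 *ᵥ (s x).1.1 *ᵥ a' = (s (-x)).1.1 *ᵥ a' := fun x => by
      rw [← st, mv, mv, inv_eq_of_mul_eq_one_right ti.1, ta]
    rw [Matrix.mulVec_sub, e2, e2, neg_neg, neg_sub]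
  have ou : ∀ x y d, d = (y * σ x - x * σ y) / 2 → om K ((s x).1.1 *ᵥ a' - (s (-x)).1.1 *ᵥ a')
      ((s y).1.1 *ᵥ a' - (s (-y)).1.1 *ᵥ a') = 4 * om K a' ((L 0 d).1.1 *ᵥ a') := fun x y d e => by
    have e1 : σ d = -d := by rw [e]; simp only [map_div₀, map_sub, map_mul, bb, s2]; ring
    rw [odl, odr, odr, G x y d e, G x (-y) (-d) (by rw [e, map_neg]; ring), G (-x) y (-d) (by rw [e, map_neg]; ring),
      G (-x) (-y) d (by rw [e, map_neg, map_neg]; ring), γn e1]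
    ring
  have γ0 : ∀ {d}, σ d = -d → om K a' ((L 0 d).1.1 *ᵥ a') = 0 := fun {d} e => by_contra fun n => by
    have k4 : (4 : K) ≠ 0 := by rw [show (4 : K) = 2 * 2 by norm_num]; exact mul_ne_zero k2 k2
    have l : σ (d / δ) = d / δ := by rw [map_div₀, e, hd, neg_div_neg_eq]
    have z0 := γn (d := 0) (by simp)
    rw [neg_zero] at z0
    have := plane k2 ti (tu δ) (tu (d / δ)) (tu 1)
      (by rw [ou δ _ (-d) (by rw [l, hd]; field_simp; ring), γn e]; exact mul_ne_zero k4 (neg_ne_zero.2 n))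
      (by rw [ou δ 1 (-δ) (by rw [hd, map_one]; field_simp; ring), γn hd, γd, neg_zero, mul_zero])
      (by rw [ou 1 _ 0 (by rw [l, map_one]; ring)]; linear_combination 2 * z0)
    have e1 := ou 1 d d (by rw [map_one, e]; field_simp; ring)
    rw [this, ozl] at e1
    exact mul_ne_zero k4 n e1.symm
  have f0 : ∀ g : Y, π g ∈ N.U → om K a' (g.1.1 *ᵥ a') = 0 := fun g hg => by
    obtain ⟨x, y, hx, e⟩ := N.mem_U.1 hg
    have e1 : σ (y - x * σ x / 2) = -(y - x * σ x / 2) := by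
      simp only [map_div₀, map_sub, map_mul, bb, s2]; field_simp; linear_combination 2 * hx.eq
    have e2 : π g = π (s x * L 0 (y - x * σ x / 2)) := by
      rw [map_mul, πs, hL, N.u_mul (hs _) (hz e1), e]; simp
    have e3 : om K a' ((s x * L 0 (y - x * σ x / 2)).1.1 *ᵥ a') = 0 := by
      rw [Subgroup.coe_mul, mv, om_inv (sp _), si, fz _ e1, γ0 e1]
    rcases h.eq_iff.1 e2 with e4 | e4
    · rw [e4, e3]
    · rw [e4, Units.val_neg, Matrix.neg_mulVec, onr, e3, neg_zero]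
  -- the invariant subspace
  let R := Submodule.span K {v | ∃ g : Y, π g ∈ N.U ∧ v = g.1.1 *ᵥ a'}
  have aR : a' ∈ R := Submodule.subset_span ⟨1, by rw [map_one]; exact one_mem _, (Matrix.one_mulVec _).symm⟩
  have pR : ∀ v ∈ R, om K a' v = 0 := fun v hv =>
    Submodule.span_le.2 (show _ ⊆ (LinearMap.ker (alt_om.bilin a') : Set (I6 → K)) from by
      rintro _ ⟨g, hg, rfl⟩; exact f0 g hg) hv
  rcases irr_sub ir (W := R) (by
    rintro _ ⟨g, ⟨hg, -⟩ | rfl, rfl⟩ v hv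
    · refine Submodule.span_le.2 (show _ ⊆ (R.comap (lv g.1) : Set (I6 → K)) from ?_) hv
      rintro _ ⟨g', hg', rfl⟩
      exact Submodule.subset_span ⟨g * g', by rw [map_mul]; exact mul_mem hg hg', (mv _ _ _).symm⟩
    · rw [qd'.eq, alt_om.skew v a', pR v hv, neg_zero, zero_smul, add_zero]
      exact add_mem hv (R.smul_mem _ aR)) with e | e
  · exact ne_zero qd' ((Submodule.mem_bot K).1 (e ▸ aR))
  · exact ne_zero qd' (ond fun v => pR v (e ▸ trivial))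

end Ux

/-- `Cw.heis` (`r ≥ 5`), `Cw.pow` for `Z = Z(S)` and the torus (`r = 3`, `q ≥ 9`). -/
theorem Cw.char_U3 {q : ℕ} (hq : Fintype.card E = q ^ 2) (ho : Odd q) (h3 : q ≠ 3) {π : Y →* PSU 3 E q}
    (h : Cw Y π) : (q : K) = 0 := by
  obtain ⟨σ, b⟩ := Unitary.exists_isBar hq
  haveI : Fact (Function.Involutive σ) := ⟨b.invol⟩
  obtain ⟨r, f, hr, hc, f1, e1⟩ := Unitary.exists_prime_pow_of_card hq
  obtain ⟨N, -⟩ := Lib.U3.exists_model_PSU b
  have := b.two_le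
  have := Nat.odd_iff.1 ho
  by_contra n
  exact Ux.cross h N (by omega) hr (ho.of_dvd_nat (e1 ▸ dvd_pow_self r (by omega))) e1 fun e =>
    n (by rw [e1, Nat.cast_pow, e, zero_pow (by omega)])

/-- `S` Sylow `p`, `Z = Z(S)`, `t` an involution of the torus, `L_t ≅ SL₂(q) ⊇ Z`.  `Z` fixes two disjoint planes of
`S`-conjugates of `t`, so `z₀ ∈ Z^#` is `Qd` with pair `a, c` fixed by `S`; let `a'` be a point of the pair of an
opposite conjugate `z` in braid relation.  With `s_x` inverted by `t`, `om (s_x a') (s_y a') = γ ((y x̄ - x ȳ) / 2)`,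
`γ d = om a' (z_d a')`; the vectors `s_x a' - s_{-x} a'` lie in the plane of `t`, which forces `γ = 0`.  So the span of
`S a'` is perpendicular to `a'` and invariant under `S` and `z`. -/
theorem Cv.three_of_U3 {q : ℕ} (hq : Fintype.card E = q ^ 2) (ho : Odd q) {π : Y →* PSU 3 E q} (h : Cv Y π)
    (hi : Irr Y) : q = 3 := by
  by_contra h3
  have hK := h.cw.char_U3 hq ho h3
  obtain ⟨σ, b⟩ := Unitary.exists_isBar hq
  haveI : Fact (Function.Involutive σ) := ⟨b.invol⟩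
  obtain ⟨r, f, hr, hc, f1, e1⟩ := Unitary.exists_prime_pow_of_card hq
  obtain ⟨N, -⟩ := Lib.U3.exists_model_PSU b
  have := b.two_le
  have := Nat.odd_iff.1 ho
  haveI := Fact.mk hr
  haveI : CharP K r := (CharP.charP_iff_prime_eq_zero hr).2 (eq_zero_of_pow_eq_zero (n := f) (by
    rw [← Nat.cast_pow, ← e1, hK]))
  exact Ux.defn h hi N (by omega) ho r (ho.of_dvd_nat (e1 ▸ dvd_pow_self r (by omega)))

end Cfsg.Lib.S6Q
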