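import Cfsg.Agent.Lib.S6Q.Qd
import Cfsg.Agent.Lib.U3.Model

/-!
# `U₃(q)`, `q > 3` odd: auxiliary lemmas
-/

set_option autoImplicit false

namespace Cfsg.Lib.S6Q.Ux

open scoped MatrixGroups Matrix commutatorElement
open Cfsg.Geo Cfsg.Lib.Asch Cfsg.Lib.Linear Cfsg.Lib.Q4 Cfsg.Lib.Symp Module T2

section Lin

variable {K : Type*} [Field K] {g s t t' z : G6 K} {a b u v w : I6 → K}

theorem mv (g g' : G6 K) (v : I6 → K) : (g * g').1 *ᵥ v = g.1 *ᵥ g'.1 *ᵥ v :=
  (Matrix.mulVec_mulVec _ _ _).symm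

theorem mv_inv (g : G6 K) (v : I6 → K) : (g⁻¹).1 *ᵥ g.1 *ᵥ v = v := by
  rw [← mv, inv_mul_cancel, Units.val_one, Matrix.one_mulVec]

theorem mv_inv' (g : G6 K) (v : I6 → K) : g.1 *ᵥ (g⁻¹).1 *ᵥ v = v := by
  rw [← mv, mul_inv_cancel, Units.val_one, Matrix.one_mulVec]

theorem om_inv (hg : g ∈ Sp K) (u v : I6 → K) : om K u (g.1 *ᵥ v) = om K ((g⁻¹).1 *ᵥ u) v := by
  rw [← mem_Sp.1 hg ((g⁻¹).1 *ᵥ u) v, mv_inv']

theorem oal (u v w : I6 → K) : om K (u + v) w = om K u w + om K v w := alt_om.bilin.add_left u v w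
theorem oar (u v w : I6 → K) : om K u (v + w) = om K u v + om K u w := alt_om.bilin.add_right u v w
theorem osl (c : K) (u v : I6 → K) : om K (c • u) v = c * om K u v := alt_om.bilin.smul_left c u v
theorem osr (c : K) (u v : I6 → K) : om K u (c • v) = c * om K u v := alt_om.bilin.smul_right c u v
theorem odl (u v w : I6 → K) : om K (u - v) w = om K u w - om K v w := alt_om.bilin.sub_left u v w
theorem odr (u v w : I6 → K) : om K u (v - w) = om K u v - om K u w := alt_om.bilin.sub_right u v w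
theorem onr (u v : I6 → K) : om K u (-v) = -om K u v := alt_om.bilin.neg_right u v
theorem ozl (v : I6 → K) : om K 0 v = 0 := alt_om.bilin.zero_left v
theorem ozr (v : I6 → K) : om K v 0 = 0 := alt_om.bilin.zero_right v
theorem ond (h : ∀ v, om K u v = 0) : u = 0 := alt_om.nondegenerate.1 u h

theorem mem_rg (h2 : (2 : K) ≠ 0) (hu : t.1 *ᵥ u = -u) : u ∈ LinearMap.range (lv t - 1) :=
  ⟨(-(2 : K)⁻¹) • u, by
    rw [map_smul, LinearMap.sub_apply, lv_apply, hu, End.one_apply, ← neg_add', ← two_smul K, smul_neg, neg_smul,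
      neg_neg, smul_smul, inv_mul_cancel₀ h2, one_smul]⟩

theorem of_rg (ht : t * t = 1) (hu : u ∈ LinearMap.range (lv t - 1)) : t.1 *ᵥ u = -u := by
  obtain ⟨v, rfl⟩ := hu
  rw [LinearMap.sub_apply, lv_apply, End.one_apply, Matrix.mulVec_sub, ← mv, ht, Units.val_one,
    Matrix.one_mulVec, neg_sub]

/-- The plane of a type I involution has dimension two. -/
theorem plane (h2 : (2 : K) ≠ 0) (ht : TI t) (hu : t.1 *ᵥ u = -u) (hv : t.1 *ᵥ v = -v) (hw : t.1 *ᵥ w = -w)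
    (h1 : om K u v ≠ 0) (e1 : om K u w = 0) (e2 : om K w v = 0) : w = 0 := by
  by_contra n
  have li : LinearIndependent K ![(⟨u, mem_rg h2 hu⟩ : LinearMap.range (lv t - 1)), ⟨v, mem_rg h2 hv⟩,
      ⟨w, mem_rg h2 hw⟩] := by
    rw [Fintype.linearIndependent_iff]
    intro c hc
    have hc' : c 0 • u + c 1 • v + c 2 • w = 0 := by
      simpa [Fin.sum_univ_three] using congrArg Subtype.val hc
    have k1 := congrArg (om K u) hc'
    have k0 := congrArg (om K · v) hc'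
    simp only [oal, oar, osl, osr, ozl, ozr, alt_om.alt, e1, e2, mul_zero, add_zero, zero_add, mul_eq_zero,
      h1, or_false] at k0 k1
    rw [k0, k1, zero_smul, zero_smul, zero_add, zero_add, smul_eq_zero, or_iff_left n] at hc'
    intro i
    fin_cases i
    exacts [k0, k1, hc']
  have := li.fintype_card_le_finrank
  rw [← rk_eq, ht.2] at this
  simp at this

/-- Two disjoint planes span a `4`-space. -/
theorem four (ht : TI t) (ht' : TI t') (n : ¬ ∃ v ≠ 0, t.1 *ᵥ v = -v ∧ t'.1 *ᵥ v = -v) :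
    ∃ W : Submodule K (I6 → K), finrank K W = 4 ∧ ∀ z : G6 K, (∀ v, t.1 *ᵥ v = -v → z.1 *ᵥ v = v) →
      (∀ v, t'.1 *ᵥ v = -v → z.1 *ᵥ v = v) → W ≤ LinearMap.ker (lv z - 1) := by
  refine ⟨LinearMap.range (lv t - 1) ⊔ LinearMap.range (lv t' - 1), ?_, fun z h h' => sup_le
    (fun v hv => sub_eq_zero.2 (h v (of_rg ht.1 hv))) fun v hv => sub_eq_zero.2 (h' v (of_rg ht'.1 hv))⟩
  have := Submodule.finrank_sup_add_finrank_inf_eq (LinearMap.range (lv t - 1)) (LinearMap.range (lv t' - 1))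
  rwa [← rk_eq, ← rk_eq, ht.2, ht'.2, (Submodule.eq_bot_iff (_ ⊓ _)).2 fun v hv => by_contra fun h0 =>
    n ⟨v, h0, of_rg ht.1 hv.1, of_rg ht'.1 hv.2⟩, finrank_bot] at this

theorem ne_zero (h : Qd g a b) : a ≠ 0 := fun e => one_ne_zero (h.li 1 0 (by simp [e])).1

theorem fix_iff (h : Qd g a b) : g.1 *ᵥ v = v ↔ om K v a = 0 ∧ om K v b = 0 := by
  rw [h.eq, add_assoc, add_eq_left, add_comm]
  exact ⟨fun e => (h.li _ _ e).symm, fun e => by rw [e.1, e.2, zero_smul, zero_smul, add_zero]⟩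

theorem pow_mv {c : K} (h : s.1 *ᵥ a = c • a) (n : ℕ) : (s ^ n).1 *ᵥ a = c ^ n • a := by
  induction n with
  | zero => simp
  | succ n ih => rw [pow_succ, mv, h, Matrix.mulVec_smul, ih, smul_smul, pow_succ']

/-- Elements of order `p` commuting with `g` fix the pair of `g`. -/
theorem qd_fix (h2 : (2 : K) ≠ 0) (p : ℕ) [Fact p.Prime] [CharP K p] (po : Odd p) (h : Qd g a b) (hs : s ∈ Sp K)
    (c : Commute s g) (o : s ^ p = 1) : s.1 *ᵥ a = a := by
  have h' := h.conj hs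
  rw [c.eq, mul_inv_cancel_right] at h'
  obtain ⟨c, hc⟩ : ∃ c : K, (s ^ 2).1 *ᵥ a = c • a := by
    rw [sq, mv]
    rcases h.uniq h2 h' with ⟨e, -⟩ | ⟨e, e'⟩
    · obtain ⟨c, e⟩ := Submodule.mem_span_singleton.1 e
      exact ⟨c * c, by rw [← e, Matrix.mulVec_smul, ← e, smul_smul]⟩
    · obtain ⟨c, e⟩ := Submodule.mem_span_singleton.1 e
      obtain ⟨c', e'⟩ := Submodule.mem_span_singleton.1 e'
      exact ⟨c * c', by rw [← e, Matrix.mulVec_smul, ← e', smul_smul]⟩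
  have e := pow_mv hc p
  rw [← pow_mul, mul_comm, pow_mul, o, one_pow, Units.val_one, Matrix.one_mulVec] at e
  have e1 : c ^ p = 1 := smul_left_injective K (ne_zero h) (e.symm.trans (one_smul K a).symm)
  have e2 : c = 1 := sub_eq_zero.1 (eq_zero_of_pow_eq_zero (n := p) (by rw [sub_pow_char, e1, one_pow, sub_self]))
  obtain ⟨m, rfl⟩ := po
  have e3 := pow_mv hc (m + 1)
  rwa [e2, one_pow, one_smul, ← pow_mul, show 2 * (m + 1) = 2 * m + 1 + 1 by ring, pow_succ, o, one_mul] at e3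

/-- An involution whose plane is fixed by `g` fixes the pair of `g`. -/
theorem ti_fix (h : Qd g a b) (hs : t ∈ Sp K) (ht : t * t = 1) (e : ∀ v, t.1 *ᵥ v = -v → g.1 *ᵥ v = v) :
    t.1 *ᵥ a = a := by
  refine sub_eq_zero.1 (ond fun v => ?_)
  have := ((fix_iff h).1 (e _ (of_rg ht ⟨v, rfl⟩))).1
  rw [LinearMap.sub_apply, lv_apply, End.one_apply, odl] at this
  rw [odl, alt_om.skew _ v, om_inv hs, inv_eq_of_mul_eq_one_right ht, alt_om.skew a]
  linear_combination -this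

end Lin

section Grp

open Cfsg.Lib.Unitary Cfsg.Lib.U3

variable {E : Type*} [Field E] {σ : E →+* E} {q : ℕ} {G : Type*} [Group G] [Fact (Function.Involutive σ)]

omit [Fact (Function.Involutive σ)] in
theorem exists_el {δ : E} (d0 : δ ≠ 0) (hd : σ δ = -δ) (g : SL(2, fixedField σ)) : ∃ x : SJ σ,
    x.1.1 = !![(g 0 0 : E), 0, δ * g 0 1; 0, 1, 0; g 1 0 / δ, 0, g 1 1] := by
  have fx : ∀ a : fixedField σ, σ a = a := fun a => a.2
  have dt : (g 0 0 : E) * g 1 1 - g 0 1 * g 1 0 = 1 := by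
    have := g.det_coe
    rw [Matrix.det_fin_two] at this
    exact congrArg Subtype.val this
  refine ⟨⟨⟨_, ?_⟩, mem_mSU.2 ?_⟩, rfl⟩
  · simp [Matrix.det_fin_three]; field_simp; linear_combination dt
  · ext i j
    fin_cases i <;> fin_cases j <;> simp [J, Matrix.mul_apply, Fin.sum_univ_three, fx, hd] <;> field_simp
    exacts [by ring, by linear_combination dt, by linear_combination dt, by ring]

/-- `SL₂(q) ≤ SU₃(q)`. -/
theorem exists_sl2 {δ : E} (d0 : δ ≠ 0) (hd : σ δ = -δ) : ∃ F : SL(2, fixedField σ) →* SJ σ,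
    F (-1) = th σ (-1) ∧ ∀ d, σ d = -d → uu σ 0 d ∈ F.range := by
  choose F hF using exists_el d0 hd
  have hm : ∀ g g', F (g * g') = F g * F g' := fun g g' => sj_ext (by
    rw [U3.mul_val, hF, hF, hF]
    ext i j
    fin_cases i <;> fin_cases j <;>
      simp [Matrix.mul_apply, Fin.sum_univ_three, Fin.sum_univ_two] <;> field_simp)
  have h1 : F (-1) = th σ (-1) := sj_ext (by
    rw [th_val (neg_ne_zero.2 one_ne_zero), hF]
    ext i j
    fin_cases i <;> fin_cases j <;> simp)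
  refine ⟨MonoidHom.mk' F hm, h1, fun d e => ?_⟩
  obtain ⟨c, hc⟩ : ∃ c : fixedField σ, (c : E) = d / δ :=
    ⟨⟨d / δ, by rw [mem_fixedField, map_div₀, e, hd, neg_div_neg_eq]⟩, rfl⟩
  obtain ⟨g, hg⟩ : ∃ g : SL(2, fixedField σ), g.1 = !![1, c; 0, 1] :=
    ⟨⟨!![1, c; 0, 1], by simp [Matrix.det_fin_two]⟩, rfl⟩
  have : F g = uu σ 0 d := sj_ext (by
    rw [uu_val (by simp [Hs, e]), hF, hg]
    ext i j
    fin_cases i <;> fin_cases j <;> simp [hc]
    field_simp)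
  exact MonoidHom.mem_range.2 ⟨g, this⟩

variable (N : Model σ q G)

theorem u_pow {x y : E} (h : Hs σ x y) (n : ℕ) : Hs σ (n * x) (n * y + n.choose 2 * (x * σ x)) ∧
    N.u x y ^ n = N.u (n * x) (n * y + n.choose 2 * (x * σ x)) := by
  induction n with
  | zero => simpa [N.u_zero] using Hs.zero
  | succ n ih =>
    have e1 : ((n + 1 : ℕ) : E) * x = n * x + x := by push_cast; ring
    have e2 : ((n + 1 : ℕ) : E) * y + (n + 1).choose 2 * (x * σ x) =
        n * y + n.choose 2 * (x * σ x) + y + n * x * σ x := by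
      rw [Nat.choose_succ_succ' n 1, Nat.choose_one_right]; push_cast; ring
    rw [e1, e2, pow_succ, ih.2]
    exact ⟨ih.1.mul h, N.u_mul ih.1 h⟩

theorem u_pow_char (p : ℕ) [CharP E p] (hp : p.Prime) (po : Odd p) (x y : E) : N.u x y ^ p = 1 := by
  by_cases h : Hs σ x y
  · have h2 : 2 < p := by have := hp.two_le; obtain ⟨m, rfl⟩ := po; omega
    rw [(u_pow N h p).2, CharP.cast_eq_zero,
      (CharP.cast_eq_zero_iff E p _).2 (hp.dvd_choose_self two_ne_zero h2)]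
    simp [N.u_zero]
  · rw [Model.u, uu, dif_neg h, map_one, one_pow]

theorem gen {A : Subgroup G} (hU : N.U ≤ A) {c : E} (hw : N.w * N.h c ∈ A) (c0 : c ≠ 0) : A = ⊤ := by
  obtain ⟨x, h⟩ := exists_hs N.bar 1
  have h1 := mul_mem (mul_mem hw (hU (N.conj_mem_U (inv_mem (N.T_le_B (N.h_mem_T c0))) (N.u_mem_U h))))
    (inv_mem hw)
  have e : N.w * N.h c * ((N.h c)⁻¹ * N.u x 1 * (N.h c)⁻¹⁻¹) * (N.w * N.h c)⁻¹ = N.w * N.u x 1 * N.w⁻¹ := by
    group
  rw [e, N.w_inv, N.w_u_w h one_ne_zero, N.h_one, mul_one] at h1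
  exact N.eq_top_of_u (fun x y h => hU (N.u_mem_U h)) ((mul_mem_cancel_left (hU (N.u_mem_U h.weyl))).1
    ((mul_mem_cancel_right (hU (N.u_mem_U h.weyl'))).1 h1))

end Grp

end Cfsg.Lib.S6Q.Ux
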