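import Cfsg.Agent.Lib.S6Q.T3

/-!
# Units: frames

A nondegenerate plane is the image of a *frame* `f : K² → V`, `ad f * f = 1`; `el f γ` acts as `γ ∈ SL₂` on it and trivially on
the complement.  `M₂(K)` is used as the split quaternion algebra, `γ* = adjugate γ`.
-/

set_option autoImplicit false

namespace Cfsg.Lib.S6Q

open scoped MatrixGroups Matrix commutatorElement
open Cfsg.Geo Cfsg.Lib.Asch Cfsg.Lib.Linear Cfsg.Lib.Q4 Cfsg.Lib.Symp Module
open Cfsg.Lib.Q4R (Sq HasTv sc dg)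

/-- `2 × 2` matrices. -/
abbrev M2 (K : Type*) : Type _ := Matrix (Fin 2) (Fin 2) K
/-- `6 × 2` matrices. -/
abbrev Fm (K : Type*) : Type _ := Matrix I6 (Fin 2) K

variable {K : Type*} [Field K] {Y : Subgroup (G6 K)} {f f' f'' f₁ f₂ ψ : Fm K} {j J J' j₁ j₂ γ γ' δ ρ : M2 K} {g : G6 K}
  {p q : K}

/-- The adjoint: `om (f x) v = det(x, ad f v)`. -/
def ad (f : Fm K) : Matrix (Fin 2) I6 K := (!![0, -1; 1, 0] : M2 K) * fᵀ * Matrix.J (Fin 3) K

/-- A frame. -/
def Fr (f : Fm K) : Prop := ad f * f = 1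

/-- `γ` on the plane of `f`, `1` on the complement. -/
def el (f : Fm K) (γ : M2 K) : Matrix I6 I6 K := 1 + f * (γ - 1) * ad f

/-- `el f γ ∈ Y`. -/
def El (Y : Subgroup (G6 K)) (f : Fm K) (γ : M2 K) : Prop := ∃ g ∈ Y, g.1 = el f γ

/-- A pure unit quaternion. -/
def Pu (j : M2 K) : Prop := j.trace = 0 ∧ j.det = 1

/-- A unit of `Y` with plane `f` and type `j`. -/
structure Ut (Y : Subgroup (G6 K)) (f : Fm K) (j : M2 K) : Prop where
  fr : Fr f
  pu : Pu j
  el : El Y f j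

/-- The plane of `f` carries two cyclic groups of order four. -/
def Bg (Y : Subgroup (G6 K)) (f : Fm K) : Prop := ∃ j₁ j₂, Ut Y f j₁ ∧ Ut Y f j₂ ∧ j₂ ≠ j₁ ∧ j₂ ≠ -j₁

/-- Aligned. -/
def Al (φ j j' : M2 K) : Prop := j * φ = φ * j' ∨ j * φ = -(φ * j')

/-- Anticommuting, at the angle `1 / 2`. -/
def An (φ j j' : M2 K) : Prop := 2 * φ.det = 1 ∧ (j * φ * j' * φ.adjugate).trace = 0

/-- The standing hypothesis. -/
structure Hy (Y : Subgroup (G6 K)) : Prop where
  two : (2 : K) ≠ 0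
  fin : Finite Y
  sp : Y ≤ Sp K
  ntv : ¬ HasTv Y

/-- The column space. -/
abbrev rg (f : Fm K) : Submodule K (I6 → K) := LinearMap.range f.mulVecLin

theorem un0_E (δ : M2 K) : (!![0, -1; 1, 0] : M2 K) * δᵀ = δ.adjugate * !![0, -1; 1, 0] := by
  ext i k; fin_cases i <;> fin_cases k <;> simp [Matrix.adjugate_fin_two, Matrix.mul_apply, Fin.sum_univ_two]

theorem un0_det (δ : M2 K) : δ.adjugate.det = δ.det := by simp [Matrix.det_adjugate]

theorem un0_adj (δ : M2 K) : δ.adjugate.adjugate = δ := by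
  rw [Matrix.adjugate_adjugate _ (by simp)]; simp

theorem un0_neg (δ : M2 K) : (-δ).adjugate = -δ.adjugate := by simp [Matrix.adjugate_fin_two]

theorem un0_tr (δ : M2 K) : δ + δ.adjugate = δ.trace • 1 := by
  ext i k; fin_cases i <;> fin_cases k <;> simp [Matrix.adjugate_fin_two, Matrix.trace_fin_two, add_comm]

theorem un0_ch (δ : M2 K) : δ * δ = δ.trace • δ - δ.det • 1 := by
  rw [← Matrix.mul_adjugate, eq_sub_iff_add_eq, ← mul_add, un0_tr, Matrix.mul_smul, mul_one]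

theorem om_ad (x : Fin 2 → K) (v : I6 → K) : om K (f *ᵥ x) v = x 0 * (ad f *ᵥ v) 1 - x 1 * (ad f *ᵥ v) 0 := by
  rw [ad, Matrix.mul_assoc, ← Matrix.mulVec_mulVec, ← Matrix.mulVec_mulVec, om, sympForm,
    ← Matrix.vecMul_transpose, ← Matrix.dotProduct_mulVec]
  generalize fᵀ *ᵥ _ = w
  simp [dotProduct, Fin.sum_univ_two, Matrix.mulVec]

theorem ad_add : ad (f + f') = ad f + ad f' := by
  simp only [ad, Matrix.transpose_add, Matrix.mul_add, Matrix.add_mul]

theorem ad_smul : ad (p • f) = p • ad f := by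
  simp only [ad, Matrix.transpose_smul, Matrix.mul_smul, Matrix.smul_mul]

theorem ad_mul : ad (f * δ) = δ.adjugate * ad f := by
  simp only [ad, Matrix.transpose_mul, ← Matrix.mul_assoc, un0_E]

theorem ad_sp (hg : g ∈ Sp K) : ad (g.1 * f) = ad f * (g⁻¹).1 := by
  have := congrArg (· * (g⁻¹).1) (mem_Sp'.1 hg)
  simp only [Matrix.mul_assoc, Units.mul_inv, Matrix.mul_one] at this
  simp only [ad, Matrix.transpose_mul, Matrix.mul_assoc, this]

theorem ad_swap : ad f' * f = (ad f * f').adjugate := by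
  have : (fᵀ * (Matrix.J (Fin 3) K * f'))ᵀ = -(f'ᵀ * (Matrix.J (Fin 3) K * f)) := by
    simp [Matrix.transpose_mul, Matrix.J_transpose, Matrix.mul_assoc]
  simp only [ad, Matrix.mul_assoc]
  rw [Matrix.adjugate_mul_distrib, show (!![0, -1; 1, 0] : M2 K).adjugate = -!![0, -1; 1, 0] by simp,
    Matrix.mul_neg, ← un0_E, this, Matrix.mul_neg, neg_neg]

/-- `ad f * f` is the scalar `om (f e₀) (f e₁)`. -/
theorem ad_self : ∃ c : K, ad f * f = c • 1 := by
  have e : ∀ i k, (fᵀ * (Matrix.J (Fin 3) K * f)) i k = om K (fun a => f a i) fun a => f a k := fun _ _ => rfl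
  refine ⟨om K (fun a => f a 0) fun a => f a 1, ?_⟩
  simp only [ad, Matrix.mul_assoc]
  ext i k
  rw [Matrix.mul_apply, Fin.sum_univ_two, e, e]
  fin_cases i <;> fin_cases k <;> simp [alt_om.alt, alt_om.skew (fun a => f a 1) fun a => f a 0]

theorem Fr.conj (h : Fr f) (hg : g ∈ Sp K) : Fr (g.1 * f) := by
  rw [Fr, ad_sp hg, Matrix.mul_assoc, ← Matrix.mul_assoc _ g.1, Units.inv_mul, Matrix.one_mul, h]

theorem Fr.mul (h : Fr f) (d : δ.det = 1) : Fr (f * δ) := by
  rw [Fr, ad_mul, Matrix.mul_assoc, ← Matrix.mul_assoc _ f, h, one_mul, Matrix.adjugate_mul, d, one_smul]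

theorem Fr.finrank (h : Fr f) : finrank K (rg f) = 2 := by
  rw [LinearMap.finrank_range_of_inj fun x y e => by
    simpa [show ad f * f = 1 from h] using congrArg (ad f *ᵥ ·) e]
  simp

theorem Fr.el_mul (h : Fr f) : el f γ * el f γ' = el f (γ * γ') := by
  have : f * (γ - 1) * ad f * (f * (γ' - 1) * ad f) = f * ((γ - 1) * (γ' - 1)) * ad f := by
    simp only [Matrix.mul_assoc]
    rw [← Matrix.mul_assoc (ad f), h, Matrix.one_mul]
  rw [el, el, el, add_mul, mul_add, mul_add, this, one_mul, one_mul, mul_one,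
    show γ * γ' - 1 = γ' - 1 + (γ - 1 + (γ - 1) * (γ' - 1)) by noncomm_ring]
  simp only [Matrix.mul_add, Matrix.add_mul, add_assoc]

theorem Fr.el_self (h : Fr f) : el f γ * f = f * γ := by
  rw [el, Matrix.add_mul, Matrix.mul_assoc, h, Matrix.mul_one, Matrix.one_mul, Matrix.mul_sub, Matrix.mul_one,
    add_sub_cancel]

theorem el_apply : el f γ * f' = f' + f * ((γ - 1) * (ad f * f')) := by
  simp only [el, Matrix.add_mul, Matrix.one_mul, Matrix.mul_assoc]

theorem el_change (d : δ.det = 1) : el (f * δ) γ = el f (δ * γ * δ.adjugate) := by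
  rw [el, el, ad_mul, show δ * γ * δ.adjugate - 1 = δ * (γ - 1) * δ.adjugate by
    rw [mul_sub, sub_mul, mul_one, Matrix.mul_adjugate, d, one_smul]]
  simp only [Matrix.mul_assoc]

theorem El.mul (h : Fr f) (a : El Y f γ) (b : El Y f γ') : El Y f (γ * γ') := by
  obtain ⟨g, hg, e⟩ := a
  obtain ⟨k, hk, e'⟩ := b
  exact ⟨g * k, Y.mul_mem hg hk, by rw [Units.val_mul, e, e', h.el_mul]⟩

theorem El.conj (hY : Y ≤ Sp K) (a : El Y f γ) (hg : g ∈ Y) : El Y (g.1 * f) γ := by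
  obtain ⟨k, hk, e⟩ := a
  refine ⟨g * k * g⁻¹, Y.mul_mem (Y.mul_mem hg hk) (Y.inv_mem hg), ?_⟩
  rw [Units.val_mul, Units.val_mul, e, el, el, ad_sp (hY hg), mul_add, add_mul, mul_one, Units.mul_inv]
  simp only [Matrix.mul_assoc]

theorem Ut.conj (hY : Y ≤ Sp K) (a : Ut Y f j) (hg : g ∈ Y) : Ut Y (g.1 * f) j := by
  exact ⟨a.fr.conj (hY hg), a.pu, a.el.conj hY hg⟩

theorem Ut.change (a : Ut Y f j) (d : δ.det = 1) : Ut Y (f * δ) (δ.adjugate * j * δ) := by
  refine ⟨a.fr.mul d, ⟨?_, by simp [un0_det, d, a.pu.2]⟩, ?_⟩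
  · rw [Matrix.trace_mul_cycle, Matrix.mul_adjugate, d, one_smul, one_mul, a.pu.1]
  · rw [El, el_change d, ← mul_assoc, ← mul_assoc, mul_assoc _ δ, Matrix.mul_adjugate, d, one_smul, one_mul, mul_one]
    exact a.el

theorem Pu.sq (h : Pu j) : j * j = -1 := by
  rw [un0_ch, h.1, h.2, zero_smul, one_smul, zero_sub]

theorem Pu.adj (h : Pu j) : j.adjugate = -j := by
  rw [eq_neg_iff_add_eq_zero, add_comm, un0_tr, h.1, zero_smul]

theorem Pu.neg (h : Pu j) : Pu (-j) := by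
  exact ⟨by rw [Matrix.trace_neg, h.1, neg_zero], by simp [Matrix.det_neg, h.2]⟩

theorem Pu.conj (h : Pu j) (d : δ.det = 1) : Pu (δ * j * δ.adjugate) := by
  refine ⟨?_, by simp [un0_det, d, h.2]⟩
  rw [Matrix.trace_mul_cycle, Matrix.adjugate_mul, d, one_smul, one_mul, h.1]

theorem Pu.of_comm (h2 : (2 : K) ≠ 0) (h : Pu j) (h' : Pu J) (c : j * J = J * j) : J = j ∨ J = -j := by
  have e := un0_ch (j * J)
  rw [mul_assoc, ← mul_assoc J, ← c, mul_assoc, h'.sq, ← mul_assoc, h.sq, Matrix.det_mul, h.2, h'.2, neg_mul_neg,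
    one_mul, one_mul, one_smul, eq_sub_iff_add_eq, ← two_smul K] at e
  have t := congrArg Matrix.trace e
  have k := congrArg (j * ·) e
  simp only [Matrix.mul_smul, ← mul_assoc, h.sq, mul_one, neg_one_mul] at k
  simp only [Matrix.trace_smul, Matrix.trace_one, Fintype.card_fin, smul_eq_mul, Nat.cast_ofNat] at t
  rcases mul_self_eq_mul_self_iff.1 t.symm with t | t <;> rw [t] at k
  · exact .inr (neg_eq_iff_eq_neg.1 (smul_right_injective _ h2 k).symm)
  · exact .inl (smul_right_injective _ h2 (by simpa using k)).symm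

theorem Pu.anti_iff (h : Pu j) (h' : Pu J) : j * J = -(J * j) ↔ (j * J).trace = 0 := by
  rw [eq_neg_iff_add_eq_zero, ← neg_mul_neg J j, ← h.adj, ← h'.adj, ← Matrix.adjugate_mul_distrib, un0_tr]
  simp

theorem Pu.mul (h : Pu j) (h' : Pu J) (c : j * J = -(J * j)) : Pu (j * J) := by
  exact ⟨(h.anti_iff h').1 c, by rw [Matrix.det_mul, h.2, h'.2, one_mul]⟩

theorem Ut.neg (a : Ut Y f j) : Ut Y f (-j) := by
  exact ⟨a.fr, a.pu.neg, by simpa [a.pu.sq] using (a.el.mul a.fr a.el).mul a.fr a.el⟩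

theorem Ut.inv (a : Ut Y f j) : El Y f (-1) := by
  exact a.pu.sq ▸ a.el.mul a.fr a.el

theorem Bg.conj (hY : Y ≤ Sp K) (hg : g ∈ Y) : Bg Y (g.1 * f) ↔ Bg Y f := by
  refine ⟨fun ⟨j₁, j₂, a, b, n⟩ => ⟨j₁, j₂, ?_, ?_, n⟩, fun ⟨j₁, j₂, a, b, n⟩ => ⟨j₁, j₂, a.conj hY hg, b.conj hY hg, n⟩⟩
  · simpa [← Matrix.mul_assoc] using a.conj hY (Y.inv_mem hg)
  · simpa [← Matrix.mul_assoc] using b.conj hY (Y.inv_mem hg)

theorem Bg.change (d : δ.det = 1) : Bg Y (f * δ) ↔ Bg Y f := by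
  have k : ∀ {f : Fm K} {δ : M2 K}, δ.det = 1 → Bg Y f → Bg Y (f * δ) := fun {f δ} d ⟨j₁, j₂, a, b, n, n'⟩ => by
    have i : ∀ {x y : M2 K}, δ.adjugate * x * δ = δ.adjugate * y * δ → x = y := fun e => by
      simpa [← mul_assoc, Matrix.mul_adjugate, d, mul_assoc _ δ δ.adjugate] using congrArg (δ * · * δ.adjugate) e
    exact ⟨_, _, a.change d, b.change d, fun e => n (i e), fun e => n' (i (by rw [e, mul_neg, neg_mul]))⟩
  refine ⟨fun h => ?_, k d⟩
  simpa [Matrix.mul_assoc, Matrix.mul_adjugate, d] using k (δ := δ.adjugate) (by rw [un0_det, d]) h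

theorem Al.symm (a : Pu j) (b : Pu J) (h : Al ρ j J) : Al ρ.adjugate J j := by
  refine h.imp (fun e => ?_) fun e => ?_ <;> have := congrArg Matrix.adjugate e
  · simpa [Matrix.adjugate_mul_distrib, a.adj, b.adj] using this.symm
  · rw [un0_neg] at this
    simpa [Matrix.adjugate_mul_distrib, a.adj, b.adj] using this.symm

theorem An.symm (h : An ρ j J) : An ρ.adjugate J j := by
  refine ⟨by rw [un0_det, h.1], ?_⟩
  rw [un0_adj, mul_assoc, Matrix.trace_mul_comm, ← mul_assoc, h.2]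

theorem un0_hdet (h : Hy Y) (a : Fr f) (e : El Y f γ) : γ.det = 1 := by
  obtain ⟨g, hg, e⟩ := e
  have := a.conj (h.sp hg)
  rw [e, a.el_self, Fr, ad_mul, Matrix.mul_assoc, ← Matrix.mul_assoc _ f, a, one_mul, Matrix.adjugate_mul] at this
  simpa using congrFun (congrFun this 0) 0

/-- No transvections. -/
theorem Hy.unip (h : Hy Y) (a : Fr f) (e : El Y f γ) (t : γ.trace = 2) : γ = 1 := by
  by_contra n
  have d := un0_hdet h a e
  obtain ⟨x, y, xy, e'⟩ : ∃ x y : Fin 2 → K, y ⬝ᵥ x = 0 ∧ γ - 1 = Matrix.vecMulVec x y := by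
    rw [Matrix.det_fin_two] at d
    rw [Matrix.trace_fin_two] at t
    by_cases b : γ 0 1 = 0
    · have : γ 0 0 = 1 := by
        rw [← sub_eq_zero, ← mul_self_eq_zero]; linear_combination γ 0 0 * t - d - γ 1 0 * b
      refine ⟨![0, 1], ![γ 1 0, 0], by simp, ?_⟩
      ext i k; fin_cases i <;> fin_cases k <;> simp [Matrix.vecMulVec_apply, b, this]
      linear_combination t - this
    · refine ⟨![γ 0 1, 1 - γ 0 0], ![(γ 0 0 - 1) / γ 0 1, 1], by simp [b], ?_⟩
      ext i k; fin_cases i <;> fin_cases k <;> simp [Matrix.vecMulVec_apply] <;> field_simp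
      · linear_combination γ 0 0 * t - d
      · linear_combination t
  obtain ⟨g, hg, e⟩ := e
  refine h.ntv ⟨g, hg, f *ᵥ x, y ᵥ* ad f, fun z => n ?_, fun z => n ?_, ?_, ?_⟩
  · have := congrArg (ad f *ᵥ ·) z
    simp only [Matrix.mulVec_mulVec, show ad f * f = 1 from a, Matrix.one_mulVec, Matrix.mulVec_zero] at this
    rwa [this, Matrix.zero_vecMulVec, sub_eq_zero] at e'
  · have := congrArg (· ᵥ* f) z
    simp only [Matrix.vecMul_vecMul, show ad f * f = 1 from a, Matrix.vecMul_one, Matrix.zero_vecMul] at this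
    rwa [this, Matrix.vecMulVec_zero, sub_eq_zero] at e'
  · rw [← Matrix.dotProduct_mulVec, Matrix.mulVec_mulVec, a, Matrix.one_mulVec, xy]
  · rw [e, el, e', Matrix.mul_vecMulVec, Matrix.vecMulVec_mul]

theorem Hy.det (h : Hy Y) (a : Fr f) (e : El Y f γ) : γ.det = 1 := by
  exact un0_hdet h a e

/-- The group `Γ` of the plane. -/
theorem Hy.exists_gam (h : Hy Y) (a : Fr f) : ∃ Γ : Subgroup SL(2, K), Finite Γ ∧ ∀ γ : SL(2, K), γ ∈ Γ ↔ El Y f γ.1 := by
  have := h.fin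
  let Γ : Subgroup SL(2, K) :=
    { carrier := {γ | El Y f γ.1}
      one_mem' := ⟨1, Y.one_mem, by simp [el]⟩
      mul_mem' := fun x y => x.mul a y
      inv_mem' := fun {γ} ⟨g, hg, e⟩ => ⟨g⁻¹, Y.inv_mem hg, Units.inv_eq_of_mul_eq_one_right (by
        rw [e, a.el_mul, ← Matrix.SpecialLinearGroup.coe_mul, mul_inv_cancel]; simp [el])⟩ }
  have : ∀ γ : Γ, ∃ g : Y, g.1.1 = el f γ.1.1 := fun ⟨_, g, hg, e⟩ => ⟨⟨g, hg⟩, e⟩
  choose φ hφ using this
  refine ⟨Γ, .of_injective φ fun x y e => Subtype.ext (Subtype.ext ?_), fun _ => Iff.rfl⟩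
  have := congrArg (fun z => ad f * (z * f)) ((hφ x).symm.trans (e ▸ hφ y))
  simpa only [a.el_self, ← Matrix.mul_assoc, show ad f * f = 1 from a, one_mul] using this

/-- Two different types have no common eigenvector (`j₁ j₂⁻¹` or `j₁ j₂` would be unipotent). -/
theorem Hy.det_comm (h : Hy Y) (a : Ut Y f j₁) (b : Ut Y f j₂) (n : j₂ ≠ j₁) (n' : j₂ ≠ -j₁) :
    (j₁ * j₂ - j₂ * j₁).det ≠ 0 := by
  intro e
  have d : (j₁ * j₂).det = 1 := by rw [Matrix.det_mul, a.pu.2, b.pu.2, one_mul]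
  have k : ∀ {j}, Ut Y f j → (j₁ * j).trace = 2 → j = -j₁ := fun c t => by
    simpa [← mul_assoc, a.pu.sq, neg_eq_iff_eq_neg] using congrArg (j₁ * ·) (h.unip a.fr (a.el.mul a.fr c.el) t)
  rw [← neg_mul_neg j₂ j₁, ← a.pu.adj, ← b.pu.adj, ← Matrix.adjugate_mul_distrib] at e
  have t : (j₁ * j₂).trace * (j₁ * j₂).trace = 2 * 2 := by
    generalize j₁ * j₂ = M at d e
    rw [Matrix.det_fin_two] at d e
    simp [Matrix.adjugate_fin_two] at e
    rw [Matrix.trace_fin_two]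
    linear_combination 4 * d - e
  rcases mul_self_eq_mul_self_iff.1 t with t | t
  · exact n' (k b t)
  · exact n (neg_inj.1 (k b.neg (by rw [mul_neg, Matrix.trace_neg, t, neg_neg])))

theorem un0_frame (i : Fin 3) : ∃ f₀ : Fm K, Fr f₀ ∧ ∀ m m' : K, el f₀ !![m, 0; 0, m'] =
    Matrix.diagonal (Sum.elim (fun l => if l = i then m else 1) fun l => if l = i then m' else 1) := by
  let f₀ : Fm K := Matrix.of fun a b => if a = .inl i ∧ b = 0 then 1 else if a = .inr i ∧ b = 1 then -1 else 0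
  have A : ad f₀ = f₀ᵀ := by
    ext a b
    fin_cases a <;> rcases b with b | b <;>
      simp [ad, f₀, Matrix.mul_apply, Matrix.J, Matrix.vecMul, dotProduct, Matrix.one_apply, eq_comm (a := i)]
    split_ifs <;> simp
  refine ⟨f₀, ?_, fun m m' => ?_⟩
  · rw [Fr, A]
    ext a b
    fin_cases a <;> fin_cases b <;> simp [f₀, Matrix.mul_apply]
  · rw [el, A]
    ext a b
    rcases a with a | a <;> rcases b with b | b <;>
      simp [f₀, Matrix.mul_apply, Matrix.one_apply, Matrix.diagonal_apply] <;> split_ifs <;> simp_all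

theorem exists_ut [IsAlgClosed K] (h : Hy Y) (hg : g ∈ Y) (u : Un g) : ∃ f j, Ut Y f j ∧ g.1 = el f j := by
  classical
  obtain ⟨k, hk, μ, h4, e⟩ := exists_conj_tor (h.sp hg) u.2.1 (by
    rw [show ((4 : ℕ) : K) = 2 * 2 by norm_num]; exact mul_ne_zero h.two h.two)
  have r := u.1
  rw [← rk_conj g k, e, rk_tor] at r
  obtain ⟨i, hi⟩ := Finset.card_eq_one.1 (show _ = 1 by omega : (Finset.univ.filter fun i => μ i ≠ 1).card = 1)
  have o : ∀ l, l ≠ i → μ l = 1 := fun l n => by_contra fun m =>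
    n (Finset.mem_singleton.1 (hi ▸ Finset.mem_filter.2 ⟨Finset.mem_univ l, m⟩))
  have m2 : (μ i : K) * μ i = -1 := by
    have n : μ i ^ 2 ≠ 1 := fun m => u.2.2 (by
      have : μ ^ 2 = 1 := funext fun l => by
        by_cases a : l = i
        · rw [a]; exact m
        · simp [o l a]
      have e2 : k * g ^ 2 * k⁻¹ = 1 := by rw [← conj_pow, e, ← map_pow, this, map_one]
      simpa using e2)
    have e4 : ((μ i : K) * μ i - 1) * (μ i * μ i + 1) = 0 := by
      have := congrArg Units.val (h4 i)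
      rw [Units.val_pow_eq_pow_val, Units.val_one] at this
      linear_combination this
    exact eq_neg_of_add_eq_zero_left ((mul_eq_zero.1 e4).resolve_left fun m => n (Units.ext (by
      rw [Units.val_pow_eq_pow_val, Units.val_one]; linear_combination m)))
  have mi : ((μ i)⁻¹ : Kˣ).1 = -μ i := by
    rw [Units.val_inv_eq_inv_val]; exact inv_eq_of_mul_eq_one_right (by linear_combination -m2)
  obtain ⟨f₀, F, E⟩ := un0_frame (K := K) i
  replace E : (tor μ : G6 K).1 = el f₀ !![μ i, 0; 0, -μ i] := by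
    rw [tor_eq, Q4R.dg_val, E]
    congr 1
    funext a
    rcases a with l | l <;> by_cases a : l = i <;> simp [a, o, mi, -Units.val_inv_eq_inv_val]
  have G : g.1 = el ((k⁻¹).1 * f₀) !![μ i, 0; 0, -μ i] := by
    have : g = k⁻¹ * tor μ * k := by rw [← e]; group
    rw [this, Units.val_mul, Units.val_mul, E, el, el, ad_sp (inv_mem hk), inv_inv, Matrix.mul_add, Matrix.add_mul,
      Matrix.mul_one, Units.inv_mul]
    simp only [Matrix.mul_assoc]
  exact ⟨_, _, ⟨F.conj (inv_mem hk), ⟨by simp, by rw [Matrix.det_fin_two_of]; linear_combination -m2⟩, g, hg, G⟩, G⟩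

theorem Ut.un (h : Hy Y) (a : Ut Y f j) : ∃ g ∈ Y, Un g ∧ g.1 = S6Q.el f j := by
  obtain ⟨g, hg, e⟩ := a.el
  have e2 : (g ^ 2).1 = S6Q.el f (-1) := by rw [pow_two, Units.val_mul, e, a.fr.el_mul, a.pu.sq]
  refine ⟨g, hg, ⟨le_antisymm ?_ ?_, Units.ext ?_, fun m => h.two ?_⟩, e⟩
  · rw [rk, e, S6Q.el, add_sub_cancel_left]
    exact (Matrix.rank_mul_le_right _ _).trans ((Matrix.rank_le_card_height _).trans (by simp))
  · have d : (j - 1).det ≠ 0 := by
      have t := a.pu.1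
      have d := a.pu.2
      rw [Matrix.trace_fin_two] at t
      rw [Matrix.det_fin_two] at d ⊢
      simp only [Matrix.sub_apply, Matrix.one_apply_eq, ne_eq, zero_ne_one, not_false_eq_true, Matrix.one_apply_ne,
        one_ne_zero]
      exact fun m => h.two (by linear_combination m - d + t)
    have r := Matrix.rank_of_isUnit _ ((Matrix.isUnit_iff_isUnit_det _).2 d.isUnit)
    have : j - 1 = ad f * (f * (j - 1) * ad f) * f := by
      rw [← Matrix.mul_assoc, ← Matrix.mul_assoc, Matrix.mul_assoc _ (ad f), show ad f * f = 1 from a.fr,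
        Matrix.one_mul, Matrix.mul_one]
    rw [this] at r
    rw [rk, e, S6Q.el, add_sub_cancel_left]
    exact (r.symm.le.trans' (by simp)).trans ((Matrix.rank_mul_le_left _ _).trans (Matrix.rank_mul_le_right _ _))
  · rw [show 4 = 2 + 2 from rfl, pow_add, Units.val_mul, e2, a.fr.el_mul]; simp [S6Q.el]
  · have := congrArg (ad f * ·) (a.fr.el_self (γ := -1))
    simp only [← e2, m, Units.val_one, Matrix.one_mul, ← Matrix.mul_assoc, show ad f * f = 1 from a.fr] at this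
    have := congrFun (congrFun this 0) 0
    simp at this
    linear_combination this

/-- Normal form of a pair with `c = det (ad f * f') ∉ {0, 1}`. -/
theorem exists_nf [IsAlgClosed K] (a : Fr f) (b : Fr f') (c0 : (ad f * f').det ≠ 0) (c1 : (ad f * f').det ≠ 1) :
    ∃ (δ : M2 K) (f₁ : Fm K) (p q : K), δ.det = 1 ∧ Fr f₁ ∧ ad f * f₁ = 0 ∧ p ≠ 0 ∧ q ≠ 0 ∧ p ^ 2 + q ^ 2 = 1 ∧
      p ^ 2 = (ad f * f').det ∧ ad f * f' * δ = p • 1 ∧ f' * δ = p • f + q • f₁ := by
  obtain ⟨p, hp⟩ := IsAlgClosed.exists_pow_nat_eq (ad f * f').det two_pos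
  obtain ⟨q, hq⟩ := IsAlgClosed.exists_pow_nat_eq (1 - (ad f * f').det) two_pos
  have p0 : p ≠ 0 := fun e => c0 (by rw [← hp, e]; simp)
  have q0 : q ≠ 0 := fun e => c1 (by rw [e] at hq; linear_combination hq)
  obtain ⟨δ, hδ⟩ : ∃ δ : M2 K, δ = p⁻¹ • (ad f * f').adjugate := ⟨_, rfl⟩
  have d : δ.det = 1 := by
    rw [hδ, Matrix.det_smul, Matrix.det_adjugate, ← hp]; simp [p0]
  have e : ad f * f' * δ = p • 1 := by
    rw [hδ, Matrix.mul_smul, Matrix.mul_adjugate, smul_smul, ← hp]; congr 1; field_simp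
  have e' : ad f * (f' * δ) = p • 1 := by rw [← Matrix.mul_assoc, e]
  have a' : ad f * f = 1 := a
  have b' : ad (f' * δ) * (f' * δ) = 1 := b.mul d
  refine ⟨δ, q⁻¹ • (f' * δ + (-p) • f), p, q, d, ?_, ?_, p0, q0, by rw [hp, hq]; ring, hp, e, ?_⟩
  · rw [Fr, ad_smul, ad_add, ad_smul, Matrix.smul_mul, Matrix.mul_smul, Matrix.add_mul, Matrix.mul_add, Matrix.mul_add,
      b', Matrix.mul_smul, Matrix.smul_mul, Matrix.smul_mul, Matrix.mul_smul, ad_swap, e', a', Matrix.adjugate_smul]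
    have : q⁻¹ * q⁻¹ * (1 - p ^ 2) = 1 := by rw [hp, ← hq]; field_simp
    simp only [Fintype.card_fin, Matrix.adjugate_one]
    match_scalars
    linear_combination this
  · rw [Matrix.mul_smul, Matrix.mul_add, Matrix.mul_smul, e', a']; simp
  · rw [smul_smul, mul_inv_cancel₀ q0]; module

/-- A subspace containing or perpendicular to each unit plane is invariant. -/
theorem eq_top_of_ut [IsAlgClosed K] (h : Hy Y) (hi : Irr (Subgroup.closure {g | g ∈ Y ∧ Un g}))
    {X : Submodule K (I6 → K)} (h0 : X ≠ ⊥) (hX : ∀ f j, Ut Y f j → ∀ v ∈ X, el f j *ᵥ v ∈ X) : X = ⊤ := by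
  refine (T2.irr_sub hi fun g hg v hv => ?_).resolve_left h0
  obtain ⟨f, j, a, e⟩ := exists_ut h hg.1 hg.2
  exact e ▸ hX f j a v hv

end Cfsg.Lib.S6Q
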