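import Cfsg.Agent.Lib.S6Q.Un0

/-!
# Units: degenerate pairs
-/

set_option autoImplicit false

namespace Cfsg.Lib.S6Q

open scoped MatrixGroups Matrix commutatorElement
open Cfsg.Geo Cfsg.Lib.Asch Cfsg.Lib.Linear Cfsg.Lib.Q4 Cfsg.Lib.Symp Module
open Cfsg.Lib.Q4R (Sq HasTv sc dg)

variable {K : Type*} [Field K] {Y : Subgroup (G6 K)} {f f' f'' f₁ f₂ ψ : Fm K} {j J J' j₁ j₂ γ γ' δ ρ : M2 K} {g : G6 K}
  {p q : K}

theorem u1_adj (a : M2 K) : a.adjugate = a.trace • 1 - a := by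
  ext i k
  fin_cases i <;> fin_cases k <;> simp [Matrix.adjugate_fin_two, Matrix.trace_fin_two]

theorem u1_adj_add (a b : M2 K) : (a + b).adjugate = a.adjugate + b.adjugate := by
  simp only [u1_adj, Matrix.trace_add]; module

theorem u1_adj_adj (a : M2 K) : a.adjugate.adjugate = a := by simp [Matrix.adjugate_adjugate']

theorem u1_prop {φ X : M2 K} (n : φ ≠ 0) (h1 : φ.adjugate * X = 0) (h2 : X * φ.adjugate = 0) : ∃ c : K, X = c • φ := by
  have e1 := fun i k => congrFun (congrFun h1 i) k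
  have e2 := fun i k => congrFun (congrFun h2 i) k
  simp only [Matrix.adjugate_fin_two, Matrix.mul_apply, Fin.sum_univ_two, Fin.forall_fin_two, Matrix.of_apply,
    Matrix.cons_val', Matrix.cons_val_zero, Matrix.cons_val_one, Matrix.cons_val_fin_one, Matrix.zero_apply] at e1 e2
  obtain ⟨⟨a1, a2⟩, a3, a4⟩ := e1
  obtain ⟨⟨b1, b2⟩, b3, b4⟩ := e2
  obtain ⟨i, k, hn⟩ : ∃ i k, φ i k ≠ 0 := by
    by_contra! e
    exact n (Matrix.ext e)
  refine ⟨X i k / φ i k, Matrix.ext fun a b => ?_⟩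
  rw [Matrix.smul_apply, smul_eq_mul, div_mul_eq_mul_div, eq_div_iff hn]
  clear hn
  revert i k a b
  simp only [Fin.forall_fin_two]
  and_intros <;> first
    | trivial
    | linear_combination b2 | linear_combination -b2 | linear_combination a3 | linear_combination -a3
    | linear_combination a2 | linear_combination -a2 | linear_combination b3 | linear_combination -b3
    | linear_combination b1 - a4 | linear_combination a4 - b1 | linear_combination a1 - b1 | linear_combination b1 - a1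

theorem u1_ext {m n : Type} [Fintype n] [DecidableEq n] {A : Matrix m n K} (h : ∀ x, A *ᵥ x = 0) : A = 0 :=
  Matrix.ext fun i k => by simpa using congrFun (h (Pi.single k 1)) i

theorem u1_ad (e : ad ψ = 0) : ψ = 0 := u1_ext fun x => (alt_om (K := K)).nondeg _ fun v => by
  rw [alt_om.skew, om_ad, e]; simp

theorem u1_eig {s : M2 K} (e : ψ * s * ad ψ = 0) {v : I6 → K} (n : ad ψ *ᵥ v ≠ 0) :
    ∃ c : K, s *ᵥ ad ψ *ᵥ v = c • ad ψ *ᵥ v := by
  have := om_ad (f := ψ) (s *ᵥ ad ψ *ᵥ v) v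
  rw [Matrix.mulVec_mulVec, Matrix.mulVec_mulVec, e, Matrix.zero_mulVec, alt_om.zero_left] at this
  generalize s *ᵥ ad ψ *ᵥ v = z at this ⊢
  generalize ad ψ *ᵥ v = y at this n ⊢
  by_cases y0 : y 0 = 0
  · have y1 : y 1 ≠ 0 := fun y1 => n (funext (Fin.forall_fin_two.2 ⟨y0, y1⟩))
    refine ⟨z 1 / y 1, funext (Fin.forall_fin_two.2 ⟨?_, ?_⟩)⟩ <;> rw [Pi.smul_apply, smul_eq_mul] <;> field_simp
    linear_combination -this
  · refine ⟨z 0 / y 0, funext (Fin.forall_fin_two.2 ⟨?_, ?_⟩)⟩ <;> rw [Pi.smul_apply, smul_eq_mul] <;> field_simp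
    linear_combination this

theorem u1_inj (inj : ∀ x, ψ *ᵥ x = 0 → x = 0) (s : M2 K) (e : ψ * s * ad ψ = 0) : s = 0 := by
  have inj' : ∀ {m : Type} [Fintype m] [DecidableEq m] (X : Matrix (Fin 2) m K), ψ * X = 0 → X = 0 := fun X e =>
    u1_ext fun v => inj _ (by rw [Matrix.mulVec_mulVec, e, Matrix.zero_mulVec])
  have := inj' _ (u1_ad (ψ := ψ * s.adjugate) (by
    rw [ad_mul, u1_adj_adj]; exact inj' _ (by rw [← Matrix.mul_assoc, e])))
  rw [← u1_adj_adj s, this, Matrix.adjugate_zero]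

theorem u1_alg (p₁ : Pu j₁) (p₂ : Pu j₂) (x z : K) : (j₁ * j₂ - j₂ * j₁).det = 4 - (j₁ * j₂).trace ^ 2 ∧
    (x • j₁ + j₂ + z • (j₁ * j₂ - j₂ * j₁)).det =
      x ^ 2 - (j₁ * j₂).trace * x + 1 + (4 - (j₁ * j₂).trace ^ 2) * z ^ 2 ∧
    (j₁ * (x • j₁ + j₂ + z • (j₁ * j₂ - j₂ * j₁))).trace = (j₁ * j₂).trace - 2 * x ∧
    (j₂ * (x • j₁ + j₂ + z • (j₁ * j₂ - j₂ * j₁))).trace = x * (j₁ * j₂).trace - 2 := by
  obtain ⟨t₁, d₁⟩ := p₁
  obtain ⟨t₂, d₂⟩ := p₂
  simp only [Matrix.trace_fin_two, Matrix.det_fin_two, Matrix.mul_apply, Fin.sum_univ_two, Matrix.sub_apply,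
    Matrix.add_apply, Matrix.smul_apply, smul_eq_mul] at *
  simp only [eq_neg_of_add_eq_zero_right t₁, eq_neg_of_add_eq_zero_right t₂] at d₁ d₂ ⊢
  exact ⟨by linear_combination 4 * (-j₂ 0 0 ^ 2 - j₂ 0 1 * j₂ 1 0) * d₁ + 4 * d₂,
    by linear_combination (x ^ 2 + 4 * z ^ 2 * (-j₂ 0 0 ^ 2 - j₂ 0 1 * j₂ 1 0)) * d₁ + (1 + 4 * z ^ 2) * d₂,
    by linear_combination -2 * x * d₁, by linear_combination -2 * d₂⟩

open Polynomial in
theorem u1_iso' {R : Type*} [CommRing R] [IsDomain R] [Finite R] (h2 : (2 : R) ≠ 0) (τ : R) {c : R} (c0 : c ≠ 0) :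
    ∃ x z : R, x ^ 2 - τ * x + 1 + c * z ^ 2 = 0 := by
  have := Fintype.ofFinite R
  obtain ⟨x, z, e⟩ := FiniteField.exists_root_sum_quadratic (f := C 1 * X ^ 2 + C (-τ) * X + C 1)
    (degree_quadratic one_ne_zero) (degree_C_mul_X_pow 2 c0) (by
      by_contra c
      obtain ⟨y, hy⟩ := exists_prime_addOrderOf_dvd_card (G := R) 2 (by omega)
      have := addOrderOf_nsmul_eq_zero y
      rw [hy, nsmul_eq_mul, Nat.cast_two, mul_eq_zero, or_iff_right h2] at this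
      simp [this] at hy)
  simp only [eval_add, eval_mul, eval_C, eval_pow, eval_X] at e
  exact ⟨x, z, by linear_combination e⟩

theorem u1_iso (h2 : (2 : K) ≠ 0) (R : Subring K) [Finite R] {τ : K} (hτ : τ ∈ R) (n : 4 - τ ^ 2 ≠ 0) :
    ∃ x z : R, (x : K) ^ 2 - τ * x + 1 + (4 - τ ^ 2) * z ^ 2 = 0 := by
  obtain ⟨x, z, e⟩ := u1_iso' (R := R) (fun e => h2 (by simpa [map_ofNat] using congrArg R.subtype e)) ⟨τ, hτ⟩
    (c := ⟨_, R.sub_mem (ofNat_mem R 4) (R.pow_mem hτ 2)⟩) fun e => n (congrArg Subtype.val e)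
  exact ⟨x, z, by simpa using congrArg R.subtype e⟩

/-- The Heisenberg elements. -/
def hn (f ψ : Fm K) (a s : M2 K) : Matrix I6 I6 K := 1 + ψ * a * ad f - f * a.adjugate * ad ψ + ψ * s * ad ψ

theorem hn_mul (a : Fr f) (h1 : ad f * ψ = 0) (h2 : ad ψ * ψ = 0) (x y s s' : M2 K) :
    hn f ψ x s * hn f ψ y s' = hn f ψ (x + y) (s + s' - x * y.adjugate) := by
  have k1 : ∀ X : Matrix (Fin 2) I6 K, ad f * (f * X) = X := fun X => by rw [← Matrix.mul_assoc, a, Matrix.one_mul]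
  have k2 : ∀ X : Matrix (Fin 2) I6 K, ad f * (ψ * X) = 0 := fun X => by rw [← Matrix.mul_assoc, h1, Matrix.zero_mul]
  have k3 : ∀ X : Matrix (Fin 2) I6 K, ad ψ * (ψ * X) = 0 := fun X => by rw [← Matrix.mul_assoc, h2, Matrix.zero_mul]
  have k4 : ∀ X : Matrix (Fin 2) I6 K, ad ψ * (f * X) = 0 := fun X => by
    rw [← Matrix.mul_assoc, ad_swap, h1, Matrix.adjugate_zero, Matrix.zero_mul]
  simp only [hn, u1_adj_add, Matrix.mul_add, Matrix.add_mul, Matrix.mul_sub, Matrix.sub_mul, Matrix.mul_assoc, k1, k2, k3,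
    k4, Matrix.mul_one, Matrix.one_mul, Matrix.mul_zero]
  abel

theorem hn_zero (s : M2 K) : hn f ψ 0 s = 1 + ψ * s * ad ψ := by simp [hn]

theorem hn_two (a : Fr f) (h1 : ad f * ψ = 0) : el (f + ψ) (-1) * el f (-1) = hn f ψ (1 + 1) (-(1 + 1)) := by
  have k1 : ∀ X : Matrix (Fin 2) I6 K, ad f * (f * X) = X := fun X => by rw [← Matrix.mul_assoc, a, Matrix.one_mul]
  have k4 : ∀ X : Matrix (Fin 2) I6 K, ad ψ * (f * X) = 0 := fun X => by
    rw [← Matrix.mul_assoc, ad_swap, h1, Matrix.adjugate_zero, Matrix.zero_mul]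
  simp only [hn, el, ad_add, u1_adj_add, Matrix.adjugate_one, Matrix.mul_add, Matrix.add_mul, Matrix.mul_sub,
    Matrix.sub_mul, Matrix.mul_neg, Matrix.neg_mul, Matrix.mul_assoc, k1, k4, Matrix.mul_one, Matrix.one_mul,
    Matrix.mul_zero]
  abel

theorem hn_conj (hg : g ∈ Sp K) (e : g.1 * f = f * j) (k : g.1 * ψ = ψ) (x s : M2 K) :
    g.1 * hn f ψ x s * (g⁻¹).1 = hn f ψ (x * j.adjugate) s := by
  have e1 : ad f * (g⁻¹).1 = j.adjugate * ad f := by rw [← ad_sp hg, e, ad_mul]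
  have k1 : ad ψ * (g⁻¹).1 = ad ψ := by rw [← ad_sp hg, k]
  have e2 : ∀ X : Matrix (Fin 2) I6 K, g.1 * (f * X) = f * (j * X) := fun X => by
    rw [← Matrix.mul_assoc, e, Matrix.mul_assoc]
  have k2 : ∀ X : Matrix (Fin 2) I6 K, g.1 * (ψ * X) = ψ * X := fun X => by rw [← Matrix.mul_assoc, k]
  simp only [hn, Matrix.adjugate_mul_distrib, u1_adj_adj, Matrix.mul_add, Matrix.add_mul, Matrix.mul_sub, Matrix.sub_mul,
    Matrix.mul_assoc, e1, k1, e2, k2, Matrix.one_mul, Units.mul_inv]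

/-- Normalisation of a pair with `c = 1`. -/
theorem u1_one (b : Fr f') (a : Fr f) (c : (ad f * f').det = 1) :
    ∃ ψ : Fm K, ad f * ψ = 0 ∧ ad ψ * ψ = 0 ∧ f' * (ad f * f').adjugate = f + ψ ∧ (ad f * f').adjugate.det = 1 := by
  have d : (ad f * f').adjugate.det = 1 := by rw [Matrix.det_adjugate, c, one_pow]
  obtain ⟨ψ, e⟩ : ∃ ψ : Fm K, f' * (ad f * f').adjugate = f + ψ := ⟨_, (add_sub_cancel _ _).symm⟩
  have h1 : ad f * ψ = 0 := by
    have : ad f * (f' * (ad f * f').adjugate) = ad f * (f + ψ) := by rw [e]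
    rw [← Matrix.mul_assoc, Matrix.mul_add, Matrix.mul_adjugate, c, one_smul, show ad f * f = 1 from a] at this
    exact left_eq_add.1 this
  refine ⟨ψ, h1, ?_, e, d⟩
  have := b.mul d
  rw [e, Fr, ad_add, Matrix.mul_add, Matrix.add_mul, Matrix.add_mul, a, h1, ad_swap, h1] at this
  simpa using this

namespace Hy

variable (h : Hy Y)
include h

theorem u1_tv {A : Fm K} {B : Matrix (Fin 2) I6 K} {x : Fin 2 → K} (x0 : x ≠ 0) (hx : A *ᵥ x = 0) (e : B * A = 0)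
    (hg : g ∈ Y) (e' : g.1 = 1 + A * B) : A * B = 0 := by
  obtain ⟨v, w, rfl⟩ : ∃ v w, A = Matrix.vecMulVec v w := by
    have k : ∀ i, A i 0 * x 0 + A i 1 * x 1 = 0 := fun i => by
      simpa [Matrix.mulVec, dotProduct, Fin.sum_univ_two] using congrFun hx i
    by_cases y0 : x 0 = 0
    · have y1 : x 1 ≠ 0 := fun y1 => x0 (funext (Fin.forall_fin_two.2 ⟨y0, y1⟩))
      exact ⟨fun i => A i 0, ![1, 0], Matrix.ext fun i => Fin.forall_fin_two.2 ⟨by simp [Matrix.vecMulVec_apply], by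
        simpa [Matrix.vecMulVec_apply, y0, y1] using k i⟩⟩
    · refine ⟨fun i => A i 1, ![-x 1 / x 0, 1], Matrix.ext fun i => Fin.forall_fin_two.2 ⟨?_, by simp [Matrix.vecMulVec_apply]⟩⟩
      simp only [Matrix.vecMulVec_apply, Matrix.cons_val_zero]
      field_simp
      linear_combination k i
  have t := Matrix.trace_mul_comm (Matrix.vecMulVec v w) B
  rw [e, Matrix.trace_zero] at t
  rw [Matrix.vecMulVec_mul] at t e' ⊢
  rw [Matrix.trace_vecMulVec, dotProduct_comm] at t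
  by_contra n
  exact h.ntv ⟨g, hg, v, _, fun e => n (by simp [e]), fun e => n (by simp [e]), t, e'⟩

theorem u1_nil (a : Ut Y f j) (b : Fr f') (e' : El Y f' (-1)) (c : (ad f * f').det = 0) :
    ad f' * f * j * (ad f * f') = 0 := by
  have k1 : ∀ X : Matrix (Fin 2) I6 K, ad f * (f * X) = X := fun X => by rw [← Matrix.mul_assoc, a.fr, Matrix.one_mul]
  have k2 : ∀ X : Matrix (Fin 2) I6 K, ad f' * (f' * X) = X := fun X => by rw [← Matrix.mul_assoc, b, Matrix.one_mul]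
  have c1 : ad f * f' * (ad f' * f) = 0 := by rw [ad_swap (f := f) (f' := f'), Matrix.mul_adjugate, c, zero_smul]
  have c2 : ad f' * f * (ad f * f') = 0 := by rw [ad_swap (f := f) (f' := f'), Matrix.adjugate_mul, c, zero_smul]
  have k3 : ∀ X : Matrix (Fin 2) I6 K, ad f * (f' * (ad f' * (f * X))) = 0 := fun X => by
    simpa only [Matrix.mul_assoc, Matrix.zero_mul] using congrArg (· * X) c1
  have k4 : ∀ X : Matrix (Fin 2) I6 K, ad f' * (f * (ad f * (f' * X))) = 0 := fun X => by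
    simpa only [Matrix.mul_assoc, Matrix.zero_mul] using congrArg (· * X) c2
  have k5 : ∀ X : Matrix (Fin 2) I6 K, j * (j * X) = -X := fun X => by
    rw [← Matrix.mul_assoc, a.pu.sq, Matrix.neg_mul, Matrix.one_mul]
  obtain ⟨t, ht, et⟩ := a.inv
  obtain ⟨t', ht', et'⟩ := e'
  obtain ⟨u, hu, eu⟩ := a.el
  obtain ⟨u', hu', eu'⟩ := a.neg.el
  have hx : (t * t' * (t * t')).1 = 1 - (4 : K) • (f * (ad f * f') * ad f' - f' * (ad f' * f) * ad f) := by
    simp only [Units.val_mul, et, et', el, Matrix.mul_add, Matrix.add_mul, Matrix.mul_sub, Matrix.sub_mul, Matrix.mul_neg,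
      Matrix.neg_mul, Matrix.mul_assoc, k1, k2, k3, k4, Matrix.mul_one, Matrix.one_mul, Matrix.mul_zero]
    module
  have mx := Y.mul_mem (Y.mul_mem ht ht') (Y.mul_mem ht ht')
  generalize t * t' * (t * t') = x at hx mx
  have hy : (u * x * u').1 = 1 - (4 : K) • (f * (j * (ad f * f')) * ad f' + f' * (ad f' * f * j) * ad f) := by
    simp only [Units.val_mul, hx, eu, eu', el, Matrix.mul_add, Matrix.add_mul, Matrix.mul_sub, Matrix.sub_mul,
      Matrix.mul_neg, Matrix.neg_mul, Matrix.mul_assoc, k1, k2, k3, k4, k5, Matrix.mul_one, Matrix.one_mul,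
      Matrix.mul_zero, Matrix.mul_smul, Matrix.smul_mul]
    module
  have my := Y.mul_mem (Y.mul_mem hu mx) hu'
  generalize u * x * u' = y at hy my
  have := h.unip (γ := 1 - (32 : K) • (ad f' * f * j * (ad f * f'))) b ⟨x * y * (y * x)⁻¹,
    Y.mul_mem (Y.mul_mem mx my) (Y.inv_mem (Y.mul_mem my mx)), by
      rw [Units.val_mul, Units.mul_inv_eq_iff_eq_mul]
      simp only [Units.val_mul, hx, hy, el, Matrix.mul_add, Matrix.add_mul, Matrix.mul_sub, Matrix.sub_mul,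
        Matrix.mul_assoc, k1, k2, k3, k4, k5, Matrix.mul_one, Matrix.one_mul, Matrix.mul_zero, Matrix.mul_smul,
        Matrix.smul_mul, Matrix.mul_neg]
      module⟩ (by
    rw [Matrix.trace_sub, Matrix.trace_smul, Matrix.trace_mul_comm, ← mul_assoc, c1]; simp)
  rwa [sub_eq_self, smul_eq_zero, or_iff_right (by
    rw [show (32 : K) = 2 ^ 5 by norm_num]; exact pow_ne_zero _ h.two)] at this

/-- `φ = ad f * f'`, `φ φ* = 0`.  `P = f ad f`, `t = 1 - 2 P`; `(t t')² = 1 - 4 D`, `D = P P' - P' P`.  With `u = el f j`,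
`u D u⁻¹ = f j φ ad f' - f' φ* j⁻¹ ad f`, and `⁅(t t')², u (t t')² u⁻¹⁆ = el f' (1 ± 32 φ* j φ)`; so `φ* j φ = 0` (`unip`), and
likewise `φ j' φ* = 0`: `j φ = λ φ`, `φ j' = μ φ`, `λ² = μ² = -1`. -/
theorem al_zero (a : Ut Y f j) (b : Ut Y f' J) (c : (ad f * f').det = 0) : Al (ad f * f') j J := by
  have n1 := h.u1_nil a b.fr b.inv c
  have n2 := h.u1_nil b a.fr a.inv (by rw [ad_swap, Matrix.det_adjugate, c]; simp)
  rw [ad_swap (f := f) (f' := f')] at n1 n2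
  generalize ad f * f' = φ at *
  by_cases n : φ = 0
  · exact .inl (by simp [n])
  obtain ⟨x, hx⟩ := u1_prop (X := j * φ) n (by rw [← mul_assoc, n1]) (by rw [mul_assoc, Matrix.mul_adjugate, c]; simp)
  obtain ⟨y, hy⟩ := u1_prop (X := φ * J) n (by rw [← mul_assoc, Matrix.adjugate_mul, c]; simp) n2
  have x2 : (x * x + 1) • φ = 0 := by
    rw [add_smul, one_smul, mul_smul, ← hx, ← Matrix.mul_smul, ← hx, ← mul_assoc, a.pu.sq]; simp
  have y2 : (y * y + 1) • φ = 0 := by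
    rw [add_smul, one_smul, mul_smul, ← hy, ← Matrix.smul_mul, ← hy, mul_assoc, b.pu.sq]; simp
  rw [smul_eq_zero_iff_left n] at x2 y2
  rw [Al, hx, hy, ← neg_smul]
  exact (mul_self_eq_mul_self_iff.1 (by linear_combination x2 - y2 : x * x = y * y)).imp (congrArg (· • φ)) (congrArg (· • φ))

theorem bg_zero (a : Bg Y f) (b : Ut Y f' J) (c : (ad f * f').det = 0) : ad f * f' = 0 := by
  obtain ⟨j₁, j₂, a₁, a₂, n, n'⟩ := a
  have d := h.det_comm a₁ a₂ n n'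
  have e : (j₁ * j₂ - j₂ * j₁) * (ad f * f') = 0 := by
    rw [sub_mul, mul_assoc, mul_assoc]
    rcases h.al_zero a₁ b c with e | e <;> rcases h.al_zero a₂ b c with e' | e' <;>
      simp only [e, e', mul_neg, ← mul_assoc j₁, ← mul_assoc j₂, neg_mul, sub_self]
  exact u1_ext fun x => Matrix.eq_zero_of_mulVec_eq_zero d (by
    rw [Matrix.mulVec_mulVec, e, Matrix.zero_mulVec])

/-- `(t' t) ^ k` maps `f` to `f + 2 k ψ`. -/
theorem exists_shift (a : Fr f) (h1 : ad f * ψ = 0) (h2 : ad ψ * ψ = 0) (e : El Y f (-1)) (e' : El Y (f + ψ) (-1)) :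
    ∃ g ∈ Y, g.1 * f = f + ψ := by
  obtain ⟨t, ht, et⟩ := e
  obtain ⟨t', ht', et'⟩ := e'
  have k4 : ad ψ * f = 0 := by rw [ad_swap, h1, Matrix.adjugate_zero]
  have e : (t' * t).1 = hn f ψ (1 + 1) (-(1 + 1)) := by rw [Units.val_mul, et, et', hn_two a h1]
  have m := Y.mul_mem ht' ht
  generalize t' * t = g at e m
  have e1 : g.1 * f = f + (2 : K) • ψ := by
    simp only [e, hn, Matrix.add_mul, Matrix.sub_mul, Matrix.mul_assoc, k4, show ad f * f = 1 from a, Matrix.mul_add,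
      Matrix.mul_zero, Matrix.one_mul, Matrix.mul_one]
    module
  have e2 : g.1 * ψ = ψ := by
    simp only [e, hn, Matrix.add_mul, Matrix.sub_mul, Matrix.mul_assoc, h1, h2, Matrix.mul_zero, Matrix.one_mul]
    simp
  have p : ∀ k : ℕ, (g ^ k).1 * f = f + (2 * k : K) • ψ := fun k => by
    induction k with
    | zero => simp
    | succ k ih =>
      rw [pow_succ', Units.val_mul, Matrix.mul_assoc, ih, Matrix.mul_add, e1, Matrix.mul_smul, e2]
      push_cast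
      module
  have := h.fin
  obtain ⟨r, _, ⟨k, rfl⟩, hr⟩ := Nat.exists_eq_two_pow_mul_odd (orderOf_pos (⟨g, m⟩ : Y)).ne'
  have o := p (orderOf (⟨g, m⟩ : Y))
  rw [show g ^ _ = 1 from congrArg Subtype.val (pow_orderOf_eq_one (⟨g, m⟩ : Y)), hr, Units.val_one, Matrix.one_mul,
    left_eq_add, Nat.cast_mul, Nat.cast_pow, Nat.cast_two, mul_smul, mul_smul, smul_eq_zero, smul_eq_zero,
    or_iff_right h.two, or_iff_right (pow_ne_zero _ h.two)] at o
  refine ⟨g ^ (k + 1), Y.pow_mem m _, ?_⟩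
  rw [p, ← sub_eq_zero, ← o]
  push_cast
  module

/-- Replace `f'` by `f' φ⁻¹ = f + ψ`; `exists_shift`. -/
theorem al_one (a : Ut Y f j) (b : Ut Y f' J) (n : ¬ Bg Y f') (c : (ad f * f').det = 1) : Al (ad f * f') j J := by
  obtain ⟨ψ, h1, h2, e, d⟩ := u1_one b.fr a.fr c
  have b' := b.change d
  obtain ⟨g, hg, eg⟩ := h.exists_shift a.fr h1 h2 a.inv (e ▸ b'.inv)
  have a' := a.conj h.sp hg
  rw [eg, ← e] at a'
  have k : ad f * f' * J * (ad f * f').adjugate * (ad f * f') = ad f * f' * J := by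
    rw [mul_assoc, Matrix.adjugate_mul, c, one_smul, mul_one]
  rw [u1_adj_adj] at b'
  by_contra m
  exact n ((Bg.change d).1 ⟨_, _, b', a', fun e => m (.inl (by rw [e, k])), fun e => m (.inr (by rw [e, neg_mul, k]))⟩)

theorem u1_S (a : Fr f) (h1 : ad f * ψ = 0) (h2 : ad ψ * ψ = 0) (e : El Y f (-1)) (e' : El Y (f + ψ) (-1)) :
    ∃ S : AddSubgroup (M2 K), 1 + 1 ∈ S ∧
      (∀ {g : G6 K} {j}, g ∈ Y → Pu j → g.1 * f = f * j → g.1 * ψ = ψ → ∀ x ∈ S, x * j ∈ S) ∧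
      ∀ x ∈ S, ∃ g ∈ Y, g.1 = 1 + ψ * ((2 : K) • (x - x.adjugate)) * ad ψ := by
  let S : AddSubgroup (M2 K) :=
    { carrier := {x | ∃ s, ∃ g ∈ Y, g.1 = hn f ψ x s}
      add_mem' := fun ⟨s, g, hg, e⟩ ⟨s', g', hg', e'⟩ =>
        ⟨_, g * g', Y.mul_mem hg hg', by rw [Units.val_mul, e, e', hn_mul a h1 h2]⟩
      zero_mem' := ⟨0, 1, Y.one_mem, by simp [hn]⟩
      neg_mem' := fun {x} ⟨s, g, hg, e⟩ => ⟨-s + x * (-x).adjugate, g⁻¹, Y.inv_mem hg, Units.inv_eq_of_mul_eq_one_right (by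
        rw [e, hn_mul a h1 h2]; simp [hn])⟩ }
  have s2 : 1 + 1 ∈ S := by
    obtain ⟨t, ht, et⟩ := e
    obtain ⟨t', ht', et'⟩ := e'
    exact ⟨_, t' * t, Y.mul_mem ht' ht, by rw [Units.val_mul, et, et', hn_two a h1]⟩
  refine ⟨S, s2, fun {g j} m p e k x ⟨s, y, hy, ey⟩ => S.neg_mem_iff.1 ⟨s, g * y * g⁻¹,
    Y.mul_mem (Y.mul_mem m hy) (Y.inv_mem m), by
      rw [Units.val_mul, Units.val_mul, ey, hn_conj (h.sp m) e k, p.adj, mul_neg]⟩, fun x ⟨s, y, hy, ey⟩ => ?_⟩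
  obtain ⟨s', z, hz, ez⟩ := s2
  refine ⟨z * y * (y * z)⁻¹, Y.mul_mem (Y.mul_mem hz hy) (Y.inv_mem (Y.mul_mem hy hz)), ?_⟩
  rw [Units.val_mul, Units.mul_inv_eq_iff_eq_mul, Units.val_mul, Units.val_mul, ey, ez, ← hn_zero (f := f),
    hn_mul a h1 h2, hn_mul a h1 h2, hn_mul a h1 h2]
  congr 1
  · abel
  simp only [u1_adj_add, Matrix.adjugate_one, add_mul, mul_add, one_mul, mul_one, zero_mul]
  module

/-- The `n(a, s) = 1 + ψ a ad f - f a* ad ψ + ψ s ad ψ` multiply by `(a + b, s + s' - a b*)`; `t' t` has `a = 2`; conjugation by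
`g_i` replaces `a` by `a j_i⁻¹`.  So all `a` in the ring `A` generated by `j₁, j₂` occur (odd characteristic, or `ψ = 0`), and
`1 + ψ (a - a*) ad ψ ∈ Y` (commutators, up to a factor `± 2`).  `A` contains the finite field `k = F_p(tr j₁ j₂)` (`j₁ j₂` has finite
order if `ψ ≠ 0` or not: `g₁ g₂` has), and the ternary form `det (x j₁ + y j₂ + z ⁅j₁, j₂⁆)` over `k` is isotropic: if `ψ` is injective
we get a transvection; if `ψ` has rank one, `ψ s ad ψ = 0` for `s = j₁, j₂, ⁅j₁, j₂⁆`, a basis of `sl₂`, so `ψ = 0`. -/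
theorem one_tv (a : Fr f) (h1 : ad f * ψ = 0) (h2 : ad ψ * ψ = 0) (e : El Y f (-1)) (e' : El Y (f + ψ) (-1))
    (p₁ : Pu j₁) (p₂ : Pu j₂) (n : (j₁ * j₂ - j₂ * j₁).det ≠ 0) {g₁ g₂ : G6 K} (m₁ : g₁ ∈ Y) (m₂ : g₂ ∈ Y)
    (e₁ : g₁.1 * f = f * j₁) (e₂ : g₂.1 * f = f * j₂) (k₁ : g₁.1 * ψ = ψ) (k₂ : g₂.1 * ψ = ψ) : ψ = 0 := by
  by_contra n0
  obtain ⟨S, s2, sj, sc⟩ := h.u1_S a h1 h2 e e'
  have s₁ := sj m₁ p₁ e₁ k₁
  have s₂ := sj m₂ p₂ e₂ k₂
  have eight : (8 : K) ≠ 0 := by rw [show (8 : K) = 2 ^ 3 by norm_num]; exact pow_ne_zero _ h.two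
  have sc' : ∀ j : M2 K, Pu j → (2 : K) • ((1 + 1) * j - ((1 + 1) * j).adjugate) = (8 : K) • j := fun j p => by
    simp only [add_mul, one_mul, u1_adj_add, p.adj]; module
  have Li := u1_inj (ψ := ψ) fun x hx => by_contra fun x0 => by
    obtain ⟨v, hv⟩ : ∃ v, ad ψ *ᵥ v ≠ 0 := by
      by_contra! c
      exact n0 (u1_ad (u1_ext c))
    have k : ∀ j : M2 K, Pu j → (1 + 1) * j ∈ S → ∃ c : K, j *ᵥ ad ψ *ᵥ v = c • ad ψ *ᵥ v := fun j p m => by
      obtain ⟨g, hg, e⟩ := sc _ m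
      rw [sc' j p, Matrix.mul_assoc] at e
      have := h.u1_tv x0 hx (by rw [Matrix.mul_assoc, h2, Matrix.mul_zero]) hg e
      rw [Matrix.smul_mul, Matrix.mul_smul, smul_eq_zero, or_iff_right eight, ← Matrix.mul_assoc] at this
      exact u1_eig this hv
    obtain ⟨c₁, d₁⟩ := k _ p₁ (s₁ _ s2)
    obtain ⟨c₂, d₂⟩ := k _ p₂ (s₂ _ s2)
    exact hv (Matrix.eq_zero_of_mulVec_eq_zero n (by
      simp only [Matrix.sub_mulVec, ← Matrix.mulVec_mulVec, d₁, d₂, Matrix.mulVec_smul]; module))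
  let R : Subring K :=
    { carrier := {c | ∀ x ∈ S, c • x ∈ S}
      mul_mem' := fun ha hb x hx => by rw [mul_smul]; exact ha _ (hb x hx)
      one_mem' := fun x hx => by rwa [one_smul]
      add_mem' := fun ha hb x hx => by rw [add_smul]; exact S.add_mem (ha x hx) (hb x hx)
      zero_mem' := fun x _ => by rw [zero_smul]; exact S.zero_mem
      neg_mem' := fun ha x hx => by rw [neg_smul]; exact S.neg_mem (ha x hx) }
  have hR : ∀ c : R, ∀ x ∈ S, c.1 • x ∈ S := fun c => c.2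
  have adj : (j₁ * j₂).adjugate = j₂ * j₁ := by rw [Matrix.adjugate_mul_distrib, p₁.adj, p₂.adj, neg_mul_neg]
  have hτ : (j₁ * j₂).trace ∈ R := fun x hx => by
    have := S.add_mem (s₂ _ (s₁ x hx)) (s₁ _ (s₂ x hx))
    rwa [mul_assoc, mul_assoc, ← adj, u1_adj, ← mul_add, add_sub_cancel, Matrix.mul_smul, mul_one] at this
  clear_value R
  have := h.fin
  have : Finite R := by
    choose G m e using fun c : R => sc _ (hR c _ (s₁ _ s2))
    refine .of_injective (fun c => (⟨G c, m c⟩ : Y)) fun c c' k => Subtype.ext ?_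
    have := (e c).symm.trans ((congrArg (·.1.1) k).trans (e c'))
    simp only [Matrix.adjugate_smul, Fintype.card_fin, Nat.add_one_sub_one, pow_one, ← smul_sub, smul_comm (2 : K) c.1,
      smul_comm (2 : K) c'.1, sc' _ p₁, add_right_inj] at this
    rw [← sub_eq_zero, ← Matrix.sub_mul, ← Matrix.mul_sub, ← sub_smul] at this
    have := Li _ this
    rw [smul_eq_zero, smul_eq_zero, or_iff_right eight, or_iff_left fun e => by simpa [e] using p₁.2] at this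
    exact sub_eq_zero.1 this
  have dk := (u1_alg p₁ p₂ 0 0).1
  obtain ⟨x, z, e⟩ := u1_iso h.two R hτ (dk ▸ n)
  obtain ⟨-, d, t₁, t₂⟩ := u1_alg p₁ p₂ x z
  obtain ⟨g, hg, eg⟩ := sc _ (S.add_mem (S.add_mem (hR x _ (s₁ _ s2)) (s₂ _ s2)) (hR z _ (s₂ _ (s₁ _ (S.add_mem s2 s2)))))
  have es : (2 : K) • ((x : K) • ((1 + 1) * j₁) + (1 + 1) * j₂ + (z : K) • ((1 + 1 + (1 + 1)) * j₁ * j₂) -
      ((x : K) • ((1 + 1) * j₁) + (1 + 1) * j₂ + (z : K) • ((1 + 1 + (1 + 1)) * j₁ * j₂)).adjugate) =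
      (8 : K) • ((x : K) • j₁ + j₂ + (z : K) • (j₁ * j₂ - j₂ * j₁)) := by
    simp only [add_mul, one_mul, u1_adj_add, p₁.adj, p₂.adj, adj, Matrix.adjugate_smul, Fintype.card_fin,
      Nat.add_one_sub_one, pow_one]
    module
  rw [es] at eg
  obtain ⟨v, v0, hv⟩ := Matrix.exists_mulVec_eq_zero_iff.2 (d.trans e)
  have z0 := Li _ (h.u1_tv v0 (by rw [← Matrix.mulVec_mulVec, Matrix.smul_mulVec, hv]; simp)
    (by rw [← Matrix.mul_assoc, h2, Matrix.zero_mul]) hg eg)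
  rw [smul_eq_zero, or_iff_right eight] at z0
  rw [z0, mul_zero, Matrix.trace_zero] at t₁ t₂
  exact n (by rw [dk]; linear_combination (j₁ * j₂).trace * t₁ + 2 * t₂)

theorem bg_one (a : Bg Y f) (b : Ut Y f' J) (c : (ad f * f').det = 1) : rg f' = rg f := by
  obtain ⟨j₁, j₂, a₁, a₂, n, n'⟩ := a
  obtain ⟨ψ, h1, h2, e, d⟩ := u1_one b.fr a₁.fr c
  obtain ⟨g₁, m₁, e₁⟩ := a₁.el
  obtain ⟨g₂, m₂, e₂⟩ := a₂.el
  obtain rfl := h.one_tv a₁.fr h1 h2 a₁.inv (e ▸ (b.change d).inv) a₁.pu a₂.pu (h.det_comm a₁ a₂ n n') m₁ m₂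
    (by rw [e₁, a₁.fr.el_self]) (by rw [e₂, a₁.fr.el_self]) (by rw [e₁, el_apply, h1]; simp) (by rw [e₂, el_apply, h1]; simp)
  rw [add_zero] at e
  refine (Submodule.eq_of_le_of_finrank_eq ?_ (a₁.fr.finrank.trans b.fr.finrank.symm)).symm
  rintro _ ⟨x, rfl⟩
  exact ⟨(ad f * f').adjugate *ᵥ x, by rw [Matrix.mulVecLin_apply, Matrix.mulVec_mulVec, e]; rfl⟩

end Hy

end Cfsg.Lib.S6Q
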