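import Cfsg.Agent.Lib.PSL2.Pair

/-!
# Two consequences of Dickson's count in `PGL₂(K)`
-/

set_option autoImplicit false

namespace Cfsg.Lib.S6Q

open scoped MatrixGroups
open Matrix MulAction Cfsg.Lib.PSL2

variable {K : Type*} [Field K]

/-- A torus has at most one involution. -/
theorem inv_uniq {g h : PGL(2, K)} {x y : P1 K} (hxy : x ≠ y) (hg : g ∈ fix2 x y) (hh : h ∈ fix2 x y) (g2 : g * g = 1)
    (h2 : h * h = 1) (g1 : g ≠ 1) (h1 : h ≠ 1) : g = h := by
  obtain ⟨c, hx, hy⟩ := exists_smul_inf_zero hxy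
  have key : ∀ k : PGL(2, K), k ∈ fix2 x y → k * k = 1 → k ≠ 1 → k = c * aff (-1) 0 * c⁻¹ := by
    intro k hk k2 k1
    obtain ⟨a, rfl⟩ := (fix_two_iff_conj hx hy).1 hk
    have e : aff a (0 : K) * aff a 0 = 1 := by
      have : c * (aff a (0 : K) * aff a 0) * c⁻¹ = 1 := by rw [← k2]; group
      rwa [conj_eq_one_iff] at this
    rw [aff_mul, aff_eq_one_iff] at e
    rcases mul_self_eq_one_iff.1 (show (a : K) * a = 1 by rw [← Units.val_mul, e.1, Units.val_one]) with e1 | e1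
    · exact absurd (by rw [show a = 1 from Units.ext e1]; simp) k1
    · rw [show a = -1 from Units.ext e1]
  rw [key g hg g2 g1, key h hh h2 h1]

theorem inv_mul_unip {b b' : PGL(2, K)} {y : P1 K} (e : b • y = y) (e' : b' • y = y) (b2 : b * b = 1)
    (b2' : b' * b' = 1) (b1 : b ≠ 1) (b1' : b' ≠ 1) : b * b' ∈ unip y := by
  by_contra hu
  have ib' : b'⁻¹ = b' := inv_eq_of_mul_eq_one_right b2'
  have t1 : b * b' ≠ 1 := fun h => hu (h ▸ one_mem _)
  have ty : (b * b') • y = y := by rw [mul_smul, e', e]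
  obtain ⟨z, hz, hz'⟩ := exists_fixed_ne_of_not_mem_unip ty hu
  have ht : b * b' ∈ fix2 y z := ⟨ty, hz'⟩
  have c1 : b ∈ fix2 y z := mem_fix2_of_smul_left hz.symm (mem_pairStab_of_conj_mem hz.symm ht t1 (by
    have : b * (b * b') * b⁻¹ = (b * b')⁻¹ := by rw [← mul_assoc, b2, one_mul, _root_.mul_inv_rev, ib']
    rw [this]; exact inv_mem ht)) e
  have c2 : b' ∈ fix2 y z := by
    have := mul_mem c1 ht
    rwa [← mul_assoc, b2, one_mul] at this
  exact t1 (by rw [inv_uniq hz.symm c1 c2 b2 b2' b1 b1', b2'])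

/-- Two involutions with a common fixed point are conjugate in the stabiliser. -/
theorem inv_conj (h2 : (2 : K) ≠ 0) {H : Subgroup PGL(2, K)} [Finite H] {b b' : PGL(2, K)} {y : P1 K} (hb : b ∈ H)
    (hb' : b' ∈ H) (e : b • y = y) (e' : b' • y = y) (b2 : b * b = 1) (b2' : b' * b' = 1) (b1 : b ≠ 1) (b1' : b' ≠ 1) :
    ∃ h ∈ H, h • y = y ∧ h * b' * h⁻¹ = b := by
  by_cases hbb : b = b'
  · exact ⟨1, one_mem _, one_smul _ _, by simp [hbb]⟩
  have ib : b⁻¹ = b := inv_eq_of_mul_eq_one_right b2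
  have ib' : b'⁻¹ = b' := inv_eq_of_mul_eq_one_right b2'
  have t1 : b * b' ≠ 1 := fun h => hbb (by rw [← ib', eq_inv_iff_mul_eq_one]; exact h)
  have ty : (b * b') • y = y := by rw [mul_smul, e', e]
  have tu : b * b' ∈ unip y := inv_mul_unip e e' b2 b2' b1 b1'
  have hp : (ringChar K).Prime := exists_char_of_inf_unip_ne_bot (H := H) (x := y)
    (Subgroup.ne_bot_iff_exists_ne_one.2 ⟨⟨b * b', mul_mem hb hb', tu⟩, fun h => t1 (congrArg Subtype.val h)⟩)
  have hp2 : ringChar K ≠ 2 := fun h => h2 (by simpa [h] using ringChar.Nat.cast_ringChar (R := K))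
  obtain ⟨k, hk⟩ := hp.odd_of_ne_two hp2
  have tp := pow_char_of_mem_unip (ringChar K) tu
  refine ⟨(b * b') ^ (k + 1), pow_mem (mul_mem hb hb') _, (pow_mem (show b * b' ∈ stabilizer PGL(2, K) y from ty) _ :), ?_⟩
  have s : b' * (b * b')⁻¹ * b'⁻¹ = b * b' := by rw [_root_.mul_inv_rev, ib, ib', ← mul_assoc, b2', one_mul]
  have s' : b' * ((b * b') ^ (k + 1))⁻¹ = (b * b') ^ (k + 1) * b' := by
    rw [← inv_pow, ← mul_inv_eq_iff_eq_mul, ← conj_pow, s]
  rw [mul_assoc, s', ← mul_assoc, ← pow_add, show k + 1 + (k + 1) = ringChar K + 1 by omega, pow_succ, tp, one_mul,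
    mul_assoc, b2', mul_one]

variable [IsAlgClosed K]

/-- The two fixed points of an element of order at least four are conjugate, unless one is fixed. -/
theorem orb_aux {H : Subgroup PGL(2, K)} [Finite H] {a : PGL(2, K)} {x y : P1 K} (hxy : x ≠ y) (ha : a ∈ H)
    (hf : a ∈ fix2 x y) (a2 : a * a ≠ 1) (a4 : 4 ≤ orderOf a) (hx : ¬ FixesPoint H x) (hu : H ⊓ unip y = ⊥) :
    y ∈ orbit H x := by
  classical
  by_contra hn
  obtain ⟨R, h1, h2, -, h4⟩ := exists_reps H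
  have a1 : a ≠ 1 := by rintro rfl; simp at a2
  have nb : ∀ z : P1 K, a • z = z → H ⊓ stabilizer PGL(2, K) z ≠ ⊥ := fun z hz =>
    Subgroup.ne_bot_iff_exists_ne_one.2 ⟨⟨a, ha, hz⟩, fun h => a1 (congrArg Subtype.val h)⟩
  obtain ⟨r, hr, hxr⟩ := h2 x (nb x hf.1)
  obtain ⟨r', hr', hyr⟩ := h2 y (nb y hf.2)
  have hrr : r ≠ r' := by
    rintro rfl
    exact hn (by rw [orbit_eq_iff.2 hxr]; exact hyr)
  set n := Nat.card H with hn'
  have hn0 : 0 < n := Nat.card_pos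
  set o : P1 K → ℕ := fun r => (orbit H r).ncard with ho
  set s : P1 K → ℕ := fun r => Nat.card ↥(H ⊓ stabilizer PGL(2, K) r) with hs
  set u : P1 K → ℕ := fun r => Nat.card ↥(H ⊓ unip r) with hu'
  set T : P1 K → ℕ := fun r => o r * (s r - 1 + (u r - 1)) with hT
  have hos : ∀ r, o r * s r = n := fun r => ncard_orbit_mul H r
  have hterm : ∀ r, T r + 2 * o r = n + o r * u r := fun r => by
    obtain ⟨s', e1⟩ : ∃ s', s r = s' + 1 := Nat.exists_eq_add_one.2 Nat.card_pos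
    obtain ⟨u', e2⟩ : ∃ u', u r = u' + 1 := Nat.exists_eq_add_one.2 Nat.card_pos
    simp only [hT]
    rw [← hos r, e1, e2, Nat.add_sub_cancel, Nat.add_sub_cancel]; ring
  have hinv : ∀ {z w}, z ∈ orbit H w → T w = T z := fun {z w} h => by
    simp only [hT, ho, hs, hu']
    rw [orbit_eq_iff.2 h, card_inf_stabilizer_of_mem_orbit h, card_inf_unip_of_mem_orbit h]
  have s4 : ∀ z : P1 K, a • z = z → 4 * o z ≤ n := fun z hz => by
    rw [← hos z, mul_comm]
    exact Nat.mul_le_mul_left _ (a4.trans (Nat.le_of_dvd Nat.card_pos (orderOf_dvd_card_inf ha hz)))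
  have u1 : ∀ z, o z ≤ o z * u z := fun z => Nat.le_mul_of_pos_right _ Nat.card_pos
  have hsum : ∑ r ∈ R, T r = 2 * (n - 1) := h4
  have hR : R = {r, r'} := by
    refine Finset.Subset.antisymm (fun w hw => ?_) (by simp [Finset.insert_subset_iff, hr, hr'])
    by_contra hw'
    simp only [Finset.mem_insert, Finset.mem_singleton, not_or] at hw'
    have le : ∑ z ∈ {w, r, r'}, T z ≤ ∑ r ∈ R, T r :=
      Finset.sum_le_sum_of_subset (by simp [Finset.insert_subset_iff, hr, hr', hw])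
    rw [Finset.sum_insert (by simp [hw'.1, hw'.2]), Finset.sum_pair hrr, hinv hxr, hinv hyr, hsum] at le
    have : 2 * o w ≤ n := by
      rw [← hos w, mul_comm]; exact Nat.mul_le_mul_left _ (two_le_card_of_ne_bot (h1 w hw))
    have := hterm w; have := hterm x; have := hterm y
    have := u1 w; have := u1 x; have := u1 y
    have := s4 x hf.1; have := s4 y hf.2
    omega
  rw [hR, Finset.sum_pair hrr, hinv hxr, hinv hyr] at hsum
  have uy : u y = 1 := by simp only [hu', hu, Subgroup.card_bot]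
  have le : ∀ g ∈ H, g • y = y → g • x = x := fun g hg e => by
    refine (mem_fix2_of_commute hxy hf a2 ?_).1
    have inj : Function.Injective (multOn (inf_le_right : H ⊓ stabilizer PGL(2, K) y ≤ _)) := by
      rw [injective_iff_map_eq_one]
      intro k hk
      have : (k : PGL(2, K)) ∈ H ⊓ unip y := ⟨k.2.1, (multOn_eq_one_iff _ k).1 hk⟩
      rw [hu] at this
      exact Subtype.ext this
    have := inj (a₁ := ⟨g, hg, e⟩ * ⟨a, ha, hf.2⟩) (a₂ := ⟨a, ha, hf.2⟩ * ⟨g, hg, e⟩) (by rw [map_mul, map_mul, mul_comm])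
    exact congrArg Subtype.val this
  have hc : u x * s y ≤ s x := by
    simp only [hu', hs]
    rw [← Nat.card_prod]
    refine Nat.card_le_card_of_injective (fun k => ⟨k.1.1 * k.2.1, mul_mem k.1.2.1 k.2.2.1,
      mul_mem (unip_le_stabilizer x k.1.2.2) (le _ k.2.2.1 k.2.2.2)⟩) ?_
    rintro ⟨⟨k, hk⟩, ⟨l, hl⟩⟩ ⟨⟨k', hk'⟩, ⟨l', hl'⟩⟩ e
    have e : k * l = k' * l' := congrArg Subtype.val e
    have e1 : k = k' := eq_of_mem_unip_of_smul_eq hk.2 hk'.2 hxy.symm (by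
      have := congrArg (· • y) e
      simpa only [mul_smul, show l • y = y from hl.2, show l' • y = y from hl'.2] using this)
    subst e1
    obtain rfl := mul_left_cancel e
    rfl
  have hy : o x * u x ≤ o y := by
    refine Nat.le_of_mul_le_mul_right (c := s y) ?_ Nat.card_pos
    rw [hos y, ← hos x, mul_assoc]
    exact Nat.mul_le_mul_left _ hc
  have := hterm x; have := hterm y
  have : 0 < o x := ncard_orbit_pos H x
  rw [uy] at *
  exact hx (fixesPoint_of_ncard_orbit (show o x = 1 by omega))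

theorem exists_swap (h2 : (2 : K) ≠ 0) {H : Subgroup PGL(2, K)} [Finite H] {a : PGL(2, K)} {x y : P1 K} (hxy : x ≠ y)
    (ha : a ∈ H) (hf : a ∈ fix2 x y) (a2 : a * a ≠ 1) (a4 : a * a * (a * a) = 1) (hx : ¬ FixesPoint H x)
    (hy : ¬ FixesPoint H y) : ∃ n ∈ H, n • x = y ∧ n • y = x := by
  have o4 : 4 ≤ orderOf a := by
    have := orderOf_eq_prime_pow (p := 2) (n := 1) (x := a) (by simpa [sq] using a2)
      (by rw [← a4]; simp [pow_succ, mul_assoc])
    omega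
  have ho : y ∈ orbit H x := by
    by_cases uy : H ⊓ unip y = ⊥
    · exact orb_aux hxy ha hf a2 o4 hx uy
    by_cases ux : H ⊓ unip x = ⊥
    · exact mem_orbit_symm.1 (orb_aux hxy.symm ha ⟨hf.2, hf.1⟩ a2 o4 hy ux)
    · exact mem_orbit_of_inf_unip_ne_bot ux uy
  obtain ⟨g, hg, e⟩ := mem_orbit_subgroup_iff.1 ho
  have bf : a * a ∈ fix2 x y := mul_mem hf hf
  have bf' := conj_mem_fix2_iff (c := g).2 bf
  rw [e] at bf'
  obtain ⟨h, hh, hy', c⟩ := inv_conj h2 (mul_mem ha ha) (mul_mem (mul_mem hg (mul_mem ha ha)) (inv_mem hg)) bf.2 bf'.1 a4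
    (by rw [show g * (a * a) * g⁻¹ * (g * (a * a) * g⁻¹) = g * (a * a * (a * a)) * g⁻¹ by group, a4]; simp) a2
    (by simpa using a2)
  have bf'' := conj_mem_fix2_iff (c := h).2 bf'
  rw [c, hy'] at bf''
  refine ⟨h * g, mul_mem hh hg, by rw [mul_smul, e, hy'], ?_⟩
  rw [mul_smul]
  refine (eq_or_eq_of_mem_fix2 hxy bf a2 bf''.2).resolve_right fun e' => hxy ?_
  exact smul_left_cancel g (smul_left_cancel h (by rw [e', e, hy']))


omit [IsAlgClosed K] in
theorem nrm_exp {D : Subgroup PGL(2, K)} (hE : ∀ g ∈ D, g * g = 1) {x y : P1 K} (hxy : x ≠ y) {j d : PGL(2, K)}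
    (hj : j ∈ Subgroup.normalizer (D : Set PGL(2, K))) (hd : d ∈ Subgroup.normalizer (D : Set PGL(2, K)))
    (jf : j ∈ fix2 x y) (df : d ∈ fix2 x y) (j2 : j * j = 1) (j1 : j ≠ 1) (d4 : d * d * (d * d) ≠ 1) :
    FixesPoint D x := by
  have inv : ∀ g ∈ D, g⁻¹ = g := fun g hg => inv_eq_of_mul_eq_one_right (hE g hg)
  have com : ∀ g ∈ D, ∀ h ∈ D, g * h = h * g := fun g hg h hh => by
    rw [← inv _ (mul_mem hg hh), _root_.mul_inv_rev, inv g hg, inv h hh]
  have key : ∀ v ∈ D, Commute v j → v ∈ fix2 x y := fun v hv c => by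
    refine (mem_pairStab_of_commute hxy jf j1 c).resolve_right fun hs => d4 (hE _ ?_)
    have e := conj_eq_inv_of_swap hxy hs.1 hs.2 (inv_mem df).1 (inv_mem df).2
    have := mul_mem ((Subgroup.mem_normalizer_iff.1 hd v).1 hv) (inv_mem hv)
    rwa [mul_assoc, mul_assoc, ← mul_assoc v, e, inv_inv] at this
  intro g hg
  by_cases g1 : g = 1
  · rw [g1, one_smul]
  have hg' := (Subgroup.mem_normalizer_iff.1 hj g).1 hg
  have jD : j ∈ D := by
    by_cases c : j * g * j⁻¹ = g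
    · have c' : Commute g j := by rw [mul_inv_eq_iff_eq_mul] at c; exact c.symm
      exact inv_uniq hxy (key g hg c') jf (hE g hg) j2 g1 j1 ▸ hg
    · have hv := mul_mem hg hg'
      have ij : j⁻¹ = j := inv_eq_of_mul_eq_one_right j2
      have c' : Commute (g * (j * g * j⁻¹)) j := by
        have e1 : g * (j * g * j⁻¹) * j = g * j * g := by group
        have e2 : j * (j * g * j⁻¹ * g) = g * j * g := by
          rw [ij, ← mul_assoc, ← mul_assoc, ← mul_assoc, j2, one_mul]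
        rw [Commute, SemiconjBy, e1, com g hg _ hg', e2]
      refine inv_uniq hxy (key _ hv c') jf (hE _ hv) j2 (fun e => c ?_) j1 ▸ hv
      exact (eq_inv_of_mul_eq_one_right e).trans (inv g hg)
  exact (key g hg (com g hg j jD)).1

omit [IsAlgClosed K] in
theorem nrm_pair {a b x y x' y' : P1 K} (hab : a ≠ b) (hxy : x ≠ y) (hxy' : x' ≠ y') {j d j' d' : PGL(2, K)}
    (hd : d ∈ pairStab a b) (hd' : d' ∈ pairStab a b) (jf : j ∈ fix2 x y) (df : d ∈ fix2 x y) (jf' : j' ∈ fix2 x' y')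
    (df' : d' ∈ fix2 x' y') (j2 : j * j = 1) (j1 : j ≠ 1) (j2' : j' * j' = 1) (j1' : j' ≠ 1) (d2 : d * d ≠ 1)
    (d2' : d' * d' ≠ 1) : j = j' := by
  have e := fix2_eq_of_mem hab hxy (hd.resolve_right fun h => d2 (mul_self_of_swap hab h.1 h.2)) df
    (by rintro rfl; simp at d2)
  have e' := fix2_eq_of_mem hab hxy' (hd'.resolve_right fun h => d2' (mul_self_of_swap hab h.1 h.2)) df'
    (by rintro rfl; simp at d2')
  exact inv_uniq hab (e.1 ▸ jf) (e'.1 ▸ jf') j2 j2' j1 j1'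

theorem finite_nrm {D : Subgroup PGL(2, K)} [Finite D] (h1 : ∀ x, ¬ FixesPoint D x)
    (h2 : ∀ a b, a ≠ b → ¬ StabPair D a b) : Finite (Subgroup.normalizer (D : Set PGL(2, K))) := by
  refine Finite.of_injective D.normalizerMonoidHom ((injective_iff_map_eq_one _).2 fun c hc => ?_)
  have hc' : (c : PGL(2, K)) ∈ Subgroup.centralizer (D : Set PGL(2, K)) := by
    rw [← Subgroup.mem_subgroupOf, ← Subgroup.normalizerMonoidHom_ker]; exact hc
  by_contra c1
  have c1' : (c : PGL(2, K)) ≠ 1 := fun h => c1 (Subtype.ext h)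
  obtain ⟨a, ha⟩ := exists_fixed (c : PGL(2, K))
  by_cases hu : (c : PGL(2, K)) ∈ unip a
  · exact h1 a fun g hg => (mem_unip_of_commute hu c1' (hc' g hg)).1
  · obtain ⟨b, hb, hb'⟩ := exists_fixed_ne_of_not_mem_unip ha hu
    exact h2 a b hb.symm fun g hg => mem_pairStab_of_commute hb.symm ⟨ha, hb'⟩ c1' (hc' g hg)

omit [IsAlgClosed K] in
theorem nrm_unip {D : Subgroup PGL(2, K)} [Finite D] (hu : ∀ x, D ⊓ unip x = ⊥) (hp : (Nat.card D - 1).Prime)
    {g j : PGL(2, K)} (hg : g ∈ D) (g2 : g * g ≠ 1) (hj : j ∈ D) (j2 : j * j = 1) (j1 : j ≠ 1) (z : P1 K) :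
    Subgroup.normalizer (D : Set PGL(2, K)) ⊓ unip z = ⊥ := by
  set Q := Subgroup.normalizer (D : Set PGL(2, K)) ⊓ unip z with hQ
  let Q' : Subgroup (ConjAct PGL(2, K)) := Q.map ConjAct.toConjAct.toMonoidHom
  have cQ : Nat.card Q' = Nat.card Q := Subgroup.card_map_of_injective ConjAct.toConjAct.injective
  have key : ∀ T : Set PGL(2, K), T ⊆ (D : Set PGL(2, K)) \ {1} → (∀ k ∈ Q, ∀ t ∈ T, k * t * k⁻¹ ∈ T) →
      Nat.card Q ∣ T.ncard := fun T hT hT' => by
    rw [← cQ]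
    refine card_dvd_ncard_of_free Q' T ?_ ?_
    · rintro _ ⟨k, hk, rfl⟩ t ht
      exact hT' k hk t ht
    · rintro _ ⟨k, hk, rfl⟩ t ht e
      by_contra k1
      have k1' : k ≠ 1 := by rintro rfl; simp at k1
      have e' : k * t * k⁻¹ = t := e
      have : t ∈ D ⊓ unip z := ⟨(hT ht).1, mem_unip_of_commute hk.2 k1' (mul_inv_eq_iff_eq_mul.1 e').symm⟩
      rw [hu] at this
      exact (hT ht).2 this
  have c0 : ((D : Set PGL(2, K)) \ {1}).ncard = Nat.card D - 1 := by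
    rw [Set.ncard_sdiff_singleton_of_mem (show 1 ∈ (D : Set PGL(2, K)) from one_mem D)]; rfl
  have d1 := key _ le_rfl fun k hk t ht => ⟨(Subgroup.mem_normalizer_iff.1 hk.1 t).1 ht.1, by simpa using ht.2⟩
  have d2 := key {t | (t ∈ D ∧ t ≠ 1) ∧ t * t = 1} (fun t ht => ht.1) fun k hk t ht =>
    ⟨⟨(Subgroup.mem_normalizer_iff.1 hk.1 t).1 ht.1.1, by simpa using ht.1.2⟩, by
      rw [show k * t * k⁻¹ * (k * t * k⁻¹) = k * (t * t) * k⁻¹ by group, ht.2]; simp⟩
  rw [c0] at d1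
  refine Subgroup.card_eq_one.1 ((hp.eq_one_or_self_of_dvd _ d1).resolve_right fun e => ?_)
  have fin : ((D : Set PGL(2, K)) \ {1}).Finite := (Set.toFinite _).subset Set.sdiff_subset
  have ss : {t | (t ∈ D ∧ t ≠ 1) ∧ t * t = 1} ⊂ (D : Set PGL(2, K)) \ {1} :=
    ⟨fun t ht => ht.1, fun h => g2 (h ⟨hg, by rintro rfl; simp at g2⟩).2⟩
  have lt := Set.ncard_lt_ncard ss fin
  have pos := (Set.ncard_pos (fin.subset ss.1)).2 ⟨j, ⟨hj, j1⟩, j2⟩
  have := Nat.le_of_dvd pos d2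
  omega

theorem small_ord {G : Type*} [Group G] (h : Nonempty (G ≃* alternatingGroup (Fin 4)) ∨ Nonempty (G ≃* Equiv.Perm (Fin 4)) ∨
    Nonempty (G ≃* alternatingGroup (Fin 5))) :
    (Nat.card G - 1).Prime ∧ ∀ g : G, g ^ 3 = 1 ∨ g ^ 4 = 1 ∨ g ^ 5 = 1 := by
  have p4 : ∀ g : Equiv.Perm (Fin 4), g ^ 3 = 1 ∨ g ^ 4 = 1 ∨ g ^ 5 = 1 := by decide +kernel
  have p5 : ∀ g : Equiv.Perm (Fin 5), Equiv.Perm.sign g = 1 → g ^ 3 = 1 ∨ g ^ 4 = 1 ∨ g ^ 5 = 1 := by decide +kernel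
  rcases h with ⟨⟨e⟩⟩ | ⟨⟨e⟩⟩ | ⟨⟨e⟩⟩
  · refine ⟨?_, fun g => ?_⟩
    · rw [Nat.card_congr e.toEquiv, nat_card_alternatingGroup]; norm_num [Nat.factorial]
    · simpa only [← Subgroup.coe_pow, ← map_pow, OneMemClass.coe_eq_one, EmbeddingLike.map_eq_one_iff] using p4 (e g)
  · refine ⟨?_, fun g => ?_⟩
    · rw [Nat.card_congr e.toEquiv, Nat.card_perm]; norm_num [Nat.factorial]
    · simpa only [← map_pow, EmbeddingLike.map_eq_one_iff] using p4 (e g)
  · refine ⟨?_, fun g => ?_⟩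
    · rw [Nat.card_congr e.toEquiv, nat_card_alternatingGroup]; norm_num [Nat.factorial]
    · simpa only [← Subgroup.coe_pow, ← map_pow, OneMemClass.coe_eq_one, EmbeddingLike.map_eq_one_iff] using
        p5 (e g) (e g).2

/-- The normaliser of a finite `p'`-group of even order without fixed point meets at most one torus in a group of even order
not dividing four. -/
theorem nrm_main {D : Subgroup PGL(2, K)} [Finite D] (hu : ∀ x, D ⊓ unip x = ⊥) (h1 : ∀ x, ¬ FixesPoint D x)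
    {t : PGL(2, K)} (ht : t ∈ D) (t2 : t * t = 1) (t1 : t ≠ 1) {x y x' y' : P1 K} (hxy : x ≠ y) (hxy' : x' ≠ y')
    {j d j' d' : PGL(2, K)} (hj : j ∈ Subgroup.normalizer (D : Set PGL(2, K)))
    (hd : d ∈ Subgroup.normalizer (D : Set PGL(2, K))) (hd' : d' ∈ Subgroup.normalizer (D : Set PGL(2, K)))
    (jf : j ∈ fix2 x y) (df : d ∈ fix2 x y) (jf' : j' ∈ fix2 x' y') (df' : d' ∈ fix2 x' y') (j2 : j * j = 1) (j1 : j ≠ 1)
    (j2' : j' * j' = 1) (j1' : j' ≠ 1) (d4 : d * d * (d * d) ≠ 1) (d2' : d' * d' ≠ 1) : j = j' := by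
  have d2 : d * d ≠ 1 := fun h => d4 (by rw [h, one_mul])
  by_cases hE : ∀ g ∈ D, g * g = 1
  · exact absurd (nrm_exp hE hxy hj hd jf df j2 j1 d4) (h1 x)
  push Not at hE
  obtain ⟨g, hg, g2⟩ := hE
  by_cases hS : ∃ a b, a ≠ b ∧ StabPair D a b
  · obtain ⟨a, b, hab, hS⟩ := hS
    have key : ∀ k ∈ D, k * k ≠ 1 → k ∈ fix2 a b := fun k hk k2 =>
      (hS k hk).resolve_right fun h => k2 (mul_self_of_swap hab h.1 h.2)
    have key' : ∀ n ∈ Subgroup.normalizer (D : Set PGL(2, K)), n ∈ pairStab a b := fun n hn =>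
      mem_pairStab_of_conj_mem hab (key g hg g2) (by rintro rfl; simp at g2)
        (key _ ((Subgroup.mem_normalizer_iff.1 hn g).1 hg) (by
          rw [show n * g * n⁻¹ * (n * g * n⁻¹) = n * (g * g) * n⁻¹ by group]; simpa using g2))
    exact nrm_pair hab hxy hxy' (key' d hd) (key' d' hd') jf df jf' df' j2 j1 j2' j1' d2 d2'
  have hD := ((dickson_regular D hu).resolve_left fun ⟨x, h⟩ => h1 x h).resolve_left hS
  have := finite_nrm h1 fun a b hab h => hS ⟨a, b, hab, h⟩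
  rcases dickson_regular _ (nrm_unip hu (small_ord hD).1 hg g2 ht t2 t1) with ⟨z, h⟩ | ⟨a, b, hab, h⟩ | h
  · exact absurd (fun k hk => h k (Subgroup.le_normalizer hk)) (h1 z)
  · exact nrm_pair hab hxy hxy' (h d hd) (h d' hd') jf df jf' df' j2 j1 j2' j1' d2 d2'
  exfalso
  have c := commute_of_mem_fix2 hxy df jf
  have e1 : d ^ 3 = 1 ∨ d ^ 4 = 1 ∨ d ^ 5 = 1 := by
    simpa only [Subtype.ext_iff, Subgroup.coe_pow, Subgroup.coe_one] using (small_ord h).2 ⟨d, hd⟩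
  have e2 : (d * j) ^ 3 = 1 ∨ (d * j) ^ 4 = 1 ∨ (d * j) ^ 5 = 1 := by
    simpa only [Subtype.ext_iff, Subgroup.coe_pow, Subgroup.coe_one] using (small_ord h).2 ⟨d * j, mul_mem hd hj⟩
  have j2' : j ^ 2 = 1 := by rw [sq, j2]
  have j3 : j ^ 3 = j := by rw [pow_succ, j2', one_mul]
  have j4 : j ^ 4 = 1 := by rw [pow_succ, j3, j2]
  have j5 : j ^ 5 = j := by rw [pow_succ, j4, one_mul]
  have d4' : d ^ 4 ≠ 1 := by rwa [show d ^ 4 = d * d * (d * d) by simp [pow_succ, mul_assoc]]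
  simp only [c.mul_pow, j3, j4, j5, mul_one, d4', false_or] at e1 e2
  have sq : ∀ k : ℕ, d ^ k * j = 1 → d ^ (k + k) = 1 := fun k h => by
    rw [pow_add, eq_inv_of_mul_eq_one_left h, ← _root_.mul_inv_rev, j2, inv_one]
  rcases e1 with e1 | e1 <;> rcases e2 with e2 | e2
  · exact j1 (by rwa [e1, one_mul] at e2)
  · have := sq _ e2
    rw [show 5 + 5 = 3 * 2 + 4 from rfl, pow_add, pow_mul, e1, one_pow, one_mul] at this
    exact d4' this
  · have := sq _ e2
    rw [show 3 + 3 = 5 + 1 from rfl, pow_add, e1, one_mul, pow_one] at this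
    exact d4' (by rw [this, one_pow])
  · exact j1 (by rwa [e1, one_mul] at e2)

end Cfsg.Lib.S6Q
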