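import Cfsg.Agent.Lib.S6Q.Un0

/-!
# Units: the perpendicular plane
-/

set_option autoImplicit false

namespace Cfsg.Lib.S6Q

open scoped MatrixGroups Matrix commutatorElement
open Cfsg.Geo Cfsg.Lib.Asch Cfsg.Lib.Linear Cfsg.Lib.Q4 Cfsg.Lib.Symp Module
open Cfsg.Lib.Q4R (Sq HasTv sc dg)

variable {K : Type*} [Field K] {Y : Subgroup (G6 K)} {f f₁ : Fm K} {j E A B : M2 K} {g g' : G6 K} {p q : K}

/-- `g` acts as `A` on `⟨f E, f₁ E⟩`. -/
def Ra (f f₁ : Fm K) (E : M2 K) (g : G6 K) (A : M2 K) : Prop :=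
  ∀ v : Fin 2 → K, g.1 * ((v 0 • f + v 1 • f₁) * E) = ((A *ᵥ v) 0 • f + (A *ᵥ v) 1 • f₁) * E

theorem Ra.one : Ra f f₁ E 1 1 := fun v => by simp

theorem Ra.mul (a : Ra f f₁ E g A) (b : Ra f f₁ E g' B) : Ra f f₁ E (g * g') (A * B) := fun v => by
  rw [Units.val_mul, Matrix.mul_assoc, b, a, Matrix.mulVec_mulVec]

theorem Ra.inv (a : Ra f f₁ E g A) (e : A * B = 1) : Ra f f₁ E g⁻¹ B := fun v => by
  have := a (B *ᵥ v)
  rw [Matrix.mulVec_mulVec, e, Matrix.one_mulVec] at this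
  rw [← this, ← Matrix.mul_assoc, Units.inv_mul, Matrix.one_mul]

theorem un2p_ad (a : Fr f) (b : Fr f₁) (o : ad f * f₁ = 0) (p q r s : K) :
    ad (p • f + q • f₁) * (r • f + s • f₁) = (p * r + q * s) • 1 := by
  have o' : ad f₁ * f = 0 := by rw [ad_swap, o, Matrix.adjugate_zero]
  simp only [ad_add, ad_smul, Matrix.add_mul, Matrix.mul_add, Matrix.smul_mul, Matrix.mul_smul, o, o',
    show ad f * f = 1 from a, show ad f₁ * f₁ = 1 from b]
  module

theorem Ra.eq (a : Fr f) (b : Fr f₁) (o : ad f * f₁ = 0) (hE : E ≠ 0) (x : Ra f f₁ E g A) (y : Ra f f₁ E g B) :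
    A = B := by
  refine Matrix.ext_of_mulVec_single fun k => funext fun l => ?_
  have e := congrArg (ad ((Pi.single l 1 : Fin 2 → K) 0 • f + (Pi.single l 1 : Fin 2 → K) 1 • f₁) * ·)
    ((x (Pi.single k 1)).symm.trans (y _))
  simp only [← Matrix.mul_assoc, un2p_ad a b o, Matrix.smul_mul, Matrix.one_mul] at e
  have := smul_left_injective K hE e
  fin_cases l <;> simpa using this

theorem Ra.of_el (a : Fr f) (b : Fr f₁) (o : ad f * f₁ = 0) (e : g.1 = el f j) {i : K} (hE : j * E = i • E) :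
    Ra f f₁ E g !![i, 0; 0, 1] := fun v => by
  have := un2p_ad a b o 1 0 (v 0) (v 1)
  rw [one_smul, zero_smul, add_zero] at this
  rw [e, ← Matrix.mul_assoc, el_apply, this]
  simp only [Matrix.add_mul, Matrix.mul_assoc, Matrix.mul_smul, Matrix.smul_mul, Matrix.mul_one, Matrix.sub_mul, hE,
    Matrix.mul_sub]
  simp [Matrix.mulVec, dotProduct]
  module

theorem Ra.of_neg (a : Fr f) (b : Fr f₁) (o : ad f * f₁ = 0) (e : g.1 = el (p • f + q • f₁) (-1)) :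
    Ra f f₁ E g !![1 - 2 * p ^ 2, -2 * p * q; -2 * p * q, 1 - 2 * q ^ 2] := fun v => by
  rw [e, ← Matrix.mul_assoc, el_apply, un2p_ad a b o]
  congr 1
  simp only [Matrix.mul_smul, Matrix.mul_one, Matrix.mul_sub, Matrix.mul_neg]
  simp [Matrix.mulVec, dotProduct]
  module

/-- `el_perp` from the statement of `real4`. -/
theorem Hy.el_perp' [IsAlgClosed K] (h : Hy Y) (a : Ut Y f j) (b : Fr f₁) (o : ad f * f₁ = 0) (p0 : p ≠ 0) (q0 : q ≠ 0)
    (e : p ^ 2 + q ^ 2 = 1) (t : El Y (p • f + q • f₁) (-1))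
    (hR : ∀ {H : Subgroup (GL (Fin 2) K)} [Finite H] {i : K}, i * i = -1 → ∀ {A r : GL (Fin 2) K}, A ∈ H →
      A.1 = !![i, 0; 0, 1] → r ∈ H → r.1 0 1 ≠ 0 → r.1 1 0 ≠ 0 → ∃ n ∈ H, n.1 0 0 = 0 ∧ n.1 1 1 = 0) :
    Ut Y f₁ j ∧ (Bg Y f₁ ↔ Bg Y f) := by
  obtain ⟨i, hi⟩ := IsAlgClosed.exists_pow_nat_eq (-1 : K) two_pos
  rw [pow_two] at hi
  let H : Subgroup (GL (Fin 2) K) :=
    { carrier := {A | ∃ g ∈ Y, Ra f f₁ (1 - i • j) g A.1 ∧ Ra f f₁ (1 + i • j) g (A⁻¹).1ᵀ}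
      one_mem' := ⟨1, Y.one_mem, Ra.one, by simpa using Ra.one⟩
      mul_mem' := fun ⟨g, m, x, y⟩ ⟨g', m', x', y'⟩ => ⟨g * g', Y.mul_mem m m', x.mul x', by
        rw [mul_inv_rev, Units.val_mul, Matrix.transpose_mul]; exact y.mul y'⟩
      inv_mem' := fun {A} ⟨g, m, x, y⟩ => ⟨g⁻¹, Y.inv_mem m, x.inv A.mul_inv, y.inv (by
        rw [inv_inv, ← Matrix.transpose_mul, A.mul_inv, Matrix.transpose_one])⟩ }
  have E0 : 1 - i • j ≠ 0 := fun x => h.two (by simpa [a.pu.1] using congrArg Matrix.trace x)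
  have := h.fin
  have : Finite H := Finite.of_injective (fun A : H => (⟨A.2.choose, A.2.choose_spec.1⟩ : Y)) fun A B x =>
    Subtype.ext (Units.ext (A.2.choose_spec.2.1.eq a.fr b o E0 (by
      rw [show A.2.choose = B.2.choose from congrArg Subtype.val x]; exact B.2.choose_spec.2.1)))
  obtain ⟨u, hu, eu⟩ := a.el
  obtain ⟨s, hs, es⟩ := t
  have j1 : j * (1 - i • j) = i • (1 - i • j) := by
    rw [mul_sub, mul_one, mul_smul_comm, a.pu.sq, smul_sub, smul_smul, hi]; module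
  have j2 : j * (1 + i • j) = (-i) • (1 + i • j) := by
    rw [mul_add, mul_one, mul_smul_comm, a.pu.sq, smul_add, smul_smul, neg_mul, hi]; module
  have rr : (!![1 - 2 * p ^ 2, -2 * p * q; -2 * p * q, 1 - 2 * q ^ 2] : M2 K) *
      !![1 - 2 * p ^ 2, -2 * p * q; -2 * p * q, 1 - 2 * q ^ 2] = 1 := by
    ext k l; fin_cases k <;> fin_cases l <;> simp <;> grind
  have pq : -2 * p * q ≠ 0 := mul_ne_zero (mul_ne_zero (neg_ne_zero.2 h.two) p0) q0
  obtain ⟨n, ⟨g, hg, x, y⟩, n0, n1⟩ := hR (H := H) hi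
    (A := ⟨!![i, 0; 0, 1], !![-i, 0; 0, 1], by simp [hi, ← Matrix.one_fin_two], by simp [hi, ← Matrix.one_fin_two]⟩)
    (r := ⟨_, _, rr, rr⟩) ⟨u, hu, .of_el a.fr b o eu j1, by
      convert Ra.of_el a.fr b o eu j2 using 1
      ext k l; fin_cases k <;> fin_cases l <;> rfl⟩ rfl ⟨s, hs, .of_neg a.fr b o es, by
      convert Ra.of_neg a.fr b o es using 1
      ext k l; fin_cases k <;> fin_cases l <;> rfl⟩ pq pq
  have m0 : (n⁻¹).1 0 0 = 0 := by
    have e1 := congrFun (congrFun n.mul_inv 1) 0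
    have e2 := congrFun (congrFun n.mul_inv 1) 1
    simp only [Matrix.mul_apply, Fin.sum_univ_two, n1, zero_mul, add_zero] at e1 e2
    exact (mul_eq_zero.1 e1).resolve_left fun z => by simp [z] at e2
  obtain ⟨δ, hδ⟩ : ∃ δ : M2 K, δ = (2 : K)⁻¹ • (n.1 1 0 • (1 - i • j) + (n⁻¹).1 0 1 • (1 + i • j)) := ⟨_, rfl⟩
  have gf : g.1 * f = f₁ * δ := by
    have x := x ![1, 0]
    have y := y ![1, 0]
    simp only [Matrix.mulVec, dotProduct, Fin.sum_univ_two, Matrix.cons_val_zero, Matrix.cons_val_one,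
      Matrix.transpose_apply, n0, m0, mul_one, mul_zero, add_zero, one_smul, zero_smul, zero_add, Matrix.smul_mul] at x y
    rw [hδ, Matrix.mul_smul, Matrix.mul_add, Matrix.mul_smul, Matrix.mul_smul, ← x, ← y, ← Matrix.mul_add,
      ← Matrix.mul_add, sub_add_add_cancel, ← two_smul K, Matrix.mul_smul, Matrix.mul_smul, inv_smul_smul₀ h.two,
      Matrix.mul_one]
  have d : δ.det = 1 := by
    have := a.fr.conj (h.sp hg)
    rw [Fr, gf, ad_mul, Matrix.mul_assoc, ← Matrix.mul_assoc (ad f₁), show ad f₁ * f₁ = 1 from b, Matrix.one_mul,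
      Matrix.adjugate_mul] at this
    simpa using congrFun (congrFun this 0) 0
  have c : j * δ = δ * j := by
    simp only [hδ, mul_add, add_mul, mul_sub, sub_mul, mul_smul_comm, smul_mul_assoc, mul_one, one_mul]
  refine ⟨?_, by rw [← Bg.change d, ← gf, Bg.conj h.sp hg]⟩
  have := (gf ▸ a.conj h.sp hg).change (δ := δ.adjugate) (by simp [Matrix.det_adjugate, d])
  rwa [Matrix.mul_assoc, Matrix.mul_adjugate, d, one_smul, Matrix.mul_one, Matrix.adjugate_adjugate', d, one_pow,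
    one_smul, ← c, mul_assoc, Matrix.mul_adjugate, d, one_smul, mul_one] at this

end Cfsg.Lib.S6Q
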