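import Cfsg.Agent.Lib.S6Q.Un0
import Cfsg.Agent.Lib.S6Q.Un2a
import Cfsg.Agent.Lib.S6Q.Un2p

/-!
# Units: two consequences of Dickson's theorem
-/

set_option autoImplicit false

namespace Cfsg.Lib.S6Q

open scoped MatrixGroups Matrix commutatorElement
open Cfsg.Geo Cfsg.Lib.Asch Cfsg.Lib.Linear Cfsg.Lib.Q4 Cfsg.Lib.Symp Module
open Cfsg.Lib.Q4R (Sq HasTv sc dg)

variable {K : Type*} [Field K] [IsAlgClosed K] {Y : Subgroup (G6 K)} {f f' f'' f₁ f₂ ψ : Fm K} {j J J' j₁ j₂ γ γ' δ ρ : M2 K} {g : G6 K}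
  {p q : K}

section
open Matrix Cfsg.Lib.PSL2

/-- The image of `diag(i, 1)` in `PGL₂(K)` has order four and fixes only `0, ∞`; the group fixes no point.  In dihedral groups,
`S₄`, `L₂(q)`, `PGL₂(q)` it is inverted (`PSL2/DicksonClosed` and neighbours), and the inverting element swaps `0`, `∞`. -/
theorem real4 (h2 : (2 : K) ≠ 0) {H : Subgroup (GL (Fin 2) K)} [Finite H] {i : K} (hi : i * i = -1) {A r : GL (Fin 2) K}
    (hA : A ∈ H) (e : A.1 = !![i, 0; 0, 1]) (hr : r ∈ H) (h01 : r.1 0 1 ≠ 0) (h10 : r.1 1 0 ≠ 0) :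
    ∃ n ∈ H, n.1 0 0 = 0 ∧ n.1 1 1 = 0 := by
  have : Finite (H.map (ProjGenLinGroup.mk (n := Fin 2) (R := K))) := Finite.of_surjective _ (MonoidHom.subgroupMap_surjective _ H)
  have e2 : (A * A).1 = !![-1, 0; 0, 1] := by rw [Units.val_mul, e]; simp [hi]
  have e4 : A * A * (A * A) = 1 := Units.ext (by rw [Units.val_mul, e2]; simp [one_fin_two])
  obtain ⟨_, ⟨n, hn, rfl⟩, n1, n2⟩ := exists_swap h2 (H := H.map ProjGenLinGroup.mk) (a := ProjGenLinGroup.mk A) (x := inf)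
    (y := pt 0) (by simp) ⟨A, hA, rfl⟩
    (by rw [mem_fix2, pgl_mk_smul, pgl_mk_smul, gl_smul_inf_eq_inf, gl_smul_pt_eq_pt, e]; simp)
    (by
      rw [← map_mul, Ne, pgl_mk_eq_one_iff, e2]
      exact fun h => h2 (by have : (-1 : K) = 1 := h.2.2; linear_combination -this))
    (by rw [← map_mul, ← map_mul, e4, map_one])
    (fun h => h10 (by have := h _ ⟨r, hr, rfl⟩; rwa [pgl_mk_smul, gl_smul_inf_eq_inf] at this))
    (fun h => h01 (by have := h _ ⟨r, hr, rfl⟩; rw [pgl_mk_smul, gl_smul_pt_eq_pt] at this; simpa using this))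
  rw [pgl_mk_smul, gl_smul_inf_eq_pt] at n1
  rw [pgl_mk_smul, gl_smul_pt_eq_inf] at n2
  exact ⟨n, hn, by simpa using n1, by simpa using n2⟩

omit [IsAlgClosed K] in
theorem mk_eq_pm {A B : GL (Fin 2) K} (hA : A.1.det = 1) (hB : B.1.det = 1)
    (h : (ProjGenLinGroup.mk A : PGL(2, K)) = ProjGenLinGroup.mk B) : B.1 = A.1 ∨ B.1 = -A.1 := by
  obtain ⟨u, -, h1, h2, h3, h4⟩ := (pgl_mk_eq_mk_iff A B).1 h
  rw [det_fin_two] at hA hB
  have : u * u = 1 := by rw [h1, h2, h3, h4] at hB; linear_combination hB - u * u * hA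
  rcases mul_self_eq_one_iff.1 this with rfl | rfl
  · left; ext a b; fin_cases a <;> fin_cases b <;> simp [h1, h2, h3, h4]
  · right; ext a b; fin_cases a <;> fin_cases b <;> simp [h1, h2, h3, h4]

omit [IsAlgClosed K] in
theorem Pu.mk_ne (h2 : (2 : K) ≠ 0) (h : Pu j) {A : GL (Fin 2) K} {a b : K} (hb : b ≠ 0) (e : A.1 = a • 1 + b • j) :
    (ProjGenLinGroup.mk A : PGL(2, K)) ≠ 1 := by
  rw [Ne, pgl_mk_eq_one_iff, e]
  rintro ⟨h1, -, h3⟩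
  obtain ⟨t, d⟩ := h
  rw [trace_fin_two] at t
  rw [det_fin_two] at d
  have h1 : j 0 1 = 0 := by simpa [hb] using h1
  have h3 : j 0 0 = j 1 1 := by simpa [hb] using h3
  have h4 : j 0 0 = 0 := (mul_eq_zero.1 (show 2 * j 0 0 = 0 by linear_combination t + h3)).resolve_left h2
  simp [h1, h4] at d

omit [IsAlgClosed K] in
theorem Pu.mk_sq (h : Pu j) {A : GL (Fin 2) K} (e : A.1 = j) :
    (ProjGenLinGroup.mk A : PGL(2, K)) * ProjGenLinGroup.mk A = 1 := by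
  rw [← map_mul, pgl_mk_eq_one_iff, Units.val_mul, e, h.sq]
  simp

theorem Pu.torus (h2 : (2 : K) ≠ 0) (h : Pu j) {a : K} (a0 : a ≠ 0) (a1 : a ^ 2 ≠ 1) (ad : a ^ 2 + 1 ≠ 0) :
    ∃ (A B : GL (Fin 2) K) (x y : P1 K), A.1 = j ∧ B.1 = a • 1 + j ∧ x ≠ y ∧ ProjGenLinGroup.mk A ∈ fix2 x y ∧
      ProjGenLinGroup.mk B ∈ fix2 x y ∧ (ProjGenLinGroup.mk B : PGL(2, K)) * ProjGenLinGroup.mk B *
        (ProjGenLinGroup.mk B * ProjGenLinGroup.mk B) ≠ 1 := by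
  have dB : (a • (1 : M2 K) + j).det ≠ 0 := by
    obtain ⟨t, d⟩ := h
    rw [trace_fin_two] at t
    rw [det_fin_two] at d ⊢
    refine fun e => ad ?_
    simp at e
    linear_combination e - d - a * t
  obtain ⟨A, hA⟩ : ∃ A : GL (Fin 2) K, A.1 = j := ⟨.mkOfDetNeZero j (by rw [h.2]; exact one_ne_zero), rfl⟩
  obtain ⟨B, hB⟩ : ∃ B : GL (Fin 2) K, B.1 = a • 1 + j := ⟨.mkOfDetNeZero _ dB, rfl⟩
  have A1 := h.mk_ne h2 (A := A) (a := 0) one_ne_zero (by simp [hA])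
  obtain ⟨x, hx⟩ := exists_fixed (ProjGenLinGroup.mk A : PGL(2, K))
  obtain ⟨y, hy, hy'⟩ := exists_fixed_ne_of_not_mem_unip hx fun hu => by
    have := tau_of_mem_unip hu
    rw [tau_mk', hA, h.1] at this
    exact mul_ne_zero h2 h2 (by linear_combination -this)
  have B2 : (B * B).1 = (a ^ 2 - 1) • 1 + (2 * a) • j := by
    rw [Units.val_mul, hB]
    simp only [add_mul, mul_add, smul_mul_assoc, mul_smul_comm, one_mul, mul_one, h.sq]
    module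
  have B4 : (ProjGenLinGroup.mk B : PGL(2, K)) * ProjGenLinGroup.mk B * (ProjGenLinGroup.mk B * ProjGenLinGroup.mk B) ≠ 1 := by
    rw [← map_mul, ← map_mul]
    refine h.mk_ne h2 (a := (a ^ 2 - 1) ^ 2 - (2 * a) ^ 2) (b := 2 * (2 * a) * (a ^ 2 - 1))
      (mul_ne_zero (mul_ne_zero h2 (mul_ne_zero h2 a0)) (sub_ne_zero.2 a1)) ?_
    rw [Units.val_mul, B2]
    simp only [add_mul, mul_add, smul_mul_assoc, mul_smul_comm, one_mul, mul_one, h.sq]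
    module
  refine ⟨A, B, x, y, hA, hB, hy.symm, ⟨hx, hy'⟩, ?_, B4⟩
  refine (mem_pairStab_of_commute hy.symm ⟨hx, hy'⟩ A1 (Commute.map (Units.ext ?_) _)).resolve_right
    fun hs => B4 (by rw [mul_self_of_swap hy.symm hs.1 hs.2, one_mul])
  simp [hA, hB, add_mul, mul_add]

/-- Lemma N.  Let `D ≤ PGL₂(K)` be generated by the pure elements of `Γ` (a `p'`-group fixing no point) and `N` by `D`, `j_i`,
`d_i = (j_i - 1) (c - (1 - c) j_i)`: finite (faithful on the finite set of pure elements of `Γ`), `D ⊴ N`.  `d_i` lies in the torus of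
`j_i` with eigenvalue ratio `-i (c - (1 - c) i) / (c + (1 - c) i) ∉ {± 1, ± i}` for `c ≠ 0, 1, 1 / 2`, so `⟨j_i, d_i⟩` is cyclic of order
`≥ 6` in `N`, for two different tori.  Dickson: not dihedral, `A₄`, `S₄`, `A₅`; and `L₂(q)`, `PGL₂(q)`, `q > 3`, have no such `D`. -/
theorem lemN (h2 : (2 : K) ≠ 0) {Γ : Subgroup SL(2, K)} [Finite Γ] (hu : ∀ γ ∈ Γ, γ.1.trace = 2 → γ = 1)
    {J₁ J₂ : SL(2, K)} (m₁ : J₁ ∈ Γ) (m₂ : J₂ ∈ Γ) (t₁ : J₁.1.trace = 0) (t₂ : J₂.1.trace = 0) (n : J₂ ≠ J₁)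
    (n' : J₂ ≠ -J₁) (p₁ : Pu j₁) (p₂ : Pu j₂) (k : j₂ ≠ j₁) (k' : j₂ ≠ -j₁) {c : K} (c0 : c ≠ 0) (c1 : c ≠ 1)
    (cd : c ^ 2 + (1 - c) ^ 2 ≠ 0)
    (H : ∀ j ∈ ({j₁, j₂} : Set (M2 K)), ∀ J ∈ Γ, J.1.trace = 0 → (∃ J' ∈ Γ, j * J.1 = J'.1 * j) ∧
      ∃ J' ∈ Γ, (j - 1) * (c • 1 - (1 - c) • j) * J.1 = J'.1 * ((j - 1) * (c • 1 - (1 - c) • j))) : 2 * c = 1 := by
  by_contra hc
  let φ : SL(2, K) →* PGL(2, K) := ProjGenLinGroup.mk.comp SpecialLinearGroup.toGL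
  let D : Subgroup PGL(2, K) := Subgroup.closure {g | ∃ J ∈ Γ, J.1.trace = 0 ∧ φ J = g}
  have le : D ≤ Γ.map φ := (Subgroup.closure_le _).2 fun _ ⟨J, hJ, _, e⟩ => ⟨J, hJ, e⟩
  have : Finite (Γ.map φ) := Finite.of_surjective _ (φ.subgroupMap_surjective Γ)
  have : Finite D := Finite.of_injective _ (Subgroup.inclusion_injective le)
  have P₁ : Pu J₁.1 := ⟨t₁, J₁.2⟩
  have P₂ : Pu J₂.1 := ⟨t₂, J₂.2⟩
  have s₁ : φ J₁ * φ J₁ = 1 := P₁.mk_sq rfl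
  have s₂ : φ J₂ * φ J₂ = 1 := P₂.mk_sq rfl
  have o₁ : φ J₁ ≠ 1 := P₁.mk_ne h2 (a := 0) one_ne_zero (by simp)
  have o₂ : φ J₂ ≠ 1 := P₂.mk_ne h2 (a := 0) one_ne_zero (by simp)
  have d₁ : φ J₁ ∈ D := Subgroup.subset_closure ⟨J₁, m₁, t₁, rfl⟩
  have d₂ : φ J₂ ∈ D := Subgroup.subset_closure ⟨J₂, m₂, t₂, rfl⟩
  have hD : ∀ x, D ⊓ unip x = ⊥ := fun x => eq_bot_iff.2 fun g hg => by
    obtain ⟨γ, hγ, rfl⟩ := le hg.1
    have t : γ.1.trace ^ 2 = 4 := (tau_toPGL γ).symm.trans (tau_of_mem_unip hg.2)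
    rcases sq_eq_sq_iff_eq_or_eq_neg.1 (show γ.1.trace ^ 2 = 2 ^ 2 by rw [t]; norm_num) with t | t
    · rw [hu γ hγ t, map_one]; exact one_mem _
    · have := hu _ (mul_mem (mul_mem m₁ m₁) hγ) (by
        change (J₁.1 * J₁.1 * γ.1).trace = 2
        rw [P₁.sq]; simp [t])
      have e := congrArg φ this
      rw [map_mul, map_mul, s₁, one_mul, map_one] at e
      exact e
  have h1 : ∀ x, ¬ FixesPoint D x := fun x h => by
    have : φ J₁ * φ J₂ ∈ D ⊓ unip x := ⟨mul_mem d₁ d₂, inv_mul_unip (h _ d₁) (h _ d₂) s₁ s₂ o₁ o₂⟩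
    rw [hD, Subgroup.mem_bot, ← s₂, mul_left_inj] at this
    rcases mk_eq_pm (by simp) (by simp) this with e | e
    · exact n (Subtype.ext e)
    · exact n' (Subtype.ext e)
  have nrm : ∀ A : GL (Fin 2) K, (∀ J ∈ Γ, J.1.trace = 0 → ∃ J' ∈ Γ, A.1 * J.1 = J'.1 * A.1) →
      ProjGenLinGroup.mk A ∈ Subgroup.normalizer (D : Set PGL(2, K)) := fun A hA => by
    refine Subgroup.mem_normalizer_fintype fun g hg => ?_
    induction hg using Subgroup.closure_induction with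
    | mem g hg =>
      obtain ⟨J, hJ, t, rfl⟩ := hg
      obtain ⟨J', hJ', e⟩ := hA J hJ t
      have e' : A * SpecialLinearGroup.toGL J * A⁻¹ = SpecialLinearGroup.toGL J' :=
        mul_inv_eq_iff_eq_mul.2 (Units.ext e)
      refine Subgroup.subset_closure ⟨J', hJ', ?_, ?_⟩
      · have : J'.1 = A.1 * J.1 * (A⁻¹).1 := congrArg Units.val e'.symm
        rw [this, trace_mul_cycle, Units.inv_mul, one_mul, t]
      · exact (congrArg ProjGenLinGroup.mk e'.symm).trans (by rw [map_mul, map_mul, map_inv]; rfl)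
    | one => simp
    | mul g h _ _ hg hh => simpa [mul_assoc] using mul_mem hg hh
    | inv g _ hg => simpa [mul_assoc] using inv_mem hg
  have a0 : 1 - 2 * c ≠ 0 := fun e => hc (by linear_combination -e)
  have a1 : (1 - 2 * c) ^ 2 ≠ 1 := fun e => mul_ne_zero (mul_ne_zero (mul_ne_zero h2 h2) c0) (sub_ne_zero.2 c1)
    (by linear_combination e)
  have ad : (1 - 2 * c) ^ 2 + 1 ≠ 0 := fun e => mul_ne_zero h2 cd (by linear_combination e)
  have ex : ∀ j : M2 K, Pu j → (j - 1) * (c • 1 - (1 - c) • j) = (1 - 2 * c) • 1 + j := fun j h => by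
    simp only [sub_mul, mul_sub, mul_smul_comm, one_mul, mul_one, h.sq]
    module
  obtain ⟨A, B, x, y, hA, hB, hxy, f1, f2, B4⟩ := p₁.torus h2 a0 a1 ad
  obtain ⟨A', B', x', y', hA', hB', hxy', f1', f2', B4'⟩ := p₂.torus h2 a0 a1 ad
  have := nrm_main hD h1 d₁ s₁ o₁ hxy hxy' (nrm A fun J hJ t => hA ▸ (H j₁ (by simp) J hJ t).1)
    (nrm B fun J hJ t => by rw [hB, ← ex _ p₁]; exact (H j₁ (by simp) J hJ t).2)
    (nrm B' fun J hJ t => by rw [hB', ← ex _ p₂]; exact (H j₂ (by simp) J hJ t).2) f1 f2 f1' f2' (p₁.mk_sq hA)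
    (p₁.mk_ne h2 (a := 0) one_ne_zero (by simp [hA])) (p₂.mk_sq hA') (p₂.mk_ne h2 (a := 0) one_ne_zero (by simp [hA'])) B4
    fun e => B4' (by rw [e, one_mul])
  rcases mk_eq_pm (hA ▸ p₁.2) (hA' ▸ p₂.2) this with e | e
  · exact k (by rwa [hA, hA'] at e)
  · exact k' (by rwa [hA, hA'] at e)

end

/-- `⟨el f j, t'⟩` acts on `⟨f a, f₁ a⟩` (`j a = i a`) and dually on `⟨f b, f₁ b⟩` (`j b = -i b`), trivially on the complement;
`el f j ↦ diag(i, 1)`, `t' ↦ 1 - 2 (p², p q; p q, q²)`.  An antidiagonal `n` (`real4`) has `n f = f₁ δ` with `δ j = j δ`. -/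
theorem Hy.el_perp (h : Hy Y) (a : Ut Y f j) (b : Fr f₁) (o : ad f * f₁ = 0) (p0 : p ≠ 0) (q0 : q ≠ 0)
    (e : p ^ 2 + q ^ 2 = 1) (t : El Y (p • f + q • f₁) (-1)) : Ut Y f₁ j ∧ (Bg Y f₁ ↔ Bg Y f) :=
  h.el_perp' a b o p0 q0 e t (real4 h.two)

end Cfsg.Lib.S6Q
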