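import Cfsg.Agent.Lib.S6Q.Un1
import Cfsg.Agent.Lib.S6Q.Un2

/-!
# Units: big planes
-/

set_option autoImplicit false

namespace Cfsg.Lib.S6Q

open scoped MatrixGroups Matrix commutatorElement
open Cfsg.Geo Cfsg.Lib.Asch Cfsg.Lib.Linear Cfsg.Lib.Q4 Cfsg.Lib.Symp Module
open Cfsg.Lib.Q4R (Sq HasTv sc dg)

variable {K : Type*} [Field K] [IsAlgClosed K] {Y : Subgroup (G6 K)} {f f' f'' f₁ f₂ ψ : Fm K} {j J J' j₁ j₂ γ γ' δ ρ : M2 K} {g : G6 K}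
  {p q : K}

omit [IsAlgClosed K] in
theorem Ut.unch (a : Ut Y (f * ρ) J) (d : ρ.det = 1) : Ut Y f (ρ * J * ρ.adjugate) := by
  have := a.change (δ := ρ.adjugate) (by simp [Matrix.det_adjugate, d])
  rwa [Matrix.mul_assoc, Matrix.mul_adjugate, d, one_smul, Matrix.mul_one, Matrix.adjugate_adjugate', d, one_pow,
    one_smul] at this

omit [IsAlgClosed K] in
theorem El.neg_chg (a : El Y f (-1)) (d : δ.det = 1) : El Y (f * δ) (-1) := by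
  obtain ⟨g, hg, e⟩ := a
  exact ⟨g, hg, by rw [e, el_change d, mul_neg, mul_one, neg_mul, Matrix.mul_adjugate, d, one_smul]⟩

omit [IsAlgClosed K] in
theorem ad_rot (a : Fr f) (b : Fr f₁) (o : ad f * f₁ = 0) (p q r s : K) :
    ad (p • f + q • f₁) * (r • f + s • f₁) = (p * r + q * s) • 1 := by
  have o' : ad f₁ * f = 0 := by rw [ad_swap, o, Matrix.adjugate_zero]
  simp only [ad_add, ad_smul, Matrix.add_mul, Matrix.mul_add, Matrix.smul_mul, Matrix.mul_smul, o, o',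
    show ad f * f = 1 from a, show ad f₁ * f₁ = 1 from b]
  module

namespace Hy

variable (h : Hy Y)
include h

theorem bg_norm (a : Ut Y f j) (b : Fr f₁) (o : ad f * f₁ = 0) (p0 : p ≠ 0) (q0 : q ≠ 0) (e : p ^ 2 + q ^ 2 = 1)
    (B : Bg Y (p • f + q • f₁)) : (p ^ 2) ^ 2 + (1 - p ^ 2) ^ 2 ≠ 0 ∧ ∀ J, Ut Y (p • f + q • f₁) J →
      (∃ J', Ut Y (p • f + q • f₁) J' ∧ j * J = J' * j) ∧ ∃ J', Ut Y (p • f + q • f₁) J' ∧
        (j - 1) * (p ^ 2 • 1 - (1 - p ^ 2) • j) * J = J' * ((j - 1) * (p ^ 2 • 1 - (1 - p ^ 2) • j)) := by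
  obtain ⟨J₁, -, c, -⟩ := id B
  have o' : ad f₁ * f = 0 := by rw [ad_swap, o, Matrix.adjugate_zero]
  obtain ⟨u, hu, eu⟩ := a.el
  obtain ⟨u₁, hu₁, eu₁⟩ := (h.el_perp a b o p0 q0 e c.inv).1.el
  have e1 : u₁.1 * (p • f + q • f₁) = p • f + q • (f₁ * j) := by
    rw [eu₁, Matrix.mul_add, Matrix.mul_smul, Matrix.mul_smul, b.el_self, el_apply, o']; simp
  have e2 : u.1 * (u₁.1 * (p • f + q • f₁)) = (p • f + q • f₁) * j := by
    rw [e1, eu, Matrix.mul_add, Matrix.mul_smul, Matrix.mul_smul, a.fr.el_self, el_apply, ← Matrix.mul_assoc (ad f), o]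
    simp [Matrix.add_mul]
  have q2 : 1 - p ^ 2 = q ^ 2 := by rw [← e]; ring
  obtain ⟨G, hG⟩ : ∃ G, G = p • f + q • f₁ := ⟨_, rfl⟩
  obtain ⟨G₁, hG₁⟩ : ∃ G, G = (-q) • f + p • f₁ := ⟨_, rfl⟩
  have fG₁ : Fr G₁ := by
    rw [Fr, hG₁, ad_rot a.fr b o, show -q * -q + p * p = 1 by linear_combination e, one_smul]
  have oG : ad G * G₁ = 0 := by rw [hG, hG₁, ad_rot a.fr b o, show p * -q + q * p = 0 by ring, zero_smul]
  have oG' : ad G₁ * G = 0 := by rw [ad_swap, oG, Matrix.adjugate_zero]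
  have ef : f = (-q) • G₁ + p • G := by
    rw [hG, hG₁]; match_scalars <;> [linear_combination -e; ring]
  have e3 : p • f + q • (f₁ * j) = G * (p ^ 2 • 1 + q ^ 2 • j) + (p * q) • (G₁ * (j - 1)) := by
    simp only [hG, hG₁, Matrix.add_mul, Matrix.mul_add, Matrix.smul_mul, Matrix.mul_smul, Matrix.mul_sub, Matrix.mul_one]
    match_scalars
    · linear_combination -p * e
    · linear_combination -q * e
    · ring
    · ring
  rw [← hG] at B c e1 e2 ⊢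
  have jj := a.pu.sq
  have dφ : (p ^ 2 • (1 : M2 K) + q ^ 2 • j).det = (p ^ 2) ^ 2 + (q ^ 2) ^ 2 := by
    have t := a.pu.1
    have d := a.pu.2
    rw [Matrix.trace_fin_two] at t
    rw [Matrix.det_fin_two] at d ⊢
    simp
    linear_combination q ^ 4 * d + p ^ 2 * q ^ 2 * t
  have aφ : ad G * (u₁.1 * G) = p ^ 2 • 1 + q ^ 2 • j := by
    rw [e1, e3, Matrix.mul_add, Matrix.mul_smul, ← Matrix.mul_assoc, ← Matrix.mul_assoc, oG, show ad G * G = 1 from c.fr]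
    simp
  have D0 : (p ^ 2) ^ 2 + (q ^ 2) ^ 2 ≠ 0 := fun D0 => by
    have := congrArg Matrix.trace (aφ.symm.trans (h.bg_zero B (c.conj h.sp hu₁) (by rw [aφ, dφ, D0])))
    simp [a.pu.1, p0, h.two] at this
  rw [q2]
  refine ⟨D0, fun J cJ => ⟨⟨_, (e2 ▸ (cJ.conj h.sp hu₁).conj h.sp hu).unch a.pu.2, by
    rw [mul_assoc _ _ j, Matrix.adjugate_mul, a.pu.2, one_smul, mul_one]⟩, ?_⟩⟩
  obtain ⟨r, hr⟩ := IsAlgClosed.exists_pow_nat_eq ((p ^ 2) ^ 2 + (q ^ 2) ^ 2) two_pos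
  obtain ⟨s, hs⟩ := IsAlgClosed.exists_pow_nat_eq (2 : K) two_pos
  have r0 : r ≠ 0 := fun r0 => D0 (by rw [← hr, r0]; ring)
  have s0 : s ≠ 0 := fun s0 => h.two (by rw [← hs, s0]; ring)
  have dψ : (p ^ 2 • (1 : M2 K) - q ^ 2 • j).det = r ^ 2 ∧ (j - 1).det = s ^ 2 := by
    have t := a.pu.1
    have d := a.pu.2
    rw [Matrix.trace_fin_two] at t
    rw [Matrix.det_fin_two] at d
    rw [hr, hs, Matrix.det_fin_two, Matrix.det_fin_two]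
    simp
    exact ⟨by linear_combination q ^ 4 * d - p ^ 2 * q ^ 2 * t, by linear_combination d - t⟩
  have d1 : (r⁻¹ • (p ^ 2 • (1 : M2 K) - q ^ 2 • j)).det = 1 := by
    rw [Matrix.det_smul, dψ.1]; simp [r0]
  have d2 : ((r * s)⁻¹ • ((j - 1) * (p ^ 2 • (1 : M2 K) - q ^ 2 • j))).det = 1 := by
    rw [Matrix.det_smul, Matrix.det_mul, dψ.1, dψ.2, Fintype.card_fin]; field_simp
  have e4 : u₁.1 * G * (r⁻¹ • (p ^ 2 • (1 : M2 K) - q ^ 2 • j)) =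
      r • G + (s * p * q) • (G₁ * ((r * s)⁻¹ • ((j - 1) * (p ^ 2 • (1 : M2 K) - q ^ 2 • j)))) := by
    have : (p ^ 2 • 1 + q ^ 2 • j) * (p ^ 2 • (1 : M2 K) - q ^ 2 • j) = r ^ 2 • 1 := by
      simp only [hr, add_mul, mul_sub, smul_mul_assoc, mul_smul_comm, one_mul, mul_one, jj]
      module
    rw [e1, e3, Matrix.mul_smul, Matrix.add_mul, Matrix.mul_assoc, this, Matrix.smul_mul, Matrix.mul_assoc]
    simp only [Matrix.mul_smul, Matrix.mul_one]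
    match_scalars <;> field_simp
  have t1 := (h.el_perp cJ (fG₁.mul d2) (by rw [← Matrix.mul_assoc, oG, Matrix.zero_mul]) r0
    (mul_ne_zero (mul_ne_zero s0 p0) q0) (by rw [hr, mul_pow, mul_pow, hs]; linear_combination (p ^ 2 + q ^ 2 + 1) * e)
    (e4 ▸ (c.inv.conj h.sp hu₁).neg_chg d1)).1.unch d2
  refine ⟨_, (h.el_perp t1 c.fr oG' (neg_ne_zero.2 q0) p0 (by linear_combination e) (ef ▸ a.inv)).1, ?_⟩
  apply smul_right_injective _ (inv_ne_zero (mul_ne_zero r0 s0))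
  beta_reduce
  rw [← smul_mul_assoc, ← mul_smul_comm _ (_ * _), mul_assoc _ (Matrix.adjugate _), Matrix.adjugate_mul, d2, one_smul, mul_one]

/-- Two big planes: `f₁' = - q f + p f₁` has the same types as `f'` (`el_perp` for `(f', f)` and `(f₁', f)`);
`f'' = p f + q f₁ j = f' φ + f₁' χ`, `φ = p² + q² j`, `χ = p q (j - 1)`, `det φ ≠ 0` (`bg_zero`); `el_perp` for `(f', f'')` shows that
`χ φ⁻¹` normalises the set of types of `f'`; so does `j`.  `lemN`. -/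
theorem bg_bg (a : Bg Y f) (b : Fr f₁) (o : ad f * f₁ = 0) (p0 : p ≠ 0) (q0 : q ≠ 0) (e : p ^ 2 + q ^ 2 = 1)
    (B : Bg Y (p • f + q • f₁)) : 2 * p ^ 2 = 1 := by
  obtain ⟨j₁, j₂, a₁, a₂, k, k'⟩ := a
  obtain ⟨J₁, J₂, c₁, c₂, n, n'⟩ := id B
  obtain ⟨Γ, _, hΓ⟩ := h.exists_gam c₁.fr
  refine lemN h.two (Γ := Γ) (fun γ m t => Subtype.ext (h.unip c₁.fr ((hΓ γ).1 m) t)) (J₁ := ⟨J₁, c₁.pu.2⟩)
    (J₂ := ⟨J₂, c₂.pu.2⟩) ((hΓ _).2 c₁.el) ((hΓ _).2 c₂.el) c₁.pu.1 c₂.pu.1 (fun x => n (congrArg Subtype.val x))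
    (fun x => n' (congrArg Subtype.val x)) a₁.pu a₂.pu k k' (pow_ne_zero 2 p0)
    (fun x => q0 (pow_eq_zero_iff two_ne_zero |>.1 (by linear_combination e - x))) (h.bg_norm a₁ b o p0 q0 e B).1
    fun j hj J m t => ?_
  have aj : Ut Y f j := by rcases hj with rfl | rfl <;> assumption
  obtain ⟨⟨J', x, y⟩, J'', x', y'⟩ := (h.bg_norm aj b o p0 q0 e B).2 J.1 ⟨c₁.fr, ⟨t, J.2⟩, (hΓ J).1 m⟩
  exact ⟨⟨⟨J', x.pu.2⟩, (hΓ _).2 x.el, y⟩, ⟨J'', x'.pu.2⟩, (hΓ _).2 x'.el, y'⟩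

end Hy

end Cfsg.Lib.S6Q
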