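import Cfsg.Agent.Lib.S6Q.Un3a
import Cfsg.Agent.Lib.S6Q.Un3b

/-!
# Units: pairs and triples
-/

set_option autoImplicit false

namespace Cfsg.Lib.S6Q

open scoped MatrixGroups Matrix commutatorElement
open Cfsg.Geo Cfsg.Lib.Asch Cfsg.Lib.Linear Cfsg.Lib.Q4 Cfsg.Lib.Symp Module
open Cfsg.Lib.Q4R (Sq HasTv sc dg)

variable {K : Type*} [Field K] [IsAlgClosed K] {Y : Subgroup (G6 K)} {f f' f'' f₁ f₂ ψ : Fm K} {j J J' j₁ j₂ γ γ' δ ρ : M2 K} {g : G6 K}
  {p q : K}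

section aux

omit [IsAlgClosed K]

theorem u3_adj_add (a b : M2 K) : (a + b).adjugate = a.adjugate + b.adjugate := by
  ext i j; fin_cases i <;> fin_cases j <;> simp [Matrix.adjugate_fin_two, add_comm]

theorem u3_adj_smul (c : K) (a : M2 K) : (c • a).adjugate = c • a.adjugate := by
  rw [Matrix.adjugate_smul]; simp

theorem u3_adj_neg (a : M2 K) : (-a).adjugate = -a.adjugate := by
  rw [← neg_one_smul K a, u3_adj_smul, neg_one_smul]

theorem u3_det (h : δ * δ.adjugate = 1) : δ.det = 1 := by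
  rw [Matrix.mul_adjugate] at h
  simpa using congrFun (congrFun h 0) 0

theorem u3_mul_adj (h : δ.det = 1) : δ * δ.adjugate = 1 := by rw [Matrix.mul_adjugate, h, one_smul]

theorem u3_adj_mul (h : δ.det = 1) : δ.adjugate * δ = 1 := by rw [Matrix.adjugate_mul, h, one_smul]

theorem u3_adj_adj (a : M2 K) : a.adjugate.adjugate = a := by
  ext i j; fin_cases i <;> fin_cases j <;> simp [Matrix.adjugate_fin_two]

theorem Pu.ne_zero (h : Pu j) : j ≠ 0 := fun e => by simpa [e] using h.2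

theorem u3_swap (o : ad f * f₁ = 0) : ad f₁ * f = 0 := by rw [ad_swap, o, Matrix.adjugate_zero]

theorem u3_ad (a : Fr f) (b : Fr f₁) (o : ad f * f₁ = 0) (α β γ δ : M2 K) :
    ad (f * α + f₁ * β) * (f * γ + f₁ * δ) = α.adjugate * γ + β.adjugate * δ := by
  have a' : ad f * f = 1 := a
  have b' : ad f₁ * f₁ = 1 := b
  simp only [ad_add, ad_mul, Matrix.add_mul, Matrix.mul_add, Matrix.mul_assoc]
  simp only [← Matrix.mul_assoc (ad _), a', b', o, u3_swap o]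
  simp

theorem u3_el (a : Fr f) (b : Fr f₁) (o : ad f * f₁ = 0) (α β γ δ η : M2 K) :
    el (f * α + f₁ * β) η * (f * γ + f₁ * δ) = f * (γ + α * ((η - 1) * (α.adjugate * γ + β.adjugate * δ))) +
      f₁ * (δ + β * ((η - 1) * (α.adjugate * γ + β.adjugate * δ))) := by
  rw [el_apply, u3_ad a b o]
  simp only [Matrix.add_mul, Matrix.mul_add f, Matrix.mul_add f₁, Matrix.mul_assoc]
  abel

theorem u3_el1 (a : Fr f) (o : ad f * f₁ = 0) (γ δ η : M2 K) :
    el f η * (f * γ + f₁ * δ) = f * (η * γ) + f₁ * δ := by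
  rw [Matrix.mul_add, ← Matrix.mul_assoc, a.el_self, ← Matrix.mul_assoc, el_apply (f' := f₁), o, Matrix.mul_assoc]
  simp

theorem u3_el2 (b : Fr f₁) (o : ad f * f₁ = 0) (γ δ η : M2 K) :
    el f₁ η * (f * γ + f₁ * δ) = f * γ + f₁ * (η * δ) := by
  rw [add_comm, u3_el1 b (u3_swap o), add_comm]

theorem u3_sm (p q : K) : p • f + q • f₁ = f * (p • (1 : M2 K)) + f₁ * (q • (1 : M2 K)) := by simp

theorem u3_gram (a : Pu j) (b : Pu J) (k : j * J = -(J * j)) (ρ : M2 K) :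
    4 * ρ.det = ρ.trace ^ 2 + (j * ρ).trace ^ 2 + (J * ρ).trace ^ 2 + (j * J * ρ).trace ^ 2 := by
  have h1 := a.1
  have h2 := a.2
  have h3 := b.1
  have h4 := b.2
  have h5 := (a.anti_iff b).1 k
  simp only [Matrix.trace_fin_two, Matrix.det_fin_two, Matrix.mul_apply, Fin.sum_univ_two] at *
  grind

end aux

namespace Hy

variable (h : Hy Y)
include h

/-- `z = el f j · el f₁ j` has `z f' = f' j`. -/
theorem u3_comm_or (a : Ut Y f j) (b : Fr f₁) (o : ad f * f₁ = 0) (p0 : p ≠ 0) (q0 : q ≠ 0) (e : p ^ 2 + q ^ 2 = 1)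
    (c : Ut Y (p • f + q • f₁) J) (n : ¬ Bg Y (p • f + q • f₁)) : j * J = J * j ∨ j * J = -(J * j) := by
  obtain ⟨g, hg, e1⟩ := a.el
  obtain ⟨g', hg', e2⟩ := (h.el_perp a b o p0 q0 e c.inv).1.el
  have c1 := (c.conj h.sp hg').conj h.sp hg
  have e3 : g.1 * (g'.1 * (p • f + q • f₁)) * j.adjugate = p • f + q • f₁ := by
    rw [e1, e2, u3_sm, u3_el2 b o, u3_el1 a.fr o, Matrix.add_mul]
    simp [Matrix.mul_assoc, u3_mul_adj a.pu.2]
  have c2 := c1.change (δ := j.adjugate) (by rw [a.pu.adj, a.pu.neg.2])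
  rw [e3, u3_adj_adj] at c2
  have k : j * J * j.adjugate * j = j * J := by rw [Matrix.mul_assoc, u3_adj_mul a.pu.2, mul_one]
  by_contra! hn
  exact n ⟨_, _, c, c2, fun e => hn.1 (by rw [← k, e]), fun e => hn.2 (by rw [← k, e, neg_mul])⟩

theorem u3_pair0 (a : Ut Y f j) (b : Ut Y f' J) (n' : ¬ Bg Y f') : Al (ad f * f') j J ∨
    ∃ (δ : M2 K) (f₁ : Fm K) (p q : K), δ.det = 1 ∧ Fr f₁ ∧ ad f * f₁ = 0 ∧ p ≠ 0 ∧ q ≠ 0 ∧ p ^ 2 + q ^ 2 = 1 ∧
      p ^ 2 = (ad f * f').det ∧ f' * δ = p • f + q • f₁ ∧ j * (δ.adjugate * J * δ) = -(δ.adjugate * J * δ * j) ∧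
      (j * (ad f * f') * J * (ad f * f').adjugate).trace = 0 := by
  by_cases c0 : (ad f * f').det = 0
  · exact Or.inl (h.al_zero a b c0)
  by_cases c1 : (ad f * f').det = 1
  · exact Or.inl (h.al_one a b n' c1)
  obtain ⟨δ, f₁, p, q, d, h1, o, p0, q0, e, e1, e2, e3⟩ := exists_nf a.fr b.fr c0 c1
  have b' := b.change d
  have e4 : ad f * f' = p • δ.adjugate := by
    rw [← mul_one (ad f * f'), ← u3_mul_adj d, ← mul_assoc, e2]; simp
  have e5 : δ.adjugate * J * δ * δ.adjugate = δ.adjugate * J := by rw [mul_assoc, u3_mul_adj d, mul_one]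
  rcases h.u3_comm_or a h1 o p0 q0 e (e3 ▸ b') (e3 ▸ fun x => n' ((Bg.change d).1 x)) with k | k
  · refine Or.inl ?_
    rw [e4]
    rcases a.pu.of_comm h.two b'.pu k with k | k <;> rw [k] at e5
    · exact Or.inl (by simp [e5])
    · exact Or.inr (by simp [← e5])
  · refine Or.inr ⟨δ, f₁, p, q, d, h1, o, p0, q0, e, e1, e3, k, ?_⟩
    have := (a.pu.anti_iff b'.pu).1 k
    rw [e4, u3_adj_smul, u3_adj_adj]
    simp only [Matrix.mul_smul, Matrix.smul_mul, Matrix.trace_smul, Matrix.mul_assoc] at this ⊢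
    simp [this]

theorem u3_half (a : Ut Y f j) (b : Fr f₁) (o : ad f * f₁ = 0) (p0 : p ≠ 0) (q0 : q ≠ 0) (e : p ^ 2 + q ^ 2 = 1)
    (c : Ut Y (p • f + q • f₁) J) (n : ¬ Bg Y (p • f + q • f₁)) (k : j * J = -(J * j)) : 2 * p ^ 2 = 1 := by
  obtain ⟨g, hg, e1⟩ := a.el
  have e2 : ad (p • f + q • f₁) * (g.1 * (p • f + q • f₁)) = p ^ 2 • j + q ^ 2 • (1 : M2 K) := by
    rw [e1, u3_sm, u3_el1 a.fr o, u3_ad a.fr b o]
    simp [u3_adj_smul, smul_smul, sq]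
  have k' : J * j = -(j * J) := by rw [k, neg_neg]
  have two : ∀ (r : K) (x : M2 K), r ≠ 0 → Pu x → r ^ 2 • x ≠ -(r ^ 2 • x) := fun r x r0 hx e => by
    rw [eq_neg_iff_add_eq_zero, ← two_smul K, smul_smul, smul_eq_zero] at e
    exact e.elim (mul_ne_zero h.two (pow_ne_zero 2 r0)) hx.ne_zero
  rcases h.u3_pair0 c (c.conj h.sp hg) (fun x => n ((Bg.conj h.sp hg).1 x)) with t | ⟨-, -, -, -, -, -, -, -, -, -, -, -, -, t⟩
    <;> rw [e2] at t
  · rcases t with t | t <;> simp only [mul_add, add_mul, Matrix.mul_smul, Matrix.smul_mul, mul_one, one_mul, k'] at t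
    · exact (two p _ p0 (a.pu.mul c.pu k) (by rw [← smul_neg]; exact (add_right_cancel t).symm)).elim
    · exact (two q _ q0 c.pu (by rw [smul_neg, neg_add] at t; exact add_left_cancel t)).elim
  · have e3 : J * (p ^ 2 • j + q ^ 2 • (1 : M2 K)) * J * (p ^ 2 • j + q ^ 2 • (1 : M2 K)).adjugate =
        (p ^ 4 - q ^ 4) • (1 : M2 K) + (2 * p ^ 2 * q ^ 2) • j := by
      have e4 : J * j * J = j := by rw [k', neg_mul, mul_assoc, c.pu.sq]; simp
      rw [u3_adj_add, u3_adj_smul, u3_adj_smul, a.pu.adj, Matrix.adjugate_one]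
      simp only [mul_add, add_mul, Matrix.mul_smul, Matrix.smul_mul, mul_one, e4, c.pu.sq, mul_neg, neg_mul, a.pu.sq,
        one_mul]
      module
    rw [e3, Matrix.trace_add, Matrix.trace_smul, Matrix.trace_smul, a.pu.1, Matrix.trace_one] at t
    have t' : 2 * (p ^ 4 - q ^ 4) = 0 := by simpa [mul_comm] using t
    have := (mul_eq_zero.1 t').resolve_left h.two
    grind

/-- `c ∉ {0, 1}` (`al_zero`, `al_one`); `f' = p f + q f₁`; `z = el f j · el f₁ j` (`el_perp`) has `z f' = f' j`, so `j J j⁻¹ = ± J`: aligned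
or `j J = - J j`.  Apply this to `f'` and `u f'` (`φ = p² j + q²`, types `J, J`): not aligned, so `tr (J φ J φ*) = 0`, `p⁴ = q⁴`. -/
theorem pair (a : Ut Y f j) (b : Ut Y f' J) (n : ¬ Bg Y f) (n' : ¬ Bg Y f') :
    Al (ad f * f') j J ∨ An (ad f * f') j J := by
  refine (h.u3_pair0 a b n').imp_right fun ⟨δ, f₁, p, q, d, h1, o, p0, q0, e, e1, e3, k, t⟩ => ⟨?_, t⟩
  rw [← e1]
  exact h.u3_half a h1 o p0 q0 e (e3 ▸ b.change d) (e3 ▸ fun x => n' ((Bg.change d).1 x)) k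

/-- The configuration `2^{1+4} : D₁₀`: `t' f = - f₁`; `u' u f' = p (f ω₁ + f₁ ω₂)`, `ω₁ = (-1 + j + J - k) / 2`, `ω₂ = k ω₁`,
`ω₁ J ω₁⁻¹ = - k`; `y = el f' J · el (t f') J`. -/
theorem p1 (a : Ut Y f j) (b : Fr f₁) (o : ad f * f₁ = 0) (e : 2 * p ^ 2 = 1) (c : Ut Y (p • (f + f₁)) J)
    (k : j * J = -(J * j)) : Ut Y f₁ j ∧ (Bg Y f₁ ↔ Bg Y f) ∧ Ut Y (p • (f + f₁ * (j * J))) (j * J) ∧
      (Bg Y (p • (f + f₁ * (j * J))) ↔ Bg Y (p • (f + f₁))) ∧ ∃ y ∈ Y, y.1 * f = f * J ∧ y.1 * f₁ = f₁ * J ∧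
        ∀ ψ : Fm K, ad f * ψ = 0 → ad f₁ * ψ = 0 → y.1 * ψ = ψ := by
  have p0 : p ≠ 0 := fun x => by simp [x] at e
  have e0 : p • (f + f₁) = f * (p • (1 : M2 K)) + f₁ * (p • (1 : M2 K)) := by simp
  obtain ⟨h1, h2⟩ := h.el_perp a b o p0 p0 (by rw [← e]; ring) (smul_add p f f₁ ▸ c.inv)
  obtain ⟨g, hg, e1⟩ := a.el
  obtain ⟨g', hg', e2⟩ := c.el
  obtain ⟨t, ht, e3⟩ := a.inv
  have k' : J * j = -(j * J) := by rw [k, neg_neg]
  have jj := a.pu.sq
  have JJ := c.pu.sq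
  have pk := a.pu.mul c.pu k
  have r1 : ∀ x : M2 K, j * (j * x) = -x := fun x => by rw [← mul_assoc, jj]; simp
  have r2 : ∀ x : M2 K, J * (J * x) = -x := fun x => by rw [← mul_assoc, JJ]; simp
  have r3 : ∀ x : M2 K, J * (j * x) = -(j * (J * x)) := fun x => by rw [← mul_assoc, k']; simp [mul_assoc]
  let ω : M2 K := p ^ 2 • (-1 + j + J + -(j * J))
  have ωa : ω.adjugate = p ^ 2 • (-1 + -j + -J + j * J) := by
    rw [u3_adj_smul, u3_adj_add, u3_adj_add, u3_adj_add, u3_adj_neg, u3_adj_neg, a.pu.adj, c.pu.adj, pk.adj,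
      Matrix.adjugate_one, neg_neg]
  have d : ω.det = 1 := u3_det (by
    rw [ωa]
    simp only [ω, mul_add, add_mul, Matrix.mul_smul, Matrix.smul_mul, mul_one, one_mul, mul_neg, neg_mul, mul_assoc,
      r1, r2, r3, jj, JJ, k', neg_neg]
    match_scalars <;> grind)
  have e4 : g'.1 * (g.1 * (p • (f + f₁))) = p • (f + f₁ * (j * J)) * ω := by
    have : p • (f + f₁ * (j * J)) * ω = f * (p • ω) + f₁ * (p • (j * J * ω)) := by
      simp [Matrix.add_mul, Matrix.mul_assoc]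
    rw [this, e1, e2, e0, u3_el1 a.fr o, u3_el a.fr b o, u3_adj_smul, Matrix.adjugate_one]
    congr 2 <;> simp only [ω, mul_add, add_mul, sub_mul, mul_sub, Matrix.mul_smul, Matrix.smul_mul, mul_one, one_mul,
      mul_neg, neg_mul, mul_assoc, r1, r2, r3, jj, JJ, k', neg_neg] <;> match_scalars <;> grind
  have c1 := ((c.conj h.sp hg).conj h.sp hg').change (δ := ω.adjugate) (by rw [Matrix.det_adjugate, d, one_pow])
  have e5 : ω * J * ω.adjugate = -(j * J) := by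
    rw [ωa]
    simp only [ω, mul_add, add_mul, Matrix.mul_smul, Matrix.smul_mul, mul_one, one_mul, mul_neg, neg_mul, mul_assoc,
      r1, r2, r3, jj, JJ, k', neg_neg]
    match_scalars <;> grind
  rw [e4, Matrix.mul_assoc, u3_mul_adj d, Matrix.mul_one, u3_adj_adj, e5] at c1
  refine ⟨h1, h2, by simpa using c1.neg, ?_, ?_⟩
  · rw [← Bg.change d, ← e4, Bg.conj h.sp hg', Bg.conj h.sp hg]
  obtain ⟨w, hw, e6⟩ := (c.conj h.sp ht).el
  rw [e3, e0, u3_el1 a.fr o] at e6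
  have s1 : f = f * (1 : M2 K) + f₁ * (0 : M2 K) := by simp
  have s2 : f₁ = f * (0 : M2 K) + f₁ * (1 : M2 K) := by simp
  refine ⟨g' * w, mul_mem hg' hw, ?_, ?_, fun ψ o1 o2 => ?_⟩ <;> rw [Units.val_mul, Matrix.mul_assoc, e2, e6, e0]
  · conv_lhs => arg 2; arg 2; rw [s1]
    rw [u3_el a.fr b o, u3_el a.fr b o, show f * J = f * J + f₁ * (0 : M2 K) by simp]
    congr 2 <;> simp only [u3_adj_smul, u3_adj_neg, Matrix.adjugate_one, mul_add, add_mul, sub_mul, mul_sub,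
      Matrix.mul_smul, Matrix.smul_mul, mul_one, one_mul, mul_neg, neg_mul, mul_zero, JJ] <;> match_scalars <;> grind
  · conv_lhs => arg 2; arg 2; rw [s2]
    rw [u3_el a.fr b o, u3_el a.fr b o, show f₁ * J = f * (0 : M2 K) + f₁ * J by simp]
    congr 2 <;> simp only [u3_adj_smul, u3_adj_neg, Matrix.adjugate_one, mul_add, add_mul, sub_mul, mul_sub,
      Matrix.mul_smul, Matrix.smul_mul, mul_one, one_mul, mul_neg, neg_mul, mul_zero, JJ] <;> match_scalars <;> grind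
  · have z : ∀ α β η : M2 K, el (f * α + f₁ * β) η * ψ = ψ := fun α β η => by
      simp [el_apply, ad_add, ad_mul, Matrix.add_mul, Matrix.mul_assoc, o1, o2]
    rw [z, z]

/-- The planes `p (f + f₁ j ^ a)` (type `J`, conjugate under `el f₁ j`) and `p (f + f₁ k j ^ a)` (type `k = j J`) against
`p (f + f₂)`: `pair`, `fam` for `ρ` and `k* ρ`.  (`ρ = 0`: `φ = 1 / 2` is not `An`, so `J = ± J' = ± k`.)  In the basis
`1, j, J, k` all four coordinates of `ρ` have square `(1 - N)² / 4`. -/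
theorem third (a : Ut Y f j) (b₁ : Fr f₁) (b₂ : Fr f₂) (o₁ : ad f * f₁ = 0) (o₂ : ad f * f₂ = 0) (e : 2 * p ^ 2 = 1)
    (c₁ : Ut Y (p • (f + f₁)) J) (c₂ : Ut Y (p • (f + f₂)) J') (n₁ : ¬ Bg Y (p • (f + f₁))) (n₂ : ¬ Bg Y (p • (f + f₂)))
    (k : j * J = -(J * j)) (hρ : ρ = ad f₁ * f₂) (n : ρ.det ≠ 1) : ρ.trace ^ 2 = (1 - ρ.det) ^ 2 ∧
      (j * ρ).trace ^ 2 = (1 - ρ.det) ^ 2 ∧ (1 - ρ.det) ^ 2 = ρ.det := by
  obtain ⟨h1, -, ck, bk, -⟩ := h.p1 a b₁ o₁ e c₁ k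
  obtain ⟨g, hg, e1⟩ := h1.el
  have pk := a.pu.mul c₁.pu k
  have hp : p * p = (2 : K)⁻¹ := eq_inv_of_mul_eq_one_right (by rw [← e]; ring)
  have st : ∀ β : M2 K, g.1 * (p • (f + f₁ * β)) = p • (f + f₁ * (j * β)) := fun β => by
    have := u3_el2 b₁ o₁ 1 β j
    rw [Matrix.mul_one] at this
    rw [Matrix.mul_smul, e1, this]
  have nx : ∀ {β T : M2 K}, Ut Y (p • (f + f₁ * β)) T ∧ ¬ Bg Y (p • (f + f₁ * β)) →
      Ut Y (p • (f + f₁ * (j * β))) T ∧ ¬ Bg Y (p • (f + f₁ * (j * β))) := fun {β T} x =>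
    st β ▸ ⟨x.1.conj h.sp hg, fun y => x.2 ((Bg.conj h.sp hg).1 y)⟩
  have pr : ∀ {β T : M2 K}, Ut Y (p • (f + f₁ * β)) T ∧ ¬ Bg Y (p • (f + f₁ * β)) →
      Al ((2 : K)⁻¹ • (1 + β.adjugate * ρ)) T J' ∨ An ((2 : K)⁻¹ • (1 + β.adjugate * ρ)) T J' := fun {β T} x => by
    have := h.pair x.1 c₂ x.2 n₂
    have a' : ad f * f = 1 := a.fr
    rwa [show ad (p • (f + f₁ * β)) * (p • (f + f₂)) = (2 : K)⁻¹ • (1 + β.adjugate * ρ) by
      simp only [ad_smul, ad_add, ad_mul, Matrix.smul_mul, Matrix.mul_smul, Matrix.add_mul, Matrix.mul_add,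
        Matrix.mul_assoc, a', o₂, u3_swap o₁, ← hρ]
      simp [smul_smul, hp]] at this
  have all : ∀ {β T : M2 K}, Ut Y (p • (f + f₁ * β)) T ∧ ¬ Bg Y (p • (f + f₁ * β)) → j * β.adjugate = β.adjugate * j ∨
      j * β.adjugate = -(β.adjugate * j) → ∀ B ∈ ({β.adjugate * ρ, -(β.adjugate * ρ), j * (β.adjugate * ρ),
        -(j * (β.adjugate * ρ))} : Set (M2 K)), Al ((2 : K)⁻¹ • (1 + B)) T J' ∨ An ((2 : K)⁻¹ • (1 + B)) T J' := by
    intro β T x y B hB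
    have x0 := pr x
    have x1 := pr (nx x)
    have x2 := pr (nx (nx x))
    have x3 := pr (nx (nx (nx x)))
    have r1 : ∀ x : M2 K, j * (j * x) = -x := fun x => by rw [← mul_assoc, a.pu.sq]; simp
    simp only [r1, Matrix.adjugate_mul_distrib, u3_adj_neg, a.pu.adj, mul_neg, neg_mul, neg_neg] at x1 x2 x3
    rw [← mul_assoc] at hB
    rcases y with y | y <;> rw [y] at hB <;> (try simp only [neg_mul, neg_neg] at hB) <;>
      rcases hB with rfl | rfl | rfl | rfl <;> assumption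
  have k2 : j * (j * J) = -(j * J * j) := by rw [mul_assoc, ← mul_neg, ← k]
  have H1 := all (β := 1) (T := J) (by rw [Matrix.mul_one]; exact ⟨c₁, n₁⟩) (by simp)
  have H2 := all ⟨ck, fun x => n₁ (bk.1 x)⟩ (Or.inr (by rw [pk.adj, mul_neg, neg_mul, k2]))
  rw [Matrix.adjugate_one, one_mul] at H1
  rw [pk.adj] at H2
  have n0 : ρ ≠ 0 := fun r => by
    have na : ∀ T, ¬ An ((2 : K)⁻¹ • (1 : M2 K)) T J' := fun T x => by
      have := x.1
      simp only [Matrix.det_smul, Matrix.det_one, Fintype.card_fin] at this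
      have h2 := h.two
      field_simp at this
      grind
    have al : ∀ T, Al ((2 : K)⁻¹ • (1 : M2 K)) T J' → T = J' ∨ T = -J' := fun T x => by
      have i := smul_right_injective (M2 K) (inv_ne_zero h.two)
      refine x.imp (fun x => i ?_) fun x => i ?_ <;> simpa using x
    have t1 := al _ ((by simpa [r] using H1 ρ (by simp) :
      Al ((2 : K)⁻¹ • (1 : M2 K)) J J' ∨ _).resolve_right (na _))
    have t2 := al _ ((by simpa [r] using H2 (-(j * J) * ρ) (by simp) :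
      Al ((2 : K)⁻¹ • (1 : M2 K)) (j * J) J' ∨ _).resolve_right (na _))
    have t3 : j * J * J = J * (j * J) := by
      rcases t1 with t1 | t1 <;> rcases t2 with t2 | t2 <;> rw [t2, t1] <;> simp
    rw [← mul_assoc, show J * j = -(j * J) by rw [k, neg_neg], neg_mul, mul_assoc, c₁.pu.sq, mul_neg, mul_one,
      eq_neg_iff_add_eq_zero, ← two_smul K, smul_eq_zero] at t3
    exact t3.elim h.two a.pu.neg.ne_zero
  have dk : (-(j * J) * ρ).det = ρ.det := by rw [Matrix.det_mul, pk.neg.2, one_mul]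
  obtain ⟨f1, f2⟩ := fam h.two a.pu c₁.pu c₂.pu k n n0 H1
  obtain ⟨f3, f4⟩ := fam h.two a.pu pk c₂.pu k2 (dk ▸ n) (fun r => n0 (by
    rw [← one_mul ρ, ← u3_adj_mul pk.neg.2, mul_assoc, r, mul_zero])) H2
  have g1 := u3_gram a.pu c₁.pu k ρ
  rw [dk, neg_mul, Matrix.trace_neg, neg_sq] at f3
  rw [dk, ← mul_assoc, mul_neg, ← mul_assoc, a.pu.sq, neg_one_mul, neg_neg] at f4
  refine ⟨f1, f2, mul_left_cancel₀ (mul_ne_zero h.two h.two) ?_⟩
  rw [f1, f2, f3, f4] at g1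
  linear_combination -g1

/-- A big plane and a small one: compare `f'` with `el f₁ j · f'` (`φ = p² + q² j`, types `J, J`) for a type `j ≠ ± J` of `f`. -/
theorem bg_small (a : Ut Y f j) (b : Fr f₁) (o : ad f * f₁ = 0) (p0 : p ≠ 0) (q0 : q ≠ 0) (e : p ^ 2 + q ^ 2 = 1)
    (c : Ut Y (p • f + q • f₁) J) (n : ¬ Bg Y (p • f + q • f₁)) (k : J ≠ j) (k' : J ≠ -j) :
    2 * p ^ 2 = 1 ∧ j * J = -(J * j) := by
  have := (h.u3_comm_or a b o p0 q0 e c n).resolve_left fun x => (a.pu.of_comm h.two c.pu x).elim k k'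
  exact ⟨h.u3_half a b o p0 q0 e c n this, this⟩

end Hy

end Cfsg.Lib.S6Q
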