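import Cfsg.Agent.Lib.S6Q.Un0

/-!
# Units: a lemma on quaternions
-/

set_option autoImplicit false

namespace Cfsg.Lib.S6Q

open scoped MatrixGroups Matrix commutatorElement
open Cfsg.Geo Cfsg.Lib.Asch Cfsg.Lib.Linear Cfsg.Lib.Q4 Cfsg.Lib.Symp Module
open Cfsg.Lib.Q4R (Sq HasTv sc dg)

variable {K : Type*} [Field K] [IsAlgClosed K] {Y : Subgroup (G6 K)} {f f' f'' f₁ f₂ ψ : Fm K} {j J J' j₁ j₂ γ γ' δ ρ : M2 K} {g : G6 K}
  {p q : K}

omit [IsAlgClosed K] in
theorem fam_an (h2 : (2 : K) ≠ 0) (h : An ((2 : K)⁻¹ • (1 + ρ)) J J') : ρ.trace = 1 - ρ.det := by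
  have e := h.1
  rw [Matrix.det_smul, Fintype.card_fin, Matrix.det_fin_two] at e
  rw [Matrix.trace_fin_two, Matrix.det_fin_two]
  simp only [Matrix.add_apply, Matrix.one_apply_eq, ne_eq, zero_ne_one, one_ne_zero, not_false_eq_true,
    Matrix.one_apply_ne] at e
  field_simp at e
  linear_combination e

omit [IsAlgClosed K] in
theorem fam_al (h2 : (2 : K) ≠ 0) (b : Pu J) (b' : Pu J') (n : ρ.det ≠ 1) (h : Al ((2 : K)⁻¹ • (1 + ρ)) J J')
    (h' : Al ((2 : K)⁻¹ • (1 + -ρ)) J J') : J * ρ = ρ * J := by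
  have k : ∀ ε : K, ε * ε = 1 → J ≠ ε • (ρ * J') := fun ε e e' => n (by
    have := congrArg Matrix.det e'
    rw [Matrix.det_smul, Matrix.det_mul, b.2, b'.2, Fintype.card_fin] at this
    linear_combination -this - ρ.det * e)
  have i : (2 : K)⁻¹ + 2⁻¹ = 1 := by field_simp; norm_num
  simp only [Al, Matrix.mul_smul, Matrix.smul_mul, mul_add, add_mul, mul_one, one_mul, mul_neg, neg_mul] at h h'
  rcases h with h | h <;> rcases h' with h' | h'
  · have e : J = J' := by linear_combination (norm := skip) h + h' - i • J + i • J'; module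
    subst e
    linear_combination (norm := skip) h - h' - i • (J * ρ) + i • (ρ * J); module
  · exact (k 1 (one_mul _) (by linear_combination (norm := skip) h + h' - i • J + i • (ρ * J'); module)).elim
  · exact (k (-1) (by ring) (by linear_combination (norm := skip) h + h' - i • J - i • (ρ * J'); module)).elim
  · have e : J' = -J := by linear_combination (norm := skip) h + h' - i • J - i • J'; module
    subst e
    rw [mul_neg] at h h'
    linear_combination (norm := skip) h - h' - i • (J * ρ) + i • (ρ * J); module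

omit [IsAlgClosed K] in
theorem fam_one (h2 : (2 : K) ≠ 0) (a : Pu j) (b : Pu J) (b' : Pu J') (c : j * J = -(J * j)) (n : ρ.det ≠ 1)
    (n0 : ρ ≠ 0) (H : ∀ B ∈ ({ρ, -ρ, j * ρ, -(j * ρ)} : Set (M2 K)),
      Al ((2 : K)⁻¹ • (1 + B)) J J' ∨ An ((2 : K)⁻¹ • (1 + B)) J J') : ρ.trace ^ 2 = (1 - ρ.det) ^ 2 := by
  have dn : ∀ B : M2 K, (-B).det = B.det := fun B => by rw [Matrix.det_neg, Fintype.card_fin]; ring
  have dj : (j * ρ).det = ρ.det := by rw [Matrix.det_mul, a.2, one_mul]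
  rcases H ρ (by simp) with h | h
  swap
  · rw [fam_an h2 h]
  rcases H (-ρ) (by simp) with h' | h'
  swap
  · have := fam_an h2 h'
    rw [Matrix.trace_neg, dn] at this
    rw [← this]; ring
  have e := fam_al h2 b b' n h h'
  have e1 : J * (j * ρ) = -(j * ρ * J) := by rw [← mul_assoc, mul_assoc j, ← e, ← mul_assoc, c, neg_mul, neg_neg]
  have t : (j * ρ).trace = 0 := by
    have k1 : (J * (j * ρ) * J).trace = -(j * ρ).trace := by
      rw [Matrix.trace_mul_comm, ← mul_assoc, b.sq, neg_mul, one_mul, Matrix.trace_neg]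
    rw [e1, neg_mul, mul_assoc, b.sq, mul_neg, mul_one, neg_neg] at k1
    exact (mul_eq_zero.1 (by linear_combination k1)).resolve_left h2
  have n' : (j * ρ).det ≠ 1 := dj ▸ n
  rcases H (j * ρ) (by simp) with k | k
  swap
  · exact (n' (by linear_combination fam_an h2 k - t)).elim
  rcases H (-(j * ρ)) (by simp) with k' | k'
  swap
  · have := fam_an h2 k'
    rw [Matrix.trace_neg, dn] at this
    exact (n' (by linear_combination this + t)).elim
  have e2 := fam_al h2 b b' n' k k'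
  have e3 : (2 : K) • (J * (j * ρ)) = 0 := by rw [two_smul]; nth_rw 1 [e1]; rw [e2, neg_add_cancel]
  have e4 := congrArg (fun X => j * (J * X)) ((smul_eq_zero.1 e3).resolve_left h2)
  simp only [← mul_assoc J, b.sq, neg_mul, one_mul, mul_neg, ← mul_assoc j, a.sq, neg_neg, mul_zero] at e4
  exact (n0 e4).elim

/-- If `J (1 ± B) = ε_± (1 ± B) J'` then `B J = J B` (equal signs) or `det B = 1`.  So if neither `B = ρ` nor `-ρ` is `An`, then
`ρ ∈ K[J]`, `tr (j ρ) = 0`, the same holds for `j ρ`, and `ρ = 0`. -/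
theorem fam (h2 : (2 : K) ≠ 0) (a : Pu j) (b : Pu J) (b' : Pu J') (c : j * J = -(J * j)) (n : ρ.det ≠ 1) (n0 : ρ ≠ 0)
    (H : ∀ B ∈ ({ρ, -ρ, j * ρ, -(j * ρ)} : Set (M2 K)),
      Al ((2 : K)⁻¹ • (1 + B)) J J' ∨ An ((2 : K)⁻¹ • (1 + B)) J J') :
    ρ.trace ^ 2 = (1 - ρ.det) ^ 2 ∧ (j * ρ).trace ^ 2 = (1 - ρ.det) ^ 2 := by
  have dj : (j * ρ).det = ρ.det := by rw [Matrix.det_mul, a.2, one_mul]
  have jj : j * (j * ρ) = -ρ := by rw [← mul_assoc, a.sq, neg_mul, one_mul]
  refine ⟨fam_one h2 a b b' c n n0 H, dj ▸ fam_one h2 a b b' c (dj ▸ n) (fun e => n0 ?_) fun B hB => H B ?_⟩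
  · rw [← neg_eq_zero, ← jj, e, mul_zero]
  · rw [jj, neg_neg] at hB
    simp only [Set.mem_insert_iff, Set.mem_singleton_iff] at hB ⊢
    tauto

end Cfsg.Lib.S6Q
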