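import Cfsg.Agent.Lib.S6Q.Un3

/-!
# Units: a big plane and any other
-/

set_option autoImplicit false

namespace Cfsg.Lib.S6Q

open scoped MatrixGroups Matrix commutatorElement
open Cfsg.Geo Cfsg.Lib.Asch Cfsg.Lib.Linear Cfsg.Lib.Q4 Cfsg.Lib.Symp Module
open Cfsg.Lib.Q4R (Sq HasTv sc dg)

variable {K : Type*} [Field K] [IsAlgClosed K] {Y : Subgroup (G6 K)} {f f' : Fm K} {J : M2 K}

/-- `bg_zero`, `bg_one`, and in the normal form `bg_bg` or `bg_small`. -/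
theorem Hy.bg_pair (h : Hy Y) (a : Bg Y f) (b : Ut Y f' J) :
    ad f * f' = 0 ∨ rg f' = rg f ∨ 2 * (ad f * f').det = 1 := by
  by_cases c0 : (ad f * f').det = 0
  · exact .inl (h.bg_zero a b c0)
  by_cases c1 : (ad f * f').det = 1
  · exact .inr (.inl (h.bg_one a b c1))
  obtain ⟨j₁, j₂, a₁, a₂, k, k'⟩ := id a
  obtain ⟨δ, f₁, p, q, d, b₁, o, p0, q0, e, e', -, e''⟩ := exists_nf a₁.fr b.fr c0 c1
  have c := e'' ▸ b.change d
  refine .inr (.inr (e' ▸ ?_))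
  by_cases B : Bg Y (p • f + q • f₁)
  · exact h.bg_bg a b₁ o p0 q0 e B
  by_cases n : δ.adjugate * J * δ = j₁ ∨ δ.adjugate * J * δ = -j₁
  · refine (h.bg_small a₂ b₁ o p0 q0 e c B ?_ ?_).1 <;> rcases n with n | n <;> rw [n]
    exacts [k.symm, k'.symm, fun x => k' (by rw [x, neg_neg]), fun x => k (neg_injective x).symm]
  · exact (h.bg_small a₁ b₁ o p0 q0 e c B (fun x => n (.inl x)) fun x => n (.inr x)).1

end Cfsg.Lib.S6Q
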