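import Cfsg.Agent.Lib.S6Q.Un0

/-!
# Units: all pairs aligned
-/

set_option autoImplicit false

namespace Cfsg.Lib.S6Q

open scoped MatrixGroups Matrix commutatorElement
open Cfsg.Geo Cfsg.Lib.Asch Cfsg.Lib.Linear Cfsg.Lib.Q4 Cfsg.Lib.Symp Module
open Cfsg.Lib.Q4R (Sq HasTv sc dg)

variable {K : Type*} [Field K] [IsAlgClosed K] {Y : Subgroup (G6 K)} {f f' f'' f₁ f₂ ψ : Fm K} {j J J' j₁ j₂ γ γ' δ ρ : M2 K} {g : G6 K}
  {p q : K}

omit [IsAlgClosed K] in
theorem un4_symm (a : Pu j) (b : Pu J) (e : j * (ad f * f') = ad f * f' * J) : J * (ad f' * f) = ad f' * f * j := by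
  have := congrArg Matrix.adjugate e
  rw [Matrix.adjugate_mul_distrib, Matrix.adjugate_mul_distrib, a.adj, b.adj, ← ad_swap, mul_neg, neg_mul, neg_inj] at this
  exact this.symm

omit [IsAlgClosed K] in
theorem un4_conj (hg : g ∈ Sp K) : ad (g.1 * f) * (g.1 * f') = ad f * f' := by
  rw [ad_sp hg, Matrix.mul_assoc, ← Matrix.mul_assoc (g⁻¹).1, Units.inv_mul, Matrix.one_mul]

omit [IsAlgClosed K] in
theorem un4_el : ad f' * (el f γ * f'') = ad f' * f'' + ad f' * f * ((γ - 1) * (ad f * f'')) := by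
  rw [el_apply, Matrix.mul_add, Matrix.mul_assoc]

omit [IsAlgClosed K] in
theorem un4_cp {α β : M2 K} (e : J * α = α * j) (e' : j * β = β * J') (c : j * γ = γ * j) :
    J * (α * ((γ - 1) * β)) = α * ((γ - 1) * β) * J' := by
  rw [← mul_assoc, e, mul_assoc, mul_assoc, mul_assoc, ← e', ← mul_assoc j, ← mul_assoc (γ - 1), mul_sub, sub_mul γ, c,
    mul_one, one_mul]

omit [IsAlgClosed K] in
theorem Ut.un4_det (h2 : (2 : K) ≠ 0) (a : Ut Y f j) (c : j * ρ = ρ * j) :
    ∃ γ, El Y f γ ∧ j * γ = γ * j ∧ (ρ + γ).det ≠ 0 := by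
  by_contra! k
  have k1 := k j a.el rfl
  have k2 := k (-j) a.neg.el (by simp)
  have k3 := k (-1) a.inv (by simp)
  have t := a.pu.1
  have d := a.pu.2
  have c0 := congrFun (congrFun c 0) 0
  have c1 := congrFun (congrFun c 0) 1
  simp [Matrix.trace_fin_two, Matrix.det_fin_two, Matrix.mul_apply, Fin.sum_univ_two] at k1 k2 k3 t d c0 c1
  generalize ρ 0 0 = x, ρ 0 1 = y, ρ 1 0 = z, ρ 1 1 = w, j 0 0 = p, j 0 1 = q, j 1 0 = r, j 1 1 = s at *
  obtain rfl : s = -p := by linear_combination t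
  have a1 : x * w - y * z = -1 := mul_left_cancel₀ h2 (by linear_combination k1 + k2 - 2 * d)
  obtain rfl : w = -x := by linear_combination a1 - k3
  have a2 : p * y = x * q := mul_left_cancel₀ h2 (by linear_combination c1)
  have a3 : x * p + y * r = 0 := mul_left_cancel₀ (mul_ne_zero h2 h2) (by linear_combination k2 - k1 - 2 * c0)
  have a4 : x = 0 := by linear_combination -x * d - p * a3 + r * a2
  have a5 : y = 0 := by linear_combination -y * d - p * a2 - q * a3
  simp [a4, a5] at a1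

/-- Triangle: the pairing of `f'` with `u f''` is `ψ + φ' (j - 1) φ''`. -/
theorem Hy.tri (h : Hy Y) (H : ∀ f j f' J, Ut Y f j → Ut Y f' J → Al (ad f * f') j J) (a : Ut Y f j) (b : Ut Y f' J)
    (c : Ut Y f'' J') (e : j * (ad f * f') = ad f * f' * J) (d : (ad f * f').det ≠ 0) (e' : j * (ad f * f'') = ad f * f'' * J')
    (n : ad f * f'' ≠ 0) : J * (ad f' * f'') = ad f' * f'' * J' := by
  refine (H _ _ _ _ b c).elim id fun k => ?_
  obtain ⟨g, hg, eg⟩ := a.el
  have k1 := H _ _ _ _ b (c.conj h.sp hg)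
  have k2 := un4_cp (un4_symm a.pu b.pu e) e' rfl
  rw [eg, un4_el, Al, mul_add, add_mul, k2, add_left_inj, neg_add] at k1
  refine k1.elim id fun k1 => absurd ?_ n
  rw [k, add_right_inj] at k1
  have d1 : (j - 1).det ≠ 0 := by
    have t := a.pu.1
    have d := a.pu.2
    simp [Matrix.trace_fin_two, Matrix.det_fin_two] at t d ⊢
    exact fun z => h.two (by linear_combination z - d + t)
  have d2 : (ad f' * f).det ≠ 0 := by rw [ad_swap, Matrix.det_adjugate]; simpa using d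
  have : (2 : K) • (ad f' * f * ((j - 1) * (ad f * f'')) * J' * J') = 0 := by
    rw [two_smul, ← add_mul, eq_neg_iff_add_eq_zero.1 k1, zero_mul]
  rwa [mul_assoc, c.pu.sq, smul_eq_zero_iff_right h.two, mul_neg, mul_one, neg_eq_zero,
    ((Matrix.isUnit_iff_isUnit_det _).2 d2.isUnit).mul_right_eq_zero,
    ((Matrix.isUnit_iff_isUnit_det _).2 d1.isUnit).mul_right_eq_zero] at this

/-- Joined units. -/
structure Jn (Y : Subgroup (G6 K)) (u v : Fm K × M2 K) : Prop where
  l : Ut Y u.1 u.2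
  r : Ut Y v.1 v.2
  cp : u.2 * (ad u.1 * v.1) = ad u.1 * v.1 * v.2
  det : (ad u.1 * v.1).det ≠ 0

section jn

omit [IsAlgClosed K]

variable {u v w : Fm K × M2 K}

theorem Jn.symm (a : Jn Y u v) : Jn Y v u :=
  ⟨a.r, a.l, un4_symm a.l.pu a.r.pu a.cp, by rw [ad_swap, Matrix.det_adjugate]; simpa using a.det⟩

theorem Jn.of_one (a : Ut Y f j) (b : Ut Y f' j) (e : ad f * f' = 1) : Jn Y (f, j) (f', j) :=
  ⟨a, b, by simp [e], by simp [e]⟩

theorem Jn.conj (hY : Y ≤ Sp K) (hg : g ∈ Y) (a : Jn Y u v) : Jn Y (g.1 * u.1, u.2) (g.1 * v.1, v.2) :=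
  ⟨a.l.conj hY hg, a.r.conj hY hg, by simpa only [un4_conj (hY hg)] using a.cp,
    by simpa only [un4_conj (hY hg)] using a.det⟩

theorem Jn.ne (a : Jn Y u v) : ad u.1 * v.1 ≠ 0 := fun e => a.det (by simp [e])

end jn

theorem Hy.un4_path (h : Hy Y) (H : ∀ f j f' J, Ut Y f j → Ut Y f' J → Al (ad f * f') j J) (a : Ut Y f j)
    {v : Fm K × M2 K} (hv : Relation.ReflTransGen (Jn Y) (f, j) v) :
    ∃ w, Jn Y w v ∧ w.2 * (ad w.1 * f) = ad w.1 * f * j ∧ ad w.1 * f ≠ 0 := by
  induction hv with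
  | refl => exact ⟨_, .of_one a a a.fr, (Jn.of_one a a a.fr).cp, (Jn.of_one a a a.fr).ne⟩
  | @tail v v' _ hv ih =>
    obtain ⟨w, b, c, n⟩ := ih
    by_cases e : ad v.1 * f = 0
    swap
    · exact ⟨v, hv, h.tri H b.l b.r a b.cp b.det c n, e⟩
    have c1 := h.tri H hv.l hv.r b.l hv.cp hv.det b.symm.cp b.symm.ne
    have u1 := hv.symm.det.isUnit
    have u2 := b.symm.det.isUnit
    obtain ⟨m, hm⟩ : ∃ m : M2 K, ad v'.1 * w.1 = ad v'.1 * v.1 * (m * (ad v.1 * w.1)) :=
      ⟨(ad v'.1 * v.1)⁻¹ * (ad v'.1 * w.1) * (ad v.1 * w.1)⁻¹, by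
        rw [Matrix.nonsing_inv_mul_cancel_right _ _ u2, Matrix.mul_nonsing_inv_cancel_left _ _ u1]⟩
    have c2 : v.2 * m = m * v.2 := by
      rw [hm, ← mul_assoc, hv.symm.cp, mul_assoc, mul_assoc, mul_assoc, ← b.symm.cp, ← mul_assoc v.2, ← mul_assoc m] at c1
      exact ((Matrix.isUnit_iff_isUnit_det _).2 u2).mul_right_cancel
        (((Matrix.isUnit_iff_isUnit_det _).2 u1).mul_left_cancel c1)
    obtain ⟨γ, ⟨g, hg, eg⟩, c3, d⟩ := hv.l.un4_det (ρ := m - 1) h.two (by simp [mul_sub, sub_mul, c2])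
    have e1 : ad (g.1 * w.1) * f = ad w.1 * f := by
      rw [← un4_conj (f := w.1) (h.sp hg), eg, el_apply (f' := f), e, mul_zero, Matrix.mul_zero, add_zero]
    refine ⟨(g.1 * w.1, w.2), Jn.symm ⟨hv.r, b.l.conj h.sp hg, ?_, ?_⟩, by simpa only [e1] using c, by
      simpa only [e1] using n⟩
    · simp only [eg, un4_el, mul_add, add_mul, c1, un4_cp hv.symm.cp b.symm.cp c3]
    · simp only [eg, un4_el]
      rw [hm, ← mul_add, ← add_mul, Matrix.det_mul, Matrix.det_mul, add_sub_left_comm, add_comm]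
      exact mul_ne_zero u1.ne_zero (mul_ne_zero d u2.ne_zero)

omit [IsAlgClosed K] in
theorem Hy.un4_move (h : Hy Y) (H : ∀ f j f' J, Ut Y f j → Ut Y f' J → Al (ad f * f') j J) (a : Ut Y f j) (b : Ut Y f' J) :
    Relation.ReflTransGen (Jn Y) (f, j) (el f' J * f, j) := by
  obtain ⟨g, hg, eg⟩ := b.el
  obtain ⟨J', b', c, e⟩ : ∃ J', Ut Y f' J' ∧ J' * J = J * J' ∧ J' * (ad f' * f) = ad f' * f * j ∧
      (J = J' ∨ J = -J') := (H _ _ _ _ b a).elim (fun e => ⟨J, b, rfl, e, .inl rfl⟩)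
    fun e => ⟨-J, b.neg, by simp, by rw [neg_mul, e, neg_neg], .inr (neg_neg _).symm⟩
  rw [← eg]
  by_cases d : (ad f' * f).det = 0
  · refine .single (.of_one a (a.conj h.sp hg) ?_)
    have z : ad f * f' * (ad f' * f) = 0 := by rw [ad_swap, Matrix.adjugate_mul, d, zero_smul]
    rw [eg, un4_el, show ad f * f = 1 from a.fr, add_eq_left, sub_mul, mul_sub, one_mul, z, sub_zero]
    rcases e.2 with rfl | rfl
    · rw [e.1, ← mul_assoc, z, zero_mul]
    · rw [neg_mul, e.1, mul_neg, ← mul_assoc, z, zero_mul, neg_zero]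
  · have k : Jn Y (f', J') (f, j) := ⟨b', a, e.1, d⟩
    have e1 : ad f' * (g.1 * f') = J := by
      rw [eg, b.fr.el_self, ← Matrix.mul_assoc, show ad f' * f' = 1 from b.fr, one_mul]
    refine ((Relation.ReflTransGen.single k.symm).tail (c := (g.1 * f', J')) ⟨b', b'.conj h.sp hg, ?_, ?_⟩).tail
      (k.conj h.sp hg)
    · simpa only [e1] using c
    · simp [e1, b.pu.2]

/-- Call units compatible if `j φ = φ j'` (the `i`-eigenvectors `a, a'` are perpendicular, and so are `b, b'`), joined if also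
`det φ ≠ 0`.  Let `𝒜` be a maximal connected set of pairwise compatible unit elements `g ∈ Y`; it is closed under conjugation by its
members.  If `u''` is joined to `u ∈ 𝒜` it is compatible with every `v ∈ 𝒜`: by induction along a path there is `w ∈ 𝒜`, compatible
with and not perpendicular to `u''`, equal or joined to `v` (`tri`); for the next vertex `v'` take `w' = v` if `v` is not perpendicular
to `u''`, else `w' = v ^ ε w v ^ (-ε)` with `ε ∈ {1, 2, 3}` such that it is joined to `v'` (two linear conditions).  So `u'' ∈ 𝒜`.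
A unit `u''` with `u''^{± 1} ∉ 𝒜` conjugates each `v ∈ 𝒜` to an element joined to `v` (`φ* (J' - 1) φ` is a multiple of
`det φ = 0`), so normalises `𝒜`.  The span of the `a(v)`, `v ∈ 𝒜`, is totally isotropic and invariant. -/
theorem Hy.not_al (h : Hy Y) (hi : Irr (Subgroup.closure {g | g ∈ Y ∧ Un g})) (ex : ∃ f j, Ut Y f j)
    (H : ∀ f j f' J, Ut Y f j → Ut Y f' J → Al (ad f * f') j J) : False := by
  obtain ⟨f, j, a⟩ := ex
  obtain ⟨i, hi2⟩ := IsAlgClosed.exists_eq_mul_self (-1 : K)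
  have i0 : (2 : K) * i ≠ 0 := mul_ne_zero h.two fun e => by simp [e] at hi2
  have t := a.pu.1
  have hX := eq_top_of_ut h hi (X := Submodule.span K {x | ∃ v y, Relation.ReflTransGen (Jn Y) (f, j) v ∧
    x = (v.1 * (v.2 + i • (1 : M2 K))) *ᵥ y}) (fun e => i0 ?_) fun f' J b x hx => ?_
  · have z : (-j + i • (1 : M2 K)) * ad f = 0 := by
      refine Matrix.ext_of_mulVec_single fun k => ?_
      rw [Matrix.zero_mulVec]
      refine (Submodule.span_le (p := LinearMap.ker ((-j + i • (1 : M2 K)) * ad f).mulVecLin)).2 ?_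
        (hX.ge Submodule.mem_top)
      rintro _ ⟨v, y, hv, rfl⟩
      obtain ⟨w, b, c, n⟩ := h.un4_path H a hv
      have c1 := un4_symm b.r.pu a.pu (h.tri H b.l b.r a b.cp b.det c n)
      have : (-j + i • (1 : M2 K)) * ad f * (v.1 * (v.2 + i • (1 : M2 K))) = 0 := by
        rw [Matrix.mul_assoc, ← Matrix.mul_assoc (ad f), mul_add, ← c1]
        simp only [add_mul, mul_add, neg_mul, ← mul_assoc, a.pu.sq, smul_mul_assoc, mul_smul_comm, one_mul, mul_one]
        linear_combination (norm := module) (-hi2) • (ad f * v.1)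
      simp only [SetLike.mem_coe, LinearMap.mem_ker, Matrix.mulVecLin_apply, Matrix.mulVec_mulVec, this,
        Matrix.zero_mulVec]
    have := congrArg (fun x => (x * f).trace) z
    refine i0 ?_
    simpa [Matrix.mul_assoc, show ad f * f = 1 from a.fr, t, mul_comm] using this
  · have z : f * (j + i • (1 : M2 K)) = 0 := Matrix.ext_of_mulVec_single fun k => by
      rw [Matrix.zero_mulVec]
      exact e.le (Submodule.subset_span ⟨(f, j), _, .refl, rfl⟩)
    have := congrArg (fun x => (ad f * x).trace) z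
    simpa [← Matrix.mul_assoc, show ad f * f = 1 from a.fr, t, mul_comm] using this
  · refine (Submodule.span_le (p := Submodule.comap (el f' J).mulVecLin _)).2 ?_ hx |> Submodule.mem_comap.1
    rintro _ ⟨v, y, hv, rfl⟩
    obtain ⟨g, hg, eg⟩ := b.el
    refine Submodule.subset_span ⟨(g.1 * v.1, v.2), y, (eg ▸ h.un4_move H a b).trans
      (Relation.ReflTransGen.lift (fun u : Fm K × M2 K => (g.1 * u.1, u.2)) (fun _ _ => Jn.conj h.sp hg) _ _ hv), ?_⟩
    simp only [Matrix.mulVecLin_apply, Matrix.mulVec_mulVec, eg, Matrix.mul_assoc]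

end Cfsg.Lib.S6Q
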