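import Cfsg.Agent.Lib.S6Q.Un3

/-!
# Units: no big plane
-/

set_option autoImplicit false

namespace Cfsg.Lib.S6Q

open scoped MatrixGroups Matrix commutatorElement
open Cfsg.Geo Cfsg.Lib.Asch Cfsg.Lib.Linear Cfsg.Lib.Q4 Cfsg.Lib.Symp Module
open Cfsg.Lib.Q4R (Sq HasTv sc dg)

variable {K : Type*} [Field K] [IsAlgClosed K] {Y : Subgroup (G6 K)} {f f' f'' f₁ f₂ ψ : Fm K} {j J J' j₁ j₂ γ γ' δ ρ : M2 K} {g : G6 K}
  {p q : K}

section alg

omit [IsAlgClosed K]

theorem ua_rg_mul {W : Submodule K (I6 → K)} (h : rg f ≤ W) (δ : M2 K) : rg (f * δ) ≤ W := by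
  rintro _ ⟨v, rfl⟩
  exact h ⟨δ *ᵥ v, by simp⟩

theorem ua_rg_smul {W : Submodule K (I6 → K)} (h : rg f ≤ W) (p : K) : rg (p • f) ≤ W := by
  rintro _ ⟨v, rfl⟩
  exact h ⟨p • v, by simp⟩

theorem ua_rg_add {W : Submodule K (I6 → K)} (h : rg f ≤ W) (h' : rg f' ≤ W) : rg (f + f') ≤ W := by
  rintro _ ⟨v, rfl⟩
  rw [Matrix.mulVecLin_apply, Matrix.add_mulVec]
  exact add_mem (h ⟨v, rfl⟩) (h' ⟨v, rfl⟩)

theorem ua_adj_smul (p : K) (δ : M2 K) : (p • δ).adjugate = p • δ.adjugate := by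
  simp [Matrix.adjugate_smul]

theorem ua_adj_adj (δ : M2 K) : δ.adjugate.adjugate = δ := by
  rw [Matrix.adjugate_adjugate _ (by simp)]; simp

theorem ua_half (h2 : (2 : K) ≠ 0) {z : M2 K} (e : z + z = 0) : z = 0 := by
  rw [← two_smul K] at e
  exact (smul_eq_zero.1 e).resolve_left h2

theorem ua_swap (o : ad f * f₁ = p • 1) : ad f₁ * f = p • 1 := by
  rw [ad_swap, o, ua_adj_smul, Matrix.adjugate_one]

theorem ua_swap0 (o : ad f * f₁ = 0) : ad f₁ * f = 0 := by
  rw [ad_swap, o, Matrix.adjugate_zero]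

theorem ua_nf' (a : Fr f) (b : Fr f') (c : 2 * (ad f * f').det = 1) (e : 2 * p ^ 2 = 1) :
    ∃ (δ : M2 K) (f₁ : Fm K), δ.det = 1 ∧ Fr f₁ ∧ ad f * f₁ = 0 ∧ f' * δ = p • (f + f₁) ∧
      ad f * f' * δ = p • 1 := by
  have d : ((2 * p) • (ad f * f').adjugate).det = 1 := by
    rw [Matrix.det_smul, Matrix.det_adjugate, Fintype.card_fin]
    linear_combination 2 * (ad f * f').det * e + c
  have m : ad f * (f' * (2 * p) • (ad f * f').adjugate) = p • 1 := by
    rw [← Matrix.mul_assoc, Matrix.mul_smul, Matrix.mul_adjugate, smul_smul]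
    congr 1
    linear_combination p * c
  have b' := b.mul d
  refine ⟨_, (2 * p) • (f' * (2 * p) • (ad f * f').adjugate) + (-1 : K) • f, d, ?_, ?_, ?_, by
    rw [Matrix.mul_assoc, m]⟩
  all_goals generalize f' * (2 * p) • (ad f * f').adjugate = F at *
  · simp only [Fr, ad_add, ad_smul, Matrix.add_mul, Matrix.mul_add, Matrix.smul_mul, Matrix.mul_smul, m,
      ua_swap m, show ad f * f = 1 from a, show ad F * F = 1 from b']
    module
  · simp only [Matrix.mul_add, Matrix.mul_smul, m, show ad f * f = 1 from a]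
    linear_combination (norm := module) e • (1 : M2 K)
  · linear_combination (norm := module) -e • F

theorem ua_an (a : Ut Y f j) (b : Ut Y f' J) (c : An (ad f * f') j J) (e : 2 * p ^ 2 = 1) :
    ∃ (δ : M2 K) (f₁ : Fm K) (J₁ : M2 K), Fr f₁ ∧ ad f * f₁ = 0 ∧ Ut Y (p • (f + f₁)) J₁ ∧ j * J₁ = -(J₁ * j) ∧
      f' = p • (f + f₁) * δ ∧ rg f₁ ≤ rg f ⊔ rg f' := by
  obtain ⟨δ, f₁, d, b₁, o, e1, e2⟩ := ua_nf' a.fr b.fr c.1 e
  have u := b.change d
  have p0 : p ≠ 0 := by rintro rfl; simp at e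
  refine ⟨δ.adjugate, f₁, _, b₁, o, e1 ▸ u, (a.pu.anti_iff u.pu).2 ?_, by
    rw [← e1, Matrix.mul_assoc, Matrix.mul_adjugate, d, one_smul, Matrix.mul_one], ?_⟩
  · have e3 : ad f * f' = p • δ.adjugate := by
      rw [← Matrix.mul_one (ad f * f'), ← one_smul K (1 : M2 K), ← d, ← Matrix.mul_adjugate, ← Matrix.mul_assoc, e2,
        Matrix.smul_mul, Matrix.one_mul]
    have := c.2
    rw [e3, ua_adj_smul, ua_adj_adj] at this
    simpa [p0, mul_assoc] using this
  · rw [show f₁ = (-1 : K) • f + (2 * p) • (f' * δ) by rw [e1]; linear_combination (norm := module) -e • (f + f₁)]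
    exact ua_rg_add (ua_rg_smul le_sup_left _) (ua_rg_smul (ua_rg_mul le_sup_right _) _)

theorem ua_an_p (a : Pu j) (b : Pu J) (k : j * J = -(J * j)) (e : 2 * p ^ 2 = 1) : An (p • 1) j J :=
  ⟨by simpa using e, by simp [ua_adj_smul, (a.anti_iff b).1 k]⟩

theorem ua_comm (a : Pu j) (c : j * ρ = ρ * j) : 4 * ρ.det = ρ.trace ^ 2 + (j * ρ).trace ^ 2 := by
  obtain ⟨a1, a2⟩ := a
  have c0 := congrFun (congrFun c 0) 0
  have c1 := congrFun (congrFun c 0) 1
  have c2 := congrFun (congrFun c 1) 0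
  simp only [Matrix.trace_fin_two, Matrix.det_fin_two, Matrix.mul_apply, Fin.sum_univ_two] at *
  grind

theorem ua_al_smul (p0 : p ≠ 0) (e : Al (p • ρ) j J) : Al ρ j J := by
  refine e.imp (fun e => smul_right_injective _ p0 ?_) fun e => smul_right_injective _ p0 ?_ <;>
    simpa using e

theorem ua_zero (h2 : (2 : K) ≠ 0) (a : Pu j) (b : Pu J) (k : j * J = -(J * j)) {x y : M2 K} (e1 : Al x j J')
    (e2 : Al y j J') (e3 : Al (x + y) J J') (e4 : Al (x + -j * y) J J') : x = 0 ∧ y = 0 := by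
  have hj := a.sq
  have hJ := b.sq
  have both : ∀ z, Al z j J' → Al z J J' → z = 0 := by
    have p1 : ∀ z, j * z = J * z → z = 0 := fun z e => ua_half h2 (by
      linear_combination (norm := noncomm_ring) hj * z + hJ * z - j * e + J * e - k * z)
    have p2 : ∀ z, j * z = -(J * z) → z = 0 := fun z e => ua_half h2 (by
      linear_combination (norm := noncomm_ring) hj * z + hJ * z - j * e - J * e + k * z)
    rintro z (e | e) (e' | e')
    exacts [p1 z (e.trans e'.symm), p2 z (by rw [e, e', neg_neg]), p2 z (by rw [e, e']), p1 z (e.trans e'.symm)]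
  have kill : j * y = y ∨ j * y = -y → y = 0 := by
    rintro (e | e) <;> refine ua_half h2 ?_
    · linear_combination (norm := noncomm_ring) hj * y - j * e - e
    · linear_combination (norm := noncomm_ring) hj * y - j * e + e
  have opp : ∀ y w w', j * x = w → j * y = -w' → J * (x + y) = w + w' ∨ J * (x + y) = -(w + w') →
      y = J * j * x ∨ y = -(J * j * x) := by
    rintro y _ w' rfl e' (e | e)
    · refine .inr (eq_neg_of_add_eq_zero_left (ua_half h2 ?_))
      linear_combination (norm := noncomm_ring) hJ * (x + y) - hj * (x - y) - J * e - j * e + k * (x + y) - J * e' - j * e'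
    · refine .inl (sub_eq_zero.1 (ua_half h2 ?_))
      linear_combination (norm := noncomm_ring) hJ * (x + y) - hj * (x - y) - J * e + j * e - k * (x + y) + J * e' - j * e'
  suffices y = 0 by
    subst this
    exact ⟨both x e1 (by simpa using e3), rfl⟩
  have same : Al (x + y) j J' → Al (x + -j * y) j J' → y = 0 := fun c c' => kill (.inr (by
    linear_combination (norm := noncomm_ring) both _ c e3 - both _ c' e4))
  have fin : (y = J * j * x ∨ y = -(J * j * x)) → (-j * y = J * j * x ∨ -j * y = -(J * j * x)) → y = 0 := by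
    rintro (c | c) (c' | c') <;> refine kill ?_
    · right; linear_combination (norm := noncomm_ring) c - c'
    · left; linear_combination (norm := noncomm_ring) -c - c'
    · left; linear_combination (norm := noncomm_ring) -c - c'
    · right; linear_combination (norm := noncomm_ring) c - c'
  rcases e1 with e1 | e1 <;> rcases e2 with e2 | e2
  · exact same (.inl (by linear_combination (norm := noncomm_ring) e1 + e2))
      (.inl (by linear_combination (norm := noncomm_ring) e1 - j * e2))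
  · exact fin (opp _ _ _ e1 e2 (by simpa only [Al, add_mul] using e3)) (opp _ _ (-j * y * J') e1
      (by linear_combination (norm := noncomm_ring) -j * e2) (by simpa only [Al, add_mul] using e4))
  · refine fin (opp _ _ (-(y * J')) e1 (by rw [e2, neg_neg]) ?_) (opp _ _ (-(-j * y * J')) e1
      (by linear_combination (norm := noncomm_ring) -j * e2) ?_)
    · simpa only [Al, add_mul, ← neg_add, neg_neg, or_comm] using e3
    · simpa only [Al, add_mul, ← neg_add, neg_neg, or_comm] using e4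
  · exact same (.inr (by linear_combination (norm := noncomm_ring) e1 + e2))
      (.inr (by linear_combination (norm := noncomm_ring) e1 - j * e2))

end alg

theorem ua_p (h2 : (2 : K) ≠ 0) : ∃ p : K, 2 * p ^ 2 = 1 := by
  obtain ⟨p, e⟩ := IsAlgClosed.exists_pow_nat_eq (2⁻¹ : K) two_pos
  exact ⟨p, by rw [e, mul_inv_cancel₀ h2]⟩

/-- Normal form at the angle `1 / 2`. -/
theorem ua_nf (a : Fr f) (b : Fr f') (c : 2 * (ad f * f').det = 1) (h2 : (2 : K) ≠ 0) :
    ∃ (δ : M2 K) (f₁ : Fm K) (p : K), δ.det = 1 ∧ Fr f₁ ∧ ad f * f₁ = 0 ∧ 2 * p ^ 2 = 1 ∧ f' * δ = p • (f + f₁) := by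
  obtain ⟨p, e⟩ := ua_p h2
  obtain ⟨δ, f₁, d, b₁, o, e1, -⟩ := ua_nf' a b c e
  exact ⟨δ, f₁, p, d, b₁, o, e, e1⟩

namespace Hy

variable (h : Hy Y)
include h

/-- No big plane.  Normalise `f' = p (f + f₁)`, `f'' = p (f + f₂)`, `ρ = ad f₁ * f₂`; `(f₁, j)`, `(f₂, j)` are units (`p1`).  If
`det ρ = 1`, `f₂ ρ⁻¹ = f₁ + ψ` and `one_tv` with `el f₁ j` and `y` gives `ψ = 0`.  Otherwise `third` contradicts `pair` for `f₁, f₂`
(`ρ ∈ K[j]` has `4 det ρ = (tr ρ)² + (tr j ρ)²`; `j ρ = - ρ j` has trace zero; `An` has `det ρ = 1 / 2`). -/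
theorem le_of_an (n : ∀ f, ¬ Bg Y f) (a : Ut Y f j) (b : Ut Y f' J) (c : Ut Y f'' J') (e : An (ad f * f') j J)
    (e' : An (ad f * f'') j J') : rg f'' ≤ rg f ⊔ rg f' := by
  obtain ⟨p, hp⟩ := ua_p h.two
  obtain ⟨δ, f₁, J₁, b₁, o₁, c₁, k₁, -, r₁⟩ := ua_an a b e hp
  obtain ⟨δ', f₂, J₂, b₂, o₂, c₂, k₂, rfl, -⟩ := ua_an a c e' hp
  obtain ⟨u₁, -, -, -, y, hy, -, y1, y2⟩ := h.p1 a b₁ o₁ hp c₁ k₁
  have u₂ := (h.p1 a b₂ o₂ hp c₂ k₂).1
  by_cases d : (ad f₁ * f₂).det = 1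
  · have d' : (ad f₁ * f₂).adjugate.det = 1 := by rw [Matrix.det_adjugate, d, one_pow]
    have m : ad f₁ * (f₂ * (ad f₁ * f₂).adjugate) = (1 : K) • 1 := by
      rw [← Matrix.mul_assoc, Matrix.mul_adjugate, d]
    have m2 : f₂ = f₂ * (ad f₁ * f₂).adjugate * (ad f₁ * f₂) := by
      rw [Matrix.mul_assoc, Matrix.adjugate_mul, d, one_smul, Matrix.mul_one]
    have m0 : ad f * (f₂ * (ad f₁ * f₂).adjugate) = 0 := by rw [← Matrix.mul_assoc, o₂, Matrix.zero_mul]
    have u := u₂.change d'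
    rw [m2]
    generalize f₂ * (ad f₁ * f₂).adjugate = F at m m0 u
    obtain ⟨g, hg, eg⟩ := u₁.el
    have z : ad f₁ * (F + (-1 : K) • f₁) = 0 := by
      rw [Matrix.mul_add, Matrix.mul_smul, m, show ad f₁ * f₁ = 1 from b₁]; module
    have := h.one_tv (ψ := F + (-1 : K) • f₁) b₁ z (by
      simp only [ad_add, ad_smul, Matrix.add_mul, Matrix.mul_add, Matrix.smul_mul, Matrix.mul_smul, m,
        ua_swap m, show ad f₁ * f₁ = 1 from b₁, show ad F * F = 1 from u.fr]
      module) u₁.inv (by simpa using u.inv) a.pu c₁.pu (by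
        rw [show j * J₁ - J₁ * j = (2 : K) • (j * J₁) by rw [two_smul, sub_eq_add_neg, ← k₁], Matrix.det_smul,
          (a.pu.mul c₁.pu k₁).2]
        simpa using h.two) hg hy (by rw [eg, b₁.el_self]) y1 (by rw [eg, el_apply, z]; simp)
      (y2 _ (by rw [Matrix.mul_add, Matrix.mul_smul, m0, o₁]; simp) z)
    obtain rfl : F = f₁ := by linear_combination (norm := module) this
    exact ua_rg_mul (ua_rg_smul (ua_rg_add le_sup_left (ua_rg_mul r₁ _)) _) _
  obtain ⟨t1, t2, t3⟩ := h.third a b₁ b₂ o₁ o₂ hp c₁ c₂ (n _) (n _) k₁ rfl d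
  have h2 := h.two
  exfalso
  rcases h.pair u₁ u₂ (n _) (n _) with (l | l) | l
  · have := ua_comm a.pu l
    grind
  · have := congrArg Matrix.trace l
    rw [Matrix.trace_neg, Matrix.trace_mul_comm _ j] at this
    grind
  · have := l.1
    grind

/-- Six planes: `x = ad f * f''`, `y = ad f₁ * f''`; `j x = ± x J'`, `j y = ± y J'`, `J (x + j ^ (-a) y) = ± (x + j ^ (-a) y) J'`
force `x = y = 0`.  Each of the six planes has an `An` partner among them with the same span. -/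
theorem le_or_perp (n : ∀ f, ¬ Bg Y f) (a : Ut Y f j) (b : Ut Y f' J) (c : Ut Y f'' J') (e : An (ad f * f') j J) :
    rg f'' ≤ rg f ⊔ rg f' ∨ (ad f * f'' = 0 ∧ ad f' * f'' = 0) := by
  obtain ⟨p, hp⟩ := ua_p h.two
  have p0 : p ≠ 0 := by rintro rfl; simp at hp
  obtain ⟨δ, f₁, J₁, b₁, o₁, c₁, k₁, e', r₁⟩ := ua_an a b e hp
  have u₁ := (h.p1 a b₁ o₁ hp c₁ k₁).1
  have k₂ : J₁ * j = -(j * J₁) := by rw [k₁, neg_neg]
  have fa : ad f * f = 1 := a.fr
  have fb : ad f₁ * f₁ = 1 := b₁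
  have c₂ : Ut Y (p • (f + f₁ * j)) J₁ := by
    obtain ⟨g, hg, eg⟩ := u₁.el
    have := c₁.conj h.sp hg
    rwa [eg, Matrix.mul_smul, Matrix.mul_add, b₁.el_self, el_apply, ua_swap0 o₁, Matrix.mul_zero, Matrix.mul_zero,
      add_zero] at this
  have r₂ : rg (p • (f + f₁)) ≤ rg f ⊔ rg f' := ua_rg_smul (ua_rg_add le_sup_left r₁) _
  rcases h.pair a c (n _) (n _) with l₁ | l
  swap
  · exact .inl (h.le_of_an n a b c e l)
  rcases h.pair u₁ c (n _) (n _) with l₂ | l
  swap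
  · refine .inl ((h.le_of_an n u₁ c₁ c ?_ l).trans (sup_le r₁ r₂))
    simpa only [Matrix.mul_smul, Matrix.mul_add, fb, ua_swap0 o₁, zero_add] using ua_an_p a.pu c₁.pu k₁ hp
  rcases h.pair c₁ c (n _) (n _) with l₃ | l
  swap
  · refine .inl ((h.le_of_an n c₁ a c ?_ l).trans (sup_le r₂ le_sup_left))
    simpa only [ad_smul, ad_add, Matrix.smul_mul, Matrix.add_mul, fa, ua_swap0 o₁, add_zero] using
      ua_an_p c₁.pu a.pu k₂ hp
  rcases h.pair c₂ c (n _) (n _) with l₄ | l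
  swap
  · refine .inl ((h.le_of_an n c₂ a c ?_ l).trans
      (sup_le (ua_rg_smul (ua_rg_add le_sup_left (ua_rg_mul r₁ _)) _) le_sup_left))
    simpa only [ad_smul, ad_add, ad_mul, Matrix.smul_mul, Matrix.add_mul, Matrix.mul_assoc, fa, ua_swap0 o₁,
      Matrix.mul_zero, add_zero] using ua_an_p c₁.pu a.pu k₂ hp
  simp only [ad_smul, ad_add, ad_mul, Matrix.smul_mul, Matrix.add_mul, Matrix.mul_assoc, a.pu.adj] at l₃ l₄
  obtain ⟨x0, y0⟩ := ua_zero h.two a.pu c₁.pu k₁ l₁ l₂ (ua_al_smul p0 l₃) (ua_al_smul p0 l₄)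
  refine .inr ⟨x0, ?_⟩
  rw [e', ad_mul, ad_smul, ad_add, Matrix.mul_assoc, Matrix.smul_mul, Matrix.add_mul, x0, y0]
  simp

end Hy

end Cfsg.Lib.S6Q
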