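import Cfsg.Agent.Lib.S6Q.Unia
import Cfsg.Agent.Lib.S6Q.Un4
import Cfsg.Agent.Lib.S6Q.Un3c

/-!
# Units do not generate an irreducible group
-/

set_option autoImplicit false

namespace Cfsg.Lib.S6Q

open scoped MatrixGroups Matrix commutatorElement
open Cfsg.Geo Cfsg.Lib.Asch Cfsg.Lib.Linear Cfsg.Lib.Q4 Cfsg.Lib.Symp Module
open Cfsg.Lib.Q4R (Sq HasTv sc dg)

variable {K : Type*} [Field K] [IsAlgClosed K] {Y : Subgroup (G6 K)} {f f' f'' f₁ f₂ ψ : Fm K} {j J J' j₁ j₂ γ γ' δ ρ : M2 K} {g : G6 K}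
  {p q : K}

omit [IsAlgClosed K] in
theorem unt_perp {X : Fm K} (o : ad X * f = 0) {v : I6 → K} (hv : v ∈ rg X) : ad f *ᵥ v = 0 := by
  obtain ⟨x, rfl⟩ := hv
  rw [Matrix.mulVecLin_apply, Matrix.mulVec_mulVec, ad_swap, o]
  simp

omit [IsAlgClosed K] in
theorem unt_rg (d : δ.det = 1) : rg (f * δ) = rg f := by
  refine le_antisymm (by rintro _ ⟨x, rfl⟩; exact ⟨δ *ᵥ x, Matrix.mulVec_mulVec x f δ⟩) ?_
  rintro _ ⟨x, rfl⟩
  exact ⟨δ.adjugate *ᵥ x, by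
    rw [Matrix.mulVecLin_apply, Matrix.mulVec_mulVec, Matrix.mul_assoc, Matrix.mul_adjugate, d, one_smul, Matrix.mul_one]; rfl⟩

omit [IsAlgClosed K] in
theorem unt_le {W : Submodule K (I6 → K)} (a : rg f ≤ W) (b : rg f₁ ≤ W) : rg (p • (f + q • f₁)) ≤ W := by
  rintro _ ⟨x, rfl⟩
  rw [Matrix.mulVecLin_apply, Matrix.smul_mulVec, Matrix.add_mulVec, Matrix.smul_mulVec]
  exact W.smul_mem _ (add_mem (a ⟨x, rfl⟩) (W.smul_mem _ (b ⟨x, rfl⟩)))

omit [IsAlgClosed K] in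
theorem unt_ad (a : Fr f) (o₁ : ad f * f₁ = 0) (o₂ : ad f * f₂ = 0) :
    ad (p • (f + q • f₁)) * (p • (f + f₂)) = p ^ 2 • (1 + q • (ad f₁ * f₂)) := by
  have o : ad f₁ * f = 0 := by rw [ad_swap, o₁]; simp
  rw [ad_smul, ad_add, ad_smul, Matrix.smul_mul, Matrix.mul_smul, Matrix.add_mul, Matrix.mul_add, Matrix.mul_add,
    Matrix.smul_mul, Matrix.smul_mul, o, o₂, show ad f * f = 1 from a]
  module

namespace Hy

variable (h : Hy Y) (hi : Irr (Subgroup.closure {g | g ∈ Y ∧ Un g}))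
include h hi

theorem unt_ex (a : Fr f) (f₁ : Fm K) (r : finrank K (rg f₁) ≤ 2) :
    ∃ f' J, Ut Y f' J ∧ ¬ rg f' ≤ rg f ⊔ rg f₁ ∧ ¬ (ad f * f' = 0 ∧ ad f₁ * f' = 0) := by
  by_contra H
  have := eq_top_of_ut h hi (X := rg f ⊔ rg f₁) (fun e => by
      have := a.finrank
      rw [(sup_eq_bot_iff.1 e).1, finrank_bot] at this
      omega) fun f' J u v hv => by
    rw [el, Matrix.add_mulVec, Matrix.one_mulVec, ← Matrix.mulVec_mulVec, ← Matrix.mulVec_mulVec]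
    refine add_mem hv ?_
    by_cases l : rg f' ≤ rg f ⊔ rg f₁
    · exact l ⟨_, rfl⟩
    obtain ⟨o, o'⟩ : ad f * f' = 0 ∧ ad f₁ * f' = 0 := by_contra fun n => H ⟨f', J, u, l, n⟩
    obtain ⟨x, hx, y, hy, rfl⟩ := Submodule.mem_sup.1 hv
    rw [Matrix.mulVec_add, unt_perp o hx, unt_perp o' hy]
    simp
  have d := Submodule.finrank_add_le_finrank_add_finrank (rg f) (rg f₁)
  rw [this, finrank_top, T2.fr6, a.finrank] at d
  omega

omit hi in
theorem unt_core (a : Bg Y f) (b₁ : Fr f₁) (o₁ : ad f * f₁ = 0) (e : 2 * p ^ 2 = 1) (c₁ : Ut Y (p • (f + f₁)) J)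
    (c : Ut Y f'' J') (n : ¬ rg f'' ≤ rg f ⊔ rg f₁) (d : 2 * (ad f * f'').det = 1) : False := by
  have p0 : p ≠ 0 := fun e0 => by simp [e0] at e
  obtain ⟨j, a₁, k, k'⟩ : ∃ j, Ut Y f j ∧ J ≠ j ∧ J ≠ -j := by
    obtain ⟨j₁, j₂, a₁, a₂, k, k'⟩ := a
    by_cases e1 : J = j₁
    · exact ⟨j₂, a₂, e1 ▸ k.symm, fun e2 => k' (by rw [← e1, e2, neg_neg])⟩
    by_cases e2 : J = -j₁
    · exact ⟨j₂, a₂, e2 ▸ k'.symm, fun e3 => k (neg_injective (e3.symm.trans e2))⟩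
    exact ⟨j₁, a₁, e1, e2⟩
  have e' : p ^ 2 + p ^ 2 = 1 := by linear_combination e
  obtain ⟨δ, f₂, d₂, b₂, o₂, e₂⟩ : ∃ (δ : M2 K) (f₂ : Fm K), δ.det = 1 ∧ Fr f₂ ∧ ad f * f₂ = 0 ∧ f'' * δ = p • (f + f₂) := by
    obtain ⟨δ, f₂, p', d₂, b₂, o₂, e₁, e₂⟩ := ua_nf a₁.fr c.fr d h.two
    rcases sq_eq_sq_iff_eq_or_eq_neg.1 (mul_left_cancel₀ h.two (e₁.trans e.symm)) with rfl | rfl
    · exact ⟨δ, f₂, d₂, b₂, o₂, e₂⟩
    · exact ⟨-δ, f₂, by rw [Matrix.det_neg, d₂]; simp, b₂, o₂, by rw [Matrix.mul_neg, e₂, neg_smul, neg_neg]⟩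
  have c₂ := c.change d₂
  rw [← unt_rg d₂] at n
  rw [e₂] at c₂ n
  obtain ⟨u₁, g₁⟩ := h.el_perp a₁ b₁ o₁ p0 p0 e' (smul_add p f f₁ ▸ c₁.inv)
  obtain ⟨u₂, -⟩ := h.el_perp a₁ b₂ o₂ p0 p0 e' (smul_add p f f₂ ▸ c₂.inv)
  have hρ : (ad f₁ * f₂).det = 0 ∨ 2 * (ad f₁ * f₂).det = 1 := by
    rcases h.bg_pair (g₁.2 a) u₂ with r | r | r
    · exact .inl (by rw [r]; simp)
    · exact (n (by simpa using unt_le (p := p) (q := 1) le_sup_left (r.le.trans le_sup_right))).elim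
    · exact .inr r
  have d1 : (ad f₁ * f₂).det ≠ 1 := fun e1 => by
    rcases hρ with r | r
    · exact one_ne_zero (e1.symm.trans r)
    · exact one_ne_zero (α := K) (by linear_combination r - 2 * e1)
  by_cases B : Bg Y (p • (f + f₁)) ∨ Bg Y (p • (f + f₂))
  · obtain ⟨t, ht, et⟩ := u₁.inv
    have o : ad f₁ * f = 0 := by rw [ad_swap, o₁]; simp
    have tf : t.1 * (p • (f + f₁)) = p • (f + (-1 : K) • f₁) := by
      rw [et, Matrix.mul_smul, Matrix.mul_add, el_apply, o, b₁.el_self]; simp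
    have key : ∀ q : K, q * q = 1 → Ut Y (p • (f + q • f₁)) J → (Bg Y (p • (f + f₁)) → Bg Y (p • (f + q • f₁))) →
        1 + q * (ad f₁ * f₂).trace + (ad f₁ * f₂).det = 2 := fun q q2 u g => by
      have A := unt_ad (p := p) (q := q) a₁.fr o₁ o₂
      have D : (ad (p • (f + q • f₁)) * (p • (f + f₂))).det =
          p ^ 4 * (1 + q * (ad f₁ * f₂).trace + (ad f₁ * f₂).det) := by
        rw [A, Matrix.det_fin_two, Matrix.det_fin_two, Matrix.trace_fin_two]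
        simp
        linear_combination p ^ 4 * ((ad f₁ * f₂) 0 0 * (ad f₁ * f₂) 1 1 - (ad f₁ * f₂) 0 1 * (ad f₁ * f₂) 1 0) * q2
      have n0 : ad (p • (f + q • f₁)) * (p • (f + f₂)) ≠ 0 := fun e0 => d1 (by
        rw [A, smul_eq_zero, or_iff_right (pow_ne_zero 2 p0), add_eq_zero_iff_neg_eq] at e0
        have := congrArg Matrix.det e0
        rw [Matrix.det_smul, Matrix.det_neg] at this
        simp at this
        linear_combination -this - (ad f₁ * f₂).det * q2)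
      have n1 : rg (p • (f + f₂)) ≠ rg (p • (f + q • f₁)) := fun e0 => n (e0 ▸ unt_le le_sup_left le_sup_right)
      have : 2 * (ad (p • (f + q • f₁)) * (p • (f + f₂))).det = 1 := by
        rcases B with B | B
        · exact ((h.bg_pair (g B) c₂).resolve_left n0).resolve_left n1
        · have := ((h.bg_pair B u).resolve_left fun e0 => n0 (by rw [ad_swap, e0]; simp)).resolve_left n1.symm
          rwa [ad_swap, Matrix.det_adjugate, Fintype.card_fin, show 2 - 1 = 1 from rfl, pow_one] at this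
      rw [D] at this
      linear_combination 2 * this - (2 * p ^ 2 + 1) * (1 + q * (ad f₁ * f₂).trace + (ad f₁ * f₂).det) * e
    have k1 := key 1 (one_mul 1) (by rwa [one_smul]) (by rw [one_smul]; exact id)
    have k2 := key (-1) (by simp) (tf ▸ c₁.conj h.sp ht) fun B => tf ▸ (Bg.conj h.sp ht).2 B
    exact d1 (mul_left_cancel₀ h.two (by linear_combination k1 + k2))
  rw [not_or] at B
  have := (h.third a₁ b₁ b₂ o₁ o₂ e c₁ c₂ B.1 B.2 (h.bg_small a₁ b₁ o₁ p0 p0 e' (smul_add p f f₁ ▸ c₁)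
    (smul_add p f f₁ ▸ B.1) k k').2 rfl d1).2.2
  rcases hρ with r | r
  · rw [r] at this; simp at this
  · exact one_ne_zero (α := K) (by linear_combination -4 * this + (2 * (ad f₁ * f₂).det - 5) * r)

/-- Some unit plane `f' = p (f + f₁)` has `c = 1 / 2` with `f` (`bg_pair`, `eq_top_of_ut`), `f₁ = - t' f` is big, and some unit plane `f''`
is neither in nor perpendicular to `W = rg f ⊔ rg f₁`; by symmetry `f'' = p (f + f₂)`, `f₂` big, `ρ = 0` or `det ρ = 1 / 2`.  If `f'` or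
`f''` is big, `bg_pair` for `p (f ± f₁)` and `f''` gives `1 ± tr ρ + det ρ = 2`.  Otherwise `bg_small`, `third`. -/
theorem not_bg (a : Bg Y f) : False := by
  obtain ⟨j, -, a₁, -⟩ := id a
  obtain ⟨f', J, c, n, n'⟩ := h.unt_ex hi a₁.fr f a₁.fr.finrank.le
  have d := ((h.bg_pair a c).resolve_left fun e => n' ⟨e, e⟩).resolve_left fun e => n (e.le.trans le_sup_left)
  obtain ⟨δ, f₁, p, d₁, b₁, o₁, e, e₁⟩ := ua_nf a₁.fr c.fr d h.two
  have c₁ := c.change d₁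
  rw [e₁] at c₁
  have p0 : p ≠ 0 := fun e0 => by simp [e0] at e
  have a' := (h.el_perp a₁ b₁ o₁ p0 p0 (by linear_combination e) (smul_add p f f₁ ▸ c₁.inv)).2.2 a
  obtain ⟨f'', J', c', m, m'⟩ := h.unt_ex hi a₁.fr f₁ b₁.finrank.le
  rcases h.bg_pair a c' with r | r | r
  · rcases h.bg_pair a' c' with r' | r' | r'
    · exact m' ⟨r, r'⟩
    · exact m (r'.le.trans le_sup_right)
    · exact h.unt_core a' a₁.fr (by rw [ad_swap, o₁]; simp) e (add_comm f f₁ ▸ c₁) c' (sup_comm (rg f) _ ▸ m) r'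
  · exact m (r.le.trans le_sup_left)
  · exact h.unt_core a b₁ o₁ e c₁ c' m r

theorem false : False := by
  have n : ∀ f, ¬ Bg Y f := fun f => h.not_bg hi
  refine h.not_al hi (by_contra fun H => one_ne_zero (congrFun (T2.irr_fix hi (v := 1) fun g hg => ?_) (.inl 0)))
    fun f j f' J a b => (h.pair a b (n _) (n _)).resolve_right fun e => ?_
  · obtain ⟨f, j, a, -⟩ := exists_ut h hg.1 hg.2
    exact (H ⟨f, j, a⟩).elim
  · obtain ⟨f'', J', c, m, m'⟩ := h.unt_ex hi a.fr f' b.fr.finrank.le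
    exact (h.le_or_perp n a b c e).elim m m'

end Hy

theorem no_unit (h2 : (2 : K) ≠ 0) [Finite Y] (hs : Y ≤ Sp K) (ht : ¬ HasTv Y) :
    ¬ Irr (Subgroup.closure {g | g ∈ Y ∧ Un g}) := fun hi => Hy.false ⟨h2, ‹_›, hs, ht⟩ hi

end Cfsg.Lib.S6Q
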